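import Cfsg.Agent.SympSub.Iso

/-!
The natural embedding of `Sp_{2j}` in `Sp_{2d}` for `j ≤ d`.
-/

namespace Cfsg.Agent.Elusive

open Cfsg.Agent.Forms Matrix

variable {F : Type*} [Field F] {j d : ℕ}

/-- Restriction to the first `j` coordinate pairs. -/
def sympProj (F : Type*) [Field F] (h : j ≤ d) : (Fin d ⊕ Fin d → F) →ₗ[F] (Fin j ⊕ Fin j → F) :=
  LinearMap.funLeft F F (Sum.map (Fin.castLE h) (Fin.castLE h))

/-- Extension by zero. -/
noncomputable def sympExt (F : Type*) [Field F] (h : j ≤ d) : (Fin j ⊕ Fin j → F) →ₗ[F] (Fin d ⊕ Fin d → F) :=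
  Function.ExtendByZero.linearMap F (Sum.map (Fin.castLE h) (Fin.castLE h))

theorem sumMap_injective (h : j ≤ d) : Function.Injective (Sum.map (Fin.castLE h) (Fin.castLE h)) :=
  Sum.map_injective.2 ⟨Fin.castLE_injective h, Fin.castLE_injective h⟩

theorem sympProj_sympExt (h : j ≤ d) (a : Fin j ⊕ Fin j → F) : sympProj F h (sympExt F h a) = a :=
  funext fun x => (sumMap_injective h).extend_apply a 0 x

theorem sympBil_sympExt (h : j ≤ d) (a : Fin j ⊕ Fin j → F) (v : Fin d ⊕ Fin d → F) :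
    sympBil d F (sympExt F h a) v = sympBil j F a (sympProj F h v) := by
  rw [sympBil_apply, sympBil_apply, sympForm_apply, sympForm_apply]
  refine (Finset.sum_of_injOn (Fin.castLE h) ((Fin.castLE_injective h).injOn) (fun _ _ => Finset.mem_univ _)
    (fun i _ hi => ?_) (fun i _ => ?_)).symm
  · have h0 : ∀ x : Fin d ⊕ Fin d, (x = Sum.inl i ∨ x = Sum.inr i) → sympExt F h a x = 0 := by
      intro x hx
      refine Function.extend_apply' a (0 : Fin d ⊕ Fin d → F) x ?_
      rintro ⟨(k | k), rfl⟩ <;> rcases hx with hx | hx <;>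
        simp only [Sum.map_inl, Sum.map_inr, reduceCtorEq, Sum.inl.injEq, Sum.inr.injEq] at hx <;>
        exact hi ⟨k, Finset.mem_univ _, hx⟩
    rw [h0 _ (Or.inl rfl), h0 _ (Or.inr rfl)]
    ring
  · have e1 := congrFun (sympProj_sympExt h a) (Sum.inl i)
    have e2 := congrFun (sympProj_sympExt h a) (Sum.inr i)
    simp only [sympProj, LinearMap.funLeft_apply, Sum.map_inl, Sum.map_inr] at e1 e2 ⊢
    rw [e1, e2]

/-- A map of the small space, extended by the identity. -/
noncomputable def blockEnd (h : j ≤ d) (f : Module.End F (Fin j ⊕ Fin j → F)) : Module.End F (Fin d ⊕ Fin d → F) :=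
  LinearMap.id + sympExt F h ∘ₗ (f - 1) ∘ₗ sympProj F h

theorem sympProj_blockEnd (h : j ≤ d) (f : Module.End F (Fin j ⊕ Fin j → F)) (v : Fin d ⊕ Fin d → F) :
    sympProj F h (blockEnd h f v) = f (sympProj F h v) := by
  simp [blockEnd, sympProj_sympExt]

theorem blockEnd_mul (h : j ≤ d) (f g : Module.End F (Fin j ⊕ Fin j → F)) :
    blockEnd h (f * g) = blockEnd h f * blockEnd h g := by
  refine LinearMap.ext fun v => ?_
  rw [Module.End.mul_apply]
  show v + sympExt F h ((f * g - 1) (sympProj F h v)) =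
    blockEnd h g v + sympExt F h ((f - 1) (sympProj F h (blockEnd h g v)))
  rw [sympProj_blockEnd]
  show _ = v + sympExt F h ((g - 1) (sympProj F h v)) + sympExt F h ((f - 1) (g (sympProj F h v)))
  rw [add_assoc, ← map_add]
  congr 2
  simp only [LinearMap.sub_apply, Module.End.one_apply, Module.End.mul_apply]
  abel

theorem blockEnd_one (h : j ≤ d) : blockEnd (F := F) h 1 = 1 := by
  refine LinearMap.ext fun v => ?_
  simp [blockEnd]

theorem sympBil_blockEnd (h : j ≤ d) {f : Module.End F (Fin j ⊕ Fin j → F)}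
    (hf : ∀ a b, sympBil j F (f a) (f b) = sympBil j F a b) (u v : Fin d ⊕ Fin d → F) :
    sympBil d F (blockEnd h f u) (blockEnd h f v) = sympBil d F u v := by
  have hswap : ∀ (m : ℕ) (a b : Fin m ⊕ Fin m → F), sympBil m F a b = -sympBil m F b a := fun m a b => by
    rw [sympBil_apply, sympBil_apply, sympForm_swap]
  show sympBil d F (u + sympExt F h _) (v + sympExt F h _) = _
  simp only [map_add, LinearMap.add_apply, LinearMap.comp_apply, sympBil_sympExt,
    sympProj_sympExt, hswap d u (sympExt F h _)]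
  rw [← hswap]
  simp only [map_sub, LinearMap.sub_apply, Module.End.one_apply, hf]
  ring

/-- The embedding `Sp_{2j} → Sp_{2d}`. -/
noncomputable def sympEmbed (h : j ≤ d) :
    Matrix.symplecticGroup (Fin j) F →* Matrix.symplecticGroup (Fin d) F where
  toFun y := ⟨LinearMap.toMatrix' (blockEnd h (toLin' (y : Matrix (Fin j ⊕ Fin j) (Fin j ⊕ Fin j) F))), by
    rw [mem_symplecticGroup_iff_sympForm]
    intro u v
    rw [LinearMap.toMatrix'_mulVec, LinearMap.toMatrix'_mulVec, ← sympBil_apply, ← sympBil_apply]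
    refine sympBil_blockEnd h (fun a b => ?_) u v
    rw [sympBil_apply, sympBil_apply, toLin'_apply, toLin'_apply]
    exact mem_symplecticGroup_iff_sympForm.1 y.2 a b⟩
  map_one' := Subtype.ext (by
    show LinearMap.toMatrix' (blockEnd h (toLin' (1 : Matrix (Fin j ⊕ Fin j) (Fin j ⊕ Fin j) F))) = 1
    rw [toLin'_one, ← Module.End.one_eq_id, blockEnd_one, Module.End.one_eq_id, LinearMap.toMatrix'_id])
  map_mul' a b := Subtype.ext (by
    show LinearMap.toMatrix' (blockEnd h (toLin' ((a : Matrix (Fin j ⊕ Fin j) (Fin j ⊕ Fin j) F) * (b : Matrix (Fin j ⊕ Fin j) (Fin j ⊕ Fin j) F)))) =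
      LinearMap.toMatrix' _ * LinearMap.toMatrix' _
    rw [toLin'_mul, ← Module.End.mul_eq_comp, blockEnd_mul, LinearMap.toMatrix'_mul])

theorem toLin'_sympEmbed (h : j ≤ d) (y : Matrix.symplecticGroup (Fin j) F) :
    toLin' (sympEmbed h y : Matrix (Fin d ⊕ Fin d) (Fin d ⊕ Fin d) F) =
      blockEnd h (toLin' (y : Matrix (Fin j ⊕ Fin j) (Fin j ⊕ Fin j) F)) :=
  toLin'_toMatrix' _

end Cfsg.Agent.Elusive
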