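import Cfsg.Agent.Elusive.SympOrder

/-!
A minimal moving block of an isometry has no commuting skew map with nonsquare square, unless the order of
`q` modulo `r` is `2` modulo `4`.
-/

namespace Cfsg.Agent.Elusive

open Polynomial Submodule

variable {F : Type*} [Field F] [Fintype F] {V : Type*} [AddCommGroup V] [Module F V] [FiniteDimensional F V]
  {r : ℕ} [Fact r.Prime]

omit [Fintype F] [FiniteDimensional F V] [Fact r.Prime] in
theorem aeval_apply_comm {f g : Module.End F V} (h : g * f = f * g) (P : F[X]) :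
    g * aeval f P = aeval f P * g := by
  induction P using Polynomial.induction_on' with
  | add P Q hP hQ => rw [map_add, mul_add, add_mul, hP, hQ]
  | monomial k c =>
    rw [aeval_monomial, Algebra.algebraMap_eq_smul_one, smul_mul_assoc, one_mul, mul_smul_comm, smul_mul_assoc]
    congr 1
    exact (Commute.pow_right h k).eq

omit [Fintype F] [FiniteDimensional F V] [Fact r.Prime] in
/-- A polynomial that kills a nonzero vector is divisible by an irreducible one that does. -/
theorem dvd_of_aeval_apply_eq_zero {f : Module.End F V} {P Q : F[X]} (hP : Irreducible P) {v : V} (hv0 : v ≠ 0)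
    (hPv : aeval f P v = 0) (hQv : aeval f Q v = 0) : P ∣ Q := by
  by_contra h
  obtain ⟨x, y, hxy⟩ := (hP.coprime_iff_not_dvd).2 h
  have := congrArg (fun R => aeval f R v) hxy
  simp only [map_add, map_mul, map_one, LinearMap.add_apply, Module.End.mul_apply, hPv, hQv, map_zero, add_zero,
    Module.End.one_apply] at this
  exact hv0 this.symm

omit [FiniteDimensional F V] in
theorem aeval_pow_sub_one {f : Module.End F V} (hf : f ^ r = 1) {i' : ℕ} (hi' : 0 < i')
    (hord : orderOf ((Fintype.card F : ℕ) : ZMod r) = i' + i') (P : F[X]) :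
    aeval (f ^ (r - 1)) P = aeval f P ^ Fintype.card F ^ i' := by
  set q := Fintype.card F
  have hexp : ∀ s : ℕ, expand F (q ^ s) P = P ^ q ^ s := by
    intro s
    induction s with
    | zero => simp
    | succ s ih => rw [pow_succ' q, ← expand_expand, ih, map_pow, FiniteField.expand_card, ← pow_mul]
  rw [← map_pow, ← hexp, expand_aeval, pow_eq_pow_mod (q ^ i') hf]
  congr 2
  have h1 : ((q : ZMod r) ^ i') * ((q : ZMod r) ^ i') = 1 := by
    rw [← pow_add, ← hord, pow_orderOf_eq_one]
  have h2 : ((q : ZMod r) ^ i') ≠ 1 := fun h => by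
    have := Nat.le_of_dvd hi' (orderOf_dvd_of_pow_eq_one h)
    omega
  have h4 : ((q ^ i' : ℕ) : ZMod r) = ((r - 1 : ℕ) : ZMod r) := by
    rw [Nat.cast_pow, (mul_self_eq_one_iff.1 h1).resolve_left h2, Nat.cast_sub (Fact.out : r.Prime).one_le,
      ZMod.natCast_self, Nat.cast_one, zero_sub]
  rw [ZMod.natCast_eq_natCast_iff'] at h4
  rw [h4, Nat.mod_eq_of_lt (by have := (Fact.out : r.Prime).pos; omega)]

/-- No skew map with nonsquare square commutes with a minimal block unless `i % 4 = 2`. -/
theorem no_commuting_skew {B : LinearMap.BilinForm F V} {f S : Module.End F V}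
    (hB : ∀ u v, B (f u) (f v) = B u v) (hf : f ^ r = 1) (hr : ¬ r ∣ Fintype.card F) (hr2 : r ≠ 2)
    (hq : Fintype.card F % 2 = 1) {M : Submodule F V} (hM : ∀ v ∈ M, f v ∈ M) (hN : NonDegOn B M)
    (hC : Disjoint (LinearMap.ker (f - 1)) M) {i c : ℕ} (hi : i = orderOf ((Fintype.card F : ℕ) : ZMod r))
    (hc : c = if Even i then i else 2 * i) (hMd : Module.finrank F M = c) (hi4 : i % 4 ≠ 2)
    {δ : F} (hns : ∀ s : F, s * s ≠ δ) (hS2 : ∀ v, S (S v) = δ • v) (hSM : ∀ v ∈ M, S v ∈ M)
    (hSf : S * f = f * S) (hskew : ∀ u v, B (S u) v = -B u (S v)) : False := by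
  classical
  have hi0 : 0 < i := hi ▸ orderOf_pos_of_not_dvd hr
  have hr1 := (Fact.out : r.Prime).one_le
  have h2 : (2 : F) ≠ 0 := Ring.two_ne_zero fun h => by
    rw [FiniteField.even_card_iff_char_two] at h; omega
  have hne : M ≠ ⊥ := fun h => by
    rw [h, finrank_bot, hc] at hMd; split_ifs at hMd <;> omega
  obtain ⟨U, hUM, hU, hUd⟩ := exists_small_of_pow_eq_one hf hr hM hC hne
  rw [← hi] at hUd
  have hirr : ∀ X ≤ U, (∀ v ∈ X, f v ∈ X) → X ≠ ⊥ → X = U := by
    intro X hXU hX hXne
    obtain ⟨k, hk, -⟩ := finrank_invariant hf hr hX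
    rw [← hi, (hC.mono_right (hXU.trans hUM)).symm.eq_bot, finrank_bot, zero_add] at hk
    rcases Nat.eq_zero_or_pos k with rfl | hk0
    · rw [zero_mul, finrank_eq_zero] at hk; exact absurd hk hXne
    · exact eq_of_le_of_finrank_le hXU (by rw [hk, hUd]; exact Nat.le_mul_of_pos_left _ hk0)
  have : Fintype (⊤ : Subfield F) := Fintype.ofFinite _
  have hcard : Fintype.card (⊤ : Subfield F) = Fintype.card F :=
    Fintype.card_congr (Subfield.topEquiv (K := F)).toEquiv
  obtain ⟨v₀, P, hv₀, hv₀0, hP, hPm, -, hPv⟩ := exists_annihilator (⊤ : Subfield F) hr (by rwa [hcard])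
    (by rw [hcard]) hf hU (fun h => by rw [h, finrank_bot] at hUd; omega)
  set w := fun j : Fin P.natDegree => (f ^ (j : ℕ)) v₀
  have hwinv : ∀ x ∈ span F (Set.range w), f x ∈ span F (Set.range w) := by
    intro x hx
    induction hx using Submodule.span_induction with
    | mem x hx =>
      obtain ⟨j, rfl⟩ := hx
      exact Submodule.span_le_restrictScalars (⊤ : Subfield F) F (Set.range w)
        (apply_cyclic_mem_span (⊤ : Subfield F) hPm (fun _ => trivial) hPv j)
    | zero => simp
    | add x y _ _ hx hy => rw [map_add]; exact add_mem hx hy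
    | smul a x _ hx => rw [map_smul]; exact smul_mem _ a hx
  have hpowU : ∀ m, (f ^ m) v₀ ∈ U := fun m => by
    induction m with
    | zero => exact hv₀
    | succ m ih => rw [pow_succ', Module.End.mul_apply]; exact hU _ ih
  have hspan : span F (Set.range w) = U := by
    refine hirr _ (span_le.2 (by rintro _ ⟨j, rfl⟩; exact hpowU _)) hwinv ?_
    intro h
    exact hv₀0 ((mem_bot F).1 (h ▸ subset_span ⟨⟨0, hP.natDegree_pos⟩, by simp [w]⟩))
  have hdeg : P.natDegree = i := by
    rw [← hUd, ← hspan, finrank_span_eq_card (linearIndependent_pow_apply hP hPv hv₀0), Fintype.card_fin]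
  have hkill : ∀ {T : Module.End F V}, T * f = f * T → T v₀ = 0 → ∀ u ∈ U, T u = 0 := by
    intro T hT hT0 u hu
    rw [← hspan] at hu
    induction hu using Submodule.span_induction with
    | mem x hx =>
      obtain ⟨j, rfl⟩ := hx
      show T ((f ^ (j : ℕ)) v₀) = 0
      rw [← Module.End.mul_apply, (Commute.pow_right hT (j : ℕ)).eq, Module.End.mul_apply, hT0, map_zero]
    | zero => simp
    | add x y _ _ hx hy => rw [map_add, hx, hy, add_zero]
    | smul a x _ hx => rw [map_smul, hx, smul_zero]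
  have hPf : aeval f P * f = f * aeval f P := (aeval_apply_comm (f := f) (g := f) rfl P).symm
  have hPS : S * aeval f P = aeval f P * S := aeval_apply_comm hSf P
  by_cases hev : Even i
  · -- irreducible block
    obtain ⟨i', hi'⟩ := hev
    rw [if_pos ⟨i', hi'⟩] at hc
    obtain ⟨s, hs⟩ : Even i' := by rw [Nat.even_iff]; omega
    have hMU : U = M := eq_of_le_of_finrank_le hUM (by rw [hMd, hUd, hc])
    subst hMU
    -- `S` is a polynomial in `f` on the block
    obtain ⟨Q, hQ⟩ : ∃ Q : F[X], aeval f Q v₀ = S v₀ := by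
      have hmem : S v₀ ∈ span F (Set.range w) := hspan.symm ▸ hSM v₀ hv₀
      rw [Submodule.mem_span_range_iff_exists_fun] at hmem
      obtain ⟨cf, hcf⟩ := hmem
      exact ⟨∑ j, Polynomial.C (cf j) * X ^ (j : ℕ), by
        rw [← hcf, map_sum, LinearMap.sum_apply]
        exact Finset.sum_congr rfl fun j _ => by simp [w, Algebra.algebraMap_eq_smul_one]⟩
    have hQf : aeval f Q * f = f * aeval f Q := (aeval_apply_comm (f := f) (g := f) rfl Q).symm
    have hSQ : ∀ v ∈ U, aeval f Q v = S v := fun v hv => sub_eq_zero.1 (hkill (T := aeval f Q - S)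
      (by rw [sub_mul, mul_sub, hQf, hSf]) (by rw [LinearMap.sub_apply, hQ, sub_self]) v hv)
    set N := Fintype.card F ^ i' with hN'
    have hQpow : ∀ m, ∀ v ∈ U, (aeval f Q ^ m) v ∈ U ∧ (aeval f Q ^ (2 * m)) v = δ ^ m • v := fun m => by
      induction m with
      | zero => intro v hv; simp [hv]
      | succ m ih =>
        intro v hv
        refine ⟨?_, ?_⟩
        · rw [pow_succ', Module.End.mul_apply, hSQ _ (ih v hv).1]; exact hSM _ (ih v hv).1
        · rw [show 2 * (m + 1) = 1 + (1 + 2 * m) by ring, pow_add, pow_add, pow_one, Module.End.mul_apply,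
            Module.End.mul_apply, (ih v hv).2, map_smul, map_smul, hSQ v hv, hSQ _ (hSM v hv), hS2, smul_smul, pow_succ]
    -- the exponent acts trivially on `δ`
    obtain ⟨l, hl⟩ : Odd N := (Nat.odd_iff.2 hq).pow
    have hδ : δ ≠ 0 := fun h => hns 0 (by rw [h, mul_zero])
    have hδl : δ ^ l = 1 := by
      obtain ⟨m, hm⟩ : (Fintype.card F - 1) ∣ l := by
        obtain ⟨z, hz⟩ : Fintype.card F ^ 2 - 1 ∣ N - 1 := by
          rw [hN', hs, ← two_mul, pow_mul]
          simpa using Nat.sub_dvd_pow_sub_pow (Fintype.card F ^ 2) 1 s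
        have hfac : Fintype.card F ^ 2 - 1 = (Fintype.card F + 1) * (Fintype.card F - 1) := by
          rw [← Nat.sq_sub_sq, one_pow]
        obtain ⟨h', hh'⟩ : 2 ∣ Fintype.card F + 1 := by omega
        refine ⟨h' * z, Nat.eq_of_mul_eq_mul_left two_pos ?_⟩
        calc 2 * l = N - 1 := by omega
          _ = 2 * h' * (Fintype.card F - 1) * z := by rw [hz, hfac, hh']
          _ = _ := by ring
      rw [hm, pow_mul, FiniteField.pow_card_sub_one_eq_one δ hδ, one_pow]
    have hfix : ∀ v ∈ U, (aeval f Q ^ N) v = S v := fun v hv => by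
      rw [hl, pow_succ, Module.End.mul_apply, hSQ v hv, (hQpow l _ (hSM v hv)).2, hδl, one_smul]
    obtain ⟨v, hv, hv0⟩ := exists_mem_ne_zero_of_ne_bot hne
    have hSv : S v ≠ 0 := fun h => hv0 (by
      have := hS2 v
      rw [h, map_zero, eq_comm, smul_eq_zero] at this
      exact this.resolve_left hδ)
    refine hSv ((smul_eq_zero.1 (show (2 : F) • S v = 0 from ?_)).resolve_left h2)
    refine hN _ (U.smul_mem _ (hSM v hv)) fun u hu => ?_
    have e1 : B v (aeval f Q u) = B ((aeval f Q ^ N) v) u := by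
      rw [sympBil_aeval_adjoint hB hf, aeval_pow_sub_one hf (i' := i') (by omega) (by rw [← hi, hi'])]
    rw [hfix v hv, hSQ u hu] at e1
    rw [map_smul, LinearMap.smul_apply, smul_eq_mul, two_mul]
    nth_rewrite 2 [← e1]
    rw [hskew, neg_add_cancel]
  · -- two blocks exchanged by `S`
    rw [if_neg hev] at hc
    let γ : Submodule F V := U.map S
    have hγinv : ∀ v ∈ γ, f v ∈ γ := by
      rintro _ ⟨u, hu, rfl⟩
      exact ⟨f u, hU u hu, (LinearMap.congr_fun hSf u)⟩
    have hδ : δ ≠ 0 := fun h => hns 0 (by rw [h, mul_zero])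
    have hSinj : Function.Injective S := fun x y h => by
      have := congrArg S h
      rwa [hS2, hS2, smul_right_inj hδ] at this
    have hγd : Module.finrank F γ = i := by
      rw [← hUd]; exact ((equivMapOfInjective S hSinj U).finrank_eq).symm
    have hint : U ⊓ γ = ⊥ := by
      by_contra hne'
      have h := hirr _ inf_le_left (fun v hv => ⟨hU v hv.1, hγinv v hv.2⟩) hne'
      have hUγ : U = γ := eq_of_le_of_finrank_le (h ▸ inf_le_right) (by rw [hγd, hUd])
      have hSU : ∀ u ∈ U, S u ∈ U := fun u hu => hUγ.symm ▸ ⟨u, hu, rfl⟩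
      have hdet : LinearMap.det (S.restrict hSU) * LinearMap.det (S.restrict hSU) = δ ^ i := by
        rw [← map_mul, show S.restrict hSU * S.restrict hSU = δ • (1 : Module.End F U) from
          LinearMap.ext fun u => Subtype.ext (hS2 u), LinearMap.det_smul, map_one, mul_one, hUd]
      obtain ⟨l, hl⟩ := Nat.not_even_iff_odd.1 hev
      refine hns (LinearMap.det (S.restrict hSU) / δ ^ l) ?_
      rw [div_mul_div_comm, hdet, ← pow_add, ← two_mul, hl, pow_succ, mul_div_cancel_left₀ _ (pow_ne_zero _ hδ)]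
    have hsup : U ⊔ γ = M := by
      refine eq_of_le_of_finrank_le (sup_le hUM ?_) ?_
      · rintro _ ⟨u, hu, rfl⟩; exact hSM u (hUM hu)
      · rw [hMd, finrank_eq_add_of_disjoint rfl (disjoint_iff.2 hint), hUd, hγd, hc, two_mul]
    have hPM : ∀ v ∈ M, aeval f P v = 0 := by
      intro v hv
      rw [← hsup] at hv
      obtain ⟨x, hx, _, ⟨u, hu, rfl⟩, rfl⟩ := mem_sup.1 hv
      rw [map_add, hkill hPf hPv x hx, zero_add, ← Module.End.mul_apply, ← hPS, Module.End.mul_apply,
        hkill hPf hPv u hu, map_zero]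
    have hinv0 : aeval (f ^ (r - 1)) P v₀ = 0 := by
      refine hN _ ?_ fun u hu => ?_
      · have hpM : ∀ x ∈ M, (f ^ (r - 1)) x ∈ M := by
          intro x hx
          generalize r - 1 = m
          induction m with
          | zero => exact hx
          | succ m ih => rw [pow_succ', Module.End.mul_apply]; exact hM _ ih
        exact aeval_mem hpM P v₀ (hUM hv₀)
      · rw [← sympBil_aeval_adjoint hB hf, hPM u hu, map_zero]
    have hdvd1 : P ∣ P.comp (X ^ (r - 1)) := dvd_of_aeval_apply_eq_zero hP hv₀0 hPv (by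
      rw [aeval_comp, map_pow, aeval_X]; exact hinv0)
    have hdvd2 : P ∣ X ^ r - 1 := dvd_of_aeval_apply_eq_zero hP hv₀0 hPv (by simp [hf])
    have : Fact (Irreducible P) := ⟨hP⟩
    let L := AdjoinRoot P
    have : Module.Finite F L := (AdjoinRoot.powerBasis hP.ne_zero).finite
    have : Finite L := Module.finite_of_finite F
    have hroot : aeval (AdjoinRoot.root P) P = 0 := by rw [AdjoinRoot.aeval_eq, AdjoinRoot.mk_self]
    have hγ1 : aeval ((AdjoinRoot.root P) ^ (r - 1)) P = 0 := by
      have : aeval (AdjoinRoot.root P) (P.comp (X ^ (r - 1))) = 0 := by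
        rw [AdjoinRoot.aeval_eq, AdjoinRoot.mk_eq_zero]; exact hdvd1
      rwa [aeval_comp, map_pow, aeval_X] at this
    have hγr : (AdjoinRoot.root P) ^ r = 1 := by
      have : aeval (AdjoinRoot.root P) (X ^ r - 1 : F[X]) = 0 := by
        rw [AdjoinRoot.aeval_eq, AdjoinRoot.mk_eq_zero]; exact hdvd2
      simpa [sub_eq_zero] using this
    let φ : L →ₐ[F] L := AdjoinRoot.liftAlgHom P (Algebra.ofId F L) ((AdjoinRoot.root P) ^ (r - 1)) hγ1
    have hφ : φ (AdjoinRoot.root P) = (AdjoinRoot.root P) ^ (r - 1) :=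
      AdjoinRoot.liftAlgHom_root P _ _ hγ1
    have hφ2 : φ.comp φ = AlgHom.id F L := AdjoinRoot.algHom_ext (by
      rw [AlgHom.comp_apply, hφ, map_pow, hφ, ← pow_mul, AlgHom.id_apply]
      obtain ⟨l, hl⟩ := (Fact.out : r.Prime).odd_of_ne_two hr2
      rcases l with _ | l
      · exfalso; exact (Fact.out : r.Prime).ne_one (by omega)
      rw [show (r - 1) * (r - 1) = r * (2 * l + 1) + 1 by subst hl; simp; ring, pow_add, pow_mul, hγr, one_pow, one_mul, pow_one])
    let σ : L ≃ₐ[F] L := AlgEquiv.ofAlgHom φ φ hφ2 hφ2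
    have hσ : σ = 1 := by
      refine orderOf_eq_one_iff.1 (Nat.dvd_one.1 ?_)
      have h1 : orderOf σ ∣ 2 := orderOf_dvd_of_pow_eq_one (AlgEquiv.ext fun x => by
        rw [pow_two, AlgEquiv.mul_apply]; exact AlgHom.congr_fun hφ2 x)
      have h2' : orderOf σ ∣ i := by
        have h := orderOf_dvd_natCard σ
        rwa [IsGalois.card_aut_eq_finrank, (AdjoinRoot.powerBasis hP.ne_zero).finrank, AdjoinRoot.powerBasis_dim, hdeg] at h
      exact (Nat.coprime_two_left.2 (Nat.not_even_iff_odd.1 hev)) ▸ Nat.dvd_gcd h1 h2'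
    have hroot' : (AdjoinRoot.root P) ^ (r - 1) = AdjoinRoot.root P := by
      rw [← hφ]
      exact AlgEquiv.congr_fun hσ (AdjoinRoot.root P)
    have hdvd3 : P ∣ X ^ (r - 1) - X := by
      rw [← AdjoinRoot.mk_eq_zero, map_sub, map_pow, AdjoinRoot.mk_X, hroot', sub_self]
    obtain ⟨P', hP'⟩ := hdvd3
    have h3 : (f ^ (r - 1)) v₀ = f v₀ := by
      have : aeval f (X ^ (r - 1) - X : F[X]) v₀ = 0 := by
        rw [hP', mul_comm, map_mul, Module.End.mul_apply, hPv, map_zero]
      simpa [sub_eq_zero] using this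
    have h4 : (f ^ 2) v₀ = v₀ := by
      rw [pow_two, Module.End.mul_apply, ← h3, ← Module.End.mul_apply, ← pow_succ', Nat.sub_add_cancel hr1, hf,
        Module.End.one_apply]
    have h5 : ∀ k, (f ^ (2 * k)) v₀ = v₀ := fun k => by
      induction k with
      | zero => simp
      | succ k ih => rw [Nat.mul_succ, pow_add, Module.End.mul_apply, h4, ih]
    obtain ⟨k, hk⟩ := (Fact.out : r.Prime).odd_of_ne_two hr2
    have h6 := LinearMap.congr_fun hf v₀
    rw [hk, pow_succ', Module.End.mul_apply, h5, Module.End.one_apply] at h6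
    exact hv₀0 (Submodule.disjoint_def.1 hC _ (by
      rw [LinearMap.mem_ker, LinearMap.sub_apply, Module.End.one_apply, h6, sub_self]) (hUM hv₀))

end Cfsg.Agent.Elusive
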