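import Cfsg.Agent.Elusive.OrthField
import Cfsg.Agent.Elusive25.Even
import Cfsg.Agent.OrthGen.Index
import Cfsg.Agent.MaxSub.FieldSub

/-!
Field extension subgroups of orthogonal type of degree two in orthogonal groups of minus type:
their index and elements of odd prime order without conjugates in them.
-/

set_option autoImplicit false
set_option linter.unusedSectionVars false

namespace Cfsg.Agent.Elusive.FieldExtOrth

open Module QuadraticMap Cfsg.Agent.Classical Cfsg.Agent.Forms Matrix

variable {F : Type*} [Field F] [Fintype F] {m : ℕ}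

local notation "Idx" => (Fin m ⊕ Fin m) ⊕ Fin 2

theorem minus_coe (a b : F) : Cfsg.quadFormMinus m F a b = ⇑(minusQF m a b) :=
  funext fun v => (minusQF_apply m a b v).symm

theorem minus_nondeg (h2 : (2 : F) ≠ 0) {a b : F} (hab : BinaryAniso a b) : BNondeg (minusQF m a b) := by
  refine bNondeg_congr (minusEquiv m) (minusEquiv_spec m a b) (bNondeg_hypExt _ fun z hz => ?_)
  have h := hz z
  rw [polar_self, nsmul_eq_mul, Nat.cast_ofNat, mul_eq_zero] at h
  exact anisotropic_binQF hab z (h.resolve_left h2)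

/-- A quadratic field subalgebra, as a field. -/
@[reducible] noncomputable def fieldOf {K : Subalgebra F (Matrix Idx Idx F)} {k : ℕ}
    (hK : Cfsg.Geo.IsFieldSubalgebra k K) : Field K :=
  (MaxSub.isField_of_isFieldSubalgebra hK).toField

/-- The extension data of a self-adjoint quadratic field. -/
theorem exists_ext (h2 : (2 : F) ≠ 0) {a b : F} {K : Subalgebra F (Matrix Idx Idx F)}
    (hK : Cfsg.Geo.IsFieldSubalgebra 2 K)
    (hKf : Cfsg.Geo.IsSelfAdjointFor (QuadraticMap.polar (Cfsg.quadFormMinus m F a b)) K) :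
    letI := fieldOf hK
    ∃ E : OrthField.Ext (minusQF m a b) K, (∀ x : F, (E.s : Matrix Idx Idx F) ≠ x • 1) ∧
      (E.s : Matrix Idx Idx F) * (E.s : Matrix Idx Idx F) = E.δ • 1 ∧
      ∀ k ∈ K, ∃ x y : F, k = x • 1 + y • (E.s : Matrix Idx Idx F) := by
  letI := fieldOf hK
  obtain ⟨s, δ, hs, hns, hss, hne, hgen⟩ := OrthField.exists_generator h2 hK
  refine ⟨⟨⟨s, hs⟩, δ, h2, hns, Subtype.ext ?_, fun k => ?_, fun u v => ?_⟩, hne, hss, hgen⟩
  · exact hss.trans (Algebra.algebraMap_eq_smul_one δ).symm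
  · obtain ⟨x, y, h⟩ := hgen k k.2
    refine ⟨x, y, Subtype.ext ?_⟩
    show (k : Matrix Idx Idx F) = algebraMap F (Matrix Idx Idx F) x + algebraMap F (Matrix Idx Idx F) y * s
    rw [Algebra.algebraMap_eq_smul_one, Algebra.algebraMap_eq_smul_one, smul_mul_assoc, one_mul]; exact h
  · rw [← minus_coe]; exact hKf s hs u v

/-- An element of odd order of the stabiliser of the field commutes with it. -/
theorem commute_of_odd (h2 : (2 : F) ≠ 0) {K : Subalgebra F (Matrix Idx Idx F)} {s : Matrix Idx Idx F} {δ : F}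
    (hs : s ∈ K) (hδ : δ ≠ 0) (hgen : ∀ k ∈ K, ∃ x y : F, k = x • 1 + y • s)
    (hns : ∀ x : F, s ≠ x • 1) (hss : s * s = δ • 1)
    {y : GL Idx F} (hy : y ∈ Cfsg.Geo.subalgebraNormalizer K) {r : ℕ} (hr : Odd r)
    (hyr : (y : Matrix Idx Idx F) ^ r = 1) :
    (y : Matrix Idx Idx F) * s = s * y := by
  rcases OrthField.conj_generator h2 hs hδ hss hns hgen hy with h | h
  · exact h
  · exfalso
    have hk : ∀ k : ℕ, (y : Matrix Idx Idx F) ^ k * s =
        (-1 : F) ^ k • (s * (y : Matrix Idx Idx F) ^ k) := by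
      intro k
      induction k with
      | zero => simp
      | succ k ih =>
        rw [pow_succ' (y : Matrix Idx Idx F), mul_assoc, ih, mul_smul_comm, ← mul_assoc, h, neg_mul, mul_assoc,
          pow_succ' (-1 : F), neg_one_mul, neg_smul, smul_neg]
    have h1 := hk r
    rw [hyr, one_mul, mul_one, hr.neg_one_pow, neg_one_smul] at h1
    refine hns 0 ?_
    rw [zero_smul]
    have h' : (2 : F) • s = 0 := by
      rw [two_smul]; nth_rw 1 [h1]; exact neg_add_cancel _
    exact (smul_eq_zero.1 h').resolve_left h2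


/-- The dimension moved by a matrix. -/
theorem rank_sub_one {ι : Type} [Fintype ι] [DecidableEq ι] (M : Matrix ι ι F) :
    (M - 1).rank = finrank F (LinearMap.range (toLinAlgEquiv' M - 1 : Module.End F (ι → F))) := by
  rw [← map_one (toLinAlgEquiv' : Matrix ι ι F ≃ₐ[F] _), ← map_sub]
  rfl

/-- An element with a conjugate normalising the field moves, in odd prime order, a multiple of four dimensions
when the order is prime to the characteristic, and more than two otherwise. -/
theorem moved_of_conj (h2 : (2 : F) ≠ 0) {a b : F} (hab : BinaryAniso a b) {K : Subalgebra F (Matrix Idx Idx F)}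
    (hK : Cfsg.Geo.IsFieldSubalgebra 2 K)
    (hKf : Cfsg.Geo.IsSelfAdjointFor (QuadraticMap.polar (Cfsg.quadFormMinus m F a b)) K)
    {p r : ℕ} [CharP F p] [Fact p.Prime] (hr : Odd r) {x g : GL Idx F}
    (hx : x ∈ Cfsg.Geo.omegaGL (Cfsg.quadFormMinus m F a b)) (hg : g ∈ Cfsg.Geo.omegaGL (Cfsg.quadFormMinus m F a b))
    (h : g⁻¹ * x * g ∈ Cfsg.Geo.subalgebraNormalizer K) (hxr : (x : Matrix Idx Idx F) ^ r = 1)
    (hx1 : (x : Matrix Idx Idx F) ≠ 1) :
    ((r : F) ≠ 0 → 4 ∣ ((x : Matrix Idx Idx F) - 1).rank) ∧ (r = p → 2 < ((x : Matrix Idx Idx F) - 1).rank) := by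
  classical
  letI := fieldOf hK
  obtain ⟨E, hns, hss, hgen⟩ := exists_ext h2 hK hKf
  set y := g⁻¹ * x * g with hy
  have hym : y ∈ Cfsg.Geo.omegaGL (Cfsg.quadFormMinus m F a b) := mul_mem (mul_mem (inv_mem hg) hx) hg
  have hyr : (y : Matrix Idx Idx F) ^ r = 1 := by
    have hx' : x ^ r = 1 := Units.ext (by rw [Units.val_pow_eq_pow_val, hxr]; rfl)
    have h1 : y ^ r = 1 := by
      rw [hy]
      have := (map_pow (MulAut.conj g⁻¹) x r).symm
      rw [hx', map_one] at this
      simpa [MulAut.conj_apply] using this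
    rw [← Units.val_pow_eq_pow_val, h1]; rfl
  have hcomm := commute_of_odd h2 E.s.2 E.δ_ne hgen hns hss h hr hyr
  have hrank : ((x : Matrix Idx Idx F) - 1).rank = ((y : Matrix Idx Idx F) - 1).rank := by
    have hgd : IsUnit (g : Matrix Idx Idx F).det := (Matrix.isUnit_iff_isUnit_det _).1 g.isUnit
    rw [← rank_mul_eq_left_of_isUnit_det _ ((x : Matrix Idx Idx F) - 1) hgd, sub_mul, one_mul,
      ← rank_mul_eq_right_of_isUnit_det _ ((y : Matrix Idx Idx F) - 1) hgd, mul_sub, mul_one,
      ← Units.val_mul, ← Units.val_mul, hy, show g * (g⁻¹ * x * g) = x * g by group]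
  set f : Module.End F (Idx → F) := toLinAlgEquiv' (y : Matrix Idx Idx F) with hf
  have hfs : ∀ v, f (E.s • v) = E.s • f v := fun v => by
    show (y : Matrix Idx Idx F) *ᵥ ((E.s : Matrix Idx Idx F) *ᵥ v) =
      (E.s : Matrix Idx Idx F) *ᵥ ((y : Matrix Idx Idx F) *ᵥ v)
    rw [mulVec_mulVec, mulVec_mulVec, hcomm]
  have hiso : ∀ u v, polar (minusQF m a b) (f u) (f v) = polar (minusQF m a b) u v := fun u v => by
    have hq : ∀ w, minusQF m a b (f w) = minusQF m a b w := fun w => by
      rw [← minus_coe]; exact Elusive25.apply_of_mem_omegaGL hym w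
    simp only [polar, ← map_add, hq]
  have hfr : f ^ r = 1 := by rw [hf, ← map_pow, hyr, map_one]
  rw [hrank, rank_sub_one, ← hf]
  refine ⟨fun hrF => E.four_dvd_finrank (minus_nondeg h2 hab) hr hrF hfs hiso hfr, fun hrp => ?_⟩
  subst hrp
  refine E.not_two_of_unipotent (p := r) (minus_nondeg h2 hab) hfs hiso hfr fun h1 => ?_
  have hy1 : ((y : Matrix Idx Idx F) - 1).rank = 0 := by rw [rank_sub_one, ← hf, h1, sub_self]; simp
  rw [← hrank, Matrix.rank, Submodule.finrank_eq_zero, LinearMap.range_eq_bot] at hy1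
  exact hx1 (sub_eq_zero.1 (Matrix.ext_of_mulVec_single fun i => (LinearMap.congr_fun hy1 _).trans (zero_mulVec _).symm))

theorem card_omegaGL_dvd (a b : F) :
    Nat.card (Cfsg.Geo.omegaGL (Cfsg.quadFormMinus m F a b)) ∣ Nat.card (OQ (minusQF m a b)) := by
  rw [minus_coe, ← Nat.card_congr (OrthGen.matEquiv (minusQF m a b)).toEquiv]
  refine Subgroup.card_dvd_of_le ?_
  rintro x ⟨y, -, rfl⟩
  exact y.2

/-- An element of order `r` moving as few dimensions as possible. -/
theorem exists_minimal_element (h2 : (2 : F) ≠ 0) {a b : F} (hab : BinaryAniso a b) {r : ℕ} [Fact r.Prime]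
    (hr : ¬ r ∣ Fintype.card F) (hr2 : r ≠ 2) (hdvd : r ∣ Nat.card (OQ (minusQF m a b)))
    {i c : ℕ} (hi : i = orderOf ((Fintype.card F : ℕ) : ZMod r)) (hc : c = if Even i then i else 2 * i) :
    ∃ x : GL Idx F, x ∈ Cfsg.Geo.omegaGL (Cfsg.quadFormMinus m F a b) ∧ (x : Matrix Idx Idx F) ^ r = 1 ∧
      ((x : Matrix Idx Idx F) - 1).rank = c := by
  classical
  set R := minusQF m a b
  have : Finite (OQ R) := Nat.finite_of_card_ne_zero fun h0 => by
    have : Finite ((Idx → F) ≃ₗ[F] (Idx → F)) := Finite.of_injective (fun e => (e : (Idx → F) → (Idx → F))) DFunLike.coe_injective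
    exact Nat.card_pos.ne' h0
  obtain ⟨g, hg⟩ := exists_prime_orderOf_dvd_card' (G := OQ R) r hdvd
  set f : Module.End F (Idx → F) := (g.1 : (Idx → F) ≃ₗ[F] (Idx → F)).toLinearMap with hf
  have hfk : ∀ k : ℕ, ∀ v, (f ^ k) v = (g ^ k : OQ R).1 v := by
    intro k
    induction k with
    | zero => intro v; rfl
    | succ k ih => intro v; rw [pow_succ', Module.End.mul_apply, ih, pow_succ']; rfl
  have hfr : f ^ r = 1 := LinearMap.ext fun v => by rw [hfk, ← hg, pow_orderOf_eq_one]; rfl
  let B : LinearMap.BilinForm F (Idx → F) := polarBilin R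
  have hA : (B).IsSymm := ⟨fun u v => polar_comm R u v⟩
  have hB : ∀ u v, B (f u) (f v) = polarBilin R u v := fun u v => OQ_polar g u v
  have hN : B.Nondegenerate :=
    LinearMap.BilinForm.Nondegenerate.ofSeparatingLeft fun u hu => minus_nondeg h2 hab u hu
  obtain ⟨M, -, hM, hMN, -, hCM, hsup, hmult, j, hj, hMd⟩ := Orth.exists_moving_part hA h2 hB hfr hr hr2
    (W := ⊤) (fun _ _ => trivial) (nonDegOn_top hN) hi hc
  have hj0 : 0 < j := by
    rcases Nat.eq_zero_or_pos j with rfl | h
    · exfalso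
      rw [zero_mul, Submodule.finrank_eq_zero] at hMd
      rw [hMd, sup_bot_eq, top_inf_eq, LinearMap.ker_eq_top, sub_eq_zero] at hsup
      have : g = 1 := Subtype.ext (LinearEquiv.toLinearMap_injective hsup)
      rw [this, orderOf_one] at hg
      exact (Fact.out : r.Prime).ne_one hg.symm
    · exact h
  obtain ⟨U, hUM, hU, hUN, hUd⟩ := hmult 1 (by rw [hMd]; exact Nat.mul_le_mul_right c hj0)
  rw [one_mul] at hUd
  obtain ⟨h, hhB, hhU, hhp, hc'⟩ := Orth.exists_isometry_on hA hB hU hUN
  have hhr : h ^ r = 1 := by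
    refine LinearMap.ext fun v => ?_
    obtain ⟨u, hu, u', hu', rfl⟩ := Submodule.mem_sup.1 (hc'.sup_eq_top ▸ Submodule.mem_top : v ∈ U ⊔ B.orthogonal U)
    have h1 : ∀ k : ℕ, (h ^ k) u = (f ^ k) u ∧ (f ^ k) u ∈ U ∧ (h ^ k) u' = u' := by
      intro k
      induction k with
      | zero => exact ⟨rfl, hu, rfl⟩
      | succ k ih =>
        refine ⟨?_, ?_, ?_⟩
        · rw [pow_succ', Module.End.mul_apply, ih.1, hhU _ ih.2.1, pow_succ', Module.End.mul_apply]
        · rw [pow_succ', Module.End.mul_apply]; exact hU _ ih.2.1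
        · rw [pow_succ', Module.End.mul_apply, ih.2.2, hhp _ hu']
    rw [map_add, (h1 r).1, (h1 r).2.2, hfr]
    rfl
  have hrange : LinearMap.range (h - 1) = U := by
    refine le_antisymm ?_ fun u hu => ?_
    · rintro _ ⟨v, rfl⟩
      obtain ⟨u, hu, u', hu', rfl⟩ := Submodule.mem_sup.1 (hc'.sup_eq_top ▸ Submodule.mem_top : v ∈ U ⊔ B.orthogonal U)
      rw [LinearMap.sub_apply, Module.End.one_apply, map_add, hhU u hu, hhp u' hu', add_sub_add_right_eq_sub]
      exact sub_mem (hU u hu) hu
    · let φ : Module.End F U := (f - 1).restrict fun v hv => sub_mem (hU v hv) hv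
      have hφ : Function.Injective φ := (injective_iff_map_eq_zero _).2 fun z hz => Subtype.ext
        (Submodule.disjoint_def.1 (hCM.mono_right hUM) _ (LinearMap.mem_ker.2 (congrArg Subtype.val hz)) z.2)
      obtain ⟨z, hz⟩ := LinearMap.injective_iff_surjective.1 hφ ⟨u, hu⟩
      refine ⟨z, ?_⟩
      rw [LinearMap.sub_apply, hhU z z.2]
      exact congrArg Subtype.val hz
  have hinj : Function.Injective h := Elusive.injective_of_pow_eq_one (r := r) hhr
  have hq : ∀ v, R (h v) = R v := fun v => by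
    have h1 : polar R (h v) (h v) = polar R v v := hhB v v
    rw [polar_self, polar_self, nsmul_eq_mul, nsmul_eq_mul, Nat.cast_ofNat] at h1
    exact mul_left_cancel₀ h2 h1
  let G : OQ R := ⟨LinearEquiv.ofBijective h ⟨hinj, LinearMap.injective_iff_surjective.1 hinj⟩, hq⟩
  have hGr : G ^ r = 1 := by
    refine Subtype.ext (LinearEquiv.ext fun v => ?_)
    have h1 : ∀ k : ℕ, ∀ v, (G ^ k : OQ R).1 v = (h ^ k) v := by
      intro k
      induction k with
      | zero => intro v; rfl
      | succ k ih => intro v; rw [pow_succ', pow_succ', Module.End.mul_apply, ← ih]; rfl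
    rw [h1, hhr]; rfl
  have hmat : toLinAlgEquiv' (Elusive25.glOf R G : Matrix Idx Idx F) = h :=
    LinearMap.ext fun v => Elusive25.glOf_mulVec R G v
  refine ⟨Elusive25.glOf R G, ?_, ?_, ?_⟩
  · rw [minus_coe]
    exact Elusive25.glOf_mem_omegaGL R (Elusive25.mem_commutator_of_pow (minus_nondeg h2 hab)
      (OrthGen.notExceptional_of_two_ne_zero h2) ((Fact.out : r.Prime).odd_of_ne_two hr2) hGr)
  · rw [← Units.val_pow_eq_pow_val, ← map_pow, hGr, map_one]; rfl
  · rw [rank_sub_one, hmat, hrange, hUd]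

/-- An element of order `p` moving at most two dimensions. -/
theorem exists_short_unipotent (h2 : (2 : F) ≠ 0) (hm : 2 ≤ m) {a b : F} (hab : BinaryAniso a b) {p : ℕ}
    [CharP F p] [Fact p.Prime] (hp : p ≠ 2) :
    ∃ x : GL Idx F, x ∈ Cfsg.Geo.omegaGL (Cfsg.quadFormMinus m F a b) ∧ (x : Matrix Idx Idx F) ^ p = 1 ∧
      (x : Matrix Idx Idx F) ≠ 1 ∧ ((x : Matrix Idx Idx F) - 1).rank ≤ 2 := by
  classical
  set R := minusQF m a b
  set i0 : Fin m := ⟨0, by omega⟩
  set i1 : Fin m := ⟨1, by omega⟩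
  have h01 : i1 ≠ i0 := by simp [i0, i1]
  set u : Idx → F := Pi.single (.inl (.inl i0)) 1 with hu'
  set v : Idx → F := Pi.single (.inl (.inl i1)) 1 with hv'
  have hu : R u = 0 := by simp [R, u, minusQF_apply, Cfsg.quadFormMinus]
  have hv : R v = 0 := by simp [R, v, minusQF_apply, Cfsg.quadFormMinus]
  have hzero : ∀ c : F, polar R u (c • v) = 0 := fun c => by
    simp [R, u, v, polar, minusQF_apply, Cfsg.quadFormMinus, Pi.single_apply, h01, h01.symm]
  have hadd : ∀ k : ℕ, (siegel R hu (hzero 1)) ^ k = siegel R hu (hzero (k : F)) := by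
    intro k
    induction k with
    | zero =>
      refine Subtype.ext (LinearEquiv.ext fun x => ?_)
      rw [siegel_apply]
      simp
    | succ k ih =>
      refine Subtype.ext (LinearEquiv.ext fun x => ?_)
      rw [pow_succ, ih, Subgroup.coe_mul, LinearEquiv.mul_apply, siegel_apply, siegel_apply, siegel_apply]
      have h := siegelLin_add (a := (k : F) • v) (b := (1 : F) • v) hu (hzero (k : F)) (hzero 1) x
      simp only [siegelLin_apply] at h
      rw [h, Nat.cast_succ, add_smul]
  set G := siegel R hu (hzero 1)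
  have hGp : G ^ p = 1 := by
    refine Subtype.ext (LinearEquiv.ext fun x => ?_)
    rw [hadd, siegel_apply, CharP.cast_eq_zero]
    simp
  have hG1 : G.1 (Pi.single (.inl (.inr i0)) 1) ≠ Pi.single (.inl (.inr i0)) 1 := by
    intro h
    rw [siegel_apply] at h
    have := congrFun h (.inl (.inl i1))
    simp [R, u, v, polar, minusQF_apply, Cfsg.quadFormMinus, Pi.single_apply, h01, h01.symm] at this
  have hmul := Elusive25.glOf_mulVec R G
  refine ⟨Elusive25.glOf R G, ?_, ?_, fun h => hG1 ?_, ?_⟩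
  · rw [minus_coe]
    exact Elusive25.glOf_mem_omegaGL R (Elusive25.mem_commutator_of_pow (minus_nondeg h2 hab)
      (OrthGen.notExceptional_of_two_ne_zero h2) ((Fact.out : p.Prime).odd_of_ne_two hp) hGp)
  · rw [← Units.val_pow_eq_pow_val, ← map_pow, hGp, map_one]; rfl
  · rw [← hmul, h, one_mulVec]
  · rw [rank_sub_one]
    refine (Submodule.finrank_mono (t := Submodule.span F {v, u}) ?_).trans ?_
    · rintro _ ⟨x, rfl⟩
      rw [LinearMap.sub_apply, Module.End.one_apply]
      show (Elusive25.glOf R G : Matrix Idx Idx F) *ᵥ x - x ∈ _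
      rw [hmul, siegel_apply]
      refine Submodule.mem_span_pair.2 ⟨polar R u x, -(polar R ((1 : F) • v) x + R ((1 : F) • v) * polar R u x), ?_⟩
      simp only [one_smul, neg_smul, add_smul]
      abel
    · refine (finrank_span_le_card _).trans ?_
      rw [Set.toFinset_insert, Set.toFinset_singleton]
      exact Finset.card_le_two

/-- The index of the stabiliser of the field is prime to the odd primes `r` with `q` of order a multiple of `4`
modulo `r`. -/
theorem mod_four_ne_zero (h2 : (2 : F) ≠ 0) {a b : F} (hab : BinaryAniso a b) {K : Subalgebra F (Matrix Idx Idx F)}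
    (hK : Cfsg.Geo.IsFieldSubalgebra 2 K)
    (hKf : Cfsg.Geo.IsSelfAdjointFor (QuadraticMap.polar (Cfsg.quadFormMinus m F a b)) K)
    {r : ℕ} [Fact r.Prime] (hr : ¬ r ∣ Fintype.card F) (hr2 : r ≠ 2)
    (hdvd : r ∣ (Cfsg.Geo.subalgebraNormalizer K).relIndex (Cfsg.Geo.omegaGL (Cfsg.quadFormMinus m F a b))) :
    orderOf ((Fintype.card F : ℕ) : ZMod r) % 4 ≠ 0 := by
  classical
  letI := fieldOf hK
  obtain ⟨E, hns, hss, hgen⟩ := exists_ext h2 hK hKf
  have hrp : r.Prime := Fact.out
  set R := minusQF m a b with hR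
  have : Finite ((Idx → F) ≃ₗ[F] (Idx → F)) :=
    Finite.of_injective (fun e => (e : (Idx → F) → (Idx → F))) DFunLike.coe_injective
  have : Finite (OQ R) := Subtype.finite
  rw [minus_coe, Cfsg.Geo.omegaGL, ← hR] at hdvd
  rw [← Subgroup.relIndex_comap] at hdvd
  set N' := (Cfsg.Geo.subalgebraNormalizer K).comap (Cfsg.isometryGroup F ⇑R).subtype with hN'
  have : (Cfsg.Omega F ⇑R).Normal := by
    unfold Cfsg.Omega
    infer_instance
  have hidx : r ∣ N'.index := by
    have e1 := Subgroup.relIndex_mul_index (inf_le_right : N' ⊓ Cfsg.Omega F ⇑R ≤ Cfsg.Omega F ⇑R)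
    have e2 := Subgroup.relIndex_mul_index (inf_le_left : N' ⊓ Cfsg.Omega F ⇑R ≤ N')
    rw [Subgroup.inf_relIndex_right] at e1
    rw [inf_comm, Subgroup.inf_relIndex_right, inf_comm] at e2
    have h := (dvd_mul_of_dvd_left hdvd (Cfsg.Omega F ⇑R).index).trans (dvd_of_eq (e1.trans e2.symm))
    rcases hrp.dvd_mul.1 h with h | h
    · exfalso
      have h4 := h.trans (Subgroup.relIndex_dvd_index_of_normal _ _)
      rw [OrthGen.index_Omega_odd R h2 (minus_nondeg h2 hab) (by simp)] at h4
      exact hr2 ((Nat.prime_dvd_prime_iff_eq hrp Nat.prime_two).1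
        (hrp.dvd_of_dvd_pow (show r ∣ 2 ^ 2 by simpa using h4)))
    · exact h
  -- the isometries of the form over the extension
  have : Module.Finite K (Idx → F) := Module.Finite.of_restrictScalars_finite F K _
  set QK := E.qform with hQK
  have hOQ : ∀ g : OQ QK, ∀ v, R ((g.1.restrictScalars F : (Idx → F) ≃ₗ[F] (Idx → F)) v) = R v :=
    fun g v => E.restrict_apply g.2 v
  let φ₀ : OQ QK →* OQ R :=
    { toFun := fun g => ⟨g.1.restrictScalars F, hOQ g⟩
      map_one' := Subtype.ext (LinearEquiv.ext fun _ => rfl)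
      map_mul' := fun _ _ => Subtype.ext (LinearEquiv.ext fun _ => rfl) }
  let φ : OQ QK →* ↥(Cfsg.isometryGroup F ⇑R) := (OrthGen.matEquiv R).symm.toMonoidHom.comp φ₀
  have hφ : Function.Injective φ := (OrthGen.matEquiv R).symm.injective.comp fun g h heq =>
    Subtype.ext (LinearEquiv.ext fun v => LinearEquiv.congr_fun (congrArg Subtype.val heq) v)
  have hφN : φ.range ≤ N' := by
    rintro _ ⟨g, rfl⟩
    rw [hN', Subgroup.mem_comap]
    refine MaxSub.mem_normalizer_iff_map_le.2 fun k hk => ?_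
    set y : GL Idx F := (φ g : GL Idx F)
    have hy : ∀ v, (y : Matrix Idx Idx F) *ᵥ v = g.1 v := fun v =>
      Elusive25.glOf_mulVec R (φ₀ g) v
    have hcomm : (y : Matrix Idx Idx F) * k = k * y := Matrix.ext_iff_mulVec.2 fun v => by
      rw [← mulVec_mulVec, ← mulVec_mulVec, hy, hy]
      exact map_smul g.1 (⟨k, hk⟩ : K) v
    show (y : Matrix Idx Idx F) * k * ((y⁻¹ : GL Idx F) : Matrix Idx Idx F) ∈ K
    rw [hcomm, mul_assoc, ← Units.val_mul, mul_inv_cancel, Units.val_one, mul_one]
    exact hk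
  have hcard : ∃ z, Nat.card N' = Nat.card (OQ QK) * z :=
    (Nat.card_congr (MonoidHom.ofInjective hφ).toEquiv).symm ▸ Subgroup.card_dvd_of_le hφN
  obtain ⟨z, hz⟩ := hcard
  have htot := Subgroup.card_mul_index N'
  rw [hz, Nat.card_congr (OrthGen.matEquiv R).toEquiv] at htot
  have hcR : Nat.card (OQ R) = 2 * Fintype.card F ^ ((m + 1) * m) * (Fintype.card F ^ (m + 1) + 1)
      * ∏ i ∈ Finset.range m, (Fintype.card F ^ (2 * (i + 1)) - 1) := by
    rw [Nat.card_congr (OQCongr (Q := R) (minusEquiv m) (minusEquiv_spec m a b)).toEquiv,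
      card_OQ_minus (anisotropic_binQF hab), Nat.card_eq_fintype_card]
  rw [hcR] at htot
  set q := Fintype.card F with hq
  have : Finite K := Finite.of_injective (fun x : K => (x : Matrix Idx Idx F)) Subtype.val_injective
  have hQ : Nat.card K = q ^ 2 := by
    rw [Module.natCard_eq_pow_finrank (K := F), E.finrank_eq, Nat.card_eq_fintype_card]
  have hV : finrank K (Idx → F) = m + 1 := by
    have h := finrank_mul_finrank F K (Idx → F)
    rw [E.finrank_eq, finrank_fintype_fun_eq_card, Fintype.card_sum, Fintype.card_sum, Fintype.card_fin,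
      Fintype.card_fin] at h
    omega
  intro hi
  set i := orderOf ((q : ℕ) : ZMod r) with hidef
  have h4i : 4 ∣ i := Nat.dvd_of_mod_eq_zero hi
  -- the factors outside the smaller group are prime to `r`
  have hodd : ∀ k, ¬ r ∣ q ^ (2 * (2 * k + 1)) - 1 := by
    intro k h
    rw [← ZMod.natCast_eq_zero_iff, Nat.cast_sub (Nat.one_le_pow _ _ Fintype.card_pos), Nat.cast_pow, Nat.cast_one,
      sub_eq_zero, ← orderOf_dvd_iff_pow_eq_one, ← hidef] at h
    have := h4i.trans h
    omega
  have hqn : ∀ n, ¬ r ∣ q ^ n := fun n h => hr (hrp.dvd_of_dvd_pow h)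
  have key : ∀ {Z Y X : ℕ}, 0 < Z → Z * (Y * N'.index) = Z * X → ¬ r ∣ X → False := fun {Z Y X} hZ h hX => by
    have := Nat.eq_of_mul_eq_mul_left hZ h
    exact hX (this ▸ dvd_mul_of_dvd_right hidx Y)
  have hPe : ∀ e, 0 < ∏ l ∈ Finset.range e, ((q ^ 2) ^ (2 * (l + 1)) - 1) := fun e =>
    Finset.prod_pos fun l _ => Nat.sub_pos_of_lt (Nat.one_lt_pow (by omega)
      (Nat.one_lt_pow two_ne_zero Fintype.one_lt_card))
  have hsplit : ∀ e, ∏ k ∈ Finset.range (2 * e), (q ^ (2 * (k + 1)) - 1) =
      (∏ k ∈ Finset.range e, (q ^ (2 * (2 * k + 1)) - 1)) * ∏ l ∈ Finset.range e, ((q ^ 2) ^ (2 * (l + 1)) - 1) := by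
    intro e
    rw [prod_range_even_odd (fun k => q ^ (2 * k) - 1) e]
    congr 1
    exact Finset.prod_congr rfl fun l _ => by rw [← pow_mul]
  have hP : ∀ e, ¬ r ∣ ∏ k ∈ Finset.range e, (q ^ (2 * (2 * k + 1)) - 1) := fun e h => by
    obtain ⟨k, -, hk⟩ := (Prime.dvd_finsetProd_iff hrp.prime _).1 h
    exact hodd k hk
  obtain ⟨e, hcase⟩ := exists_finite_witt_decomposition QK
    (nonsingOn_top_of_nondegenerate (LinearMap.BilinForm.Nondegenerate.ofSeparatingLeft
      fun u hu => E.qform_nondeg (minus_nondeg h2 hab) u hu))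
  rw [hV] at hcase
  rcases hcase with ⟨he, f, hf⟩ | ⟨he, c, hc, f, hf⟩ | ⟨he, a', b', hab', f, hf⟩
  · -- a totally singular half is too large
    let L : (Fin e → K) →ₗ[K] (Idx → F) := f.symm.toLinearMap ∘ₗ
      { toFun := fun x => Sum.elim x 0
        map_add' := fun x y => funext fun s => by cases s <;> simp
        map_smul' := fun c x => funext fun s => by cases s <;> simp }
    have hL : Function.Injective L := f.symm.injective.comp fun x y h => funext fun s => congrFun h (Sum.inl s)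
    have hW : finrank K (LinearMap.range L) = e := by
      rw [LinearMap.finrank_range_of_inj hL, finrank_fin_fun]
    have hle := finrank_le_of_vanishes_quadFormMinus hab ((LinearMap.range L).restrictScalars F) fun w hw => by
      obtain ⟨x, rfl⟩ := hw
      rw [minus_coe]
      refine E.qform_zero_iff ?_
      rw [hf]
      simp [L, Cfsg.quadFormPlus]
    rw [E.finrank_restrict, hW] at hle
    omega
  · -- odd dimension
    obtain rfl : m = 2 * e := by omega
    have hcK : Nat.card (OQ QK) = 2 * Nat.card K ^ (e ^ 2) *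
        ∏ l ∈ Finset.range e, (Nat.card K ^ (2 * (l + 1)) - 1) := by
      have hsub : OQ (c⁻¹ • QK) = OQ QK := by
        ext g
        simp [mem_OQ, hc]
      rw [← hsub, Nat.card_congr (OQCongr (Q := c⁻¹ • QK) (f.trans (oddEquiv e)) (fun v => by
          rw [LinearEquiv.trans_apply, oddEquiv_spec, oddQF_apply]
          simp only [_root_.smul_apply, smul_eq_mul, hf v, ← mul_assoc, inv_mul_cancel₀ hc,
            one_mul])).toEquiv,
        card_OQ_odd (by
          rw [hQ]
          refine Odd.pow ?_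
          rw [hq, Nat.odd_iff]
          exact FiniteField.odd_card_of_char_ne_two fun h => h2 (by
            have := ringChar.charP F; rw [h] at this; exact CharTwo.two_eq_zero))]
    rw [hcK, hQ, hsplit e] at htot
    refine key (Y := (q ^ 2) ^ (e ^ 2) * z) (Z := 2 * ∏ l ∈ Finset.range e, ((q ^ 2) ^ (2 * (l + 1)) - 1))
      (X := q ^ ((2 * e + 1) * (2 * e)) * ((q ^ (2 * e + 1) + 1) * ∏ k ∈ Finset.range e, (q ^ (2 * (2 * k + 1)) - 1)))
      (Nat.mul_pos two_pos (hPe e)) ?_ ?_ |>.elim
    · linear_combination htot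
    · intro h
      rcases hrp.dvd_mul.1 h with h | h
      · exact hqn _ h
      rcases hrp.dvd_mul.1 h with h | h
      · rw [← CharP.cast_eq_zero_iff (ZMod r) r] at h
        push_cast at h
        have h1 : ((q : ZMod r)) ^ (2 * (2 * e + 1)) = 1 := by
          rw [mul_comm, pow_mul, eq_neg_of_add_eq_zero_left h, neg_one_sq]
        have := h4i.trans (orderOf_dvd_of_pow_eq_one h1)
        omega
      · exact hP e h
  · -- minus type
    obtain rfl : m = 2 * e + 1 := by omega
    have hcK : Nat.card (OQ QK) = 2 * Nat.card K ^ ((e + 1) * e) * (Nat.card K ^ (e + 1) + 1) *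
        ∏ l ∈ Finset.range e, (Nat.card K ^ (2 * (l + 1)) - 1) := by
      rw [Nat.card_congr (OQCongr (Q := QK) (f.trans (minusEquiv e)) (fun v => by
          rw [LinearEquiv.trans_apply, minusEquiv_spec, minusQF_apply, ← hf v])).toEquiv,
        card_OQ_minus (anisotropic_binQF hab')]
    rw [hcK, hQ, Finset.prod_range_succ, hsplit e,
      show (q ^ 2) ^ (e + 1) = q ^ (2 * e + 1 + 1) by rw [← pow_mul]; ring_nf] at htot
    refine key (Y := (q ^ 2) ^ ((e + 1) * e) * z) (Z := 2 * (q ^ (2 * e + 1 + 1) + 1) * ∏ l ∈ Finset.range e, ((q ^ 2) ^ (2 * (l + 1)) - 1))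
      (X := q ^ ((2 * e + 1 + 1) * (2 * e + 1)) *
        ((∏ k ∈ Finset.range e, (q ^ (2 * (2 * k + 1)) - 1)) * (q ^ (2 * (2 * e + 1)) - 1)))
      (Nat.mul_pos (Nat.mul_pos two_pos (by omega)) (hPe e)) ?_ ?_ |>.elim
    · linear_combination htot
    · intro h
      rcases hrp.dvd_mul.1 h with h | h
      · exact hqn _ h
      rcases hrp.dvd_mul.1 h with h | h
      · exact hP e h
      · exact hodd e h

end Cfsg.Agent.Elusive.FieldExtOrth
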