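import Cfsg.Agent.Elusive.OrthHyp

/-!
Invariant hyperbolic subspaces under isometries of odd prime order.
-/

set_option autoImplicit false

namespace Cfsg.Agent.Elusive.OrthTS

open QuadraticMap Submodule Module Cfsg.Agent.Classical

variable {F : Type*} [Field F] {V : Type*} [AddCommGroup V] [Module F V] {Q : QuadraticForm F V}

theorem nonDegOn_map {W' : Type*} [AddCommGroup W'] [Module F W'] {R : QuadraticForm F W'} {L : W' →ₗ[F] V}
    (hL : Function.Injective L) (h : ∀ x, Q (L x) = R x) (U : Submodule F W') :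
    NonDegOn (polarBilin R) U ↔ NonDegOn (polarBilin Q) (U.map L) := by
  have hp : ∀ x y, polarBilin Q (L x) (L y) = polarBilin R x y := fun x y => by simp [polar, ← map_add, h]
  constructor
  · rintro hU _ ⟨x, hx, rfl⟩ hall
    rw [hU x hx fun y hy => (hp x y).symm.trans (hall _ ⟨y, hy, rfl⟩), map_zero]
  · intro hU x hx hall
    refine hL ((hU _ ⟨x, hx, rfl⟩ ?_).trans (map_zero L).symm)
    rintro _ ⟨y, hy, rfl⟩
    exact (hp x y).trans (hall y hy)

theorem halfOn_map {W' : Type*} [AddCommGroup W'] [Module F W'] {R : QuadraticForm F W'} {L : W' →ₗ[F] V}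
    (hL : Function.Injective L) (h : ∀ x, Q (L x) = R x) (U : Submodule F W') :
    HalfOn R U ↔ HalfOn Q (U.map L) := by
  rw [← halfOn_sub, ← halfOn_range (Q := Q) (R := R.comp U.subtype) (L := L.comp U.subtype)
    (hL.comp U.subtype_injective) (fun x => h x), LinearMap.range_comp, range_subtype]

theorem hyp_map {W' : Type*} [AddCommGroup W'] [Module F W'] {R : QuadraticForm F W'} {L : W' →ₗ[F] V}
    (hL : Function.Injective L) (h : ∀ x, Q (L x) = R x) (m : ℕ) (U : Submodule F W') :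
    Hyp R m U ↔ Hyp Q m (U.map L) := by
  rw [Hyp, Hyp, nonDegOn_map hL h, halfOn_map hL h, ← (Submodule.equivMapOfInjective L hL U).finrank_eq]

variable [FiniteDimensional F V] [Fintype F]

/-- A hyperbolic subspace has the standard model. -/
theorem exists_plus_model {W : Submodule F V} {l : ℕ} (hW : Hyp Q (2 * l) W) :
    ∃ e : W ≃ₗ[F] (Fin l ⊕ Fin l → F), ∀ v : W, Q (v : V) = Cfsg.quadFormPlus l F (e v) := by
  obtain ⟨hd, hN, hH⟩ := hW
  obtain ⟨k, h⟩ := Forms.exists_finite_witt_decomposition (Q.comp W.subtype)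
    (Forms.nonsingOn_top_of_nondegenerate (sub_nondeg hN))
  rcases h with ⟨hk, e, he⟩ | ⟨hk, -⟩ | ⟨-, a, b, hab, e, he⟩
  · obtain rfl : k = l := by omega
    exact ⟨e, he⟩
  · omega
  · exfalso
    refine not_halfOn_minus k hab ((halfOn_range (Q := Q.comp W.subtype) (L := e.symm.toLinearMap) e.symm.injective
      fun x => ?_).1 ?_)
    · rw [LinearEquiv.coe_coe, he, LinearEquiv.apply_symm_apply, minusQF_apply]
    · rw [LinearEquiv.range]
      exact (halfOn_sub W).2 hH

/-- The type of an orthogonal sum. -/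
theorem halfOn_sup_iff {E X : Submodule F V} (hE : NonDegOn (polarBilin Q) E) (hX : NonDegOn (polarBilin Q) X)
    (ho : ∀ x ∈ E, ∀ y ∈ X, polarBilin Q x y = 0) (heE : Even (finrank F E)) (heX : Even (finrank F X)) :
    HalfOn Q (E ⊔ X) ↔ (HalfOn Q E ↔ HalfOn Q X) := by
  have hd := disjoint_of_orth hE ho
  have hN := nonDegOn_sup_symm hE hX ho
  constructor
  · refine fun h => ⟨fun hEh => ?_, fun hXh => halfOn_compl hN h rfl ho hd hXh⟩
    exact halfOn_compl hN h (sup_comm _ _) (fun x hx y hy => (polar_symm x y).trans (ho y hy x hx)) hd.symm hEh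
  · intro h
    by_cases hEh : HalfOn Q E
    · exact halfOn_sup hd ho hEh (h.1 hEh)
    · exact halfOn_sup_of_not hE hX ho heE heX hEh fun hXh => hEh (h.2 hXh)

section moving

variable {r i c : ℕ} [Fact r.Prime] {f : Module.End F V}

/-- Invariant nondegenerate subspaces of the moving part. -/
theorem exists_moving_nondeg (hQ : (polarBilin Q).Nondegenerate) (hfQ : ∀ v, Q (f v) = Q v) (hf : f ^ r = 1)
    (hr : ¬ r ∣ Fintype.card F) (hr2 : r ≠ 2) (hi : i = orderOf ((Fintype.card F : ℕ) : ZMod r))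
    (hc : c = if Even i then i else 2 * i) {j : ℕ} (hj : j * c ≤ finrank F (LinearMap.range (f - 1))) :
    ∃ X ≤ LinearMap.range (f - 1), (∀ v ∈ X, f v ∈ X) ∧ NonDegOn (polarBilin Q) X ∧ finrank F X = j * c := by
  set M := LinearMap.range (f - 1)
  set g := f ^ (r - 1)
  have hfg : ∀ v, f (g v) = v := fun v => by
    rw [← Module.End.mul_apply, ← pow_succ', Nat.sub_add_cancel (Fact.out : r.Prime).one_le, hf, Module.End.one_apply]
  have hgf : ∀ v, g (f v) = v := fun v => by
    rw [← Module.End.mul_apply, ← pow_succ, Nat.sub_add_cancel (Fact.out : r.Prime).one_le, hf, Module.End.one_apply]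
  let B : LinearMap.BilinForm F V := (polarBilin Q).compl₂ (f - g)
  have hBa : ∀ u v, B u v = polarBilin Q u (f v) - polarBilin Q u (g v) := fun u v => by simp [B]
  have hA : B.IsAlt := fun u => by
    rw [hBa, sub_eq_zero]
    conv_rhs => rw [← polar_map hfQ u (g u), hfg, polar_symm]
  have hBf : ∀ u v, B (f u) (f v) = B u v := fun u v => by
    rw [hBa, hBa]
    congr 1
    · exact polar_map hfQ _ _
    · rw [hgf]
      conv_rhs => rw [← polar_map hfQ u (g v), hfg]
  obtain ⟨hR, hT, hfix⟩ := moving_facts hQ hfQ hf hr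
  have hMN : NonDegOn B M := by
    intro x hx h
    -- the twist is surjective on the moving part
    let D : M →ₗ[F] M := (f.restrict range_invariant : Module.End F M) -
      ((f.restrict range_invariant : Module.End F M) ^ (r - 1))
    have hgM : ∀ (z : M), (((f.restrict range_invariant : Module.End F M) ^ (r - 1)) z : V) = g z := fun z => by
      rw [Module.End.pow_restrict]; rfl
    have hD : Function.Injective D := (injective_iff_map_eq_zero _).2 fun z hz => Subtype.ext <| by
      have h1 : f z.1 = g z.1 := (sub_eq_zero.1 (congrArg Subtype.val hz)).trans (hgM z)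
      have h2 : (f ^ 2) z.1 = z.1 := by rw [pow_two, Module.End.mul_apply, h1, hfg]
      have h3 : ∀ k, (f ^ (2 * k)) z.1 = z.1 := fun k => by
        induction k with
        | zero => simp
        | succ k ih => rw [Nat.mul_succ, pow_add, Module.End.mul_apply, h2, ih]
      obtain ⟨k, hk⟩ := (Fact.out : r.Prime).odd_of_ne_two hr2
      have h4 := LinearMap.congr_fun hf z.1
      rw [hk, pow_succ', Module.End.mul_apply, h3, Module.End.one_apply] at h4
      exact Submodule.disjoint_def.1 (disjoint_ker_range hf hr) _ (mem_ker_sub_one.2 h4) z.2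
    refine hQ.1 x fun y => ?_
    obtain ⟨a, ha, b, hb, rfl⟩ := mem_sup.1 (ker_sup_range hf hr ▸ mem_top : y ∈ _)
    obtain ⟨z, hz⟩ := LinearMap.injective_iff_surjective.1 hD ⟨b, hb⟩
    have hz' : f z.1 - g z.1 = b := by
      have := congrArg Subtype.val hz
      rwa [← hgM z]
    rw [← hz', map_add, polar_symm x a, ker_orth_range hfQ a ha x hx, zero_add, map_sub, ← hBa]
    exact h z z.2
  obtain ⟨X, hXM, hX, hXN, hXd⟩ := exists_nonDegOn_mult hA hBf (injective_of_pow_eq_one (r := r) hf) M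
    range_invariant hMN
    (fun Y hY hYf hYN hne => exists_nonDegOn_small hA hBf hf hr hr2 hYf hYN
      ((disjoint_ker_range hf hr).mono_right hY) hne hi hc) j hj
  refine ⟨X, hXM, hX, fun x hx h => hXN x hx fun y hy => ?_, hXd⟩
  have hgX : g y ∈ X := Module.End.pow_apply_mem_of_forall_mem (r - 1) hX y hy
  rw [hBa, h _ (hX y hy), h _ hgX, sub_zero]

/-- Splitting an invariant nondegenerate subspace into fixed and moving parts. -/
theorem exists_inv_split (hfQ : ∀ v, Q (f v) = Q v) (hf : f ^ r = 1)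
    (hr : ¬ r ∣ Fintype.card F) (hr2 : r ≠ 2) (hi : i = orderOf ((Fintype.card F : ℕ) : ZMod r))
    (hc : c = if Even i then i else 2 * i) {W : Submodule F V} (hW : ∀ v ∈ W, f v ∈ W)
    (hWN : NonDegOn (polarBilin Q) W) :
    ∃ E X : Submodule F V, E ≤ LinearMap.ker (f - 1) ∧ X ≤ LinearMap.range (f - 1) ∧ (∀ v ∈ X, f v ∈ X) ∧
      E ⊔ X = W ∧ NonDegOn (polarBilin Q) E ∧ NonDegOn (polarBilin Q) X ∧
      (∀ x ∈ E, ∀ y ∈ X, polarBilin Q x y = 0) ∧ ∃ j, finrank F X = j * c := by
  let R := Q.comp W.subtype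
  let g : Module.End F W := f.restrict hW
  have hgQ : ∀ v, R (g v) = R v := fun v => hfQ v
  have hg : g ^ r = 1 := LinearMap.ext fun y => Subtype.ext (by
    rw [Module.End.pow_restrict]
    exact LinearMap.congr_fun hf y)
  have hsub := sub_nondeg hWN
  obtain ⟨j, hj⟩ := exists_moving_dim hsub hgQ hg hr hr2 hi hc
  refine ⟨(LinearMap.ker (g - 1)).map W.subtype, (LinearMap.range (g - 1)).map W.subtype, ?_, ?_, ?_, ?_, ?_, ?_, ?_,
    j, ?_⟩
  · rintro _ ⟨x, hx, rfl⟩
    exact mem_ker_sub_one.2 (congrArg Subtype.val (mem_ker_sub_one.1 hx))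
  · rintro _ ⟨_, ⟨x, rfl⟩, rfl⟩
    exact ⟨(x : V), rfl⟩
  · rintro _ ⟨_, ⟨x, rfl⟩, rfl⟩
    exact ⟨g ((g - 1) x), range_invariant _ ⟨x, rfl⟩, rfl⟩
  · rw [← Submodule.map_sup, ker_sup_range hg hr, map_subtype_top]
  · exact (nonDegOn_map (R := R) W.subtype_injective (fun x => rfl) _).1 (nonDegOn_ker hsub hgQ hg hr)
  · refine (nonDegOn_map (R := R) W.subtype_injective (fun x => rfl) _).1 fun x hx h => hsub.1 x fun y => ?_
    obtain ⟨a, ha, b, hb, rfl⟩ := mem_sup.1 (ker_sup_range hg hr ▸ mem_top : y ∈ _)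
    rw [map_add, h b hb, polar_symm x a, ker_orth_range hgQ a ha x hx, zero_add]
  · rintro _ ⟨x, hx, rfl⟩ _ ⟨y, hy, rfl⟩
    have h : polar R x y = 0 := ker_orth_range hgQ x hx y hy
    simpa [R, polar] using h
  · rw [← (Submodule.equivMapOfInjective W.subtype W.subtype_injective _).finrank_eq, hj]

/-- The type of an invariant nondegenerate subspace of the moving part. -/
theorem halfOn_moving_iff {p : ℕ} [Fact p.Prime] [CharP F p] (hrp : r ≠ p) (hfQ : ∀ v, Q (f v) = Q v) (hf : f ^ r = 1)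
    (hr : ¬ r ∣ Fintype.card F) (hr2 : r ≠ 2) (hi : i = orderOf ((Fintype.card F : ℕ) : ZMod r))
    (hc : c = if Even i then i else 2 * i) {X : Submodule F V} (hXM : X ≤ LinearMap.range (f - 1))
    (hX : ∀ v ∈ X, f v ∈ X) (hXN : NonDegOn (polarBilin Q) X) {j : ℕ} (hj : finrank F X = j * c) :
    HalfOn Q X ↔ (Odd i ∨ Even j) := by
  obtain ⟨-, ⟨Φ⟩⟩ := PrimeSO.exists_fac (F := F) (Fact.out : r.Prime) hr2 hrp hi
  let g : Module.End F X := f.restrict hX
  have hgQ : ∀ v, Q.comp X.subtype (g v) = Q.comp X.subtype v := fun v => hfQ v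
  have hg : g ^ r = 1 := LinearMap.ext fun y => Subtype.ext (by
    rw [Module.End.pow_restrict]
    exact LinearMap.congr_fun hf y)
  have hM : LinearMap.range (g - 1) = ⊤ := by
    refine LinearMap.range_eq_top.2 (LinearMap.injective_iff_surjective.1 ((injective_iff_map_eq_zero _).2 fun x hx =>
      Subtype.ext ?_))
    exact Submodule.disjoint_def.1 (disjoint_ker_range hf hr) _
      (mem_ker_sub_one.2 (congrArg Subtype.val (mem_ker_sub_one.1 (LinearMap.mem_ker.2 hx)))) (hXM x.2)
  rw [← halfOn_sub]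
  constructor
  · rintro ⟨U, -, hUS, hUd⟩
    rcases Nat.even_or_odd i with he | ho
    · rw [hc, if_pos he] at hj
      exact Or.inr (even_of_half_moving (sub_nondeg hXN) hgQ hg hr hr2 hi he (by rw [hM, finrank_top, hj])
        (hM.symm ▸ le_top) hUS (by rw [finrank_top] at hUd; rwa [hM, finrank_top]))
    · exact Or.inl ho
  · intro h
    obtain ⟨A, hA, hpar⟩ : ∃ A, finrank F X = A * i ∧ (Odd i ∨ Even A) := by
      by_cases he : Even i
      · rw [hc, if_pos he] at hj
        exact ⟨j, hj, h⟩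
      · exact ⟨j * 2, by rw [hj, hc, if_neg he, Nat.mul_assoc], Or.inr ⟨j, Nat.mul_two j⟩⟩
    obtain ⟨U, -, hUS, hUd⟩ := exists_half_moving Φ (sub_nondeg hXN) hgQ hg hr hr2 hi
      (A := A) (by rw [hM, finrank_top, hA]) hpar
    exact ⟨U, le_top, hUS, by rw [hM, finrank_top] at hUd; rwa [finrank_top]⟩

/-- An isometry with small fixed space fixing a hyperbolic subspace of dimension below `c`. -/
theorem not_dvd_card_hyp (hQ : (polarBilin Q).Nondegenerate) (hfQ : ∀ v, Q (f v) = Q v) (hf : f ^ r = 1)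
    (hr : ¬ r ∣ Fintype.card F) (hr2 : r ≠ 2) (hi : i = orderOf ((Fintype.card F : ℕ) : ZMod r))
    (hc : c = if Even i then i else 2 * i) {m : ℕ} (hme : Even m) (hmc : m < c)
    (hC : finrank F (LinearMap.ker (f - 1)) < c) {W₀ : Submodule F V} (hW₀ : Hyp Q m W₀) (hWf : W₀.map f ≤ W₀) :
    ¬ r ∣ Nat.card {W : Submodule F V // Hyp Q m W} := by
  classical
  intro hdvd
  have : Finite V := Module.finite_of_finite F
  have : Fintype {W : Submodule F V // Hyp Q m W} := Fintype.ofFinite _
  set C := LinearMap.ker (f - 1)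
  -- fixed subspaces lie in the fixed space
  have hfix : ∀ W : Submodule F V, Hyp Q m W → W.map f ≤ W → W ≤ C := by
    intro W hW hWf
    obtain ⟨E, X, hE, -, -, hsup, hEN, -, ho, j, hj⟩ := exists_inv_split hfQ hf hr hr2 hi hc
      (W := W) (fun v hv => hWf ⟨v, hv, rfl⟩) hW.2.1
    have hd := finrank_eq_add_of_disjoint hsup (disjoint_of_orth hEN ho)
    rw [hW.1, hj] at hd
    have hj0 : j = 0 := by
      rcases Nat.eq_zero_or_pos j with h | h
      · exact h
      · have := Nat.le_mul_of_pos_left c h; omega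
    rw [hj0, Nat.zero_mul] at hj
    rw [← hsup, Submodule.finrank_eq_zero.1 hj, sup_bot_eq]
    exact hE
  -- the permutation on hyperbolic subspaces
  let fe := PrimeSO.toEquivOfPow f (Fact.out : r.Prime).pos hf
  let σ : Equiv.Perm {W : Submodule F V // Hyp Q m W} :=
    (Submodule.orderIsoMapComap fe).toEquiv.subtypeEquiv fun W => hyp_map (R := Q) fe.injective (fun x => hfQ x) m W
  have hσa : ∀ W, (σ W).1 = W.1.map f := fun W => rfl
  have hσ : σ ^ r ^ 1 = 1 := Equiv.ext fun W => Subtype.ext (by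
    have hp : ∀ k, ((σ ^ k) W).1 = W.1.map (f ^ k) := fun k => by
      induction k with
      | zero => rw [pow_zero, pow_zero, Module.End.one_eq_id, Submodule.map_id]; rfl
      | succ k ih => rw [pow_succ', Equiv.Perm.mul_apply, hσa, ih, pow_succ', Module.End.mul_eq_comp, Submodule.map_comp]
    rw [pow_one, hp, hf, Module.End.one_eq_id, Submodule.map_id]
    rfl)
  have hmod := Equiv.Perm.card_compl_support_modEq hσ
  let S := {U : Submodule F C // Hyp (Q.comp C.subtype) m U}
  have hS : σ.supportᶜ.card = Nat.card S := by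
    rw [← Fintype.card_coe, ← Nat.card_eq_fintype_card]
    refine Nat.card_congr
      { toFun := fun W => ⟨W.1.1.comap C.subtype, ?_⟩
        invFun := fun U => ⟨⟨U.1.map C.subtype, (hyp_map C.subtype_injective (fun x => rfl) m _).1 U.2⟩, ?_⟩
        left_inv := fun W => Subtype.ext (Subtype.ext ?_)
        right_inv := fun U => Subtype.ext (comap_map_eq_of_injective C.subtype_injective _) }
    · have hle : W.1.1 ≤ C := hfix _ W.1.2 (by
        have := Equiv.Perm.notMem_support.1 (Finset.mem_compl.1 W.2)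
        rw [← hσa W.1, this])
      rw [hyp_map (Q := Q) C.subtype_injective (fun x => rfl), map_comap_subtype, inf_eq_right.2 hle]
      exact W.1.2
    · rw [Finset.mem_compl, Equiv.Perm.notMem_support]
      refine Subtype.ext ((hσa _).trans ?_)
      ext v
      constructor
      · rintro ⟨_, ⟨u, hu, rfl⟩, rfl⟩
        exact ⟨u, hu, (mem_ker_sub_one.1 u.2).symm⟩
      · rintro ⟨u, hu, rfl⟩
        exact ⟨u, ⟨u, hu, rfl⟩, mem_ker_sub_one.1 u.2⟩
    · show (W.1.1.comap C.subtype).map C.subtype = W.1.1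
      have hle : W.1.1 ≤ C := hfix _ W.1.2 (by
        have := Equiv.Perm.notMem_support.1 (Finset.mem_compl.1 W.2)
        rw [← hσa W.1, this])
      rw [map_comap_subtype, inf_eq_right.2 hle]
  rw [hS] at hmod
  rw [← Nat.card_eq_fintype_card] at hmod
  have hdS : r ∣ Nat.card S := (Nat.ModEq.dvd_iff hmod dvd_rfl).2 hdvd
  -- the orthogonal group of the fixed space is transitive on them
  have hCN : (polarBilin (Q.comp C.subtype)).Nondegenerate := sub_nondeg (nonDegOn_ker hQ hfQ hf hr)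
  let U₀ : S := ⟨W₀.comap C.subtype, by
    rw [hyp_map (Q := Q) C.subtype_injective (fun x => rfl), map_comap_subtype, inf_eq_right.2 (hfix _ hW₀ hWf)]
    exact hW₀⟩
  let G := OQ (Q.comp C.subtype)
  let φ : G → S := fun g => ⟨U₀.1.map (g : C ≃ₗ[F] C).toLinearMap,
    (hyp_map (g : C ≃ₗ[F] C).injective (fun x => g.2 x) m _).1 U₀.2⟩
  have hφ : Function.Surjective φ := by
    intro U
    obtain ⟨l, hl⟩ := hme
    have hl' : m = 2 * l := by omega
    subst hl'
    obtain ⟨e₀, he₀⟩ := exists_plus_model (l := l) U₀.2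
    obtain ⟨e, he⟩ := exists_plus_model (l := l) U.2
    obtain ⟨g, hg, hgU⟩ := Forms.witt_extension_quad_nondeg hCN U₀.1 U.1 (e₀.trans e.symm) fun x => by
      rw [he₀, he, LinearEquiv.trans_apply, LinearEquiv.apply_symm_apply]
    refine ⟨⟨g, hg⟩, Subtype.ext (eq_of_le_of_finrank_le ?_ ?_)⟩
    · rintro _ ⟨x, hx, rfl⟩
      rw [LinearEquiv.coe_coe]
      rw [show g x = _ from hgU ⟨x, hx⟩]
      exact SetLike.coe_mem _
    · rw [← (Submodule.equivMapOfInjective _ g.injective _).finrank_eq, U.2.1, U₀.2.1]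
  have hfib : ∀ U, {g // φ g = U} ≃ {g // φ g = U₀} := fun U =>
    (Equiv.subtypeEquiv (Equiv.mulLeft (hφ U).choose) fun h => by
      have hg := congrArg Subtype.val (hφ U).choose_spec
      rw [Subtype.ext_iff, Subtype.ext_iff]
      show _ ↔ U₀.1.map (((hφ U).choose * h : G) : C ≃ₗ[F] C).toLinearMap = _
      rw [← hg, Subgroup.coe_mul, LinearEquiv.mul_eq_trans, LinearEquiv.coe_trans, Submodule.map_comp]
      exact ((Submodule.map_injective_of_injective ((hφ U).choose : C ≃ₗ[F] C).injective).eq_iff).symm).symm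
  have hG : Nat.card G = Nat.card S * Nat.card {g // φ g = U₀} := by
    rw [← Nat.card_prod]
    exact Nat.card_congr (((Equiv.sigmaFiberEquiv φ).symm.trans (Equiv.sigmaCongrRight hfib)).trans
      (Equiv.sigmaEquivProd _ _))
  have : Finite (C ≃ₗ[F] C) := Finite.of_injective (fun g : C ≃ₗ[F] C => (g : C → C)) DFunLike.coe_injective
  obtain ⟨g, hg⟩ := exists_prime_orderOf_dvd_card' (G := G) r (hG ▸ hdS.mul_right _)
  -- which has no element of order `r`
  let T : Module.End F C := (g : C ≃ₗ[F] C).toLinearMap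
  have hT : T ^ r = 1 := LinearMap.ext fun v => by
    have hp : ∀ k, (T ^ k) v = ((g ^ k : G) : C ≃ₗ[F] C) v := fun k => by
      induction k with
      | zero => rfl
      | succ k ih => rw [pow_succ', pow_succ', Module.End.mul_apply, ih]; rfl
    rw [hp, ← hg, pow_orderOf_eq_one]
    rfl
  obtain ⟨j, hj⟩ := exists_moving_dim hCN (f := T) (fun v => g.2 v) hT hr hr2 hi hc
  have hle := Submodule.finrank_le (LinearMap.range (T - 1))
  have hj0 : LinearMap.range (T - 1) = ⊥ := by
    rcases Nat.eq_zero_or_pos j with h | h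
    · exact Submodule.finrank_eq_zero.1 (by rw [hj, h, Nat.zero_mul])
    · have := Nat.le_mul_of_pos_left c h; omega
  rw [LinearMap.range_eq_bot, sub_eq_zero] at hj0
  have hg1 : g = 1 := Subtype.ext (LinearEquiv.toLinearMap_injective hj0)
  rw [hg1, orderOf_one] at hg
  exact (Fact.out : r.Prime).ne_one hg.symm

/-- When an isometry of odd prime order fixes a hyperbolic subspace. -/
theorem fixes_hyp_iff {p : ℕ} [Fact p.Prime] [CharP F p] (hrp : r ≠ p) (hQ : (polarBilin Q).Nondegenerate)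
    (hV : HalfOn Q ⊤) (hVe : Even (finrank F V)) (hfQ : ∀ v, Q (f v) = Q v) (hf : f ^ r = 1)
    (hr : ¬ r ∣ Fintype.card F) (hr2 : r ≠ 2) (hi : i = orderOf ((Fintype.card F : ℕ) : ZMod r))
    (hc : c = if Even i then i else 2 * i) {A : ℕ} (hA : finrank F (LinearMap.range (f - 1)) = A * c)
    {m : ℕ} (hme : Even m) :
    (∃ W : Submodule F V, Hyp Q m W ∧ W.map f ≤ W) ↔
      ∃ j ≤ A, j * c ≤ m ∧ m - j * c + A * c ≤ finrank F V ∧
        (Odd i ∨ (0 < m - j * c ∧ m - j * c + A * c < finrank F V) ∨ (m - j * c = 0 ∧ Even j) ∨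
          (m - j * c + A * c = finrank F V ∧ (Even j ↔ Even A))) := by
  set C := LinearMap.ker (f - 1)
  set M := LinearMap.range (f - 1)
  have hCM : finrank F C + finrank F M = finrank F V := finrank_ker_add_range
  have hCd : finrank F C = finrank F (LinearMap.ker (f - 1)) := rfl
  have hMd : finrank F M = finrank F (LinearMap.range (f - 1)) := rfl
  have hce : Even c := by
    rw [hc]; split_ifs with h
    · exact h
    · exact even_two_mul i
  have hMe : Even (finrank F M) := hA ▸ hce.mul_left A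
  have hCe : Even (finrank F C) := (Nat.even_add.1 (hCM ▸ hVe)).2 hMe
  have hCN := nonDegOn_ker hQ hfQ hf hr
  obtain ⟨hR, -, -⟩ := moving_facts hQ hfQ hf hr
  have hMN : NonDegOn (polarBilin Q) M := fun x hx h =>
    congrArg Subtype.val (hR.1 ⟨x, hx⟩ fun y => by simpa [polar] using h y y.2)
  have hoCM : ∀ x ∈ C, ∀ y ∈ M, polarBilin Q x y = 0 := ker_orth_range hfQ
  have hCh : HalfOn Q C ↔ (Odd i ∨ Even A) := by
    have h := halfOn_sup_iff hCN hMN hoCM hCe hMe
    rw [ker_sup_range hf hr] at h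
    rw [(h.1 hV), halfOn_moving_iff hrp hfQ hf hr hr2 hi hc le_rfl range_invariant hMN hA]
  constructor
  · rintro ⟨W, ⟨hWd, hWN, hWh⟩, hWf⟩
    obtain ⟨E, X, hE, hXM, hX, hsup, hEN, hXN, ho, j, hj⟩ := exists_inv_split hfQ hf hr hr2 hi hc
      (W := W) (fun v hv => hWf ⟨v, hv, rfl⟩) hWN
    have hd := finrank_eq_add_of_disjoint hsup (disjoint_of_orth hEN ho)
    rw [hWd, hj] at hd
    have hEC := Submodule.finrank_mono hE
    have hXA := Submodule.finrank_mono hXM
    rw [hj, hA] at hXA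
    have hEe : Even (finrank F E) := (Nat.even_add.1 (hd ▸ hme)).2 (hce.mul_left j)
    have htype := (halfOn_sup_iff hEN hXN ho hEe (hj ▸ hce.mul_left j)).1 (hsup ▸ hWh)
    rw [halfOn_moving_iff hrp hfQ hf hr hr2 hi hc hXM hX hXN hj] at htype
    have hc0 : 0 < c := by
      have := orderOf_pos_of_not_dvd hr; rw [hc]; split_ifs <;> omega
    have hjA : j ≤ A := Nat.le_of_mul_le_mul_right hXA hc0
    refine ⟨j, hjA, by omega, by omega, ?_⟩
    by_cases ho' : Odd i
    · exact Or.inl ho'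
    · simp only [ho', false_or] at htype hCh ⊢
      rcases Nat.eq_zero_or_pos (finrank F E) with h0 | h0
      · rw [Submodule.finrank_eq_zero.1 h0] at htype
        exact Or.inr (Or.inl ⟨by omega, htype.1 halfOn_bot⟩)
      · rcases lt_or_eq_of_le hEC with hlt | heq
        · exact Or.inl ⟨by omega, by omega⟩
        · obtain rfl : E = C := Submodule.eq_of_le_of_finrank_eq hE heq
          exact Or.inr (Or.inr ⟨by omega, htype.symm.trans hCh⟩)
  · rintro ⟨j, hjA, hjm, hle, hcond⟩
    obtain ⟨X, hXM, hX, hXN, hXd⟩ := exists_moving_nondeg hQ hfQ hf hr hr2 hi hc (j := j)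
      (hA ▸ Nat.mul_le_mul_right c hjA)
    obtain ⟨E, hEC, hEN, hEd, hEh⟩ : ∃ E ≤ C, NonDegOn (polarBilin Q) E ∧ finrank F E = m - j * c ∧
        (HalfOn Q E ↔ (Odd i ∨ Even j)) := by
      have hee : Even (m - j * c) := (Nat.even_sub hjm).2 (iff_of_true hme (hce.mul_left j))
      rcases Nat.eq_zero_or_pos (m - j * c) with h0 | h0
      · refine ⟨⊥, bot_le, nonDegOn_bot _, by rw [finrank_bot, h0], iff_of_true halfOn_bot ?_⟩
        rcases hcond with h | ⟨h, -⟩ | ⟨-, h⟩ | ⟨h, h'⟩
        · exact Or.inl h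
        · omega
        · exact Or.inr h
        · have hC0 : C = ⊥ := Submodule.finrank_eq_zero.1 (by omega)
          rcases (hC0 ▸ hCh).1 halfOn_bot with h'' | h''
          · exact Or.inl h''
          · exact Or.inr (h'.2 h'')
      · rcases lt_or_eq_of_le (show m - j * c ≤ finrank F C by omega) with hlt | heq
        · exact exists_sub_typed hCN hCe hee h0 hlt _
        · refine ⟨C, le_rfl, hCN, heq.symm, hCh.trans ?_⟩
          rcases hcond with h | ⟨-, h⟩ | ⟨h, -⟩ | ⟨-, h⟩
          · simp [h]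
          · omega
          · omega
          · rw [h]
    have ho : ∀ x ∈ E, ∀ y ∈ X, polarBilin Q x y = 0 := fun x hx y hy => hoCM x (hEC hx) y (hXM hy)
    refine ⟨E ⊔ X, ⟨?_, nonDegOn_sup_symm hEN hXN ho, ?_⟩, map_le_self fun v hv => ?_⟩
    · rw [finrank_eq_add_of_disjoint rfl (disjoint_of_orth hEN ho), hEd, hXd]; omega
    · refine (halfOn_sup_iff hEN hXN ho (hEd ▸ (Nat.even_sub hjm).2 (iff_of_true hme (hce.mul_left j))) (hXd ▸ hce.mul_left j)).2 ?_
      rw [hEh, halfOn_moving_iff hrp hfQ hf hr hr2 hi hc hXM hX hXN hXd]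
    · obtain ⟨a, ha, b, hb, rfl⟩ := mem_sup.1 hv
      rw [map_add, mem_ker_sub_one.1 (hEC ha)]
      exact add_mem_sup ha (hX b hb)

end moving

section plus

variable {d m : ℕ}

theorem finrank_plus (F : Type*) [Field F] (d : ℕ) : finrank F (Fin d ⊕ Fin d → F) = 2 * d := by
  rw [Module.finrank_pi, Fintype.card_sum, Fintype.card_fin, two_mul]

omit [FiniteDimensional F V] [Fintype F] in
/-- The formulation of a hyperbolic subspace with a half of exact dimension. -/
theorem hyp_iff [FiniteDimensional F V] (m : ℕ) (W : Submodule F V) :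
    Hyp Q m W ↔ (finrank F W = m ∧ (∀ u ∈ W, u ≠ 0 → ∃ v ∈ W, polar Q u v ≠ 0) ∧
      ∃ U : Submodule F V, U ≤ W ∧ 2 * finrank F U = m ∧ ∀ u ∈ U, Q u = 0) := by
  constructor
  · rintro ⟨hd, hN, U, hU, hUS, hUd⟩
    refine ⟨hd, fun u hu hne => ?_, U, hU, le_antisymm ?_ (hd ▸ hUd), hUS⟩
    · by_contra hcon
      push Not at hcon
      exact hne (hN u hu fun v hv => hcon v hv)
    · exact hd ▸ two_mul_finrank_le hU hN (isoOn_of_singular hUS)
  · rintro ⟨hd, hN, U, hU, hUd, hUS⟩
    refine ⟨hd, fun u hu h => ?_, U, hU, hUS, by omega⟩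
    by_contra hne
    obtain ⟨v, hv, hv'⟩ := hN u hu hne
    exact hv' (h v hv)

theorem exists_hyp {e : ℕ} (he : Even e) (he0 : 0 < e) (hed : e < 2 * d) :
    ∃ W : Submodule F (Fin d ⊕ Fin d → F), Hyp (plusQF d F) e W := by
  have hN : NonDegOn (polarBilin (plusQF d F)) (⊤ : Submodule F (Fin d ⊕ Fin d → F)) :=
    nonDegOn_top (PrimeSO.plusQF_polar_nondegenerate d)
  obtain ⟨U, -, hUN, hUd, hUh⟩ := exists_sub_typed hN (by rw [finrank_top, finrank_plus]; exact even_two_mul d) he he0
    (by rwa [finrank_top, finrank_plus]) True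
  exact ⟨U, hUd, hUN, hUh.2 trivial⟩

variable {r i c : ℕ} [Fact r.Prime]

/-- The criterion for odd primes, stated for maps of order dividing `r`. -/
theorem odd_prime_iff_hyp {p : ℕ} [Fact p.Prime] [CharP F p] (hm : 2 ≤ m) (hme : Even m) (hmd : m < d)
    (hr2 : r ≠ 2) (hrp : r ≠ p) (hrq : ¬ r ∣ Fintype.card F)
    (hi : i = orderOf ((Fintype.card F : ℕ) : ZMod r)) (hc : c = if Even i then i else 2 * i)
    (hdvd : r ∣ Nat.card {W : Submodule F (Fin d ⊕ Fin d → F) // Hyp (plusQF d F) m W}) :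
    (∀ f : Module.End F (Fin d ⊕ Fin d → F), f ^ r = 1 → f ≠ 1 → (∀ v, plusQF d F (f v) = plusQF d F v) →
      ∃ W : Submodule F (Fin d ⊕ Fin d → F), Hyp (plusQF d F) m W ∧ W.map f ≤ W) ↔
    ((Odd i ∧ c ≤ m ∧ m % c ≤ (2 * d) % c) ∨
     (Even i ∧
       (((2 * d) % c = 0 ∧ (Odd ((2 * d) / i) ∨ (m % c = 0 ∧ Even (m / i)))) ∨
        (i ≤ m ∧ ((m % c < (2 * d) % c ∧ 0 < m % c) ∨
                  ((2 * d) % c = m % c ∧ 0 < m % c ∧ Even ((2 * d + m - 2 * ((2 * d) % c)) / i)) ∨
                  (0 < (2 * d) % c ∧ m % c = 0 ∧ Even (m / i))))))) := by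
  classical
  have hr := (Fact.out : r.Prime)
  obtain ⟨hi0, ⟨Φ⟩⟩ := PrimeSO.exists_fac (F := F) hr hr2 hrp hi
  set Q := plusQF d F
  have hQ : (polarBilin Q).Nondegenerate := PrimeSO.plusQF_polar_nondegenerate d
  have hV := finrank_plus F d
  have hce : Even c := by
    rw [hc]; split_ifs with h
    · exact h
    · exact even_two_mul i
  have hc0 : 0 < c := by rw [hc]; split_ifs <;> omega
  -- the count forces `c ≤ 2 d`
  have hcd : c ≤ 2 * d := by
    by_contra hlt
    obtain ⟨W₀, hW₀⟩ := exists_hyp (F := F) (d := d) hme (by omega) (by omega)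
    refine not_dvd_card_hyp (f := 1) hQ (fun v => rfl) (one_pow r) hrq hr2 hi hc hme (by omega) ?_ hW₀ ?_ hdvd
    · rw [sub_self, LinearMap.ker_zero, finrank_top, hV]; omega
    · rw [Module.End.one_eq_id, Submodule.map_id]
  -- the condition on the number of moving blocks
  let G : ℕ → Prop := fun A => ∃ j ≤ A, j * c ≤ m ∧ m - j * c + A * c ≤ 2 * d ∧
    (Odd i ∨ (0 < m - j * c ∧ m - j * c + A * c < 2 * d) ∨ (m - j * c = 0 ∧ Even j) ∨
      (m - j * c + A * c = 2 * d ∧ (Even j ↔ Even A)))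
  have hfix : ∀ (f : Module.End F (Fin d ⊕ Fin d → F)) (A : ℕ), f ^ r = 1 → (∀ v, Q (f v) = Q v) →
      finrank F (LinearMap.range (f - 1)) = A * c →
      ((∃ W, Hyp Q m W ∧ W.map f ≤ W) ↔ G A) := fun f A hf hfQ hA => by
    rw [fixes_hyp_iff hrp hQ (halfOn_plus d) (hV ▸ even_two_mul d) hfQ hf hrq hr2 hi hc hA hme, hV]
  -- elements with prescribed number of blocks
  have helem : ∀ A, 1 ≤ A → A * c ≤ 2 * d → (Odd i ∨ Even A ∨ A * c < 2 * d) →
      ∃ f : Module.End F (Fin d ⊕ Fin d → F), f ^ r = 1 ∧ f ≠ 1 ∧ (∀ v, Q (f v) = Q v) ∧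
        finrank F (LinearMap.range (f - 1)) = A * c := by
    intro A hA1 hle hpar
    have hne : Nonempty Φ.s := by
      rw [← Fintype.card_pos_iff, Fintype.card_coe]
      refine Nat.pos_of_ne_zero fun h0 => ?_
      have := Φ.card_s
      rw [h0, Nat.zero_mul] at this
      have := hr.two_le
      omega
    obtain ⟨f₀⟩ := hne
    obtain ⟨a, hinv, hsum⟩ : ∃ a : Φ.s → ℕ, (∀ j, a (Φ.tau j) = a j) ∧ (∑ j, a j) * i = A * c := by
      by_cases he : Even i
      · exact ⟨fun j => if j = f₀ then A else 0, fun j => by rw [Φ.tau_even he], by simp [hc, he]⟩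
      · refine ⟨fun j => (if j = f₀ then A else 0) + (if j = Φ.tau f₀ then A else 0), fun j => ?_, ?_⟩
        · have h1 : Φ.tau j = f₀ ↔ j = Φ.tau f₀ :=
            ⟨fun h => by rw [← h, Φ.tau_tau], fun h => by rw [h, Φ.tau_tau]⟩
          have h2 : Φ.tau j = Φ.tau f₀ ↔ j = f₀ :=
            ⟨fun h => by rw [← Φ.tau_tau j, h, Φ.tau_tau], fun h => by rw [h]⟩
          simp only [h1, h2, add_comm]
        · simp only [Finset.sum_add_distrib, Finset.sum_ite_eq', Finset.mem_univ, if_true]
          rw [hc, if_neg he]; ring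
    have hpar' : Odd i ∨ Even (∑ j, a j) ∨ (∑ j, a j) * i < 2 * d := by
      rcases Nat.even_or_odd i with he | ho
      · rw [hc, if_pos he] at hsum hpar
        rw [hsum, Nat.eq_of_mul_eq_mul_right hi0 hsum]
        exact hpar
      · exact Or.inl ho
    obtain ⟨S, hS, hSQ, hSd⟩ := exists_element_plus hr hr2 Φ hi0 hi a hinv (hsum ▸ hle) hpar'
    have hC := finrank_ker_sub_one Φ hS a hSd
    have hM := finrank_ker_add_range (f := S)
    rw [hV] at hC hM
    have hMA : finrank F (LinearMap.range (S - 1)) = A * c := by omega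
    refine ⟨S, hS, ?_, hSQ, hMA⟩
    rintro rfl
    rw [sub_self, LinearMap.range_zero, finrank_bot] at hMA
    have := Nat.mul_pos hA1 hc0
    omega
  have hLHS : (∀ f : Module.End F (Fin d ⊕ Fin d → F), f ^ r = 1 → f ≠ 1 → (∀ v, Q (f v) = Q v) →
      ∃ W : Submodule F (Fin d ⊕ Fin d → F), Hyp Q m W ∧ W.map f ≤ W) ↔
      ∀ A, 1 ≤ A → A * c ≤ 2 * d → (Odd i ∨ Even A ∨ A * c < 2 * d) → G A := by
    constructor
    · intro h A hA1 hle hpar
      obtain ⟨f, hf, hf1, hfQ, hA⟩ := helem A hA1 hle hpar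
      exact (hfix f A hf hfQ hA).1 (h f hf hf1 hfQ)
    · intro h f hf hf1 hfQ
      obtain ⟨A, hA⟩ := exists_moving_dim hQ hfQ hf hrq hr2 hi hc
      have hle := Submodule.finrank_le (LinearMap.range (f - 1))
      rw [hA, hV] at hle
      refine (hfix f A hf hfQ hA).2 (h A ?_ hle ?_)
      · refine Nat.pos_of_ne_zero fun h0 => hf1 (sub_eq_zero.1 (LinearMap.range_eq_bot.1 (Submodule.finrank_eq_zero.1 ?_)))
        rw [hA, h0, Nat.zero_mul]
      · rcases Nat.even_or_odd i with he | ho
        · rcases lt_or_eq_of_le hle with hlt | heq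
          · exact Or.inr (Or.inr hlt)
          · have hMt : LinearMap.range (f - 1) = ⊤ := Submodule.eq_top_of_finrank_eq (by rw [hA, heq, hV])
            have h := halfOn_moving_iff hrp hfQ hf hrq hr2 hi hc le_rfl range_invariant
              (hMt ▸ nonDegOn_top hQ) hA
            exact ((h.1 (hMt ▸ halfOn_plus d)).imp id Or.inl)
        · exact Or.inl ho
  rw [hLHS]
  -- arithmetic
  set N := 2 * d / c with hN
  set k := 2 * d % c with hk
  set M := m / c with hM
  set l := m % c with hl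
  have hn : N * c + k = 2 * d := Nat.div_add_mod' _ _
  have hmm : M * c + l = m := Nat.div_add_mod' _ _
  have hkc : k < c := Nat.mod_lt _ hc0
  have hlc : l < c := Nat.mod_lt _ hc0
  have hN0 : 1 ≤ N := Nat.div_pos hcd hc0
  have hAN : ∀ A, A * c ≤ 2 * d → A ≤ N := fun A h => (Nat.le_div_iff_mul_le hc0).2 h
  have hMN : M ≤ N := Nat.div_le_div_right (by omega)
  -- all moving blocks
  have htop : (Odd i ∨ Even N ∨ N * c < 2 * d) → (∀ A, 1 ≤ A → A * c ≤ 2 * d → (Odd i ∨ Even A ∨ A * c < 2 * d) → G A) →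
      c ≤ m ∧ l ≤ k ∧ (Odd i ∨ (0 < l ∧ l < k) ∨ (l = 0 ∧ Even M) ∨ (l = k ∧ (Even M ↔ Even N))) := by
    intro hpar h
    have hle : N * c ≤ 2 * d := by omega
    have hG := h N hN0 hle hpar
    have hcm : c ≤ m := by
      by_contra hlt
      obtain ⟨f, hf, -, hfQ, hA⟩ := helem N hN0 hle hpar
      obtain ⟨W₀, hW₀, hWf⟩ := (hfix f N hf hfQ hA).2 hG
      have hd := finrank_ker_add_range (f := f)
      rw [hA, hV] at hd
      exact not_dvd_card_hyp hQ hfQ hf hrq hr2 hi hc hme (by omega) (by omega) hW₀ hWf hdvd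
    obtain ⟨j, hj, hjm, hek, hcond⟩ := hG
    have hjM : j = M := by
      refine le_antisymm ((Nat.le_div_iff_mul_le hc0).2 hjm) ?_
      by_contra hlt
      have := Nat.mul_le_mul_right c (Nat.succ_le_of_lt (Nat.not_le.1 hlt))
      rw [Nat.succ_mul] at this
      omega
    subst hjM
    refine ⟨hcm, by omega, ?_⟩
    rcases hcond with h' | ⟨h1, h2⟩ | ⟨h1, h2⟩ | ⟨h1, h2⟩
    · exact Or.inl h'
    · exact Or.inr (Or.inl ⟨by omega, by omega⟩)
    · exact Or.inr (Or.inr (Or.inl ⟨by omega, h2⟩))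
    · exact Or.inr (Or.inr (Or.inr ⟨by omega, h2⟩))
  rcases Nat.even_or_odd i with hev | hodd
  · have hci : c = i := by rw [hc, if_pos hev]
    have hnodd : ¬ Odd i := Nat.not_odd_iff_even.2 hev
    simp only [hnodd, false_and, false_or, hev, true_and]
    rw [← hci, ← hN, ← hM]
    simp only [hnodd, false_or] at htop
    have hNM : l = k → (2 * d + m - 2 * k) / c = N + M := fun h => by
      rw [show 2 * d + m - 2 * k = (N + M) * c by rw [Nat.add_mul]; omega, Nat.mul_div_cancel _ hc0]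
    constructor
    · intro h
      by_cases hk0 : k = 0
      · refine Or.inl ⟨hk0, (Nat.even_or_odd N).symm.imp_right fun hNe => ?_⟩
        obtain ⟨-, hlk, hcases⟩ := htop (Or.inl hNe) h
        refine ⟨by omega, ?_⟩
        rcases hcases with ⟨h1, h2⟩ | ⟨-, h2⟩ | ⟨-, h2⟩
        · omega
        · exact h2
        · exact h2.2 hNe
      · obtain ⟨hcm, hlk, hcases⟩ := htop (Or.inr (by omega)) h
        refine Or.inr ⟨hcm, ?_⟩
        rcases hcases with ⟨h1, h2⟩ | ⟨h1, h2⟩ | ⟨h1, h2⟩
        · exact Or.inl ⟨h2, h1⟩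
        · exact Or.inr (Or.inr ⟨by omega, h1, h2⟩)
        · refine Or.inr (Or.inl ⟨h1.symm, by omega, ?_⟩)
          rw [hNM h1, Nat.even_add]
          exact h2.symm
    · intro h A hA1 hle hvalid
      rcases Nat.lt_or_ge A M with hAM | hMA
      · have := Nat.mul_le_mul_right c (Nat.succ_le_of_lt hAM)
        rw [Nat.succ_mul] at this
        exact ⟨A, le_rfl, by omega, by omega, Or.inr (Or.inl ⟨by omega, by omega⟩)⟩
      have hmj : m - M * c = l := by omega
      rcases lt_or_eq_of_le (hAN A hle) with hlt | rfl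
      · have h1 := Nat.mul_le_mul_right c (Nat.succ_le_of_lt hlt)
        rw [Nat.succ_mul] at h1
        by_cases hl0 : 0 < l
        · exact ⟨M, hMA, by omega, by omega, Or.inr (Or.inl ⟨by omega, by omega⟩)⟩
        by_cases hMe : Even M
        · exact ⟨M, hMA, by omega, by omega, Or.inr (Or.inr (Or.inl ⟨by omega, hMe⟩))⟩
        obtain ⟨M', hM'⟩ : ∃ M', M = M' + 1 := ⟨M - 1, by rcases Nat.eq_zero_or_pos M with h | h
                                                          · exact absurd (h ▸ Even.zero) hMe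
                                                          · omega⟩
        have hMc : M' * c + c = M * c := by rw [hM', Nat.succ_mul]
        refine ⟨M', by omega, by omega, by omega, Or.inr ?_⟩
        by_cases htight : m - M' * c + A * c < 2 * d
        · exact Or.inl ⟨by omega, htight⟩
        · have hk0 : k = 0 := by omega
          have hA' : A + 1 = N := Nat.eq_of_mul_eq_mul_right hc0 (by rw [Nat.succ_mul]; omega)
          rcases h with ⟨-, hNo | ⟨-, hMe'⟩⟩ | ⟨-, ⟨h2, h3⟩ | ⟨-, h2, -⟩ | ⟨h2, -⟩⟩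
          · refine Or.inr (Or.inr ⟨by omega, ?_⟩)
            rw [hM', Nat.even_add_one, not_not] at hMe
            rw [← hA', Nat.odd_add_one, Nat.not_odd_iff_even] at hNo
            exact iff_of_true hMe hNo
          · exact absurd hMe' hMe
          · omega
          · omega
          · omega
      · refine ⟨M, hMA, by omega, ?_⟩
        rcases h with ⟨hk0, hNo | ⟨hl0, hMe⟩⟩ | ⟨-, ⟨h1, h2⟩ | ⟨h1, h2, h3⟩ | ⟨h1, h2, h3⟩⟩
        · exfalso
          rcases hvalid with h' | h'
          · exact Nat.not_odd_iff_even.2 h' hNo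
          · omega
        · exact ⟨by omega, Or.inr (Or.inr (Or.inl ⟨by omega, hMe⟩))⟩
        · exact ⟨by omega, Or.inr (Or.inl ⟨by omega, by omega⟩)⟩
        · rw [hNM h1.symm, Nat.even_add] at h3
          exact ⟨by omega, Or.inr (Or.inr (Or.inr ⟨by omega, h3.symm⟩))⟩
        · exact ⟨by omega, Or.inr (Or.inr (Or.inl ⟨by omega, h3⟩))⟩
  · have hnev : ¬ Even i := Nat.not_even_iff_odd.2 hodd
    simp only [hnev, false_and, or_false, hodd, true_and]
    constructor
    · intro h
      obtain ⟨h1, h2, -⟩ := htop (Or.inl hodd) (fun A a b _ => h A a b (Or.inl trivial))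
      exact ⟨h1, h2⟩
    · rintro ⟨-, hlk⟩ A hA1 hle -
      rcases Nat.lt_or_ge A M with hAM | hMA
      · have := Nat.mul_le_mul_right c (Nat.succ_le_of_lt hAM)
        rw [Nat.succ_mul] at this
        exact ⟨A, le_rfl, by omega, by omega, Or.inl hodd⟩
      · have := Nat.mul_le_mul_right c (hAN A hle)
        exact ⟨M, hMA, by omega, by omega, Or.inl hodd⟩

end plus

end Cfsg.Agent.Elusive.OrthTS
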