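import Cfsg.Agent.Elusive.FieldExtPlusModels
import Cfsg.Agent.Elusive.OrthHypOdd

/-!
Field extension subgroups of orthogonal type of degree two in orthogonal groups of plus type:
their index and elements of odd prime order without conjugates in them.
-/

set_option autoImplicit false
set_option linter.unusedSectionVars false

namespace Cfsg.Agent.Elusive.FieldExtPlus

open Module QuadraticMap Cfsg.Agent.Classical Cfsg.Agent.Forms Cfsg.Agent.Elusive Matrix
open Cfsg.Agent.Elusive.FieldExtOrth (rank_sub_one)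

variable {F : Type*} [Field F] [Fintype F] {d : ℕ}

local notation "Idx" => Fin d ⊕ Fin d

theorem plus_coe (d : ℕ) : Cfsg.quadFormPlus d F = ⇑(plusQF d F) :=
  funext fun v => (plusQF_apply d v).symm

theorem plus_nondeg (d : ℕ) : BNondeg (plusQF d F) := (PrimeSO.plusQF_polar_nondegenerate d).1

theorem isPlus (h2 : (2 : F) ≠ 0) (d : ℕ) : IsPlus (plusQF d F) d := by
  classical
  let w : Fin d ⊕ Fin d → (Fin d ⊕ Fin d → F) :=
    Sum.elim (fun j => Sum.elim (Pi.single j 1) (Pi.single j 1)) fun j => Sum.elim (Pi.single j 1) (Pi.single j (-1))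
  have hw : ∀ i j, polar (plusQF d F) (w i) (w j) = if i = j then Sum.elim (fun _ => (2 : F)) (fun _ => -2) i else 0 := by
    rintro (i | i) (j | j) <;> rcases eq_or_ne i j with rfl | hij <;>
      simp [w, polar, plusQF_apply, Cfsg.quadFormPlus, Pi.single_apply, add_mul, mul_add, Finset.sum_add_distrib,
        *, Ne.symm] <;>
      ring
  have hne : ∀ i, polar (plusQF d F) (w i) (w i) ≠ 0 := fun i => by
    rw [hw, if_pos rfl]; cases i <;> simp [h2]
  have hli := OrthInvolField.linearIndependent_of_orth (fun i j h => by rw [hw, if_neg h]) hne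
  rcases Nat.eq_zero_or_pos d with rfl | hd
  · exact ⟨Basis.empty _, fun i => isEmptyElim i, fun i => i.elim0, fun i => i.elim0⟩
  have : Nonempty (Fin d ⊕ Fin d) := ⟨Sum.inl ⟨0, hd⟩⟩
  refine ⟨basisOfLinearIndependentOfCardEqFinrank hli (by rw [finrank_fintype_fun_eq_card]), fun i j h => ?_,
    fun i => ?_, fun i => ?_⟩ <;> rw [coe_basisOfLinearIndependentOfCardEqFinrank]
  · rw [hw, if_neg h]
  · rw [hw, if_pos rfl]; rfl
  · rw [hw, if_pos rfl]; rfl

variable [Nonempty (Fin d)]

/-- A quadratic field subalgebra, as a field. -/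
@[reducible] noncomputable def fieldOf {K : Subalgebra F (Matrix Idx Idx F)} {k : ℕ}
    (hK : Cfsg.Geo.IsFieldSubalgebra k K) : Field K :=
  (MaxSub.isField_of_isFieldSubalgebra hK).toField

/-- The extension data of a self-adjoint quadratic field. -/
theorem exists_ext (h2 : (2 : F) ≠ 0) {K : Subalgebra F (Matrix Idx Idx F)}
    (hK : Cfsg.Geo.IsFieldSubalgebra 2 K)
    (hKf : Cfsg.Geo.IsSelfAdjointFor (QuadraticMap.polar (Cfsg.quadFormPlus d F)) K) :
    letI := fieldOf hK
    ∃ E : OrthField.Ext (plusQF d F) K, (∀ x : F, (E.s : Matrix Idx Idx F) ≠ x • 1) ∧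
      (E.s : Matrix Idx Idx F) * (E.s : Matrix Idx Idx F) = E.δ • 1 ∧
      ∀ k ∈ K, ∃ x y : F, k = x • 1 + y • (E.s : Matrix Idx Idx F) := by
  letI := fieldOf hK
  obtain ⟨s, δ, hs, hns, hss, hne, hgen⟩ := OrthField.exists_generator h2 hK
  refine ⟨⟨⟨s, hs⟩, δ, h2, hns, Subtype.ext ?_, fun k => ?_, fun u v => ?_⟩, hne, hss, hgen⟩
  · exact hss.trans (Algebra.algebraMap_eq_smul_one δ).symm
  · obtain ⟨x, y, h⟩ := hgen k k.2
    refine ⟨x, y, Subtype.ext ?_⟩
    show (k : Matrix Idx Idx F) = algebraMap F (Matrix Idx Idx F) x + algebraMap F (Matrix Idx Idx F) y * s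
    rw [Algebra.algebraMap_eq_smul_one, Algebra.algebraMap_eq_smul_one, smul_mul_assoc, one_mul]; exact h
  · rw [← plus_coe]; exact hKf s hs u v

/-- An element of odd order of the stabiliser of the field commutes with it. -/
theorem commute_of_odd (h2 : (2 : F) ≠ 0) {K : Subalgebra F (Matrix Idx Idx F)} {s : Matrix Idx Idx F} {δ : F}
    (hs : s ∈ K) (hδ : δ ≠ 0) (hgen : ∀ k ∈ K, ∃ x y : F, k = x • 1 + y • s)
    (hns : ∀ x : F, s ≠ x • 1) (hss : s * s = δ • 1)
    {y : GL Idx F} (hy : y ∈ Cfsg.Geo.subalgebraNormalizer K) {r : ℕ} (hr : Odd r)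
    (hyr : (y : Matrix Idx Idx F) ^ r = 1) :
    (y : Matrix Idx Idx F) * s = s * y := by
  rcases OrthField.conj_generator h2 hs hδ hss hns hgen hy with h | h
  · exact h
  · exfalso
    have hk : ∀ k : ℕ, (y : Matrix Idx Idx F) ^ k * s =
        (-1 : F) ^ k • (s * (y : Matrix Idx Idx F) ^ k) := by
      intro k
      induction k with
      | zero => simp
      | succ k ih =>
        rw [pow_succ' (y : Matrix Idx Idx F), mul_assoc, ih, mul_smul_comm, ← mul_assoc, h, neg_mul, mul_assoc,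
          pow_succ' (-1 : F), neg_one_mul, neg_smul, smul_neg]
    have h1 := hk r
    rw [hyr, one_mul, mul_one, hr.neg_one_pow, neg_one_smul] at h1
    refine hns 0 ?_
    rw [zero_smul]
    have h' : (2 : F) • s = 0 := by
      rw [two_smul]; nth_rw 1 [h1]; exact neg_add_cancel _
    exact (smul_eq_zero.1 h').resolve_left h2


/-- An element with a conjugate normalising the field moves, in odd prime order, a multiple of four dimensions
when the order is prime to the characteristic, and more than two otherwise. -/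
theorem moved_of_conj (h2 : (2 : F) ≠ 0) {K : Subalgebra F (Matrix Idx Idx F)}
    (hK : Cfsg.Geo.IsFieldSubalgebra 2 K)
    (hKf : Cfsg.Geo.IsSelfAdjointFor (QuadraticMap.polar (Cfsg.quadFormPlus d F)) K)
    {p r : ℕ} [CharP F p] [Fact p.Prime] (hr : Odd r) {x g : GL Idx F}
    (hx : x ∈ Cfsg.Geo.omegaGL (Cfsg.quadFormPlus d F)) (hg : g ∈ Cfsg.Geo.omegaGL (Cfsg.quadFormPlus d F))
    (h : g⁻¹ * x * g ∈ Cfsg.Geo.subalgebraNormalizer K) (hxr : (x : Matrix Idx Idx F) ^ r = 1)
    (hx1 : (x : Matrix Idx Idx F) ≠ 1) :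
    ((r : F) ≠ 0 → 4 ∣ ((x : Matrix Idx Idx F) - 1).rank) ∧ (r = p → 2 < ((x : Matrix Idx Idx F) - 1).rank) := by
  classical
  letI := fieldOf hK
  obtain ⟨E, hns, hss, hgen⟩ := exists_ext h2 hK hKf
  set y := g⁻¹ * x * g with hy
  have hym : y ∈ Cfsg.Geo.omegaGL (Cfsg.quadFormPlus d F) := mul_mem (mul_mem (inv_mem hg) hx) hg
  have hyr : (y : Matrix Idx Idx F) ^ r = 1 := by
    have hx' : x ^ r = 1 := Units.ext (by rw [Units.val_pow_eq_pow_val, hxr]; rfl)
    have h1 : y ^ r = 1 := by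
      rw [hy]
      have := (map_pow (MulAut.conj g⁻¹) x r).symm
      rw [hx', map_one] at this
      simpa [MulAut.conj_apply] using this
    rw [← Units.val_pow_eq_pow_val, h1]; rfl
  have hcomm := commute_of_odd h2 E.s.2 E.δ_ne hgen hns hss h hr hyr
  have hrank : ((x : Matrix Idx Idx F) - 1).rank = ((y : Matrix Idx Idx F) - 1).rank := by
    have hgd : IsUnit (g : Matrix Idx Idx F).det := (Matrix.isUnit_iff_isUnit_det _).1 g.isUnit
    rw [← rank_mul_eq_left_of_isUnit_det _ ((x : Matrix Idx Idx F) - 1) hgd, sub_mul, one_mul,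
      ← rank_mul_eq_right_of_isUnit_det _ ((y : Matrix Idx Idx F) - 1) hgd, mul_sub, mul_one,
      ← Units.val_mul, ← Units.val_mul, hy, show g * (g⁻¹ * x * g) = x * g by group]
  set f : Module.End F (Idx → F) := toLinAlgEquiv' (y : Matrix Idx Idx F) with hf
  have hfs : ∀ v, f (E.s • v) = E.s • f v := fun v => by
    show (y : Matrix Idx Idx F) *ᵥ ((E.s : Matrix Idx Idx F) *ᵥ v) =
      (E.s : Matrix Idx Idx F) *ᵥ ((y : Matrix Idx Idx F) *ᵥ v)
    rw [mulVec_mulVec, mulVec_mulVec, hcomm]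
  have hiso : ∀ u v, polar (plusQF d F) (f u) (f v) = polar (plusQF d F) u v := fun u v => by
    have hq : ∀ w, plusQF d F (f w) = plusQF d F w := fun w => by
      rw [← plus_coe]; exact Elusive25.apply_of_mem_omegaGL hym w
    simp only [polar, ← map_add, hq]
  have hfr : f ^ r = 1 := by rw [hf, ← map_pow, hyr, map_one]
  rw [hrank, rank_sub_one, ← hf]
  refine ⟨fun hrF => E.four_dvd_finrank (plus_nondeg d) hr hrF hfs hiso hfr, fun hrp => ?_⟩
  subst hrp
  refine E.not_two_of_unipotent (p := r) (plus_nondeg d) hfs hiso hfr fun h1 => ?_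
  have hy1 : ((y : Matrix Idx Idx F) - 1).rank = 0 := by rw [rank_sub_one, ← hf, h1, sub_self]; simp
  rw [← hrank, Matrix.rank, Submodule.finrank_eq_zero, LinearMap.range_eq_bot] at hy1
  exact hx1 (sub_eq_zero.1 (Matrix.ext_of_mulVec_single fun i => (LinearMap.congr_fun hy1 _).trans (zero_mulVec _).symm))

theorem card_omegaGL_dvd :
    Nat.card (Cfsg.Geo.omegaGL (Cfsg.quadFormPlus d F)) ∣ Nat.card (OQ (plusQF d F)) := by
  rw [plus_coe, ← Nat.card_congr (OrthGen.matEquiv (plusQF d F)).toEquiv]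
  refine Subgroup.card_dvd_of_le ?_
  rintro x ⟨y, -, rfl⟩
  exact y.2

/-- An element of order `p` moving at most two dimensions. -/
theorem exists_short_unipotent (h2 : (2 : F) ≠ 0) (hm : 2 ≤ d) {p : ℕ}
    [CharP F p] [Fact p.Prime] (hp : p ≠ 2) :
    ∃ x : GL Idx F, x ∈ Cfsg.Geo.omegaGL (Cfsg.quadFormPlus d F) ∧ (x : Matrix Idx Idx F) ^ p = 1 ∧
      (x : Matrix Idx Idx F) ≠ 1 ∧ ((x : Matrix Idx Idx F) - 1).rank ≤ 2 := by
  classical
  set R := plusQF d F
  set i0 : Fin d := ⟨0, by omega⟩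
  set i1 : Fin d := ⟨1, by omega⟩
  have h01 : i1 ≠ i0 := by simp [i0, i1]
  set u : Idx → F := Pi.single (Sum.inl i0) 1 with hu'
  set v : Idx → F := Pi.single (Sum.inl i1) 1 with hv'
  have hu : R u = 0 := by simp [R, u, plusQF_apply, Cfsg.quadFormPlus]
  have hv : R v = 0 := by simp [R, v, plusQF_apply, Cfsg.quadFormPlus]
  have hzero : ∀ c : F, polar R u (c • v) = 0 := fun c => by
    simp [R, u, v, polar, plusQF_apply, Cfsg.quadFormPlus, Pi.single_apply, h01, h01.symm]
  have hadd : ∀ k : ℕ, (siegel R hu (hzero 1)) ^ k = siegel R hu (hzero (k : F)) := by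
    intro k
    induction k with
    | zero =>
      refine Subtype.ext (LinearEquiv.ext fun x => ?_)
      rw [siegel_apply]
      simp
    | succ k ih =>
      refine Subtype.ext (LinearEquiv.ext fun x => ?_)
      rw [pow_succ, ih, Subgroup.coe_mul, LinearEquiv.mul_apply, siegel_apply, siegel_apply, siegel_apply]
      have h := siegelLin_add (a := (k : F) • v) (b := (1 : F) • v) hu (hzero (k : F)) (hzero 1) x
      simp only [siegelLin_apply] at h
      rw [h, Nat.cast_succ, add_smul]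
  set G := siegel R hu (hzero 1)
  have hGp : G ^ p = 1 := by
    refine Subtype.ext (LinearEquiv.ext fun x => ?_)
    rw [hadd, siegel_apply, CharP.cast_eq_zero]
    simp
  have hG1 : G.1 (Pi.single (Sum.inr i0) 1) ≠ Pi.single (Sum.inr i0) 1 := by
    intro h
    rw [siegel_apply] at h
    have := congrFun h (Sum.inl i1)
    simp [R, u, v, polar, plusQF_apply, Cfsg.quadFormPlus, Pi.single_apply, h01, h01.symm] at this
  have hmul := Elusive25.glOf_mulVec R G
  refine ⟨Elusive25.glOf R G, ?_, ?_, fun h => hG1 ?_, ?_⟩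
  · rw [plus_coe]
    exact Elusive25.glOf_mem_omegaGL R (Elusive25.mem_commutator_of_pow (plus_nondeg d)
      (OrthGen.notExceptional_of_two_ne_zero h2) ((Fact.out : p.Prime).odd_of_ne_two hp) hGp)
  · rw [← Units.val_pow_eq_pow_val, ← map_pow, hGp, map_one]; rfl
  · rw [← hmul, h, one_mulVec]
  · rw [rank_sub_one]
    refine (Submodule.finrank_mono (t := Submodule.span F {v, u}) ?_).trans ?_
    · rintro _ ⟨x, rfl⟩
      rw [LinearMap.sub_apply, Module.End.one_apply]
      show (Elusive25.glOf R G : Matrix Idx Idx F) *ᵥ x - x ∈ _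
      rw [hmul, siegel_apply]
      refine Submodule.mem_span_pair.2 ⟨polar R u x, -(polar R ((1 : F) • v) x + R ((1 : F) • v) * polar R u x), ?_⟩
      simp only [one_smul, neg_smul, add_smul]
      abel
    · refine (finrank_span_le_card _).trans ?_
      rw [Set.toFinset_insert, Set.toFinset_singleton]
      exact Finset.card_le_two

set_option maxHeartbeats 1000000 in
/-- The index of the stabiliser of the field is prime to the odd primes `r` with `q` of order a multiple of `4`
modulo `r`. -/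
theorem mod_four_ne_zero (h2 : (2 : F) ≠ 0) {K : Subalgebra F (Matrix Idx Idx F)}
    (hK : Cfsg.Geo.IsFieldSubalgebra 2 K)
    (hKf : Cfsg.Geo.IsSelfAdjointFor (QuadraticMap.polar (Cfsg.quadFormPlus d F)) K)
    {r : ℕ} [Fact r.Prime] (hr : ¬ r ∣ Fintype.card F) (hr2 : r ≠ 2)
    (hd : 2 ≤ d) (hdvd : r ∣ (Cfsg.Geo.subalgebraNormalizer K).relIndex (Cfsg.Geo.omegaGL (Cfsg.quadFormPlus d F))) :
    orderOf ((Fintype.card F : ℕ) : ZMod r) % 4 ≠ 0 := by
  classical
  letI := fieldOf hK
  obtain ⟨E, hns, hss, hgen⟩ := exists_ext h2 hK hKf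
  have hrp : r.Prime := Fact.out
  set R := plusQF d F with hR
  have : Finite ((Idx → F) ≃ₗ[F] (Idx → F)) :=
    Finite.of_injective (fun e => (e : (Idx → F) → (Idx → F))) DFunLike.coe_injective
  have : Finite (OQ R) := Subtype.finite
  rw [plus_coe, Cfsg.Geo.omegaGL, ← hR] at hdvd
  rw [← Subgroup.relIndex_comap] at hdvd
  set N' := (Cfsg.Geo.subalgebraNormalizer K).comap (Cfsg.isometryGroup F ⇑R).subtype with hN'
  have : (Cfsg.Omega F ⇑R).Normal := by
    unfold Cfsg.Omega
    infer_instance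
  have hidx : r ∣ N'.index := by
    have e1 := Subgroup.relIndex_mul_index (inf_le_right : N' ⊓ Cfsg.Omega F ⇑R ≤ Cfsg.Omega F ⇑R)
    have e2 := Subgroup.relIndex_mul_index (inf_le_left : N' ⊓ Cfsg.Omega F ⇑R ≤ N')
    rw [Subgroup.inf_relIndex_right] at e1
    rw [inf_comm, Subgroup.inf_relIndex_right, inf_comm] at e2
    have h := (dvd_mul_of_dvd_left hdvd (Cfsg.Omega F ⇑R).index).trans (dvd_of_eq (e1.trans e2.symm))
    rcases hrp.dvd_mul.1 h with h | h
    · exfalso
      have h4 := h.trans (Subgroup.relIndex_dvd_index_of_normal _ _)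
      rw [OrthGen.index_Omega_odd R h2 (plus_nondeg d) (by simp; omega)] at h4
      exact hr2 ((Nat.prime_dvd_prime_iff_eq hrp Nat.prime_two).1
        (hrp.dvd_of_dvd_pow (show r ∣ 2 ^ 2 by simpa using h4)))
    · exact h
  -- the isometries of the form over the extension
  have : Module.Finite K (Idx → F) := Module.Finite.of_restrictScalars_finite F K _
  set QK := E.qform with hQK
  have hOQ : ∀ g : OQ QK, ∀ v, R ((g.1.restrictScalars F : (Idx → F) ≃ₗ[F] (Idx → F)) v) = R v :=
    fun g v => E.restrict_apply g.2 v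
  let φ₀ : OQ QK →* OQ R :=
    { toFun := fun g => ⟨g.1.restrictScalars F, hOQ g⟩
      map_one' := Subtype.ext (LinearEquiv.ext fun _ => rfl)
      map_mul' := fun _ _ => Subtype.ext (LinearEquiv.ext fun _ => rfl) }
  let φ : OQ QK →* ↥(Cfsg.isometryGroup F ⇑R) := (OrthGen.matEquiv R).symm.toMonoidHom.comp φ₀
  have hφ : Function.Injective φ := (OrthGen.matEquiv R).symm.injective.comp fun g h heq =>
    Subtype.ext (LinearEquiv.ext fun v => LinearEquiv.congr_fun (congrArg Subtype.val heq) v)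
  have hφN : φ.range ≤ N' := by
    rintro _ ⟨g, rfl⟩
    rw [hN', Subgroup.mem_comap]
    refine MaxSub.mem_normalizer_iff_map_le.2 fun k hk => ?_
    set y : GL Idx F := (φ g : GL Idx F)
    have hy : ∀ v, (y : Matrix Idx Idx F) *ᵥ v = g.1 v := fun v =>
      Elusive25.glOf_mulVec R (φ₀ g) v
    have hcomm : (y : Matrix Idx Idx F) * k = k * y := Matrix.ext_iff_mulVec.2 fun v => by
      rw [← mulVec_mulVec, ← mulVec_mulVec, hy, hy]
      exact map_smul g.1 (⟨k, hk⟩ : K) v
    show (y : Matrix Idx Idx F) * k * ((y⁻¹ : GL Idx F) : Matrix Idx Idx F) ∈ K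
    rw [hcomm, mul_assoc, ← Units.val_mul, mul_inv_cancel, Units.val_one, mul_one]
    exact hk
  have hcard : ∃ z, Nat.card N' = Nat.card (OQ QK) * z :=
    (Nat.card_congr (MonoidHom.ofInjective hφ).toEquiv).symm ▸ Subgroup.card_dvd_of_le hφN
  obtain ⟨z, hz⟩ := hcard
  have htot := Subgroup.card_mul_index N'
  rw [hz, Nat.card_congr (OrthGen.matEquiv R).toEquiv] at htot
  obtain ⟨n, rfl⟩ : ∃ n, d = n + 1 := ⟨d - 1, by omega⟩
  have hcR : Nat.card (OQ R) = 2 * Fintype.card F ^ ((n + 1) * n) * (Fintype.card F ^ (n + 1) - 1)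
      * ∏ i ∈ Finset.range n, (Fintype.card F ^ (2 * (i + 1)) - 1) := by
    rw [Nat.card_congr (OQCongr (Q := R) (plusEquiv (n + 1)) (plusEquiv_spec (n + 1))).toEquiv,
      card_OQ_plus, Nat.card_eq_fintype_card]
  rw [hcR] at htot
  set q := Fintype.card F with hq
  have : Finite K := Finite.of_injective (fun x : K => (x : Matrix (Fin (n + 1) ⊕ Fin (n + 1)) (Fin (n + 1) ⊕ Fin (n + 1)) F)) Subtype.val_injective
  have hQ : Nat.card K = q ^ 2 := by
    rw [Module.natCard_eq_pow_finrank (K := F), E.finrank_eq, Nat.card_eq_fintype_card]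
  have hV : finrank K (Fin (n + 1) ⊕ Fin (n + 1) → F) = n + 1 := by
    have h := finrank_mul_finrank F K (Fin (n + 1) ⊕ Fin (n + 1) → F)
    rw [E.finrank_eq, finrank_fintype_fun_eq_card, Fintype.card_sum, Fintype.card_fin] at h
    omega
  intro hi
  set i := orderOf ((q : ℕ) : ZMod r) with hidef
  have h4i : 4 ∣ i := Nat.dvd_of_mod_eq_zero hi
  -- the factors outside the smaller group are prime to `r`
  have hodd : ∀ k, ¬ r ∣ q ^ (2 * (2 * k + 1)) - 1 := by
    intro k h
    rw [← ZMod.natCast_eq_zero_iff, Nat.cast_sub (Nat.one_le_pow _ _ Fintype.card_pos), Nat.cast_pow, Nat.cast_one,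
      sub_eq_zero, ← orderOf_dvd_iff_pow_eq_one, ← hidef] at h
    have := h4i.trans h
    omega
  have hqn : ∀ n, ¬ r ∣ q ^ n := fun n h => hr (hrp.dvd_of_dvd_pow h)
  have key : ∀ {Z Y X : ℕ}, 0 < Z → Z * (Y * N'.index) = Z * X → ¬ r ∣ X → False := fun {Z Y X} hZ h hX => by
    have := Nat.eq_of_mul_eq_mul_left hZ h
    exact hX (this ▸ dvd_mul_of_dvd_right hidx Y)
  have hPe : ∀ e, 0 < ∏ l ∈ Finset.range e, ((q ^ 2) ^ (2 * (l + 1)) - 1) := fun e =>
    Finset.prod_pos fun l _ => Nat.sub_pos_of_lt (Nat.one_lt_pow (by omega)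
      (Nat.one_lt_pow two_ne_zero Fintype.one_lt_card))
  have hsplit : ∀ e, ∏ k ∈ Finset.range (2 * e), (q ^ (2 * (k + 1)) - 1) =
      (∏ k ∈ Finset.range e, (q ^ (2 * (2 * k + 1)) - 1)) * ∏ l ∈ Finset.range e, ((q ^ 2) ^ (2 * (l + 1)) - 1) := by
    intro e
    rw [prod_range_even_odd (fun k => q ^ (2 * k) - 1) e]
    congr 1
    exact Finset.prod_congr rfl fun l _ => by rw [← pow_mul]
  have hP : ∀ e, ¬ r ∣ ∏ k ∈ Finset.range e, (q ^ (2 * (2 * k + 1)) - 1) := fun e h => by
    obtain ⟨k, -, hk⟩ := (Prime.dvd_finsetProd_iff hrp.prime _).1 h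
    exact hodd k hk
  obtain ⟨bK, hbK⟩ := FieldExtPlus.exists_hyp_basis E (plus_nondeg (n + 1)) (by omega)
    (by rw [finrank_fintype_fun_eq_card, Fintype.card_sum, Fintype.card_fin]; omega) (isPlus h2 (n + 1))
  obtain ⟨e, hcase⟩ := exists_finite_witt_decomposition QK
    (nonsingOn_top_of_nondegenerate (LinearMap.BilinForm.Nondegenerate.ofSeparatingLeft
      fun u hu => E.qform_nondeg (plus_nondeg (n + 1)) u hu))
  rw [hV] at hcase
  rcases hcase with ⟨he, f, hf⟩ | ⟨he, c, hc, f, hf⟩ | ⟨he, a', b', hab', f, hf⟩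
  · -- plus type
    obtain ⟨e, rfl⟩ : ∃ e', e = e' + 1 := ⟨e - 1, by omega⟩
    obtain rfl : n = 2 * e + 1 := by omega
    have hcK : Nat.card (OQ QK) = 2 * Nat.card K ^ ((e + 1) * e) * (Nat.card K ^ (e + 1) - 1) *
        ∏ l ∈ Finset.range e, (Nat.card K ^ (2 * (l + 1)) - 1) := by
      rw [Nat.card_congr (OQCongr (Q := QK) (f.trans (plusEquiv (e + 1))) (fun v => by
          rw [LinearEquiv.trans_apply, plusEquiv_spec, plusQF_apply, ← hf v])).toEquiv, card_OQ_plus]
    rw [hcK, hQ, Finset.prod_range_succ, hsplit e,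
      show (q ^ 2) ^ (e + 1) = q ^ (2 * e + 1 + 1) by rw [← pow_mul]; ring_nf] at htot
    refine key (Y := (q ^ 2) ^ ((e + 1) * e) * z)
      (Z := 2 * (q ^ (2 * e + 1 + 1) - 1) * ∏ l ∈ Finset.range e, ((q ^ 2) ^ (2 * (l + 1)) - 1))
      (X := q ^ ((2 * e + 1 + 1) * (2 * e + 1)) *
        ((∏ k ∈ Finset.range e, (q ^ (2 * (2 * k + 1)) - 1)) * (q ^ (2 * (2 * e + 1)) - 1)))
      (Nat.mul_pos (Nat.mul_pos two_pos (Nat.sub_pos_of_lt (Nat.one_lt_pow (by omega) Fintype.one_lt_card))) (hPe e))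
      ?_ ?_ |>.elim
    · linear_combination htot
    · intro h
      rcases hrp.dvd_mul.1 h with h | h
      · exact hqn _ h
      rcases hrp.dvd_mul.1 h with h | h
      · exact hP e h
      · exact hodd e h
  · -- odd dimension
    obtain rfl : n = 2 * e := by omega
    have hcK : Nat.card (OQ QK) = 2 * Nat.card K ^ (e ^ 2) *
        ∏ l ∈ Finset.range e, (Nat.card K ^ (2 * (l + 1)) - 1) := by
      have hsub : OQ (c⁻¹ • QK) = OQ QK := by
        ext g
        simp [mem_OQ, hc]
      rw [← hsub, Nat.card_congr (OQCongr (Q := c⁻¹ • QK) (f.trans (oddEquiv e)) (fun v => by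
          rw [LinearEquiv.trans_apply, oddEquiv_spec, oddQF_apply]
          simp only [_root_.smul_apply, smul_eq_mul, hf v, ← mul_assoc, inv_mul_cancel₀ hc,
            one_mul])).toEquiv,
        card_OQ_odd (by
          rw [hQ]
          refine Odd.pow ?_
          rw [hq, Nat.odd_iff]
          exact FiniteField.odd_card_of_char_ne_two fun h => h2 (by
            have := ringChar.charP F; rw [h] at this; exact CharTwo.two_eq_zero))]
    rw [hcK, hQ, hsplit e] at htot
    refine key (Y := (q ^ 2) ^ (e ^ 2) * z) (Z := 2 * ∏ l ∈ Finset.range e, ((q ^ 2) ^ (2 * (l + 1)) - 1))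
      (X := q ^ ((2 * e + 1) * (2 * e)) * ((q ^ (2 * e + 1) - 1) * ∏ k ∈ Finset.range e, (q ^ (2 * (2 * k + 1)) - 1)))
      (Nat.mul_pos two_pos (hPe e)) ?_ ?_ |>.elim
    · linear_combination htot
    · intro h
      rcases hrp.dvd_mul.1 h with h | h
      · exact hqn _ h
      rcases hrp.dvd_mul.1 h with h | h
      · rw [← ZMod.natCast_eq_zero_iff, Nat.cast_sub (Nat.one_le_pow _ _ Fintype.card_pos), Nat.cast_pow, Nat.cast_one,
          sub_eq_zero, ← orderOf_dvd_iff_pow_eq_one, ← hidef] at h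
        have := h4i.trans h
        omega
      · exact hP e h
  · -- minus type has no totally singular half
    exfalso
    obtain ⟨ι₀, hι⟩ : IsSquare (-1 : K) := by
      have : Fintype K := Fintype.ofFinite K
      refine FiniteField.isSquare_neg_one_iff.2 ?_
      rw [← Nat.card_eq_fintype_card, hQ]
      have : Odd q := by
        rw [hq, Nat.odd_iff]
        exact FiniteField.odd_card_of_char_ne_two fun h => h2 (by
          have := ringChar.charP F; rw [h] at this; exact CharTwo.two_eq_zero)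
      obtain ⟨t, ht⟩ : ∃ t, q = 2 * t + 1 := this
      rw [ht]
      ring_nf
      omega
    let eqv : Fin (e + 1) ⊕ Fin (e + 1) ≃ Fin (n + 1) := finSumFinEquiv.trans (finCongr (by omega))
    let v : Fin (e + 1) → (Fin (n + 1) ⊕ Fin (n + 1) → F) := fun k => bK (eqv (.inl k)) + ι₀ • bK (eqv (.inr k))
    have hv : ∀ i j, E.bil (v i) (v j) = 0 := fun i j => by
      simp only [v, map_add, map_smul, LinearMap.add_apply, LinearMap.smul_apply, hbK, smul_eq_mul,
        EmbeddingLike.apply_eq_iff_eq, reduceCtorEq, if_false, Sum.inl.injEq, Sum.inr.injEq, mul_zero, add_zero,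
        zero_add]
      split_ifs
      · linear_combination (-E.s) * hι
      · ring
    have hli : LinearIndependent K v := by
      rw [Fintype.linearIndependent_iff]
      intro g hg k
      have h := congrArg (fun u => E.bil (bK (eqv (.inl k))) u) hg
      simp only [v, map_sum, map_smul, map_add, hbK, smul_eq_mul, EmbeddingLike.apply_eq_iff_eq, reduceCtorEq, if_false,
        Sum.inl.injEq, mul_zero, add_zero, map_zero, mul_ite, Finset.sum_ite_eq, Finset.mem_univ, if_true] at h
      refine (mul_eq_zero.1 h).resolve_right fun h0 => E.δ_ne ?_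
      have := E.hss
      rw [h0, mul_zero] at this
      exact (algebraMap F K).injective (by rw [← this, map_zero])
    have hspan : ∀ w ∈ (Submodule.span K (Set.range v)).map f.toLinearMap, Cfsg.quadFormMinus e K a' b' w = 0 := by
      rintro _ ⟨w, hw, rfl⟩
      rw [LinearEquiv.coe_coe, ← hf, hQK, OrthField.Ext.qform_apply]
      obtain ⟨g, rfl⟩ := Submodule.mem_span_range_iff_exists_fun K |>.1 hw
      simp [map_sum, map_smul, LinearMap.sum_apply, LinearMap.smul_apply, hv]
    have hle := finrank_le_of_vanishes_quadFormMinus hab' _ hspan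
    rw [LinearEquiv.finrank_map_eq, finrank_span_eq_card hli, Fintype.card_fin] at hle
    omega

/-- An element of order `r` moving as few dimensions as possible. -/
theorem exists_minimal_element {p : ℕ} [Fact p.Prime] [CharP F p] (hd : 3 ≤ d)
    {r : ℕ} [Fact r.Prime] (hrp : r ≠ p) (hr : ¬ r ∣ Fintype.card F) (hr2 : r ≠ 2)
    (hdvd : r ∣ Nat.card (OQ (plusQF d F)))
    {i c : ℕ} (hi : i = orderOf ((Fintype.card F : ℕ) : ZMod r)) (hc : c = if Even i then i else 2 * i) :
    ∃ x : GL Idx F, x ∈ Cfsg.Geo.omegaGL (Cfsg.quadFormPlus d F) ∧ (x : Matrix Idx Idx F) ^ r = 1 ∧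
      ((x : Matrix Idx Idx F) - 1).rank = c := by
  classical
  have hrP : r.Prime := Fact.out
  obtain ⟨hi0, ⟨Φ⟩⟩ := PrimeSO.exists_fac (F := F) hrP hr2 hrp hi
  have hQn := PrimeSO.plusQF_polar_nondegenerate (F := F) d
  have hV := OrthTS.finrank_plus F d
  have hc0 : 0 < c := by rw [hc]; split_ifs <;> omega
  have : Finite ((Idx → F) ≃ₗ[F] (Idx → F)) := Finite.of_injective (fun e => (e : (Idx → F) → (Idx → F))) DFunLike.coe_injective
  have : Finite (OQ (plusQF d F)) := Subtype.finite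
  obtain ⟨g, hg⟩ := exists_prime_orderOf_dvd_card' (G := OQ (plusQF d F)) r hdvd
  let f : Module.End F (Idx → F) := (g.1 : (Idx → F) ≃ₗ[F] (Idx → F)).toLinearMap
  have hfk : ∀ k : ℕ, ∀ v, (f ^ k) v = (g ^ k : OQ (plusQF d F)).1 v := by
    intro k
    induction k with
    | zero => intro v; rfl
    | succ k ih => intro v; rw [pow_succ', Module.End.mul_apply, ih, pow_succ']; rfl
  have hfr : f ^ r = 1 := LinearMap.ext fun v => by rw [hfk, ← hg, pow_orderOf_eq_one]; rfl
  have hfQ : ∀ v, plusQF d F (f v) = plusQF d F v := g.2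
  obtain ⟨A, hA⟩ := OrthTS.exists_moving_dim hQn hfQ hfr hr hr2 hi hc
  have hA0 : 0 < A := Nat.pos_of_ne_zero fun h0 => hrP.ne_one (by
    rw [h0, Nat.zero_mul, Submodule.finrank_eq_zero, LinearMap.range_eq_bot, sub_eq_zero] at hA
    rw [← hg, show g = 1 from Subtype.ext (LinearEquiv.toLinearMap_injective hA), orderOf_one])
  have hle := Submodule.finrank_le (LinearMap.range (f - 1))
  rw [hA, hV] at hle
  have hA1 := Nat.le_mul_of_pos_left c hA0
  have hlt : Odd i ∨ c < 2 * d := by
    refine (Nat.even_or_odd i).elim (fun he => Or.inr ?_) Or.inl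
    by_contra hge
    have hAeq : A = 1 := by
      by_contra hne
      have := Nat.mul_le_mul_right c (show 2 ≤ A by omega)
      omega
    have hMt : LinearMap.range (f - 1) = ⊤ := Submodule.eq_top_of_finrank_eq (by
      rw [hA, hV, hAeq]; omega)
    have h := OrthTS.halfOn_moving_iff hrp hfQ hfr hr hr2 hi hc le_rfl Elusive.OrthTS.range_invariant
      (hMt ▸ nonDegOn_top hQn) hA
    rcases h.1 (hMt ▸ OrthTS.halfOn_plus d) with h' | h'
    · exact Nat.not_even_iff_odd.2 h' he
    · rw [hAeq] at h'; exact Nat.not_even_one h'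
  have hne : Nonempty Φ.s := by
    rw [← Fintype.card_pos_iff, Fintype.card_coe]
    refine Nat.pos_of_ne_zero fun h0 => ?_
    have := Φ.card_s
    rw [h0, Nat.zero_mul] at this
    have := hrP.two_le
    omega
  obtain ⟨f₀⟩ := hne
  obtain ⟨a, hinv, hsum, hpar⟩ : ∃ a : Φ.s → ℕ, (∀ j, a (Φ.tau j) = a j) ∧ (∑ j, a j) * i = c ∧
      (Odd i ∨ Even (∑ j, a j) ∨ (∑ j, a j) * i < 2 * d) := by
    by_cases he : Even i
    · refine ⟨fun j => if j = f₀ then 1 else 0, fun j => by rw [Φ.tau_even he], by simp [hc, he], Or.inr (Or.inr ?_)⟩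
      simp only [Finset.sum_ite_eq', Finset.mem_univ, if_true, one_mul]
      have := hlt.resolve_left (Nat.not_odd_iff_even.2 he)
      rwa [hc, if_pos he] at this
    · refine ⟨fun j => (if j = f₀ then 1 else 0) + (if j = Φ.tau f₀ then 1 else 0), fun j => ?_, ?_,
        Or.inl (Nat.not_even_iff_odd.1 he)⟩
      · have h1 : Φ.tau j = f₀ ↔ j = Φ.tau f₀ :=
          ⟨fun h => by rw [← h, Φ.tau_tau], fun h => by rw [h, Φ.tau_tau]⟩
        have h2 : Φ.tau j = Φ.tau f₀ ↔ j = f₀ :=
          ⟨fun h => by rw [← Φ.tau_tau j, h, Φ.tau_tau], fun h => by rw [h]⟩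
        simp only [h1, h2, add_comm]
      · simp only [Finset.sum_add_distrib, Finset.sum_ite_eq', Finset.mem_univ, if_true]
        rw [hc, if_neg he]
  obtain ⟨S, hS, hSQ, hSd⟩ := OrthTS.exists_element_plus hrP hr2 Φ hi0 hi a hinv (hsum ▸ (by omega : c ≤ 2 * d)) hpar
  have hC := OrthTS.finrank_ker_sub_one Φ hS a hSd
  have hM := Elusive.OrthTS.finrank_ker_add_range (f := S)
  have hMc : finrank F (LinearMap.range (S - 1)) = c := by omega
  have hS1 : S ≠ 1 := fun h => by
    rw [h, sub_self, LinearMap.range_zero, finrank_bot] at hMc; omega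
  obtain ⟨x, hx, hxo, hxS⟩ := OrthTS.exists_omega_of_isometry (plus_nondeg d)
    (Forms.notExceptional_plusQF (Or.inr (by omega))) hr2 hS hS1 hSQ
  refine ⟨x, by rwa [plus_coe], ?_, ?_⟩
  · rw [← Units.val_pow_eq_pow_val, ← hxo, pow_orderOf_eq_one]; rfl
  · rw [FieldExtOrth.rank_sub_one, show (toLinAlgEquiv' (x : Matrix Idx Idx F) : Module.End F (Idx → F)) = S from hxS, hMc]

end Cfsg.Agent.Elusive.FieldExtPlus
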