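import Cfsg.Agent.Elusive.OrthInvolField

/-!
Elements with square `-1` and self-adjoint quadratic fields, for orthogonal spaces of plus type in odd
characteristic.
-/

set_option autoImplicit false
set_option linter.unusedSectionVars false

namespace Cfsg.Agent.Elusive.FieldExtPlus

open Module QuadraticMap Cfsg.Agent.Classical Cfsg.Agent.OrthGen Cfsg.Agent.Forms Cfsg.Agent.Elusive
open Cfsg.Agent.Elusive.OrthInvolField

section general

variable {F : Type*} [Field F] {V : Type*} [AddCommGroup V] [Module F V] [FiniteDimensional F V]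
  {R : QuadraticForm F V}

/-- Vectors with the Gram matrix of a basis are the image of it under an isometry. -/
theorem exists_isometry_of_gram (h2 : (2 : F) ≠ 0) (hB : BNondeg R) {ι : Type*} (b : Basis ι F V) (v : ι → V)
    (h : ∀ i j, polar R (v i) (v j) = polar R (b i) (b j)) : ∃ g : OQ R, ∀ i, g.1 (b i) = v i := by
  let T : Module.End F V := b.constr F v
  have hT : ∀ i, T (b i) = v i := fun i => b.constr_basis F v i
  have hc : R.polarBilin.compl₁₂ T T = R.polarBilin := LinearMap.BilinForm.ext_basis b fun i j => by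
    rw [LinearMap.compl₁₂_apply, hT, hT]; exact h i j
  have hpol : ∀ x y, polar R (T x) (T y) = polar R x y := fun x y => LinearMap.congr_fun (LinearMap.congr_fun hc x) y
  have hinj : Function.Injective T := (injective_iff_map_eq_zero _).2 fun x hx => hB x fun y => by
    rw [← hpol, hx, polar_zero_left]
  refine ⟨⟨LinearEquiv.ofBijective T ⟨hinj, LinearMap.injective_iff_surjective.1 hinj⟩, fun x => ?_⟩, hT⟩
  show R (T x) = R x
  rw [eq_half_mul h2, hpol, ← eq_half_mul h2]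

theorem refl_swap {x y : V} {c : F} (hx : R (x - c • y) ≠ 0) (hxx : polar R x x = 0) (hyy : polar R y y = 0)
    (hR : R (x - c • y) = -c * polar R x y) : (reflQ R (x - c • y) hx).1 x = c • y := by
  rw [reflQ_apply, hR]
  have : polar R (x - c • y) x = -c * polar R x y := by
    rw [polar_sub_left, polar_smul_left, hxx, polar_comm R y x, smul_eq_mul]; ring
  rw [this, inv_mul_cancel₀ (hR ▸ hx), one_smul, sub_sub_cancel]

variable [Fintype F] [Finite V]

/-- A rotation commuting with a map of square `-1`, with non-trivial spinor norm. -/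
theorem exists_rotation (h2 : (2 : F) ≠ 0) (hB : BNondeg R) (hRQ : RQ R = ⊤) {f : OQ R}
    (hff : ∀ v, f.1 (f.1 v) = -v) {d : ℕ} (hd0 : 0 < d) (u : Fin d → V)
    (hu : ∀ i j, polar R (u i) (u j) = (if i = j then 1 else 0) ∧ polar R (u i) (f.1 (u j)) = 0)
    (hspan : Submodule.span F (Set.range (Sum.elim u fun j => f.1 (u j))) = ⊤) :
    ∃ h : OQ R, (∀ v, h.1 (f.1 v) = f.1 (h.1 v)) ∧ sgnHom hB hRQ h = (1, -1) := by
  classical
  have hskew : ∀ u v, polar R (f.1 u) v = -polar R u (f.1 v) := fun u v => by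
    conv_lhs => rw [← OQ_polar f, hff]
    rw [polar_neg_left]
  have hfu : ∀ i j, polar R (f.1 (u i)) (f.1 (u j)) = (if i = j then 1 else 0) := fun i j => by
    rw [OQ_polar]; exact (hu i j).1
  have hfu' : ∀ i j, polar R (f.1 (u i)) (u j) = 0 := fun i j => by rw [hskew, (hu i j).2, neg_zero]
  have hq : Fintype.card F % 2 = 1 := FiniteField.odd_card_of_char_ne_two fun h => h2 (by
    have := ringChar.charP F; rw [h] at this; exact CharTwo.two_eq_zero)
  obtain ⟨ν, hν⟩ := Forms25.exists_not_isSquare (F := F) h2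
  have hν0 : ν ≠ 0 := fun h => hν (h ▸ IsSquare.zero)
  obtain ⟨x, y, hxy⟩ := exists_sq_sub_mul_sq (c := (-1 : F)) hq (neg_ne_zero.2 one_ne_zero) ν
  let j₀ : Fin d := ⟨0, hd0⟩
  set v₁ := u j₀ with hv₁
  set v₂ := x • u j₀ + y • f.1 (u j₀) with hv₂
  have hR1 : R v₁ = 2⁻¹ := by rw [eq_half_mul h2, (hu j₀ j₀).1, if_pos rfl, mul_one]
  have hR2 : R v₂ = 2⁻¹ * ν := by
    rw [eq_half_mul h2]
    congr 1
    simp only [hv₂, polar_add_left, polar_add_right, polar_smul_left, polar_smul_right, smul_eq_mul, OQ_polar,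
      (hu _ _).2, hfu', (hu _ _).1, if_true]
    linear_combination hxy
  have hR10 : R v₁ ≠ 0 := by rw [hR1]; exact inv_ne_zero h2
  have hR20 : R v₂ ≠ 0 := by rw [hR2]; exact mul_ne_zero (inv_ne_zero h2) hν0
  refine ⟨reflQ R v₁ hR10 * reflQ R v₂ hR20, fun v => ?_, ?_⟩
  · refine map_eq_on_span (T := (reflQ R v₁ hR10 * reflQ R v₂ hR20).1.toLinearMap ∘ₗ f.1.toLinearMap)
      (T' := f.1.toLinearMap ∘ₗ (reflQ R v₁ hR10 * reflQ R v₂ hR20).1.toLinearMap) ?_ v (hspan ▸ Submodule.mem_top)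
    have hout : ∀ i, i ≠ j₀ → (reflQ R v₁ hR10 * reflQ R v₂ hR20).1 (u i) = u i ∧
        (reflQ R v₁ hR10 * reflQ R v₂ hR20).1 (f.1 (u i)) = f.1 (u i) := by
      intro i hi
      simp only [Subgroup.coe_mul, LinearEquiv.mul_apply]
      constructor
      · rw [reflQ_fix R hR20 (by simp [hv₂, polar_add_left, polar_smul_left, (hu _ _).1, hfu', hi.symm]),
          reflQ_fix R hR10 (by simp [v₁, (hu _ _).1, hi.symm])]
      · rw [reflQ_fix R hR20 (by simp [hv₂, polar_add_left, polar_smul_left, (hu _ _).2, hfu, hi.symm]),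
          reflQ_fix R hR10 (by simp [v₁, (hu _ _).2])]
    rintro _ ⟨(i | i), rfl⟩ <;>
      show (reflQ R v₁ hR10 * reflQ R v₂ hR20).1 (f.1 _) = f.1 ((reflQ R v₁ hR10 * reflQ R v₂ hR20).1 _) <;>
      rcases eq_or_ne i j₀ with rfl | hi
    · simp only [Sum.elim_inl, Subgroup.coe_mul, LinearEquiv.mul_apply, reflQ_apply, map_sub, map_smul, map_add,
        hv₂, v₁, hR1, hR2, eq_half_mul h2 (x • u j₀ + y • f.1 (u j₀)), polar_add_left, polar_add_right, polar_sub_right,
        polar_smul_left, polar_smul_right, polar_neg_right, smul_eq_mul, (hu _ _).1, (hu _ _).2, hfu, hfu', hff, if_true]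
      have : x ^ 2 + y ^ 2 = ν := by linear_combination hxy
      have hne : (x * (x * 1) + x * (y * 0) + (y * (x * 0) + y * (y * 1))) ≠ 0 := by
        intro h0; exact hν0 (by linear_combination h0 - this)
      have hne2 : y ^ 2 + x ^ 2 ≠ 0 := by rw [add_comm, this]; exact hν0
      have hne3 : x ^ 2 + y ^ 2 ≠ 0 := by rw [this]; exact hν0
      match_scalars <;> field_simp <;> first | ring1 | (ring_nf; field_simp; ring1)
    · rw [Sum.elim_inl, (hout i hi).2, (hout i hi).1]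
    · simp only [Sum.elim_inr, Subgroup.coe_mul, LinearEquiv.mul_apply, reflQ_apply, map_sub, map_smul, map_add,
        map_neg, hv₂, v₁, hR1, hR2, eq_half_mul h2 (x • u j₀ + y • f.1 (u j₀)), polar_add_left, polar_add_right,
        polar_sub_right, polar_smul_left, polar_smul_right, polar_neg_right, smul_eq_mul, (hu _ _).1, (hu _ _).2, hfu,
        hfu', hff, if_true]
      have : x ^ 2 + y ^ 2 = ν := by linear_combination hxy
      have hne : (x * (x * 1) + x * (y * 0) + (y * (x * 0) + y * (y * 1))) ≠ 0 := by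
        intro h0; exact hν0 (by linear_combination h0 - this)
      have hne2 : y ^ 2 + x ^ 2 ≠ 0 := by rw [add_comm, this]; exact hν0
      have hne3 : x ^ 2 + y ^ 2 ≠ 0 := by rw [this]; exact hν0
      match_scalars <;> field_simp <;> first | ring1 | (ring_nf; field_simp; ring1)
    · rw [Sum.elim_inr, (hout i hi).2, hff, map_neg, (hout i hi).1]
  · have hiff : IsSquare ((2 : F)⁻¹ * ν) ↔ ¬ IsSquare ((2 : F)⁻¹) :=
      ⟨fun h h' => hν (Forms25.isSquare_of_isSquare_mul (inv_ne_zero h2) h' h),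
        fun h => Forms.isSquare_mul_of_not_isSquare h hν⟩
    rw [map_mul, sgnHom_refl h2 hB hRQ, sgnHom_refl h2 hB hRQ]
    by_cases hs : IsSquare ((2 : F)⁻¹)
    · rw [if_pos (by rwa [hR1]), if_neg (by rw [hR2]; exact fun h => hiff.1 h hs)]; rfl
    · rw [if_neg (by rwa [hR1]), if_pos (by rw [hR2]; exact hiff.2 hs)]; rfl

/-- An adapted orthonormal basis of a map of square `-1`. -/
theorem exists_frame (h2 : (2 : F) ≠ 0) (hB : BNondeg R) {d : ℕ} (hd : finrank F V = 2 * d) {f : OQ R}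
    (hff : ∀ v, f.1 (f.1 v) = -v) :
    ∃ (u : Fin d → V) (b : Basis (Fin d ⊕ Fin d) F V),
      (∀ i j, polar R (u i) (u j) = (if i = j then 1 else 0) ∧ polar R (u i) (f.1 (u j)) = 0) ∧
      (∀ z, b z = Sum.elim u (fun j => f.1 (u j)) z) ∧
      ∀ i j, polar R (b i) (b j) = if i = j then 1 else 0 := by
  classical
  have hq : Fintype.card F % 2 = 1 := FiniteField.odd_card_of_char_ne_two fun h => h2 (by
    have := ringChar.charP F; rw [h] at this; exact CharTwo.two_eq_zero)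
  have hskew : ∀ u v, polar R (f.1 u) v = -polar R u (f.1 v) := fun u v => by
    conv_lhs => rw [← OQ_polar f, hff]
    rw [polar_neg_left]
  obtain ⟨u, -, hu⟩ := exists_skew_planes_symm h2 hq hff d ⊤ (fun _ _ => trivial)
    (fun x _ h => hB x fun y => h y Submodule.mem_top) (by rw [finrank_top, hd])
  let fam : Fin d ⊕ Fin d → V := Sum.elim u fun j => f.1 (u j)
  have hG : ∀ i j, polar R (fam i) (fam j) = if i = j then 1 else 0 := by
    rintro (i | i) (j | j) <;> simp [fam, -QuadraticMap.polar_self, hskew, hff, polar_neg_right, (hu _ _).1, (hu _ _).2]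
  have hli : LinearIndependent F fam := linearIndependent_of_orth (fun i j h => by rw [hG, if_neg h])
    fun i => by rw [hG, if_pos rfl]; exact one_ne_zero
  by_cases hd0 : d = 0
  · subst hd0
    have : Subsingleton V := finrank_zero_iff.1 (hd.trans rfl)
    exact ⟨u, Basis.empty V, hu, fun z => isEmptyElim z, fun z => isEmptyElim z⟩
  have : Nonempty (Fin d ⊕ Fin d) := ⟨Sum.inl ⟨0, by omega⟩⟩
  refine ⟨u, basisOfLinearIndependentOfCardEqFinrank hli (by simp [hd]; omega), hu, fun z => by simp [fam],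
    fun i j => ?_⟩
  rw [coe_basisOfLinearIndependentOfCardEqFinrank]; exact hG i j

/-- Maps of square `-1` are conjugate. -/
theorem exists_conj_sq_neg (h2 : (2 : F) ≠ 0) (hB : BNondeg R) {d : ℕ} (hd : finrank F V = 2 * d) {f f' : OQ R}
    (hff : ∀ v, f.1 (f.1 v) = -v) (hff' : ∀ v, f'.1 (f'.1 v) = -v) :
    ∃ g : OQ R, ∀ v, f.1 (g.1 v) = g.1 (f'.1 v) := by
  obtain ⟨u, b, -, hb, hbG⟩ := exists_frame h2 hB hd hff
  obtain ⟨u', b', -, hb', hbG'⟩ := exists_frame h2 hB hd hff'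
  obtain ⟨g, hg⟩ := exists_isometry h2 b' b fun i j => by rw [hbG', hbG]
  refine ⟨g, fun v => LinearMap.congr_fun (b'.ext (f₁ := f.1.toLinearMap ∘ₗ g.1.toLinearMap)
    (f₂ := g.1.toLinearMap ∘ₗ f'.1.toLinearMap) fun z => ?_) v⟩
  show f.1 (g.1 (b' z)) = g.1 (f'.1 (b' z))
  rw [hg]
  rcases z with j | j
  · rw [hb', Sum.elim_inl, show f'.1 (u' j) = b' (Sum.inr j) from (hb' (Sum.inr j)).symm, hg, hb, hb]; rfl
  · rw [hb', Sum.elim_inr, hff', map_neg, show u' j = b' (Sum.inl j) from (hb' (Sum.inl j)).symm, hg, hb, hb]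
    exact hff (u j)

end general

section field

variable {F : Type*} [Field F] [Fintype F] {V : Type*} [AddCommGroup V] [Module F V] [FiniteDimensional F V] [Finite V]
  {R : QuadraticForm F V} {K : Type*} [Field K] [Finite K] [Algebra F K] [Module K V] [IsScalarTower F K V]

/-- Plus type: an orthogonal basis with values `2` and `-2`. -/
def IsPlus (R : QuadraticForm F V) (d : ℕ) : Prop :=
  ∃ b : Basis (Fin d ⊕ Fin d) F V, (∀ i j, i ≠ j → polar R (b i) (b j) = 0) ∧
    (∀ i, polar R (b (Sum.inl i)) (b (Sum.inl i)) = 2) ∧ ∀ i, polar R (b (Sum.inr i)) (b (Sum.inr i)) = -2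

theorem prod_isPlus (d : ℕ) (b : Basis (Fin d ⊕ Fin d) F V) (h1 : ∀ i, polar R (b (Sum.inl i)) (b (Sum.inl i)) = 2)
    (h2' : ∀ i, polar R (b (Sum.inr i)) (b (Sum.inr i)) = -2) : ∏ i, polar R (b i) (b i) = (-4) ^ d := by
  rw [Fintype.prod_sum_type, Finset.prod_congr rfl fun i _ => h1 i, Finset.prod_congr rfl fun i _ => h2' i,
    Finset.prod_const, Finset.prod_const, Finset.card_univ, Fintype.card_fin, ← mul_pow]
  norm_num

/-- Over the extension a space of plus type has the symmetric form `s` times the standard one. -/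
theorem exists_hyp_basis (E : OrthField.Ext R K) (hB : BNondeg R) {d : ℕ} (hd0 : 1 ≤ d)
    (hd : finrank F V = 2 * d) (hP : IsPlus R d) :
    ∃ bK : Basis (Fin d) K V, ∀ i j, E.bil (bK i) (bK j) = if i = j then E.s else 0 := by
  classical
  have h2 := E.h2
  have hq : Fintype.card F % 2 = 1 := FiniteField.odd_card_of_char_ne_two fun h => h2 (by
    have := ringChar.charP F; rw [h] at this; exact CharTwo.two_eq_zero)
  have hs0 : E.s ≠ 0 := fun h => E.δ_ne (by
    have := E.hss; rw [h, mul_zero] at this; exact (algebraMap F K).injective (by rw [← this, map_zero]))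
  obtain ⟨ν, hν⟩ := Forms25.exists_not_isSquare (F := F) h2
  obtain ⟨αx, αy, hαn⟩ := exists_sq_sub_mul_sq hq E.δ_ne ν
  set αK : K := algebraMap F K αx + algebraMap F K αy * E.s with hαKdef
  have hαK : ¬ IsSquare αK := by
    rintro ⟨r, hr⟩
    obtain ⟨p, q, rfl⟩ := E.hgen r
    have hsq : (algebraMap F K p + algebraMap F K q * E.s) * (algebraMap F K p + algebraMap F K q * E.s) =
        algebraMap F K (p * p + q * q * E.δ) + algebraMap F K (2 * p * q) * E.s := by
      simp only [map_add, map_mul, map_ofNat]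
      linear_combination (algebraMap F K q * algebraMap F K q) * E.hss
    rw [hαKdef, hsq] at hr
    obtain ⟨h1, h3⟩ := E.coord_eq hr
    exact hν ⟨p * p - q * q * E.δ, by rw [← hαn, h1, h3]; ring⟩
  have : Module.Finite K V := Module.Finite.of_restrictScalars_finite F K V
  have hdK : finrank K V = d := by
    have h := finrank_mul_finrank F K V
    rw [E.finrank_eq, hd] at h
    omega
  obtain ⟨d', rfl⟩ : ∃ d', d = d' + 1 := ⟨d - 1, by omega⟩
  obtain ⟨bK, hbo, hb1, hb2⟩ := exists_orthogonal_basis_symm E.two_ne (B := E.s⁻¹ • E.bil)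
    ⟨fun u v => by simp [E.bil_symm.eq u v]⟩
    (LinearMap.BilinForm.Nondegenerate.ofSeparatingLeft fun u hu => (E.bil_nondeg hB).1 u fun v =>
      (mul_eq_zero.1 (show E.s⁻¹ * E.bil u v = 0 from hu v)).resolve_left (inv_ne_zero hs0)) hdK hαK
  have hbil : ∀ i j, i ≠ j → E.bil (bK i) (bK j) = 0 := fun i j h =>
    (mul_eq_zero.1 (show E.s⁻¹ * E.bil (bK i) (bK j) = 0 from hbo i j h)).resolve_left (inv_ne_zero hs0)
  have hones : ∀ i, i ≠ Fin.last d' → E.bil (bK i) (bK i) = E.s := fun i hi =>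
    ((inv_mul_eq_iff_eq_mul₀ hs0).1 (show E.s⁻¹ * E.bil (bK i) (bK i) = 1 from hb1 i hi)).trans (mul_one _)
  refine ⟨bK, fun i j => ?_⟩
  rcases eq_or_ne i j with rfl | hij
  swap
  · rw [if_neg hij]; exact hbil i j hij
  rw [if_pos rfl]
  by_cases hi : i = Fin.last d'
  swap
  · exact hones i hi
  subst hi
  refine hb2.elim (fun h => ((inv_mul_eq_iff_eq_mul₀ hs0).1
    (show E.s⁻¹ * E.bil (bK (Fin.last d')) (bK (Fin.last d')) = 1 from h)).trans (mul_one _)) fun hL => ?_
  exfalso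
  have hval : ∀ j, ∀ x y : F, E.bil (bK j) (bK j) = algebraMap F K x + algebraMap F K y * E.s →
      polar R (bK j) (bK j) = x ∧ polar R (E.s • bK j) (bK j) = E.δ * y := fun j x y h => by
    rw [E.bil_apply] at h
    obtain ⟨h1, h3⟩ := E.coord_eq h
    exact ⟨h1, by rw [← h3, mul_inv_cancel_left₀ E.δ_ne]⟩
  have hgood : ∀ j, j ≠ Fin.last d' → polar R (bK j) (bK j) = 0 ∧ polar R (E.s • bK j) (bK j) = E.δ := fun j hj => by
    have := hval j 0 1 (by rw [hones j hj, map_zero, map_one, zero_add, one_mul])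
    rwa [mul_one] at this
  obtain ⟨hL1, hL2⟩ := hval _ (αy * E.δ) αx (by
    rw [(inv_mul_eq_iff_eq_mul₀ hs0).1 (show E.s⁻¹ * E.bil _ _ = αK from hL), hαKdef]
    simp only [map_mul]
    linear_combination algebraMap F K αy * E.hss)
  have hliKs : LinearIndependent F ![(1 : K), E.s] := by
    rw [LinearIndependent.pair_iff]
    intro x y h
    rw [Algebra.smul_def, Algebra.smul_def, mul_one] at h
    exact E.coord_eq (x' := 0) (y' := 0) (by rw [h]; simp)
  have : FiniteDimensional F K := FiniteDimensional.of_finrank_eq_succ (n := 1) E.finrank_eq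
  let bKF := basisOfLinearIndependentOfCardEqFinrank hliKs (by rw [Fintype.card_fin, E.finrank_eq])
  let bV := bKF.smulTower bK
  have hsrc : ∀ j, bV (0, j) = bK j ∧ bV (1, j) = E.s • bK j := fun j => by simp [bV, bKF]
  have hbil0 : ∀ i j, i ≠ j → polar R (bK i) (bK j) = 0 ∧ polar R (E.s • bK i) (bK j) = 0 := fun i j h =>
    E.polar_eq_zero_of_bil (hbil i j h)
  let M : Fin (d' + 1) → Matrix (Fin 2) (Fin 2) F := fun j =>
    !![polar R (bK j) (bK j), polar R (E.s • bK j) (bK j);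
      polar R (E.s • bK j) (bK j), E.δ * polar R (bK j) (bK j)]
  have hmat : LinearMap.BilinForm.toMatrix bV R.polarBilin = Matrix.blockDiagonal M := by
    ext ⟨k₁, i⟩ ⟨k₂, j⟩
    rw [LinearMap.BilinForm.toMatrix_apply, Matrix.blockDiagonal_apply, QuadraticMap.polarBilin_apply_apply]
    rcases eq_or_ne i j with rfl | hij
    · rw [if_pos rfl]
      fin_cases k₁ <;> fin_cases k₂ <;> simp [hsrc, M, E.polar_s_s, polar_comm R (bK i) (E.s • bK i)]
    · rw [if_neg hij]
      fin_cases k₁ <;> fin_cases k₂ <;>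
        simp [hsrc, E.polar_s_s, (hbil0 i j hij).1, (hbil0 i j hij).2, polar_comm R (bK i) (E.s • bK j),
          (hbil0 j i hij.symm).2]
  have hdetM : ∀ j, j ≠ Fin.last d' → (M j).det = -(E.δ ^ 2) := fun j hj => by
    obtain ⟨h1, h3⟩ := hgood j hj
    simp only [M, Matrix.det_fin_two_of, h1, h3]; ring
  have hdetL : (M (Fin.last d')).det = -(E.δ ^ 2) * ν := by
    simp only [M, Matrix.det_fin_two_of, hL1, hL2, ← hαn]; ring
  obtain ⟨bP, hPo, hP1, hP2⟩ := hP
  have h := Forms25.isSquare_gram_det_change R.polarBilin bV bP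
  rw [hmat, Matrix.det_blockDiagonal, det_toMatrix_orth bP hPo, prod_isPlus _ bP hP1 hP2,
    Fin.prod_univ_castSucc, Finset.prod_congr rfl (g := fun _ => -(E.δ ^ 2))
      (fun i _ => hdetM _ (Fin.castSucc_ne_last i)), Finset.prod_const, Finset.card_univ, Fintype.card_fin, hdetL,
    show (-(E.δ ^ 2)) ^ d' * (-(E.δ ^ 2) * ν) * (-4) ^ (d' + 1) = ((2 * E.δ) ^ (d' + 1)) ^ 2 * ν by
      rw [← mul_assoc, ← pow_succ, mul_right_comm, ← mul_pow, ← pow_mul, mul_comm (d' + 1) 2, pow_mul]; ring] at h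
  exact hν (Forms25.isSquare_of_isSquare_mul (pow_ne_zero 2 (pow_ne_zero _ (mul_ne_zero h2 E.δ_ne))) ⟨_, sq _⟩ h)

/-- A hyperbolic basis adapted to a linear map `S` with scalar square `δ`. -/
structure HypData (R : QuadraticForm F V) (S : Module.End F V) (δ : F) (ι : Type) where
  e : ι → V
  t : ι → V
  hext : ∀ T T' : V →ₗ[F] V, (∀ i, T (e i) = T' (e i)) → (∀ i, T (t i) = T' (t i)) → T = T'
  hSe : ∀ i, S (e i) = t i
  hSt : ∀ i, S (t i) = δ • e i
  hee : ∀ i j, polar R (e i) (e j) = 0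
  htt : ∀ i j, polar R (t i) (t j) = 0
  hte : ∀ [DecidableEq ι] i j, polar R (t i) (e j) = if i = j then δ else 0
  iso : ∀ v : ι → V, ∀ w : ι → V, (∀ i j, polar R (v i) (v j) = polar R (e i) (e j)) →
    (∀ i j, polar R (w i) (w j) = polar R (t i) (t j)) → (∀ i j, polar R (w i) (v j) = polar R (t i) (e j)) →
    ∃ g : OQ R, (∀ i, g.1 (e i) = v i) ∧ ∀ i, g.1 (t i) = w i
  extend : ∀ v w : ι → V, ∃ T : V →ₗ[F] V, (∀ i, T (e i) = v i) ∧ ∀ i, T (t i) = w i

theorem HypData.het {S : Module.End F V} {δ : F} {ι : Type} (D : HypData R S δ ι) [DecidableEq ι] (i j : ι) :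
    polar R (D.e i) (D.t j) = if i = j then δ else 0 := by
  rw [polar_comm, D.hte]; simp [eq_comm]

/-- Anti-linearity can be checked on a basis. -/
theorem HypData.anti {S : Module.End F V} {δ : F} {ι : Type} (D : HypData R S δ ι) (T : V →ₗ[F] V)
    (h0 : ∀ i, T (D.t i) = -S (T (D.e i))) (h1 : ∀ i, δ • T (D.e i) = -S (T (D.t i))) :
    T ∘ₗ S = -(S ∘ₗ T) := by
  refine D.hext _ _ (fun i => ?_) fun i => ?_
  · rw [LinearMap.comp_apply, D.hSe, h0]; rfl
  · rw [LinearMap.comp_apply, D.hSt, map_smul, h1]; rfl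

theorem exists_hypData (E : OrthField.Ext R K) (hB : BNondeg R) {d : ℕ} (hd0 : 1 ≤ d)
    (hd : finrank F V = 2 * d) (hP : IsPlus R d) {ι : Type} (e : Fin d ≃ ι) :
    Nonempty (HypData R ((LinearMap.lsmul K V E.s).restrictScalars F) E.δ ι) := by
  classical
  have h2 := E.h2
  obtain ⟨bK, hbK⟩ := exists_hyp_basis E hB hd0 hd hP
  have hliKs : LinearIndependent F ![(1 : K), E.s] := by
    rw [LinearIndependent.pair_iff]
    intro x y h
    rw [Algebra.smul_def, Algebra.smul_def, mul_one] at h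
    exact E.coord_eq (x' := 0) (y' := 0) (by rw [h]; simp)
  have : FiniteDimensional F K := FiniteDimensional.of_finrank_eq_succ (n := 1) E.finrank_eq
  let bKF := basisOfLinearIndependentOfCardEqFinrank hliKs (by rw [Fintype.card_fin, E.finrank_eq])
  have hval : ∀ i j, polar R (bK i) (bK j) = 0 ∧
      polar R (E.s • bK i) (bK j) = if i = j then E.δ else 0 := fun i j => by
    have h := hbK i j
    rw [E.bil_apply] at h
    obtain ⟨h1, h3⟩ := E.coord_eq (x' := 0) (y' := if i = j then 1 else 0) (h.trans (by split_ifs <;> simp))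
    refine ⟨h1, ?_⟩
    rw [← mul_inv_cancel_left₀ E.δ_ne (polar R (E.s • bK i) (bK j)), h3]
    split_ifs <;> simp
  let b := (bKF.smulTower bK).reindex ((Equiv.refl (Fin 2)).prodCongr e)
  have hb0 : ∀ i, b (0, i) = bK (e.symm i) := fun i => by simp [b, bKF]
  have hb1 : ∀ i, b (1, i) = E.s • bK (e.symm i) := fun i => by simp [b, bKF]
  have h01 : ∀ i j, polar R (bK i) (E.s • bK j) = if i = j then E.δ else 0 := fun i j => by
    rw [polar_comm, (hval j i).2]; simp [eq_comm]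
  refine ⟨{
    e := fun i => bK (e.symm i)
    t := fun i => E.s • bK (e.symm i)
    hext := fun T T' h h' => b.ext fun p => ?_
    hSe := fun i => rfl
    hSt := fun i => E.smul_smul_s _
    hee := fun i j => (hval _ _).1
    htt := fun i j => by rw [E.polar_s_s, (hval _ _).1, mul_zero]
    hte := fun i j => by rw [(hval _ _).2]; simp
    iso := fun v w hv hw hwv => ?_
    extend := fun v w => ⟨b.constr F fun p => if p.1 = 0 then v p.2 else w p.2,
      fun i => by rw [← hb0, Basis.constr_basis]; rfl, fun i => by rw [← hb1, Basis.constr_basis]; rfl⟩ }⟩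
  · obtain ⟨k, i⟩ := p
    fin_cases k
    · show T (b (0, i)) = T' (b (0, i))
      rw [hb0]; exact h i
    · show T (b (1, i)) = T' (b (1, i))
      rw [hb1]; exact h' i
  · have hvw : ∀ i j, polar R (v i) (w j) = polar R (bK (e.symm i)) (E.s • bK (e.symm j)) := fun i j => by
      rw [polar_comm, hwv, polar_comm]
    obtain ⟨g, hg⟩ := exists_isometry_of_gram h2 hB b (fun p => if p.1 = 0 then v p.2 else w p.2) (by
      rintro ⟨k₁, i⟩ ⟨k₂, j⟩
      fin_cases k₁ <;> fin_cases k₂ <;> simp [hb0, hb1, hv, hw, hwv, hvw, -QuadraticMap.polar_self])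
    exact ⟨g, fun i => by rw [← hb0, hg]; rfl, fun i => by rw [← hb1, hg]; rfl⟩

/-- Models when `-1` is a square. -/
theorem models_square (h2 : (2 : F) ≠ 0) (hB : BNondeg R) (hRQ : RQ R = ⊤) {S : Module.End F V} {δ : F} (hδ : δ ≠ 0)
    {ι : Type} (i₀ : ι) (D : HypData R S δ ι) (hsq : IsSquare (-1 : F)) :
    ∃ ya τ : OQ R, (∀ v, ya.1 (ya.1 v) = -v) ∧ (sgnHom hB hRQ τ).1 = -1 ∧
      (∀ v, ya.1 (S v) = -S (ya.1 v)) ∧ ∀ v, (τ * ya * τ⁻¹).1 (S v) = -S ((τ * ya * τ⁻¹).1 v) := by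
  classical
  obtain ⟨w, hw⟩ := hsq
  have hww : w * w = -1 := hw.symm
  have hmm : ∀ x : F, w * (w * x) = -x := fun x => by rw [← mul_assoc, hww, neg_one_mul]
  obtain ⟨ya, hya, hya'⟩ := D.iso (fun i => w • D.e i) (fun i => -w • D.t i)
    (fun i j => by simp [polar_smul_left, polar_smul_right, D.hee, -QuadraticMap.polar_self])
    (fun i j => by simp [polar_smul_left, polar_smul_right, D.htt, -QuadraticMap.polar_self])
    (fun i j => by simp [polar_smul_left, polar_smul_right, hmm, -QuadraticMap.polar_self])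
  set u := D.e i₀ - (1 : F) • D.t i₀ with hu
  have hRu : R u = -1 * polar R (D.e i₀) (D.t i₀) := by
    rw [eq_half_mul h2, hu]
    simp only [one_smul, polar_sub_left, polar_sub_right, D.hee, D.htt, D.het, D.hte, if_true]
    field_simp
    ring
  have hu0 : R u ≠ 0 := by rw [hRu, D.het, if_pos rfl]; simpa using hδ
  set τ := reflQ R u hu0 with hτ
  have hττ : ∀ v, τ.1 (τ.1 v) = v := fun v => by
    rw [hτ, ← LinearEquiv.mul_apply, ← Subgroup.coe_mul, reflQ_mul_self]; rfl
  have hτe : τ.1 (D.e i₀) = D.t i₀ := (refl_swap hu0 (D.hee _ _) (D.htt _ _) hRu).trans (one_smul F _)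
  have hτt : τ.1 (D.t i₀) = D.e i₀ := by rw [← hτe, hττ]
  have hτo : ∀ i, i ≠ i₀ → τ.1 (D.e i) = D.e i ∧ τ.1 (D.t i) = D.t i := fun i hi =>
    ⟨reflQ_fix R hu0 (by simp [hu, polar_sub_left, D.hee, D.hte, Ne.symm hi, -QuadraticMap.polar_self]),
      reflQ_fix R hu0 (by simp [hu, polar_sub_left, D.htt, D.het, Ne.symm hi, -QuadraticMap.polar_self])⟩
  have hinv : τ⁻¹ = τ := inv_eq_of_mul_eq_one_right (by rw [hτ, reflQ_mul_self])
  have hyb : ∀ v, (τ * ya * τ⁻¹).1 v = τ.1 (ya.1 (τ.1 v)) := fun v => by rw [hinv]; rfl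
  refine ⟨ya, τ, fun v => ?_, ?_, fun v => ?_, fun v => ?_⟩
  · refine LinearMap.congr_fun (D.hext (ya.1.toLinearMap ∘ₗ ya.1.toLinearMap) (-1) (fun i => ?_) fun i => ?_) v
    · simp [hya, smul_smul, hww]
    · simp [hya', smul_smul, hww]
  · rw [hτ, sgnHom_refl h2 hB hRQ]
  · refine LinearMap.congr_fun (D.anti ya.1.toLinearMap (fun i => ?_) fun i => ?_) v
    · simp [hya, hya', D.hSe]
    · simp [hya, hya', D.hSt, smul_comm δ w]
  · rw [hyb, hyb]
    refine LinearMap.congr_fun (D.anti (τ.1.toLinearMap ∘ₗ ya.1.toLinearMap ∘ₗ τ.1.toLinearMap)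
      (fun i => ?_) fun i => ?_) v <;> rcases eq_or_ne i i₀ with rfl | hi
    · simp [hya, hya', hτe, hτt, D.hSe]
    · simp [hya, hya', (hτo i hi).1, (hτo i hi).2, D.hSe]
    · simp [hya, hya', hτe, hτt, D.hSt, smul_comm δ w]
    · simp [hya, hya', (hτo i hi).1, (hτo i hi).2, D.hSt, smul_comm δ w]

/-- Models when `-1` is not a square, the basis being paired. -/
theorem models_nonsquare (h2 : (2 : F) ≠ 0) (hB : BNondeg R) (hRQ : RQ R = ⊤) {S : Module.End F V} {δ : F}
    (hδ0 : δ ≠ 0) {n : ℕ} (D : HypData R S δ (Fin (n + 1) ⊕ Fin (n + 1))) {a c w : F} (hac : a * a + c * c = -1)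
    (hc0 : c ≠ 0) (hw0 : w ≠ 0) (hδ : δ = -(w * w)) :
    ∃ ya τ : OQ R, (∀ v, ya.1 (ya.1 v) = -v) ∧ (sgnHom hB hRQ τ).1 = -1 ∧
      (∀ v, ya.1 (S v) = -S (ya.1 v)) ∧ ∀ v, (τ * ya * τ⁻¹).1 (S v) = -S ((τ * ya * τ⁻¹).1 v) := by
  classical
  let L : Fin (n + 1) → Fin (n + 1) ⊕ Fin (n + 1) := Sum.inl
  let M : Fin (n + 1) → Fin (n + 1) ⊕ Fin (n + 1) := Sum.inr
  obtain ⟨ya, hya, hya'⟩ := D.iso
    (Sum.elim (fun k => a • D.e (L k) + c • D.e (M k)) fun k => c • D.e (L k) - a • D.e (M k))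
    (Sum.elim (fun k => -(a • D.t (L k) + c • D.t (M k))) fun k => -(c • D.t (L k) - a • D.t (M k)))
    (by rintro (i | i) (j | j) <;>
      simp [polar_add_left, polar_add_right, polar_sub_left, polar_sub_right, polar_smul_left, polar_smul_right,
        polar_neg_left, polar_neg_right, D.hee, -QuadraticMap.polar_self])
    (by rintro (i | i) (j | j) <;>
      simp [polar_add_left, polar_add_right, polar_sub_left, polar_sub_right, polar_smul_left, polar_smul_right,
        polar_neg_left, polar_neg_right, D.htt, -QuadraticMap.polar_self])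
    (by rintro (i | i) (j | j) <;> rcases eq_or_ne i j with rfl | hij <;>
      simp [L, M, polar_add_left, polar_add_right, polar_sub_left, polar_sub_right, polar_smul_left, polar_smul_right,
        polar_neg_left, polar_neg_right, D.hte, *, -QuadraticMap.polar_self] <;>
      first | ring1 | linear_combination (w * w) * hac | linear_combination (-δ) * hac)
  -- the transvection and the reflection
  set α := a / (2 * c * δ) with hα
  have hu0' : R (D.e (L 0)) = 0 := by rw [eq_half_mul h2, D.hee, mul_zero]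
  have hzero : polar R (D.e (L 0)) (α • D.t (M 0)) = 0 := by
    rw [polar_smul_right, D.het, if_neg Sum.inl_ne_inr, smul_zero]
  set η := siegel R hu0' hzero with hη
  have hηv : ∀ x, η.1 x = x + polar R (D.e (L 0)) x • (α • D.t (M 0)) - polar R (α • D.t (M 0)) x • D.e (L 0) := fun x => by
    have hQ : R (α • D.t (M 0)) = 0 := by rw [QuadraticMap.map_smul, eq_half_mul h2, D.htt, mul_zero, smul_zero]
    rw [hη, siegel_apply, hQ]
    simp [sub_eq_add_neg]
  set μ := (w * c)⁻¹ with hμ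
  have hμ0 : μ ≠ 0 := inv_ne_zero (mul_ne_zero hw0 hc0)
  set u := D.e (M 0) - μ • D.t (M 0) with hu
  have hRu : R u = -μ * polar R (D.e (M 0)) (D.t (M 0)) := by
    rw [eq_half_mul h2, hu]
    simp only [polar_sub_left, polar_sub_right, polar_smul_left, polar_smul_right, D.hee, D.htt, D.het, D.hte, if_true,
      smul_eq_mul]
    field_simp
    ring
  have hu0 : R u ≠ 0 := by rw [hRu, D.het, if_pos rfl]; simp [hδ0, hμ0]
  set σ := reflQ R u hu0 with hσ
  have hσe : σ.1 (D.e (M 0)) = μ • D.t (M 0) := refl_swap hu0 (D.hee _ _) (D.htt _ _) hRu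
  have hσt : σ.1 (D.t (M 0)) = μ⁻¹ • D.e (M 0) := by
    have h : σ.1 (σ.1 (D.e (M 0))) = D.e (M 0) := by
      rw [hσ, ← LinearEquiv.mul_apply, ← Subgroup.coe_mul, reflQ_mul_self]; rfl
    rw [hσe, map_smul] at h
    rw [eq_inv_smul_iff₀ hμ0, h]
  have hσo : ∀ z, z ≠ M 0 → σ.1 (D.e z) = D.e z ∧ σ.1 (D.t z) = D.t z := fun z hz =>
    ⟨reflQ_fix R hu0 (by simp [hu, polar_sub_left, polar_smul_left, D.hee, D.hte, Ne.symm hz, -QuadraticMap.polar_self]),
      reflQ_fix R hu0 (by simp [hu, polar_sub_left, polar_smul_left, D.htt, D.het, Ne.symm hz, -QuadraticMap.polar_self])⟩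
  set τ := σ * (η * η) with hτ
  have hτv : ∀ v, τ.1 v = σ.1 (η.1 (η.1 v)) := fun v => rfl
  have hee : ∀ z z', polar R (D.e z) (D.e z') = 0 := D.hee
  have hαδ : α * δ + α * δ = a / c := by rw [hα]; field_simp; ring
  have hηfix : ∀ z, (z ≠ M 0 → η.1 (D.e z) = D.e z) ∧ (z ≠ L 0 → η.1 (D.t z) = D.t z) := fun z =>
    ⟨fun hz => by simp [hηv, polar_smul_left, D.hee, D.hte, Ne.symm hz, -QuadraticMap.polar_self],
      fun hz => by simp [hηv, polar_smul_left, D.htt, D.het, Ne.symm hz, -QuadraticMap.polar_self]⟩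
  have hηe : η.1 (D.e (M 0)) = D.e (M 0) - (α * δ) • D.e (L 0) := by
    simp [hηv, L, M, polar_smul_left, D.hee, D.hte, -QuadraticMap.polar_self]
  have hηt : η.1 (D.t (L 0)) = D.t (L 0) + (α * δ) • D.t (M 0) := by
    simp [hηv, L, M, polar_smul_left, D.htt, D.het, smul_smul, mul_comm δ α, -QuadraticMap.polar_self]
  have hLM : L 0 ≠ M 0 := Sum.inl_ne_inr
  have hte1 : τ.1 (D.e (M 0)) = μ • D.t (M 0) - (a / c) • D.e (L 0) := by
    rw [hτv, hηe, map_sub, map_smul, hηe, (hηfix _).1 hLM, map_sub, map_sub, map_smul, hσe, (hσo _ hLM).1, sub_sub,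
      ← add_smul, hαδ]
  have htt0 : τ.1 (D.t (L 0)) = D.t (L 0) + (a / c * μ⁻¹) • D.e (M 0) := by
    rw [hτv, hηt, map_add, map_smul, hηt, (hηfix _).2 (Ne.symm hLM), map_add, map_add, map_smul, hσt, (hσo _ hLM).2,
      add_assoc, ← add_smul, hαδ, smul_smul]
  have hfixe : ∀ z, z ≠ M 0 → τ.1 (D.e z) = D.e z := fun z hz => by
    rw [hτv, (hηfix z).1 hz, (hηfix z).1 hz, (hσo z hz).1]
  have htt1 : τ.1 (D.t (M 0)) = μ⁻¹ • D.e (M 0) := by
    rw [hτv, (hηfix _).2 (Ne.symm hLM), (hηfix _).2 (Ne.symm hLM), hσt]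
  have hfixt : ∀ z, z ≠ M 0 → z ≠ L 0 → τ.1 (D.t z) = D.t z := fun z hz hz' => by
    rw [hτv, (hηfix z).2 hz', (hηfix z).2 hz', (hσo z hz).2]
  -- the conjugate model
  obtain ⟨yb, hybe, hybt⟩ := D.extend
    (Sum.elim (fun k => if k = 0 then w⁻¹ • D.t (M 0) else a • D.e (L k) + c • D.e (M k))
      (fun k => if k = 0 then -w⁻¹ • D.t (L 0) else c • D.e (L k) - a • D.e (M k)))
    (Sum.elim (fun k => if k = 0 then w • D.e (M 0) else -(a • D.t (L k) + c • D.t (M k)))
      (fun k => if k = 0 then -w • D.e (L 0) else -(c • D.t (L k) - a • D.t (M k))))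
  have hcomm : τ.1.toLinearMap ∘ₗ ya.1.toLinearMap = yb ∘ₗ τ.1.toLinearMap := by
    refine D.hext _ _ ?_ ?_ <;> rintro (k | k) <;> rcases eq_or_ne k 0 with rfl | hk <;>
      simp only [LinearMap.comp_apply, LinearEquiv.coe_coe, hya, hya', Sum.elim_inl, Sum.elim_inr, map_add, map_sub,
        map_neg, map_smul]
    · rw [show (Sum.inl (0 : Fin (n + 1)) : Fin (n + 1) ⊕ Fin (n + 1)) = L 0 from rfl, hfixe _ hLM, hte1, hybe]
      simp only [L, Sum.elim_inl, if_true, hμ]
      match_scalars <;> field_simp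
      ring
    · rw [show (Sum.inl k : Fin (n + 1) ⊕ Fin (n + 1)) = L k from rfl, hfixe _ (by simp [L, M]),
        hfixe (M k) (by simp [M, hk]), hybe]
      simp [L, hk]
    · rw [show (Sum.inr (0 : Fin (n + 1)) : Fin (n + 1) ⊕ Fin (n + 1)) = M 0 from rfl, hfixe _ hLM, hte1, map_sub,
        map_smul, map_smul, hybt, hybe]
      simp only [L, M, Sum.elim_inl, Sum.elim_inr, if_true, hμ]
      match_scalars <;> field_simp <;> first | ring1 | linear_combination hac | linear_combination -hac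
    · rw [show (Sum.inr k : Fin (n + 1) ⊕ Fin (n + 1)) = M k from rfl, hfixe (L k) (by simp [L, M]),
        hfixe (M k) (by simp [M, hk]), hybe]
      simp [M, hk]
    · rw [show (Sum.inl (0 : Fin (n + 1)) : Fin (n + 1) ⊕ Fin (n + 1)) = L 0 from rfl, htt1, htt0, map_add,
        map_smul, hybt, hybe]
      simp only [L, M, Sum.elim_inl, Sum.elim_inr, if_true, hμ]
      match_scalars <;> field_simp <;> first | ring1 | linear_combination hac | linear_combination -hac
    · rw [show (Sum.inl k : Fin (n + 1) ⊕ Fin (n + 1)) = L k from rfl, hfixt (L k) (by simp [L, M]) (by simp [L, hk]),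
        hfixt (M k) (by simp [M, hk]) (by simp [L, M]), hybt]
      simp [L, hk]
      try abel
    · rw [show (Sum.inr (0 : Fin (n + 1)) : Fin (n + 1) ⊕ Fin (n + 1)) = M 0 from rfl, htt1, htt0, map_smul, hybe]
      simp only [L, M, Sum.elim_inr, if_true, hμ]
      match_scalars <;> field_simp <;> first | ring1 | linear_combination hac | linear_combination -hac
    · rw [show (Sum.inr k : Fin (n + 1) ⊕ Fin (n + 1)) = M k from rfl, hfixt (L k) (by simp [L, M]) (by simp [L, hk]),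
        hfixt (M k) (by simp [M, hk]) (by simp [L, M]), hybt]
      simp [M, hk]
      try abel
  have hyb : ∀ v, (τ * ya * τ⁻¹).1 v = yb v := fun v => by
    rw [Subgroup.coe_mul, Subgroup.coe_mul, LinearEquiv.mul_apply, LinearEquiv.mul_apply]
    have h := LinearMap.congr_fun hcomm ((τ⁻¹ : OQ R).1 v)
    simp only [LinearMap.comp_apply, LinearEquiv.coe_coe] at h
    rw [h]
    congr 1
    exact τ.1.apply_symm_apply v
  refine ⟨ya, τ, fun v => ?_, ?_, fun v => ?_, fun v => ?_⟩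
  · refine LinearMap.congr_fun (D.hext (ya.1.toLinearMap ∘ₗ ya.1.toLinearMap) (-1) ?_ ?_) v <;> rintro (k | k) <;>
      simp [hya, hya', L, M, map_sub, map_add, map_neg, smul_smul] <;>
      match_scalars <;> first | ring1 | linear_combination hac
  · rw [hτ, map_mul, map_mul, hσ, sgnHom_refl h2 hB hRQ]
    rcases Int.units_eq_one_or (sgnHom hB hRQ η).1 with h | h <;> simp [Prod.fst_mul, h]
  · refine LinearMap.congr_fun (D.anti ya.1.toLinearMap ?_ ?_) v <;> rintro (k | k) <;>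
      simp [hya, hya', L, M, D.hSe, D.hSt, map_sub, map_add, map_neg, smul_smul] <;>
      (try match_scalars) <;> (try ring1)
  · rw [hyb, hyb]
    refine LinearMap.congr_fun (D.anti yb ?_ ?_) v <;> rintro (k | k) <;> rcases eq_or_ne k 0 with rfl | hk <;>
      simp [hybe, hybt, L, M, *, D.hSe, D.hSt, map_sub, map_add, map_neg, smul_smul] <;>
      (try match_scalars) <;> (try field_simp) <;> (try ring1)

/-- Two anti-linear maps of square `-1`, conjugate by an isometry of Dickson invariant `-1`. -/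
theorem exists_models (E : OrthField.Ext R K) (hB : BNondeg R) (hRQ : RQ R = ⊤) {d : ℕ} (hd0 : 1 ≤ d)
    (hd : finrank F V = 2 * d) (hP : IsPlus R d) (hcase : IsSquare (-1 : F) ∨ Even d) :
    ∃ ya τ : OQ R, (∀ v, ya.1 (ya.1 v) = -v) ∧ (sgnHom hB hRQ τ).1 = -1 ∧
      (∀ v, ya.1 (E.s • v) = -(E.s • ya.1 v)) ∧
      ∀ v, (τ * ya * τ⁻¹).1 (E.s • v) = -(E.s • (τ * ya * τ⁻¹).1 v) := by
  classical
  have h2 := E.h2
  by_cases hsq : IsSquare (-1 : F)
  · obtain ⟨D⟩ := exists_hypData E hB hd0 hd hP (Equiv.refl (Fin d))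
    exact models_square h2 hB hRQ E.δ_ne ⟨0, hd0⟩ D hsq
  · obtain ⟨n', hn⟩ := hcase.resolve_left hsq
    obtain ⟨n, rfl⟩ : ∃ n, n' = n + 1 := ⟨n' - 1, by omega⟩
    have hq : Fintype.card F % 2 = 1 := FiniteField.odd_card_of_char_ne_two fun h => h2 (by
      have := ringChar.charP F; rw [h] at this; exact CharTwo.two_eq_zero)
    obtain ⟨a, c, hac⟩ := exists_sq_sub_mul_sq (c := (-1 : F)) hq (neg_ne_zero.2 one_ne_zero) (-1 : F)
    have hac' : a * a + c * c = -1 := by linear_combination hac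
    obtain ⟨w, hw⟩ : IsSquare (-E.δ) := by
      rw [← neg_one_mul]; exact Forms.isSquare_mul_of_not_isSquare hsq E.hns
    obtain ⟨D⟩ := exists_hypData E hB hd0 hd hP ((finCongr hn).trans finSumFinEquiv.symm)
    have hc0 : c ≠ 0 := fun h => hsq ⟨a, by rw [← hac', h]; ring⟩
    have hw0 : w ≠ 0 := fun h => E.δ_ne (by rw [h, mul_zero, neg_eq_zero] at hw; exact hw)
    exact models_nonsquare (w := w) h2 hB hRQ E.δ_ne D hac' hc0 hw0 (by rw [← hw, neg_neg])

/-- Elements with square `-1`. -/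
theorem sq_neg_one (E : OrthField.Ext R K) (hB : BNondeg R) {d : ℕ} (hd0 : 1 ≤ d) (hd : finrank F V = 2 * d)
    (hP : IsPlus R d) {f : OQ R} (hff : ∀ v, f.1 (f.1 v) = -v) :
    ∃ g ∈ commutator (OQ R), ∃ ε : F, (ε = 1 ∨ ε = -1) ∧
      ∀ v, g.1.symm (f.1 (g.1 (E.s • v))) = ε • (E.s • g.1.symm (f.1 (g.1 v))) := by
  classical
  have h2 := E.h2
  have hRQ : RQ R = ⊤ := RQ_eq_top hB (notExceptional_of_two_ne_zero h2)
  obtain ⟨u, bF, hu, hbF, hbG⟩ := exists_frame h2 hB hd hff
  have hcase : IsSquare (-1 : F) ∨ Even d := by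
    refine or_iff_not_imp_right.2 fun ho => ?_
    obtain ⟨w, rfl⟩ := Nat.not_even_iff_odd.1 ho
    obtain ⟨bP, hPo, hP1, hP2⟩ := hP
    have h := isSquare_prod_mul bF bP (fun i j h => by rw [hbG, if_neg h]) hPo
    rw [prod_isPlus _ bP hP1 hP2, show (∏ i, polar R (bF i) (bF i)) = 1 from
      Finset.prod_eq_one fun i _ => by rw [hbG, if_pos rfl], one_mul,
      show (-4 : F) ^ (2 * w + 1) = (2 * (-4) ^ w) ^ 2 * -1 by ring] at h
    have h4 : (-4 : F) ≠ 0 := by
      rw [show (-4 : F) = -(2 * 2) by norm_num]; exact neg_ne_zero.2 (mul_ne_zero h2 h2)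
    exact Forms25.isSquare_of_isSquare_mul (pow_ne_zero 2 (mul_ne_zero h2 (pow_ne_zero _ h4))) ⟨_, sq _⟩ h
  obtain ⟨ya, τ, hyy, hτ, hya, hyb⟩ := exists_models E hB hRQ hd0 hd hP hcase
  obtain ⟨g, hg⟩ := exists_conj_sq_neg h2 hB hd hff hyy
  obtain ⟨h, hh, hhs⟩ := exists_rotation h2 hB hRQ hff hd0 u hu (by
    rw [← funext hbF]; exact bF.span_eq)
  -- choose the Dickson invariant
  obtain ⟨g₁, y, hg₁, hy, hd1⟩ : ∃ (g₁ : OQ R) (y : OQ R), (∀ v, f.1 (g₁.1 v) = g₁.1 (y.1 v)) ∧
      (∀ v, y.1 (E.s • v) = -(E.s • y.1 v)) ∧ (sgnHom hB hRQ g₁).1 = 1 := by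
    rcases Int.units_eq_one_or (sgnHom hB hRQ g).1 with h1 | h1
    · exact ⟨g, ya, hg, hya, h1⟩
    · refine ⟨g * τ⁻¹, τ * ya * τ⁻¹, fun v => ?_, hyb, ?_⟩
      · simp only [Subgroup.coe_mul, LinearEquiv.mul_apply, hg]
        congr 1
        exact congrArg (fun k : OQ R => k.1 v) (show ya * τ⁻¹ = τ⁻¹ * (τ * ya * τ⁻¹) by group)
      · rw [map_mul, map_inv, Prod.fst_mul, Prod.fst_inv, h1, hτ]; rfl
  obtain ⟨g₂, hg₂, hmem⟩ : ∃ g₂ : OQ R, (∀ v, f.1 (g₂.1 v) = g₂.1 (y.1 v)) ∧ g₂ ∈ commutator (OQ R) := by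
    have hn : 2 ≤ finrank F V := by omega
    rcases Int.units_eq_one_or (sgnHom hB hRQ g₁).2 with h1 | h1
    · refine ⟨g₁, hg₁, ?_⟩
      rw [commutator_eq_ker_sgnHom h2 hB hn hRQ, MonoidHom.mem_ker]
      exact Prod.ext hd1 h1
    · refine ⟨h * g₁, fun v => ?_, ?_⟩
      · simp only [Subgroup.coe_mul, LinearEquiv.mul_apply, ← hh, hg₁]
      · rw [commutator_eq_ker_sgnHom h2 hB hn hRQ, MonoidHom.mem_ker, map_mul, hhs]
        exact Prod.ext (by simp [hd1]) (by simp [h1])
  refine ⟨g₂, hmem, -1, Or.inr rfl, fun v => ?_⟩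
  rw [hg₂, hg₂, LinearEquiv.symm_apply_apply, LinearEquiv.symm_apply_apply, neg_one_smul]
  exact hy v

end field

end Cfsg.Agent.Elusive.FieldExtPlus
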