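import Cfsg.Agent.Elusive.SympOrder
import Cfsg.Agent.MaxSub.FieldSub
import Cfsg.Agent.SympSub.Count

/-!
Field extension subgroups of type `Sp_{2d/k}(q^k)` of a symplectic group: invariant subspaces, symmetries of
small rank, and a copy of the smaller symplectic group.
-/

namespace Cfsg.Agent.Elusive

open Cfsg.Agent.Forms Matrix

variable {F : Type*} [Field F] {d : ℕ}

/-- The natural map of the symplectic group to the general linear group. -/
def sympToGL (d : ℕ) (F : Type*) [Field F] :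
    Matrix.symplecticGroup (Fin d) F →* GL (Fin d ⊕ Fin d) F :=
  (Matrix.symplecticGroup (Fin d) F).subtype.toHomUnits

theorem sympToGL_mem (s : Matrix.symplecticGroup (Fin d) F) : sympToGL d F s ∈ Cfsg.spGL d F :=
  mem_spGL_iff.2 s.2

theorem sympToGL_injective : Function.Injective (sympToGL d F) :=
  fun _ _ h => Subtype.ext (congrArg Units.val h)

theorem card_spGL_eq : Nat.card ↥(Cfsg.spGL d F) = Nat.card (Matrix.symplecticGroup (Fin d) F) :=
  Nat.card_congr
    { toFun := fun g => ⟨g.1.1, mem_spGL_iff.1 g.2⟩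
      invFun := fun s => ⟨sympToGL d F s, sympToGL_mem s⟩
      left_inv := fun g => Subtype.ext (Units.ext rfl)
      right_inv := fun s => rfl }

/-- The image of `g - 1` for a matrix `g`. -/
noncomputable def movedSpace (g : GL (Fin d ⊕ Fin d) F) : Submodule F (Fin d ⊕ Fin d → F) :=
  LinearMap.range (Matrix.toLin' (g : Matrix (Fin d ⊕ Fin d) (Fin d ⊕ Fin d) F) - 1)

theorem finrank_movedSpace_conj (g x : GL (Fin d ⊕ Fin d) F) :
    Module.finrank F (movedSpace (g⁻¹ * x * g)) = Module.finrank F (movedSpace x) := by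
  set e := Matrix.toLin'OfInv (M := (g : Matrix (Fin d ⊕ Fin d) (Fin d ⊕ Fin d) F))
    (M' := ((g⁻¹ : GL (Fin d ⊕ Fin d) F) : Matrix (Fin d ⊕ Fin d) (Fin d ⊕ Fin d) F))
    (by rw [← Units.val_mul, mul_inv_cancel, Units.val_one]) (by rw [← Units.val_mul, inv_mul_cancel, Units.val_one])
  have he : ∀ v, e v = ((g⁻¹ : GL (Fin d ⊕ Fin d) F) : Matrix (Fin d ⊕ Fin d) (Fin d ⊕ Fin d) F) *ᵥ v :=
    fun v => Matrix.toLin'_apply _ v
  have he' : ∀ v, e.symm v = (g : Matrix (Fin d ⊕ Fin d) (Fin d ⊕ Fin d) F) *ᵥ v := fun v => Matrix.toLin'_apply _ v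
  have key : Matrix.toLin' ((g⁻¹ * x * g : GL (Fin d ⊕ Fin d) F) : Matrix (Fin d ⊕ Fin d) (Fin d ⊕ Fin d) F) - 1 =
      e.toLinearMap ∘ₗ (Matrix.toLin' (x : Matrix (Fin d ⊕ Fin d) (Fin d ⊕ Fin d) F) - 1) ∘ₗ e.symm.toLinearMap := by
    refine LinearMap.ext fun v => ?_
    rw [LinearMap.sub_apply, LinearMap.comp_apply, LinearMap.comp_apply, LinearEquiv.coe_coe, LinearEquiv.coe_coe,
      LinearMap.sub_apply, map_sub, Module.End.one_apply, Module.End.one_apply, e.apply_symm_apply, he, he',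
      Matrix.toLin'_apply, Matrix.toLin'_apply, Units.val_mul, Units.val_mul, Matrix.mulVec_mulVec, Matrix.mulVec_mulVec]
  rw [movedSpace, movedSpace, key, LinearMap.range_comp, LinearMap.range_comp, LinearEquiv.range, Submodule.map_top,
    LinearEquiv.finrank_map_eq]

/-- An isometry of order prime to the characteristic moves a nondegenerate subspace. -/
theorem nonDegOn_range_sub_one {V : Type*} [AddCommGroup V] [Module F V] [FiniteDimensional F V]
    {B : LinearMap.BilinForm F V} (hB0 : B.Nondegenerate) {f : Module.End F V} (hB : ∀ u v, B (f u) (f v) = B u v)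
    {m : ℕ} (hm : (m : F) ≠ 0) (hf : f ^ m = 1) : NonDegOn B (LinearMap.range (f - 1)) := by
  rintro x ⟨z, rfl⟩ h
  have hinj : Function.Injective f := fun u v huv => by
    rcases m with _ | m
    · simp at hm
    have := congrArg (fun y => (f ^ m) y) huv
    simpa [← Module.End.mul_apply, ← pow_succ, hf] using this
  set x := (f - 1) z with hx
  have hfix : f x = x := by
    refine sub_eq_zero.1 (hB0.1 _ fun v => ?_)
    obtain ⟨w, rfl⟩ := LinearMap.injective_iff_surjective.1 hinj v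
    have h' := h ((f - 1) w) ⟨w, rfl⟩
    rw [LinearMap.sub_apply, Module.End.one_apply, map_sub, sub_eq_zero] at h'
    rw [map_sub, LinearMap.sub_apply, hB, h', sub_self]
  have hpow : ∀ i, (f ^ i) x = x := fun i => by
    induction i with
    | zero => rfl
    | succ i ih => rw [pow_succ', Module.End.mul_apply, ih, hfix]
  have h1 : (∑ i ∈ Finset.range m, f ^ i) x = 0 := by
    rw [hx, ← Module.End.mul_apply, geom_sum_mul, hf, sub_self, LinearMap.zero_apply]
  rw [LinearMap.sum_apply, Finset.sum_congr rfl (fun i _ => hpow i), Finset.sum_const, Finset.card_range,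
    ← Nat.cast_smul_eq_nsmul F] at h1
  exact (smul_eq_zero.1 h1).resolve_left hm

/-- Two maps conjugate under `f` differ by a map of rank at most twice that of `f - 1`. -/
theorem finrank_le_of_conj {V : Type*} [AddCommGroup V] [Module F V] [FiniteDimensional F V]
    {f A A' : Module.End F V} (h : f * A = A' * f) (hbij : Function.Surjective (A' - A : Module.End F V)) :
    Module.finrank F V ≤ 2 * Module.finrank F (LinearMap.range (f - 1)) := by
  have hle : ⊤ ≤ LinearMap.range (f - 1) ⊔ (LinearMap.range (f - 1)).map A' := by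
    intro v _
    obtain ⟨w, rfl⟩ := hbij v
    have hw : f (A w) = A' (f w) := LinearMap.congr_fun h w
    have e : (A' - A) w = (f - 1) (A w) + -(A' ((f - 1) w)) := by
      simp only [LinearMap.sub_apply, Module.End.one_apply, map_sub, hw]; abel
    rw [e]
    exact Submodule.add_mem_sup ⟨_, rfl⟩ (neg_mem ⟨_, ⟨w, rfl⟩, rfl⟩)
  have h1 := Submodule.finrank_mono hle
  rw [finrank_top] at h1
  have h2 := Submodule.finrank_add_le_finrank_add_finrank (LinearMap.range (f - 1)) ((LinearMap.range (f - 1)).map A')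
  have h3 := Submodule.finrank_map_le A' (LinearMap.range (f - 1))
  omega

/-- An element normalising a field either centralises it or moves at least half of the space. -/
theorem commute_or_moves [Fintype F] {k : ℕ} {K : Subalgebra F (Matrix (Fin d ⊕ Fin d) (Fin d ⊕ Fin d) F)}
    (hK : Cfsg.Geo.IsFieldSubalgebra k K) {y : GL (Fin d ⊕ Fin d) F} (hy : y ∈ Cfsg.Geo.subalgebraNormalizer K) :
    (∀ a ∈ K, (y : Matrix (Fin d ⊕ Fin d) (Fin d ⊕ Fin d) F) * a = a * y) ∨
      2 * d ≤ 2 * Module.finrank F (movedSpace y) := by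
  by_cases h : ∀ a ∈ K, (y : Matrix (Fin d ⊕ Fin d) (Fin d ⊕ Fin d) F) * a = a * y
  · exact Or.inl h
  push Not at h
  obtain ⟨a, ha, hne⟩ := h
  refine Or.inr ?_
  set b := (y : Matrix (Fin d ⊕ Fin d) (Fin d ⊕ Fin d) F) * a * ((y⁻¹ : GL (Fin d ⊕ Fin d) F) : Matrix (Fin d ⊕ Fin d) (Fin d ⊕ Fin d) F)
    with hbdef
  have hb : b ∈ K := (hy a).1 ha
  have hyb : (y : Matrix (Fin d ⊕ Fin d) (Fin d ⊕ Fin d) F) * a = b * y := by
    rw [hbdef, mul_assoc, ← Units.val_mul, inv_mul_cancel, Units.val_one, mul_one]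
  have hba : b - a ≠ 0 := fun h => hne (by rw [hyb, sub_eq_zero.1 h])
  obtain ⟨c, -, hc⟩ := hK.inv _ (K.sub_mem hb ha) hba
  have hsurj : Function.Surjective (Matrix.toLin' b - Matrix.toLin' a : Module.End F (Fin d ⊕ Fin d → F)) := fun v =>
    ⟨c *ᵥ v, by rw [← map_sub, Matrix.toLin'_apply, Matrix.mulVec_mulVec, hc, Matrix.one_mulVec]⟩
  have := finrank_le_of_conj (f := Matrix.toLin' (y : Matrix (Fin d ⊕ Fin d) (Fin d ⊕ Fin d) F))
    (A := Matrix.toLin' a) (A' := Matrix.toLin' b)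
    (by rw [Module.End.mul_eq_comp, Module.End.mul_eq_comp, ← Matrix.toLin'_mul, ← Matrix.toLin'_mul, hyb]) hsurj
  rw [Module.finrank_fintype_fun_eq_card, Fintype.card_sum, Fintype.card_fin] at this
  rw [movedSpace]
  omega

theorem movedSpace_invariant {y : GL (Fin d ⊕ Fin d) F} {a : Matrix (Fin d ⊕ Fin d) (Fin d ⊕ Fin d) F}
    (h : (y : Matrix (Fin d ⊕ Fin d) (Fin d ⊕ Fin d) F) * a = a * y) :
    ∀ v ∈ movedSpace y, a *ᵥ v ∈ movedSpace y := by
  rintro _ ⟨w, rfl⟩
  refine ⟨a *ᵥ w, ?_⟩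
  simp only [LinearMap.sub_apply, Module.End.one_apply, Matrix.toLin'_apply, Matrix.mulVec_sub, Matrix.mulVec_mulVec, h]

/-- An element of prime order inducing a nontrivial automorphism of a field of prime degree has that order. -/
theorem eq_degree_of_not_commute [Fintype F] [Nonempty (Fin d ⊕ Fin d)] {k r : ℕ} (hk : k.Prime) (hr : r.Prime)
    {K : Subalgebra F (Matrix (Fin d ⊕ Fin d) (Fin d ⊕ Fin d) F)} (hK : Cfsg.Geo.IsFieldSubalgebra k K)
    {y : GL (Fin d ⊕ Fin d) F} (hy : y ∈ Cfsg.Geo.subalgebraNormalizer K) (hyr : y ^ r = 1)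
    (hne : ¬ ∀ a ∈ K, (y : Matrix (Fin d ⊕ Fin d) (Fin d ⊕ Fin d) F) * a = a * y) : r = k := by
  classical
  letI : Field K := (MaxSub.isField_of_isFieldSubalgebra hK).toField
  have : Finite K := Finite.of_injective (fun x : K => (x : Matrix (Fin d ⊕ Fin d) (Fin d ⊕ Fin d) F)) Subtype.val_injective
  let σ₀ : K →ₐ[F] K := ((MulSemiringAction.toAlgHom F (Matrix (Fin d ⊕ Fin d) (Fin d ⊕ Fin d) F)
    (ConjAct.toConjAct y)).comp K.val).codRestrict K fun a => by
      simpa [ConjAct.units_smul_def] using (hy a).1 a.2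
  have hσ₀ : ∀ a : K, (σ₀ a : Matrix (Fin d ⊕ Fin d) (Fin d ⊕ Fin d) F) =
      (y : Matrix (Fin d ⊕ Fin d) (Fin d ⊕ Fin d) F) * a * ((y⁻¹ : GL (Fin d ⊕ Fin d) F) : Matrix (Fin d ⊕ Fin d) (Fin d ⊕ Fin d) F) := by
    intro a; simp [σ₀, ConjAct.units_smul_def]
  let σ : K ≃ₐ[F] K := AlgEquiv.ofBijective σ₀ (Finite.injective_iff_bijective.1 σ₀.injective)
  have hpow : ∀ (j : ℕ) (a : K), ((σ ^ j) a : Matrix (Fin d ⊕ Fin d) (Fin d ⊕ Fin d) F) =
      ((y ^ j : GL (Fin d ⊕ Fin d) F) : Matrix (Fin d ⊕ Fin d) (Fin d ⊕ Fin d) F) * a *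
        (((y ^ j)⁻¹ : GL (Fin d ⊕ Fin d) F) : Matrix (Fin d ⊕ Fin d) (Fin d ⊕ Fin d) F) := by
    intro j
    induction j with
    | zero => intro a; simp
    | succ j ih =>
      intro a
      rw [pow_succ' σ, AlgEquiv.mul_apply, pow_succ' y, _root_.mul_inv_rev, Units.val_mul, Units.val_mul]
      show ((σ₀ ((σ ^ j) a) : K) : Matrix (Fin d ⊕ Fin d) (Fin d ⊕ Fin d) F) = _
      rw [hσ₀, ih]
      simp only [mul_assoc]
  have hσr : σ ^ r = 1 := AlgEquiv.ext fun a => Subtype.ext (by rw [hpow, hyr]; simp)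
  have hσ1 : σ ≠ 1 := fun h => hne fun a ha => by
    have h' := congrArg (fun s : K ≃ₐ[F] K => ((s ⟨a, ha⟩ : K) : Matrix (Fin d ⊕ Fin d) (Fin d ⊕ Fin d) F)) h
    change ((σ₀ ⟨a, ha⟩ : K) : Matrix (Fin d ⊕ Fin d) (Fin d ⊕ Fin d) F) = a at h'
    rw [hσ₀] at h'
    conv_rhs => arg 1; rw [← h']
    rw [mul_assoc _ _ (y : Matrix (Fin d ⊕ Fin d) (Fin d ⊕ Fin d) F), ← Units.val_mul, inv_mul_cancel, Units.val_one, mul_one]
  have : Fact r.Prime := ⟨hr⟩
  have hord := orderOf_eq_prime hσr hσ1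
  have hdvd : orderOf σ ∣ k := by
    have := orderOf_dvd_natCard σ
    rwa [IsGalois.card_aut_eq_finrank, hK.finrank_eq] at this
  rw [hord] at hdvd
  exact (Nat.prime_dvd_prime_iff_eq hr hk).1 hdvd

section structure_

variable [Fintype F] [Nonempty (Fin d ⊕ Fin d)] {k : ℕ} {K : Subalgebra F (Matrix (Fin d ⊕ Fin d) (Fin d ⊕ Fin d) F)}

/-- The space is a symplectic space over a self-adjoint alternating field of degree `k`. -/
theorem selfAdjoint_structure (hk : 0 < k) (hK : Cfsg.Geo.IsFieldSubalgebra k K)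
    (hKf : Cfsg.Geo.IsSelfAdjointFor (Cfsg.sympForm d F) K)
    (hKalt : ∀ a ∈ K, ∀ v : Fin d ⊕ Fin d → F, Cfsg.sympForm d F (a *ᵥ v) v = 0) :
    (∀ W : Submodule F (Fin d ⊕ Fin d → F), (∀ a ∈ K, ∀ v ∈ W, a *ᵥ v ∈ W) → NonDegOn (sympBil d F) W →
      2 * k ∣ Module.finrank F W) ∧
    ∃ e, d = k * e ∧ SympSub.spOrder (Fintype.card F ^ k) e ∣
      Nat.card ↥(Cfsg.Geo.subalgebraNormalizer K ⊓ Cfsg.spGL d F) := by
  classical
  letI : CommRing K :=
    { (inferInstance : Ring K) with mul_comm := fun a b => Subtype.ext (hK.comm a a.2 b b.2) }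
  letI : Field K := Field.ofIsUnitOrEqZero fun a => by
    rcases eq_or_ne a 0 with h | h
    · exact Or.inr h
    · obtain ⟨b, hb, hab⟩ := hK.inv a a.2 fun h0 => h (Subtype.ext h0)
      exact Or.inl (IsUnit.of_mul_eq_one (⟨b, hb⟩ : K) (Subtype.ext hab))
  have : Finite K := Finite.of_injective (fun x : K => (x : Matrix (Fin d ⊕ Fin d) (Fin d ⊕ Fin d) F)) Subtype.val_injective
  have hsmul : ∀ (a : K) (v : Fin d ⊕ Fin d → F), a • v = (a : Matrix (Fin d ⊕ Fin d) (Fin d ⊕ Fin d) F) *ᵥ v :=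
    fun a v => rfl
  haveI : Module.Finite K (Fin d ⊕ Fin d → F) := Module.Finite.of_restrictScalars_finite F K _
  haveI : FiniteDimensional F K := inferInstance
  have hkF : Module.finrank F K = k := hK.finrank_eq
  let τ : K →ₗ[F] F := (Module.finBasis F K).coord ⟨0, hkF.symm ▸ hk⟩
  have hτ : ∃ b, τ b ≠ 0 := ⟨Module.finBasis F K ⟨0, hkF.symm ▸ hk⟩, by
    simp only [τ, Module.Basis.coord_apply, Module.Basis.repr_self, Finsupp.single_eq_same]; exact one_ne_zero⟩
  let Ψ₀ : K →ₗ[F] Module.Dual F K := ((LinearMap.mul F K).compr₂ τ).flip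
  have hΨ₀ : ∀ x a, Ψ₀ x a = τ (a * x) := fun x a => rfl
  have hΨinj : Function.Injective Ψ₀ := (injective_iff_map_eq_zero _).2 fun x hx => by
    by_contra hx0
    obtain ⟨b, hb⟩ := hτ
    have := LinearMap.congr_fun hx (b * x⁻¹)
    rw [hΨ₀, inv_mul_cancel_right₀ hx0] at this
    exact hb this
  let Ψ := LinearEquiv.ofBijective Ψ₀
    ⟨hΨinj, (LinearMap.injective_iff_surjective_of_finrank_eq_finrank Subspace.dual_finrank_eq.symm).1 hΨinj⟩
  set B := sympBil d F with hBdef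
  let Λ : (Fin d ⊕ Fin d → F) → (Fin d ⊕ Fin d → F) → Module.Dual F K := fun u v =>
    { toFun := fun a => B (a • u) v
      map_add' := fun a b => by rw [add_smul, map_add, LinearMap.add_apply]
      map_smul' := fun c a => by rw [smul_assoc, map_smul, LinearMap.smul_apply, RingHom.id_apply] }
  have hsa : ∀ (a : K) u v, B (a • u) v = B u (a • v) := fun a u v => by
    rw [hsmul, hsmul, hBdef, sympBil_apply, sympBil_apply]; exact hKf a a.2 u v
  let b₀ : (Fin d ⊕ Fin d → F) → (Fin d ⊕ Fin d → F) → K := fun u v => Ψ.symm (Λ u v)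
  have hb₀ : ∀ u v a, τ (a * b₀ u v) = B (a • u) v := fun u v a => by
    have := LinearMap.congr_fun (Ψ.apply_symm_apply (Λ u v)) a
    exact this
  have hext : ∀ x y : K, (∀ a, τ (a * x) = τ (a * y)) → x = y := fun x y h => hΨinj (LinearMap.ext h)
  let β : LinearMap.BilinForm K (Fin d ⊕ Fin d → F) := LinearMap.mk₂ K b₀
    (fun u u' v => hext _ _ fun a => by rw [hb₀, mul_add, map_add, hb₀, hb₀, smul_add, map_add, LinearMap.add_apply])
    (fun c u v => hext _ _ fun a => by rw [hb₀, smul_eq_mul, ← mul_assoc, hb₀, mul_smul])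
    (fun u v v' => hext _ _ fun a => by rw [hb₀, map_add, mul_add, map_add, hb₀, hb₀])
    (fun c u v => hext _ _ fun a => by rw [hb₀, smul_eq_mul, ← mul_assoc, hb₀, ← hsa, smul_smul, mul_comm])
  have hβ : ∀ u v a, τ (a * β u v) = B (a • u) v := hb₀
  have hBβ : ∀ u v, B u v = τ (β u v) := fun u v => by
    rw [← one_mul (β u v), hβ, one_smul]
  have hβA : β.IsAlt := fun v => hext _ _ fun a => by
    rw [hβ, mul_zero, map_zero, hsmul, hBdef, sympBil_apply]; exact hKalt a a.2 v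
  have hND : ∀ (W : Submodule K (Fin d ⊕ Fin d → F)), NonDegOn B (W.restrictScalars F) → NonDegOn β W :=
    fun W hW u hu h => hW u hu fun v hv => by rw [hBβ, h v hv, map_zero]
  refine ⟨fun W hW hWN => ?_, ?_⟩
  · let W' : Submodule K (Fin d ⊕ Fin d → F) :=
      { W.toAddSubmonoid with smul_mem' := fun a v hv => by rw [hsmul]; exact hW a a.2 v hv }
    have hW' : W'.restrictScalars F = W := Submodule.ext fun _ => Iff.rfl
    obtain ⟨m, hm⟩ := even_finrank_of_nonDegOn hβA (hND W' (hW'.symm ▸ hWN))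
    have h := Module.finrank_mul_finrank F K W'
    rw [hkF, hm] at h
    refine ⟨m, ?_⟩
    rw [show Module.finrank F W = Module.finrank F W' from rfl, ← h]
    ring
  have hβN : β.Nondegenerate := by
    refine ⟨fun u h => (sympBil_nondegenerate (F := F) (m := d)).1 u fun v => ?_,
      fun v h => (sympBil_nondegenerate (F := F) (m := d)).2 v fun u => ?_⟩
    · show B u v = 0; rw [hBβ, h v, map_zero]
    · show B u v = 0; rw [hBβ, h u, map_zero]
  obtain ⟨e, b, -⟩ := exists_symplectic_basis hβA hβN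
  have hKdim : Module.finrank K (Fin d ⊕ Fin d → F) = 2 * e := by
    rw [Module.finrank_eq_card_basis b, Fintype.card_sum, Fintype.card_fin]; omega
  have hde : d = k * e := by
    have h := Module.finrank_mul_finrank F K (Fin d ⊕ Fin d → F)
    rw [hkF, hKdim, Module.finrank_fintype_fun_eq_card, Fintype.card_sum, Fintype.card_fin] at h
    rw [Nat.mul_left_comm] at h
    omega
  refine ⟨e, hde, ?_⟩
  obtain ⟨E, hE⟩ := SympSub.exists_iso_sympBil hβA hβN hKdim
  let lin : Matrix.symplecticGroup (Fin e) K → Module.End F (Fin d ⊕ Fin d → F) := fun s =>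
    ((E.symm.toLinearMap ∘ₗ (SympSub.spLin s).toLinearMap ∘ₗ E.toLinearMap).restrictScalars F)
  have hlin : ∀ s v, lin s v = E.symm (SympSub.spLin s (E v)) := fun s v => rfl
  let φ₀ : Matrix.symplecticGroup (Fin e) K →* Matrix (Fin d ⊕ Fin d) (Fin d ⊕ Fin d) F :=
    { toFun := fun s => LinearMap.toMatrix' (lin s)
      map_one' := by
        refine Matrix.ext_iff_mulVec.2 fun v => ?_
        rw [LinearMap.toMatrix'_mulVec, hlin, Matrix.one_mulVec]
        show E.symm (((1 : Matrix.symplecticGroup (Fin e) K) : Matrix (Fin e ⊕ Fin e) (Fin e ⊕ Fin e) K) *ᵥ E v) = v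
        rw [Submonoid.coe_one, Matrix.one_mulVec, E.symm_apply_apply]
      map_mul' := fun s s' => by
        refine Matrix.ext_iff_mulVec.2 fun v => ?_
        rw [LinearMap.toMatrix'_mulVec, hlin, ← Matrix.mulVec_mulVec, LinearMap.toMatrix'_mulVec,
          LinearMap.toMatrix'_mulVec, hlin, hlin, E.apply_symm_apply]
        show E.symm (((s * s' : Matrix.symplecticGroup (Fin e) K) : Matrix (Fin e ⊕ Fin e) (Fin e ⊕ Fin e) K) *ᵥ E v) = _
        rw [Submonoid.coe_mul, ← Matrix.mulVec_mulVec]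
        rfl }
  let φ := φ₀.toHomUnits
  have hφ : ∀ s v, ((φ s : GL (Fin d ⊕ Fin d) F) : Matrix (Fin d ⊕ Fin d) (Fin d ⊕ Fin d) F) *ᵥ v =
      E.symm (SympSub.spLin s (E v)) := fun s v => by
    show LinearMap.toMatrix' (lin s) *ᵥ v = _
    rw [LinearMap.toMatrix'_mulVec, hlin]
  have hinj : Function.Injective φ := fun s s' h => by
    refine Subtype.ext (Matrix.ext_iff_mulVec.2 fun x => ?_)
    have h' := hφ s (E.symm x)
    rw [h, hφ, E.apply_symm_apply] at h'
    exact (E.symm.injective h').symm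
  have hle : φ.range ≤ Cfsg.Geo.subalgebraNormalizer K ⊓ Cfsg.spGL d F := by
    rintro _ ⟨s, rfl⟩
    refine ⟨(MaxSub.mem_normalizer_iff_map_le).2 fun a ha => ?_, mem_spGL_iff.2 ?_⟩
    · have hcomm : ((φ s : GL (Fin d ⊕ Fin d) F) : Matrix (Fin d ⊕ Fin d) (Fin d ⊕ Fin d) F) * a = a * φ s := by
        refine Matrix.ext_iff_mulVec.2 fun v => ?_
        rw [← Matrix.mulVec_mulVec, ← Matrix.mulVec_mulVec, hφ, hφ, ← hsmul ⟨a, ha⟩, ← hsmul ⟨a, ha⟩, map_smul,
          map_smul, map_smul]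
      rw [hcomm, mul_assoc, ← Units.val_mul, mul_inv_cancel, Units.val_one, mul_one]
      exact ha
    · rw [mem_symplecticGroup_iff_sympForm]
      intro u v
      rw [hφ, hφ, ← sympBil_apply, ← sympBil_apply, ← hBdef, hBβ, hBβ, ← hE, ← hE, E.apply_symm_apply,
        E.apply_symm_apply, SympSub.spLin_mem s]
  have : Fintype K := Fintype.ofFinite K
  have hcard : Fintype.card K = Fintype.card F ^ k := by rw [Module.card_eq_pow_finrank (K := F), hkF]
  have h := Subgroup.card_dvd_of_le hle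
  rw [← Nat.card_congr (MonoidHom.ofInjective hinj).toEquiv, SympSub.card_symplecticGroup, hcard] at h
  exact h

/-- The index of the normaliser of the field is prime to `r` when `2k` divides `c`. -/
theorem not_dvd_index (hk : 0 < k) (hK : Cfsg.Geo.IsFieldSubalgebra k K)
    (hKf : Cfsg.Geo.IsSelfAdjointFor (Cfsg.sympForm d F) K)
    (hKalt : ∀ a ∈ K, ∀ v : Fin d ⊕ Fin d → F, Cfsg.sympForm d F (a *ᵥ v) v = 0) {r i c : ℕ} [Fact r.Prime]
    (hr : ¬ r ∣ Fintype.card F) (hi : i = orderOf ((Fintype.card F : ℕ) : ZMod r))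
    (hc : c = if Even i then i else 2 * i) (h2k : 2 * k ∣ c) :
    ¬ r ∣ (Cfsg.Geo.subalgebraNormalizer K).relIndex (Cfsg.spGL d F) := by
  classical
  intro hdvd
  obtain ⟨-, e, hde, hcard⟩ := selfAdjoint_structure hk hK hKf hKalt
  set H := Cfsg.Geo.subalgebraNormalizer K
  set G := Cfsg.spGL d F
  have hmul : Nat.card ↥(H ⊓ G) * H.relIndex G = Nat.card ↥G := by
    rw [Subgroup.relIndex, ← Nat.card_congr (Subgroup.subgroupOfEquivOfLe (inf_le_right : H ⊓ G ≤ G)).toEquiv,
      Subgroup.inf_subgroupOf_right, Subgroup.card_mul_index]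
  obtain ⟨z, hz⟩ := hcard
  rw [hz, card_spGL_eq, SympSub.card_symplecticGroup, SympSub.spOrder, SympSub.spOrder] at hmul
  set q := Fintype.card F with hqdef
  have hsplit := (Finset.prod_filter_mul_prod_filter_not (Finset.range d) (fun j => k ∣ j + 1)
    (fun j => q ^ (2 * (j + 1)) - 1)).symm
  have himg : ∏ j ∈ (Finset.range d).filter (fun j => k ∣ j + 1), (q ^ (2 * (j + 1)) - 1) =
      ∏ l ∈ Finset.range e, ((q ^ k) ^ (2 * (l + 1)) - 1) := by
    symm
    refine Finset.prod_bij (fun l _ => k * (l + 1) - 1) (fun l hl => ?_) (fun l hl l' hl' h => ?_) (fun j hj => ?_)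
      (fun l hl => ?_)
    · rw [Finset.mem_filter, Finset.mem_range]
      rw [Finset.mem_range] at hl
      have h1 : 1 ≤ k * (l + 1) := Nat.one_le_iff_ne_zero.2 (Nat.mul_ne_zero hk.ne' (Nat.succ_ne_zero l))
      have h2 : k * (l + 1) ≤ k * e := Nat.mul_le_mul_left k hl
      refine ⟨by omega, ?_⟩
      rw [Nat.sub_add_cancel h1]; exact Nat.dvd_mul_right _ _
    · have h1 : 1 ≤ k * (l + 1) := Nat.one_le_iff_ne_zero.2 (Nat.mul_ne_zero hk.ne' (Nat.succ_ne_zero l))
      have h1' : 1 ≤ k * (l' + 1) := Nat.one_le_iff_ne_zero.2 (Nat.mul_ne_zero hk.ne' (Nat.succ_ne_zero l'))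
      have := Nat.eq_of_mul_eq_mul_left hk (show k * (l + 1) = k * (l' + 1) by omega)
      omega
    · rw [Finset.mem_filter, Finset.mem_range] at hj
      obtain ⟨l, hl⟩ := hj.2
      rcases l with _ | l
      · simp at hl
      refine ⟨l, Finset.mem_range.2 ?_, by omega⟩
      exact Nat.lt_of_succ_le (Nat.le_of_mul_le_mul_left (show k * (l + 1) ≤ k * e by omega) hk)
    · have h1 : 1 ≤ k * (l + 1) := Nat.one_le_iff_ne_zero.2 (Nat.mul_ne_zero hk.ne' (Nat.succ_ne_zero l))
      show _ = q ^ (2 * (k * (l + 1) - 1 + 1)) - 1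
      rw [Nat.sub_add_cancel h1, ← pow_mul]
      congr 2
      ring
  rw [hsplit, himg] at hmul
  set P₁ := ∏ l ∈ Finset.range e, ((q ^ k) ^ (2 * (l + 1)) - 1)
  set P₂ := ∏ j ∈ (Finset.range d).filter (fun j => ¬ k ∣ j + 1), (q ^ (2 * (j + 1)) - 1)
  have hq2 : 2 ≤ q := Fintype.one_lt_card
  have hP₁ : 0 < P₁ := Finset.prod_pos fun l _ => by
    have : 2 ^ 1 ≤ (q ^ k) ^ (2 * (l + 1)) := by
      rw [← pow_mul]
      calc 2 ^ 1 ≤ q ^ 1 := Nat.pow_le_pow_left hq2 1
        _ ≤ _ := Nat.pow_le_pow_right (by omega) (Nat.one_le_iff_ne_zero.2 (Nat.mul_ne_zero hk.ne' (by omega)))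
    omega
  have hdiv : (Cfsg.Geo.subalgebraNormalizer K).relIndex G ∣ q ^ d ^ 2 * P₂ := by
    refine Nat.dvd_of_mul_dvd_mul_left hP₁ ⟨(q ^ k) ^ e ^ 2 * z, ?_⟩
    calc P₁ * (q ^ d ^ 2 * P₂) = q ^ d ^ 2 * (P₁ * P₂) := by ring
      _ = _ := hmul.symm
      _ = _ := by ring
  rcases (Fact.out : r.Prime).dvd_mul.1 (hdvd.trans hdiv) with h | h
  · exact hr ((Fact.out : r.Prime).dvd_of_dvd_pow h)
  obtain ⟨j, hj, hj'⟩ := (Prime.dvd_finsetProd_iff (Fact.out : r.Prime).prime _).1 h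
  rw [← ZMod.natCast_eq_zero_iff, Nat.cast_sub (Nat.one_le_pow _ _ Fintype.card_pos), Nat.cast_pow, Nat.cast_one,
    sub_eq_zero, ← orderOf_dvd_iff_pow_eq_one, ← hi] at hj'
  refine (Finset.mem_filter.1 hj).2 (Nat.dvd_of_mul_dvd_mul_left two_pos (h2k.trans ?_))
  rw [hc]
  split_ifs with he
  · exact hj'
  · exact mul_dvd_mul_left 2 ((Nat.coprime_two_right.2 (Nat.not_even_iff_odd.1 he)).dvd_of_dvd_mul_left hj')

end structure_

end Cfsg.Agent.Elusive
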