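import Cfsg.Agent.Elusive.SympOrder
import Cfsg.Agent.Elusive.FieldExtSymp
import Mathlib.FieldTheory.Finite.Basic

/-!
Orthogonal planes adapted to a skew map, and symplectic maps between adapted bases.
-/

namespace Cfsg.Agent.Elusive

open Cfsg.Agent.Forms Submodule

variable {F : Type*} [Field F] {V : Type*} [AddCommGroup V] [Module F V] [FiniteDimensional F V]

theorem exists_sq_sub_mul_sq [Fintype F] (hq : Fintype.card F % 2 = 1) {c : F} (hc : c ≠ 0) (μ : F) :
    ∃ α β : F, α ^ 2 - c * β ^ 2 = μ := by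
  open Polynomial in
  obtain ⟨a, b, h⟩ := FiniteField.exists_root_sum_quadratic (f := (X : F[X]) ^ 2)
    (g := Polynomial.C (-c) * X ^ 2 + Polynomial.C 0 * X + Polynomial.C (-μ)) (degree_X_pow 2)
    (degree_quadratic (neg_ne_zero.2 hc)) hq
  refine ⟨a, b, ?_⟩
  simp only [Polynomial.eval_pow, Polynomial.eval_X, Polynomial.eval_add, Polynomial.eval_mul, Polynomial.eval_C] at h
  linear_combination h

/-- A nondegenerate invariant subspace represents every scalar by `v ↦ B v (S v)`. -/
theorem exists_skew_value [Fintype F] (hq : Fintype.card F % 2 = 1) {B : LinearMap.BilinForm F V} (hA : B.IsAlt)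
    {S : Module.End F V} (hS : ∀ u v, B (S u) v = -B u (S v)) {c : F} (hc : c ≠ 0) (hS2 : ∀ v, S (S v) = c • v)
    {W : Submodule F V} (hW : ∀ v ∈ W, S v ∈ W) (hN : NonDegOn B W) (hne : W ≠ ⊥) (μ : F) :
    ∃ u ∈ W, B u (S u) = μ := by
  have h2 : (2 : F) ≠ 0 := Ring.two_ne_zero fun h => by
    rw [FiniteField.even_card_iff_char_two] at h; omega
  obtain ⟨w, hw, hw0⟩ : ∃ w ∈ W, B w (S w) ≠ 0 := by
    by_contra hcon
    push Not at hcon
    obtain ⟨w, hw, hw0⟩ := exists_mem_ne_zero_of_ne_bot hne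
    refine hw0 (hN w hw fun v hv => ?_)
    have hv' : c⁻¹ • S v ∈ W := W.smul_mem _ (hW v hv)
    have hpol : ∀ a ∈ W, ∀ b ∈ W, B a (S b) = 0 := by
      intro a ha b hb
      have h := hcon (a + b) (add_mem ha hb)
      simp only [map_add, LinearMap.add_apply, hcon a ha, hcon b hb, zero_add, add_zero] at h
      have hsym : B b (S a) = B a (S b) := by
        rw [← LinearMap.IsAlt.neg hA, hS, neg_neg]
      rw [hsym, ← two_mul] at h
      exact (mul_eq_zero.1 h).resolve_left h2
    have := hpol w hw _ hv'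
    rwa [map_smul, hS2, smul_smul, inv_mul_cancel₀ hc, one_smul] at this
  obtain ⟨α, β, hab⟩ := exists_sq_sub_mul_sq hq hc (μ / B w (S w))
  refine ⟨α • w + β • S w, add_mem (W.smul_mem _ hw) (W.smul_mem _ (hW w hw)), ?_⟩
  have h1 : B (S w) (S w) = 0 := hA _
  have h2' : B w w = 0 := hA _
  have h3 : B (S w) w = -B w (S w) := hS _ _
  rw [← div_mul_cancel₀ μ hw0, ← hab]
  simp only [map_add, map_smul, LinearMap.add_apply, LinearMap.smul_apply, hS2, smul_eq_mul, h1, h2', h3]
  ring

/-- Orthogonal planes spanned by `u` and `S u`. -/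
theorem exists_skew_planes [Fintype F] (hq : Fintype.card F % 2 = 1) {B : LinearMap.BilinForm F V} (hA : B.IsAlt)
    {S : Module.End F V} (hS : ∀ u v, B (S u) v = -B u (S v)) {c : F} (hc : c ≠ 0) (hS2 : ∀ v, S (S v) = c • v) :
    ∀ (t : ℕ) (lam : Fin t → F), (∀ j, lam j ≠ 0) → ∀ W : Submodule F V, (∀ v ∈ W, S v ∈ W) → NonDegOn B W →
      2 * t ≤ Module.finrank F W →
      ∃ u : Fin t → V, (∀ j, u j ∈ W) ∧ ∀ j k, B (u j) (S (u k)) = (if j = k then lam j else 0) ∧ B (u j) (u k) = 0 := by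
  intro t
  induction t with
  | zero => exact fun _ _ _ _ _ _ => ⟨fun j => j.elim0, fun j => j.elim0, fun j => j.elim0⟩
  | succ t ih =>
    intro lam hlam W hW hN hd
    obtain ⟨w, hw, hwv⟩ := exists_skew_value hq hA hS hc hS2 hW hN
      (fun h => by rw [h, finrank_bot] at hd; omega) (lam 0)
    have hUW : span F {w, S w} ≤ W := span_le.2 (Set.pair_subset hw (hW w hw))
    have hUinv : ∀ v ∈ span F {w, S w}, S v ∈ span F {w, S w} := fun v hv => by
      obtain ⟨a, b, rfl⟩ := mem_span_pair.1 hv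
      rw [map_add, map_smul, map_smul, hS2, smul_smul]
      exact mem_span_pair.2 ⟨b * c, a, add_comm _ _⟩
    have hUN : NonDegOn B (span F {w, S w}) := by
      intro v hv h
      obtain ⟨a, b, rfl⟩ := mem_span_pair.1 hv
      have e1 := h w (subset_span (Set.mem_insert _ _))
      have e2 := h (S w) (subset_span (Set.mem_insert_of_mem _ rfl))
      simp only [map_add, map_smul, LinearMap.add_apply, LinearMap.smul_apply, hA w, hA (S w), smul_eq_mul,
        mul_zero, zero_add, add_zero, hS w w, hwv, mul_neg, neg_eq_zero, mul_eq_zero, hlam 0, or_false] at e1 e2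
      rw [e1, e2]; simp
    obtain ⟨hsup, hdis, hRN⟩ := nonDegOn_split hA hUW hUN hN
    have hsum := finrank_eq_add_of_disjoint hsup hdis
    have hU2 : Module.finrank F (span F {w, S w}) ≤ 2 := by
      classical
      have := finrank_span_le_card (R := F) ({w, S w} : Set V)
      refine this.trans ?_
      rw [Set.toFinset_insert, Set.toFinset_singleton]
      exact Finset.card_le_two
    have hR : ∀ v ∈ W ⊓ B.orthogonal (span F {w, S w}), S v ∈ W ⊓ B.orthogonal (span F {w, S w}) :=
      fun v hv => ⟨hW v hv.1, fun x hx => by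
        have := hS x v
        rw [show B (S x) v = 0 from hv.2 _ (hUinv x hx), zero_eq_neg] at this
        exact this⟩
    obtain ⟨u, hu, hB⟩ := ih (fun j => lam j.succ) (fun j => hlam _) _ hR hRN (by omega)
    refine ⟨Fin.cons w u, fun j => ?_, fun j k => ?_⟩
    · obtain rfl | ⟨j, rfl⟩ := Fin.eq_zero_or_eq_succ j
      · simpa using hw
      · simpa using (hu j).1
    have hwR : ∀ v ∈ W ⊓ B.orthogonal (span F {w, S w}), B w v = 0 ∧ B (S w) v = 0 := fun v hv =>
      ⟨hv.2 w (subset_span (Set.mem_insert _ _)), hv.2 (S w) (subset_span (Set.mem_insert_of_mem _ rfl))⟩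
    obtain rfl | ⟨j, rfl⟩ := Fin.eq_zero_or_eq_succ j <;> obtain rfl | ⟨k, rfl⟩ := Fin.eq_zero_or_eq_succ k
    · simp [hwv, hA w]
    · rw [Fin.cons_zero, Fin.cons_succ, if_neg (Fin.succ_ne_zero k).symm]
      exact ⟨(hwR _ (hR _ (hu k))).1, (hwR _ (hu k)).1⟩
    · rw [Fin.cons_zero, Fin.cons_succ, if_neg (Fin.succ_ne_zero j)]
      exact ⟨alt_symm_zero hA (hwR _ (hu j)).2, alt_symm_zero hA (hwR _ (hu j)).1⟩
    · simp only [Fin.cons_succ, Fin.succ_inj]
      exact hB j k

variable {d : ℕ}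

/-- A symplectic map between two families of orthogonal planes with the same values of the form. -/
theorem exists_spGL_of_pairs {e f e' f' : Fin d → (Fin d ⊕ Fin d → F)} {lam : Fin d → F} (hlam : ∀ j, lam j ≠ 0)
    (h : ∀ j k, sympBil d F (e j) (f k) = (if j = k then lam j else 0) ∧ sympBil d F (e j) (e k) = 0 ∧
      sympBil d F (f j) (f k) = 0)
    (h' : ∀ j k, sympBil d F (e' j) (f' k) = (if j = k then lam j else 0) ∧ sympBil d F (e' j) (e' k) = 0 ∧
      sympBil d F (f' j) (f' k) = 0) :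
    ∃ g ∈ Cfsg.spGL d F, (∀ j, (g : Matrix (Fin d ⊕ Fin d) (Fin d ⊕ Fin d) F).mulVec (e j) = e' j) ∧
      ∀ j, (g : Matrix (Fin d ⊕ Fin d) (Fin d ⊕ Fin d) F).mulVec (f j) = f' j := by
  classical
  set B := sympBil d F with hBdef
  have hA : B.IsAlt := sympBil_isAlt
  have key : ∀ {e f : Fin d → (Fin d ⊕ Fin d → F)}, (∀ j k, B (e j) (f k) = (if j = k then lam j else 0) ∧
      B (e j) (e k) = 0 ∧ B (f j) (f k) = 0) →
      LinearIndependent F (Sum.elim e f) := by
    intro e f h
    rw [Fintype.linearIndependent_iff]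
    intro c hc
    rw [Fintype.sum_sum_type] at hc
    simp only [Sum.elim_inl, Sum.elim_inr] at hc
    have hfe : ∀ j k, B (f j) (e k) = -(if k = j then lam k else 0) := fun j k => by
      rw [← LinearMap.IsAlt.neg hA, (h k j).1]
    rintro (j | j)
    · have := congrArg (fun v => B v (f j)) hc
      simpa [map_sum, (h _ _).1, (h _ _).2.2, hlam j] using this
    · have := congrArg (fun v => B v (e j)) hc
      simpa [map_sum, (h _ _).2.1, hfe, hlam j] using this
  have hcard : Fintype.card (Fin d ⊕ Fin d) = Module.finrank F (Fin d ⊕ Fin d → F) :=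
    (Module.finrank_fintype_fun_eq_card F).symm
  rcases Nat.eq_zero_or_pos d with hd | hd
  · subst hd
    exact ⟨1, one_mem _, fun j => j.elim0, fun j => j.elim0⟩
  have : Nonempty (Fin d ⊕ Fin d) := ⟨Sum.inl ⟨0, hd⟩⟩
  let b := basisOfLinearIndependentOfCardEqFinrank (key h) hcard
  let b' := basisOfLinearIndependentOfCardEqFinrank (key h') hcard
  have hb : ∀ i, b i = Sum.elim e f i := fun i => by simp [b]
  have hb' : ∀ i, b' i = Sum.elim e' f' i := fun i => by simp [b']
  let T := b.equiv b' (Equiv.refl _)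
  have hT : ∀ i, T (Sum.elim e f i) = Sum.elim e' f' i := fun i => by
    rw [← hb, ← hb']; simp [T]
  have hTB : B.compl₁₂ T.toLinearMap T.toLinearMap = B := LinearMap.BilinForm.ext_basis b fun i k => by
    rw [LinearMap.compl₁₂_apply, LinearEquiv.coe_coe, hb, hb, hT, hT]
    rcases i with i | i <;> rcases k with k | k <;> simp only [Sum.elim_inl, Sum.elim_inr]
    · rw [(h' i k).2.1, (h i k).2.1]
    · rw [(h' i k).1, (h i k).1]
    · rw [← LinearMap.IsAlt.neg hA, (h' k i).1, ← LinearMap.IsAlt.neg hA (e k), (h k i).1]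
    · rw [(h' i k).2.2, (h i k).2.2]
  refine ⟨Matrix.GeneralLinearGroup.toLin.symm (LinearMap.GeneralLinearGroup.ofLinearEquiv T),
    mem_spGL_iff.2 ?_, fun j => ?_, fun j => ?_⟩
  · rw [mem_symplecticGroup_iff_sympForm]
    intro u v
    rw [← sympBil_apply, ← sympBil_apply, ← Matrix.toLin'_apply, ← Matrix.toLin'_apply]
    have := LinearMap.congr_fun (LinearMap.congr_fun hTB u) v
    rw [LinearMap.compl₁₂_apply] at this
    rw [show Matrix.toLin' ((Matrix.GeneralLinearGroup.toLin.symm (LinearMap.GeneralLinearGroup.ofLinearEquiv T) :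
        GL (Fin d ⊕ Fin d) F) : Matrix (Fin d ⊕ Fin d) (Fin d ⊕ Fin d) F) = T.toLinearMap from Matrix.toLin'_toMatrix' _]
    exact this
  · rw [← Matrix.toLin'_apply, show Matrix.toLin' ((Matrix.GeneralLinearGroup.toLin.symm (LinearMap.GeneralLinearGroup.ofLinearEquiv T) :
        GL (Fin d ⊕ Fin d) F) : Matrix (Fin d ⊕ Fin d) (Fin d ⊕ Fin d) F) = T.toLinearMap from Matrix.toLin'_toMatrix' _]
    exact hT (Sum.inl j)
  · rw [← Matrix.toLin'_apply, show Matrix.toLin' ((Matrix.GeneralLinearGroup.toLin.symm (LinearMap.GeneralLinearGroup.ofLinearEquiv T) :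
        GL (Fin d ⊕ Fin d) F) : Matrix (Fin d ⊕ Fin d) (Fin d ⊕ Fin d) F) = T.toLinearMap from Matrix.toLin'_toMatrix' _]
    exact hT (Sum.inr j)

end Cfsg.Agent.Elusive
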