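import Cfsg.Agent.Elusive.FieldExtSymp
import Cfsg.Agent.Elusive.SkewPlanes
import Cfsg.Agent.S0277

/-!
Subgroups of type `GU_d(q)` of a symplectic group.
-/

namespace Cfsg.Agent.Elusive

open Cfsg.Agent.Forms Matrix Polynomial

variable {F : Type*} [Field F] [Fintype F] {d : ℕ}
  {K : Subalgebra F (Matrix (Fin d ⊕ Fin d) (Fin d ⊕ Fin d) F)}

/-- A skew element of a quadratic field whose adjoint map is not trivial. -/
theorem exists_skew_element [Nonempty (Fin d ⊕ Fin d)] (h2 : (2 : F) ≠ 0) (hK : Cfsg.Geo.IsFieldSubalgebra 2 K)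
    (hKf : Cfsg.Geo.IsAdjointClosedFor (Cfsg.sympForm d F) K)
    (hKns : ¬ Cfsg.Geo.IsSelfAdjointFor (Cfsg.sympForm d F) K) :
    ∃ (a : Matrix (Fin d ⊕ Fin d) (Fin d ⊕ Fin d) F) (δ : F), a ∈ K ∧
      a * a = δ • (1 : Matrix (Fin d ⊕ Fin d) (Fin d ⊕ Fin d) F) ∧ (∀ s : F, s * s ≠ δ) ∧
      (∀ u v, sympBil d F (a *ᵥ u) v = -sympBil d F u (a *ᵥ v)) ∧
      ∀ w ∈ K, ∃ s t : F, w = s • (1 : Matrix (Fin d ⊕ Fin d) (Fin d ⊕ Fin d) F) + t • a := by
  classical
  set B := sympBil d F with hBdef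
  have hA : B.IsAlt := sympBil_isAlt
  have hadj : ∀ w ∈ K, ∃ w' ∈ K, ∀ u v, B (w *ᵥ u) v = B u (w' *ᵥ v) := fun w hw => by
    obtain ⟨w', hw', h⟩ := hKf w hw
    exact ⟨w', hw', fun u v => by rw [hBdef, sympBil_apply, sympBil_apply]; exact h u v⟩
  obtain ⟨θ, hθ, hne⟩ : ∃ θ ∈ K, ¬ ∀ u v, B (θ *ᵥ u) v = B u (θ *ᵥ v) := by
    by_contra h
    push Not at h
    exact hKns fun w hw u v => by
      have := h w hw u v
      rwa [hBdef, sympBil_apply, sympBil_apply] at this
  obtain ⟨θ', hθ', hθθ'⟩ := hadj θ hθ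
  set a := θ - θ' with hadef
  have haK : a ∈ K := K.sub_mem hθ hθ'
  have hsym : ∀ u v, B (θ' *ᵥ u) v = B u (θ *ᵥ v) := fun u v => by
    rw [← LinearMap.IsAlt.neg hA v, ← hθθ', LinearMap.IsAlt.neg hA]
  have hskew : ∀ u v, B (a *ᵥ u) v = -B u (a *ᵥ v) := fun u v => by
    simp only [hadef, Matrix.sub_mulVec, map_sub, LinearMap.sub_apply, hθθ', hsym]
    ring
  have ha0 : a ≠ 0 := fun h => hne fun u v => by rw [hθθ', ← sub_eq_zero.1 h]
  have hsz : ∀ s : F, a = s • (1 : Matrix (Fin d ⊕ Fin d) (Fin d ⊕ Fin d) F) → a = 0 := by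
    intro s hs
    rcases eq_or_ne s 0 with rfl | hs0
    · rw [hs, zero_smul]
    · exfalso
      apply hne
      have h0 : ∀ u v, B u v = 0 := fun u v => by
        have := hskew u v
        rw [hs, Matrix.smul_mulVec, Matrix.one_mulVec, Matrix.smul_mulVec, Matrix.one_mulVec, map_smul,
          LinearMap.smul_apply, map_smul, smul_eq_mul] at this
        exact (mul_eq_zero.1 (show (2 * s) * B u v = 0 by linear_combination this)).resolve_left (mul_ne_zero h2 hs0)
      intro u v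
      rw [h0, h0]
  have hnsc : ∀ s : F, a ≠ s • (1 : Matrix (Fin d ⊕ Fin d) (Fin d ⊕ Fin d) F) := fun s hs => ha0 (hsz s hs)
  have hspan : ∀ w ∈ K, ∃ s t : F, w = s • (1 : Matrix (Fin d ⊕ Fin d) (Fin d ⊕ Fin d) F) + t • a := by
    intro w hw
    let m : F × F →ₗ[F] K :=
      { toFun := fun p => ⟨p.1 • 1 + p.2 • a, K.add_mem (K.smul_mem K.one_mem _) (K.smul_mem haK _)⟩
        map_add' := fun p p' => Subtype.ext (by simp [add_smul]; abel)
        map_smul' := fun c p => Subtype.ext (by simp [smul_smul, smul_add]) }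
    have hm : Function.Injective m := (injective_iff_map_eq_zero _).2 fun p hp => by
      have hp' : p.1 • (1 : Matrix (Fin d ⊕ Fin d) (Fin d ⊕ Fin d) F) + p.2 • a = 0 := congrArg Subtype.val hp
      by_cases hp2 : p.2 = 0
      · rw [hp2, zero_smul, add_zero] at hp'
        exact Prod.ext ((smul_eq_zero.1 hp').resolve_right one_ne_zero) hp2
      · refine absurd ?_ (hnsc (-(p.2⁻¹ * p.1)))
        rw [neg_smul, mul_smul, eq_neg_iff_add_eq_zero]
        calc a + p.2⁻¹ • p.1 • (1 : Matrix (Fin d ⊕ Fin d) (Fin d ⊕ Fin d) F) = p.2⁻¹ • (p.1 • 1 + p.2 • a) := by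
              rw [smul_add, inv_smul_smul₀ hp2, add_comm]
          _ = 0 := by rw [hp', smul_zero]
    obtain ⟨p, hp⟩ := (LinearMap.injective_iff_surjective_of_finrank_eq_finrank (by
      rw [Module.finrank_prod, Module.finrank_self, hK.finrank_eq])).1 hm ⟨w, hw⟩
    exact ⟨p.1, p.2, (congrArg Subtype.val hp).symm⟩
  obtain ⟨s, t, hst⟩ := hspan _ (K.mul_mem haK haK)
  have ht : t = 0 := by
    by_contra ht
    have h1 : ∀ u v, B (a *ᵥ u) v = 0 := fun u v => by
      have e1 : B ((a * a) *ᵥ u) v = B u ((a * a) *ᵥ v) := by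
        rw [← Matrix.mulVec_mulVec, ← Matrix.mulVec_mulVec, hskew, hskew, neg_neg]
      simp only [hst, Matrix.add_mulVec, Matrix.smul_mulVec, Matrix.one_mulVec, map_add, map_smul, LinearMap.add_apply,
        LinearMap.smul_apply, smul_eq_mul] at e1
      rw [show B u (a *ᵥ v) = -B (a *ᵥ u) v by rw [hskew, neg_neg]] at e1
      exact (mul_eq_zero.1 (show (2 * t) * B (a *ᵥ u) v = 0 by linear_combination e1)).resolve_left (mul_ne_zero h2 ht)
    exact ha0 (Matrix.ext_iff_mulVec.2 fun u => by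
      rw [Matrix.zero_mulVec]; exact sympBil_nondegenerate.1 _ (h1 u))
  rw [ht, zero_smul, add_zero] at hst
  refine ⟨a, s, haK, hst, fun z hz => ?_, hskew, hspan⟩
  have hprod : (a - z • 1) * (a + z • 1) = (0 : Matrix (Fin d ⊕ Fin d) (Fin d ⊕ Fin d) F) := by
    simp only [sub_mul, mul_add, smul_mul_assoc, mul_smul_comm, one_mul, mul_one, hst, smul_add, ← hz]
    match_scalars <;> ring
  have hmem : a - z • 1 ∈ K := K.sub_mem haK (K.smul_mem K.one_mem _)
  obtain ⟨b, hb, hab⟩ := hK.inv _ hmem (sub_ne_zero.2 (hnsc z))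
  refine hnsc (-z) ?_
  rw [neg_smul, eq_neg_iff_add_eq_zero]
  calc a + z • (1 : Matrix (Fin d ⊕ Fin d) (Fin d ⊕ Fin d) F) = 1 * (a + z • 1) := (one_mul _).symm
    _ = b * (a - z • 1) * (a + z • 1) := congrArg (· * (a + z • 1)) (by rw [← hK.comm _ hmem b hb, hab])
    _ = 0 := by rw [mul_assoc, hprod, mul_zero]

/-- Basis of `F ^ 2d` over `K` adapted to a skew element. -/
theorem exists_unitary_basis (hq : Fintype.card F % 2 = 1) {a : Matrix (Fin d ⊕ Fin d) (Fin d ⊕ Fin d) F} {δ : F}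
    (hδ : δ ≠ 0) (ha2 : a * a = δ • (1 : Matrix (Fin d ⊕ Fin d) (Fin d ⊕ Fin d) F))
    (hskew : ∀ u v, sympBil d F (a *ᵥ u) v = -sympBil d F u (a *ᵥ v)) :
    ∃ u : Fin d → (Fin d ⊕ Fin d → F),
      ∀ j k, sympBil d F (u j) (a *ᵥ u k) = (if j = k then 1 else 0) ∧ sympBil d F (u j) (u k) = 0 ∧
        sympBil d F (a *ᵥ u j) (a *ᵥ u k) = 0 := by
  obtain ⟨u, -, hu⟩ := exists_skew_planes hq (B := sympBil d F) sympBil_isAlt (S := Matrix.toLin' a)
    (fun u v => by rw [Matrix.toLin'_apply, Matrix.toLin'_apply]; exact hskew u v) hδ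
    (fun v => by rw [Matrix.toLin'_apply, Matrix.toLin'_apply, Matrix.mulVec_mulVec, ha2, Matrix.smul_mulVec, Matrix.one_mulVec])
    d (fun _ => 1) (fun _ => one_ne_zero) ⊤ (fun _ _ => trivial) (nonDegOn_top sympBil_nondegenerate)
    (by rw [finrank_top, Module.finrank_fintype_fun_eq_card, Fintype.card_sum, Fintype.card_fin]; omega)
  refine ⟨u, fun j k => ?_⟩
  have h := hu j k
  rw [Matrix.toLin'_apply] at h
  refine ⟨h.1, h.2, ?_⟩
  rw [hskew, Matrix.mulVec_mulVec, ha2, Matrix.smul_mulVec, Matrix.one_mulVec, map_smul, h.2, smul_zero, neg_zero]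

/-- A copy of `GU_d(q)` in the normaliser of the field. -/
theorem card_GU_dvd [Nonempty (Fin d ⊕ Fin d)] (hq : Fintype.card F % 2 = 1) (hK : Cfsg.Geo.IsFieldSubalgebra 2 K)
    {a : Matrix (Fin d ⊕ Fin d) (Fin d ⊕ Fin d) F} {δ : F} (haK : a ∈ K)
    (ha2 : a * a = δ • (1 : Matrix (Fin d ⊕ Fin d) (Fin d ⊕ Fin d) F)) (hns : ∀ s : F, s * s ≠ δ)
    (hskew : ∀ u v, sympBil d F (a *ᵥ u) v = -sympBil d F u (a *ᵥ v))
    (hspan : ∀ w ∈ K, ∃ s t : F, w = s • (1 : Matrix (Fin d ⊕ Fin d) (Fin d ⊕ Fin d) F) + t • a) :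
    Fintype.card F ^ (d * (d - 1) / 2) *
      (∏ j ∈ Finset.range d, (if Even j then Fintype.card F ^ (j + 1) + 1 else Fintype.card F ^ (j + 1) - 1)) ∣
      Nat.card ↥(Cfsg.Geo.subalgebraNormalizer K ⊓ Cfsg.spGL d F) := by
  classical
  set q := Fintype.card F with hqdef
  letI : CommRing K :=
    { (inferInstance : Ring K) with mul_comm := fun a b => Subtype.ext (hK.comm a a.2 b b.2) }
  letI : Field K := Field.ofIsUnitOrEqZero fun a => by
    rcases eq_or_ne a 0 with h | h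
    · exact Or.inr h
    · obtain ⟨b, hb, hab⟩ := hK.inv a a.2 fun h0 => h (Subtype.ext h0)
      exact Or.inl (IsUnit.of_mul_eq_one (⟨b, hb⟩ : K) (Subtype.ext hab))
  have : Finite K := Finite.of_injective (fun x : K => (x : Matrix (Fin d ⊕ Fin d) (Fin d ⊕ Fin d) F)) Subtype.val_injective
  have : Fintype K := Fintype.ofFinite K
  have hcardK : Fintype.card K = q ^ 2 := by rw [Module.card_eq_pow_finrank (K := F), hK.finrank_eq]
  have hδ : δ ≠ 0 := fun h => hns 0 (by rw [h, mul_zero])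
  set B := sympBil d F with hBdef
  have hA : B.IsAlt := sympBil_isAlt
  obtain ⟨u, hu₀⟩ := exists_unitary_basis hq hδ ha2 hskew
  have hu : ∀ j k, B (u j) (a *ᵥ u k) = (if j = k then 1 else 0) ∧ B (u j) (u k) = 0 ∧
      B (a *ᵥ u j) (a *ᵥ u k) = 0 := hu₀
  have hua : ∀ j k, B (a *ᵥ u j) (u k) = -(if j = k then (1 : F) else 0) := fun j k => by rw [hskew, (hu j k).1]
  let aK : K := ⟨a, haK⟩
  have hdec : ∀ x : K, ∃ s t : F, x = algebraMap F K s + t • aK := fun x => by
    obtain ⟨s, t, h⟩ := hspan x x.2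
    refine ⟨s, t, Subtype.ext ?_⟩
    rw [h, Algebra.algebraMap_eq_smul_one]
    rfl
  have hsm : ∀ (s t : F) (v : Fin d ⊕ Fin d → F), (algebraMap F K s + t • aK) • v = s • v + t • (a *ᵥ v) := fun s t v => by
    show ((algebraMap F (Matrix (Fin d ⊕ Fin d) (Fin d ⊕ Fin d) F) s) + t • a) *ᵥ v = _
    rw [Algebra.algebraMap_eq_smul_one, Matrix.add_mulVec, Matrix.smul_mulVec, Matrix.smul_mulVec, Matrix.one_mulVec]
  -- the Frobenius is the adjoint map
  have hfrob : ∀ s t : F, (algebraMap F K s + t • aK) ^ q = algebraMap F K s + (-t) • aK := by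
    intro s t
    obtain ⟨p, hp⟩ := CharP.exists F
    obtain ⟨e, hpp, he⟩ := FiniteField.card F p
    have := Fact.mk hpp
    have : CharP K p := charP_of_injective_algebraMap (algebraMap F K).injective p
    have haq : aK ^ q = -aK := by
      have h2 : aK ^ 2 = algebraMap F K δ := Subtype.ext (by
        rw [pow_two]
        show a * a = algebraMap F (Matrix (Fin d ⊕ Fin d) (Fin d ⊕ Fin d) F) δ
        rw [ha2, Algebra.algebraMap_eq_smul_one])
      obtain ⟨l, hl⟩ : Odd q := Nat.odd_iff.2 hq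
      have hδl : δ ^ l = -1 := by
        have h := FiniteField.isSquare_iff (F := F) (by rw [Ne, FiniteField.even_card_iff_char_two]; omega) hδ
        rw [show Fintype.card F / 2 = l by omega] at h
        have hne : δ ^ l ≠ 1 := fun h1 => by
          obtain ⟨s, hs⟩ := h.2 h1
          exact hns s hs.symm
        have hsq : δ ^ l * δ ^ l = 1 := by
          rw [← pow_add, show l + l = q - 1 by omega]; exact FiniteField.pow_card_sub_one_eq_one δ hδ
        exact (mul_self_eq_one_iff.1 hsq).resolve_left hne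
      rw [hl, pow_succ, pow_mul, h2, ← map_pow, hδl, map_neg, map_one, neg_one_mul]
    rw [show q = p ^ (e : ℕ) from he, add_pow_char_pow, ← map_pow, Algebra.smul_def, mul_pow, ← map_pow,
      ← show q = p ^ (e : ℕ) from he, FiniteField.pow_card, FiniteField.pow_card, haq, Algebra.smul_def, map_neg]
    ring
  have hd0 : 0 < d := by
    obtain ⟨j⟩ := (inferInstance : Nonempty (Fin d ⊕ Fin d)); rcases j with j | j <;> exact j.pos
  let i₀ : Fin d := ⟨0, hd0⟩
  let τ : K → F := fun x => B (u i₀) (x • u i₀)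
  have hτ : ∀ s t : F, τ (algebraMap F K s + t • aK) = t := fun s t => by
    simp only [τ, hsm, map_add, map_smul, smul_eq_mul, hA _, mul_zero, zero_add]
    rw [(hu i₀ i₀).1, if_pos rfl, mul_one]
  have hτadd : ∀ x y, τ (x + y) = τ x + τ y := fun x y => by simp [τ, add_smul]
  let Φ : (Fin d → K) →ₗ[K] (Fin d ⊕ Fin d → F) := Fintype.linearCombination K u
  have hΦ : ∀ x, Φ x = ∑ j, x j • u j := fun x => Fintype.linearCombination_apply K u x
  have hpair : ∀ (x y : Fin d → K), B (Φ x) (Φ y) = ∑ j, τ (x j ^ q * y j) := by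
    intro x y
    rw [hΦ, hΦ, map_sum B, LinearMap.sum_apply]
    refine Finset.sum_congr rfl fun j _ => ?_
    rw [map_sum, Finset.sum_eq_single j (fun l _ hl => ?_) (fun h => absurd (Finset.mem_univ _) h)]
    · obtain ⟨s, t, hx⟩ := hdec (x j)
      obtain ⟨s', t', hy⟩ := hdec (y j)
      have hprod : (algebraMap F K s + (-t) • aK) * (algebraMap F K s' + t' • aK) =
          algebraMap F K (s * s' - t * t' * δ) + (s * t' - t * s') • aK := Subtype.ext (by
        show (algebraMap F (Matrix (Fin d ⊕ Fin d) (Fin d ⊕ Fin d) F) s + (-t) • a) * (algebraMap F _ s' + t' • a) =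
          algebraMap F _ _ + _ • a
        simp only [Algebra.algebraMap_eq_smul_one, add_mul, mul_add, smul_mul_assoc, mul_smul_comm, one_mul, mul_one, ha2]
        match_scalars <;> ring)
      rw [hx, hy, hfrob, hprod, hτ, hsm, hsm]
      simp only [map_add, map_smul, LinearMap.add_apply, LinearMap.smul_apply, smul_eq_mul, (hu j j).1, (hu j j).2.1,
        (hu j j).2.2, hua, if_pos]
      ring
    · obtain ⟨s, t, hx⟩ := hdec (x j)
      obtain ⟨s', t', hy⟩ := hdec (y l)
      rw [hx, hy, hsm, hsm]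
      simp only [map_add, map_smul, LinearMap.add_apply, LinearMap.smul_apply, smul_eq_mul, (hu j l).1, (hu j l).2.1,
        (hu j l).2.2, hua, if_neg (Ne.symm hl), neg_zero, mul_zero, add_zero]
  have hinjF : Function.Injective (Φ.restrictScalars F) := (injective_iff_map_eq_zero _).2 fun x hx => funext fun j => by
    have hx' : Φ x = 0 := hx
    have h1 : ∀ z : K, B (Φ x) (z • u j) = τ (x j ^ q * z) := fun z => by
      have : z • u j = Φ (Pi.single j z) := by
        rw [hΦ, Finset.sum_eq_single j (fun l _ hl => by rw [Pi.single_eq_of_ne hl, zero_smul])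
          (fun h => absurd (Finset.mem_univ _) h), Pi.single_eq_same]
      rw [this, hpair, Finset.sum_eq_single j (fun l _ hl => by
          rw [Pi.single_eq_of_ne hl, mul_zero, ← zero_smul F aK, ← zero_add ((0 : F) • aK), ← map_zero (algebraMap F K), hτ])
        (fun h => absurd (Finset.mem_univ _) h), Pi.single_eq_same]
    by_contra hne
    have hne' : x j ^ q ≠ 0 := pow_ne_zero _ hne
    have := h1 ((x j ^ q)⁻¹ * aK)
    rw [hx', map_zero, LinearMap.zero_apply, ← mul_assoc, mul_inv_cancel₀ hne', one_mul,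
      show aK = algebraMap F K 0 + (1 : F) • aK by rw [map_zero, zero_add, one_smul], hτ] at this
    exact zero_ne_one this
  have hsurj : Function.Surjective (Φ.restrictScalars F) := by
    refine (LinearMap.injective_iff_surjective_of_finrank_eq_finrank ?_).1 hinjF
    rw [Module.finrank_pi_fintype, Finset.sum_const, Finset.card_univ, hK.finrank_eq,
      Module.finrank_fintype_fun_eq_card, Fintype.card_sum, Fintype.card_fin, smul_eq_mul]
    omega
  let E := LinearEquiv.ofBijective Φ ⟨hinjF, hsurj⟩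
  have hE : ∀ x, E x = Φ x := fun x => rfl
  let φ₀ : ↥(Cfsg.GU d K q) →* Matrix (Fin d ⊕ Fin d) (Fin d ⊕ Fin d) F :=
    { toFun := fun g => LinearMap.toMatrix'
        ((E.toLinearMap ∘ₗ Matrix.toLin' ((g : GL (Fin d) K) : Matrix (Fin d) (Fin d) K) ∘ₗ E.symm.toLinearMap).restrictScalars F)
      map_one' := by
        refine Matrix.ext_iff_mulVec.2 fun v => ?_
        rw [LinearMap.toMatrix'_mulVec, Matrix.one_mulVec]
        simp
      map_mul' := fun g g' => by
        refine Matrix.ext_iff_mulVec.2 fun v => ?_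
        simp only [← Matrix.mulVec_mulVec, LinearMap.toMatrix'_mulVec, LinearMap.coe_restrictScalars, LinearMap.comp_apply,
          LinearEquiv.coe_coe, LinearEquiv.symm_apply_apply, Subgroup.coe_mul, Units.val_mul, Matrix.toLin'_apply] }
  let φ := φ₀.toHomUnits
  have hφ : ∀ g v, ((φ g : GL (Fin d ⊕ Fin d) F) : Matrix (Fin d ⊕ Fin d) (Fin d ⊕ Fin d) F) *ᵥ v =
      E (((g : GL (Fin d) K) : Matrix (Fin d) (Fin d) K) *ᵥ E.symm v) := fun g v => by
    show LinearMap.toMatrix' _ *ᵥ v = _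
    rw [LinearMap.toMatrix'_mulVec]
    simp [Matrix.toLin'_apply]
  have hinj : Function.Injective φ := fun g g' h => by
    refine Subtype.ext (Units.ext (Matrix.ext_iff_mulVec.2 fun x => ?_))
    have h' := hφ g (E x)
    rw [h, hφ, E.symm_apply_apply] at h'
    exact (E.injective h').symm
  have hle : φ.range ≤ Cfsg.Geo.subalgebraNormalizer K ⊓ Cfsg.spGL d F := by
    rintro _ ⟨g, rfl⟩
    refine ⟨(MaxSub.mem_normalizer_iff_map_le).2 fun w hw => ?_, mem_spGL_iff.2 ?_⟩
    · have hcomm : ((φ g : GL (Fin d ⊕ Fin d) F) : Matrix (Fin d ⊕ Fin d) (Fin d ⊕ Fin d) F) * w = w * φ g := by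
        refine Matrix.ext_iff_mulVec.2 fun v => ?_
        rw [← Matrix.mulVec_mulVec, ← Matrix.mulVec_mulVec, hφ, hφ]
        show E (_ *ᵥ E.symm ((⟨w, hw⟩ : K) • v)) = (⟨w, hw⟩ : K) • E _
        rw [map_smul, Matrix.mulVec_smul, map_smul]
      rw [hcomm, mul_assoc, ← Units.val_mul, mul_inv_cancel, Units.val_one, mul_one]
      exact hw
    · rw [mem_symplecticGroup_iff_sympForm]
      intro v w
      obtain ⟨x, rfl⟩ := E.surjective v
      obtain ⟨y, rfl⟩ := E.surjective w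
      rw [hφ, hφ, E.symm_apply_apply, E.symm_apply_apply, ← sympBil_apply, ← sympBil_apply, ← hBdef, hE, hE, hE, hE,
        hpair, hpair]
      have hherm : ∀ x y : Fin d → K, ∑ j, τ (x j ^ q * y j) = τ (Cfsg.hermForm d K q y x) := fun x y => by
        rw [Cfsg.hermForm]
        refine Finset.induction_on (motive := fun S => ∑ j ∈ S, τ (x j ^ q * y j) = τ (∑ j ∈ S, y j * x j ^ q))
          Finset.univ ?_ fun j S hj ih => ?_
        · simp [τ]
        · rw [Finset.sum_insert hj, Finset.sum_insert hj, hτadd, ih, mul_comm]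
      rw [hherm, hherm]
      congr 1
      exact g.2 y x
  have h := Subgroup.card_dvd_of_le hle
  rw [← Nat.card_congr (MonoidHom.ofInjective hinj).toEquiv, S0277.result hcardK] at h
  exact h

/-- The index is prime to `r` when the order of `q` modulo `r` is `2` modulo `4`. -/
theorem not_dvd_index_unitary [Nonempty (Fin d ⊕ Fin d)] (hq : Fintype.card F % 2 = 1)
    (hK : Cfsg.Geo.IsFieldSubalgebra 2 K) (hKf : Cfsg.Geo.IsAdjointClosedFor (Cfsg.sympForm d F) K)
    (hKns : ¬ Cfsg.Geo.IsSelfAdjointFor (Cfsg.sympForm d F) K) {r i : ℕ} [Fact r.Prime] (hr2 : r ≠ 2)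
    (hr : ¬ r ∣ Fintype.card F) (hi : i = orderOf ((Fintype.card F : ℕ) : ZMod r)) (hi4 : i % 4 = 2) :
    ¬ r ∣ (Cfsg.Geo.subalgebraNormalizer K).relIndex (Cfsg.spGL d F) := by
  classical
  intro hdvd
  have h2 : (2 : F) ≠ 0 := Ring.two_ne_zero fun h => by
    rw [FiniteField.even_card_iff_char_two] at h; omega
  obtain ⟨a, δ, haK, ha2, hns, hskew, hspan⟩ := exists_skew_element h2 hK hKf hKns
  obtain ⟨z, hz⟩ := card_GU_dvd hq hK haK ha2 hns hskew hspan
  set H := Cfsg.Geo.subalgebraNormalizer K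
  set G := Cfsg.spGL d F
  have hmul : Nat.card ↥(H ⊓ G) * H.relIndex G = Nat.card ↥G := by
    rw [Subgroup.relIndex, ← Nat.card_congr (Subgroup.subgroupOfEquivOfLe (inf_le_right : H ⊓ G ≤ G)).toEquiv,
      Subgroup.inf_subgroupOf_right, Subgroup.card_mul_index]
  rw [hz, card_spGL_eq, SympSub.card_symplecticGroup, SympSub.spOrder] at hmul
  set q := Fintype.card F with hqdef
  set P₁ := ∏ j ∈ Finset.range d, (if Even j then q ^ (j + 1) + 1 else q ^ (j + 1) - 1)
  set P₂ := ∏ j ∈ Finset.range d, (if Even j then q ^ (j + 1) - 1 else q ^ (j + 1) + 1)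
  have hq2 : 2 ≤ q := Fintype.one_lt_card
  have hpow : ∀ j, 2 ≤ q ^ (j + 1) := fun j =>
    hq2.trans (Nat.le_self_pow (Nat.succ_ne_zero j) q)
  have hsplit : ∏ j ∈ Finset.range d, (q ^ (2 * (j + 1)) - 1) = P₁ * P₂ := by
    rw [← Finset.prod_mul_distrib]
    refine Finset.prod_congr rfl fun j _ => ?_
    have e : q ^ (2 * (j + 1)) - 1 = (q ^ (j + 1) + 1) * (q ^ (j + 1) - 1) := by
      rw [← Nat.sq_sub_sq, one_pow, ← pow_mul, mul_comm (j + 1) 2]
    rw [e]
    split_ifs
    · rfl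
    · rw [mul_comm]
  have hP₁ : 0 < P₁ := Finset.prod_pos fun j _ => by
    have := hpow j
    split_ifs <;> omega
  rw [hsplit] at hmul
  have hdiv : H.relIndex G ∣ q ^ d ^ 2 * P₂ := by
    refine Nat.dvd_of_mul_dvd_mul_left hP₁ ⟨q ^ (d * (d - 1) / 2) * z, ?_⟩
    calc P₁ * (q ^ d ^ 2 * P₂) = q ^ d ^ 2 * (P₁ * P₂) := by ring
      _ = _ := hmul.symm
      _ = _ := by ring
  rcases (Fact.out : r.Prime).dvd_mul.1 (hdvd.trans hdiv) with h | h
  · exact hr ((Fact.out : r.Prime).dvd_of_dvd_pow h)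
  obtain ⟨j, hj, hj'⟩ := (Prime.dvd_finsetProd_iff (Fact.out : r.Prime).prime _).1 h
  -- `q ^ (j+1) = ±1` with the wrong sign
  obtain ⟨b, hb⟩ : 2 ∣ i := ⟨i / 2, by omega⟩
  have hbo : Odd b := Nat.odd_iff.2 (by omega)
  have hb0 : 0 < b := by omega
  set Q : ZMod r := (q : ZMod r) with hQ
  have hQb : Q ^ b = -1 := by
    have h1 : Q ^ b * Q ^ b = 1 := by rw [← pow_add, ← two_mul, ← hb, hi, pow_orderOf_eq_one]
    refine (mul_self_eq_one_iff.1 h1).resolve_left fun h => ?_
    have := Nat.le_of_dvd hb0 (hi ▸ orderOf_dvd_of_pow_eq_one h)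
    omega
  have hval : Q ^ (j + 1) = if Even j then 1 else -1 := by
    split_ifs with he
    · rw [if_pos he, ← ZMod.natCast_eq_zero_iff, Nat.cast_sub (Nat.one_le_pow _ _ Fintype.card_pos), Nat.cast_pow,
        Nat.cast_one, sub_eq_zero] at hj'
      exact hj'
    · rw [if_neg he, ← ZMod.natCast_eq_zero_iff, Nat.cast_add, Nat.cast_pow, Nat.cast_one] at hj'
      exact eq_neg_of_add_eq_zero_left hj'
  have hdvd' : i ∣ 2 * (j + 1) := hi ▸ orderOf_dvd_of_pow_eq_one (by
    show Q ^ (2 * (j + 1)) = 1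
    rw [mul_comm, pow_mul, hval]; split_ifs <;> ring)
  obtain ⟨l, hl⟩ := Nat.dvd_of_mul_dvd_mul_left two_pos (hb ▸ hdvd')
  rw [hl, pow_mul, hQb] at hval
  have hbase : (-1 : ZMod r) ^ l = (-1) ^ (j + 1) := by rw [hl, pow_mul, hbo.neg_one_pow]
  rw [hbase] at hval
  have h21 : (2 : ZMod r) = 0 := by
    by_cases he : Even j
    · rw [if_pos he, (Even.add_one he).neg_one_pow] at hval; linear_combination -hval
    · rw [if_neg he, (Nat.even_add_one.2 he).neg_one_pow] at hval; linear_combination hval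
  rw [show (2 : ZMod r) = ((2 : ℕ) : ZMod r) by norm_num, ZMod.natCast_eq_zero_iff] at h21
  exact hr2 ((Nat.prime_dvd_prime_iff_eq (Fact.out : r.Prime) Nat.prime_two).1 h21)

end Cfsg.Agent.Elusive
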