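import Mathlib

/-!
Blocks and bases permuted by an element whose square is a scalar.
-/

namespace Cfsg.Agent.Elusive

open Submodule

/-- The points of a set invariant under an involution can be split into blocks of equal size
permuted by the involution. -/
theorem exists_blocks {ι : Type*} [DecidableEq ι] (π : ι → ι) (hπ : ∀ i, π (π i) = i) {a : ℕ}
    (ha : 0 < a) :
    ∀ (t : ℕ) (S : Finset ι), (∀ i ∈ S, π i ∈ S) → S.card = a * t →
      ∃ g : ι → ℕ, ∃ s : ℕ → ℕ, (∀ i ∈ S, g i < t) ∧ (∀ i ∈ S, g (π i) = s (g i)) ∧
        ∀ j < t, (S.filter fun i => g i = j).card = a := by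
  have inv_sub : ∀ (m : ℕ) (S : Finset ι), (∀ i ∈ S, π i ∈ S) → m ≤ S.card →
      ((∃ i ∈ S, π i = i) ∨ Even m) → ∃ T ⊆ S, (∀ i ∈ T, π i ∈ T) ∧ T.card = m := by
    intro m
    induction m using Nat.strong_induction_on with
    | _ m ih =>
      intro S hS hm hcase
      rcases Nat.eq_zero_or_pos m with rfl | hm0
      · exact ⟨∅, by simp, by simp, rfl⟩
      by_cases hmov : ∃ i ∈ S, π i ≠ i
      · obtain ⟨i, hi, hne⟩ := hmov
        rcases eq_or_lt_of_le (Nat.succ_le_of_lt hm0) with h1 | h2
        · rcases hcase with ⟨f, hf, hff⟩ | he
          · exact ⟨{f}, by simpa using hf, by simp [hff], by simp; omega⟩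
          · obtain ⟨c, rfl⟩ := he; omega
        · let S' := (S.erase i).erase (π i)
          have hS' : ∀ j ∈ S', π j ∈ S' := by
            intro j hj
            simp only [S', Finset.mem_erase] at hj ⊢
            exact ⟨fun h => hj.2.1 (by simpa [hπ] using congrArg π h),
              fun h => hj.1 (by rw [← h, hπ]), hS j hj.2.2⟩
          have hc : S'.card + 2 = S.card := by
            have h1 := Finset.card_erase_add_one hi
            have h2 := Finset.card_erase_add_one
              (show π i ∈ S.erase i from Finset.mem_erase.2 ⟨hne, hS i hi⟩)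
            simp only [S']; omega
          obtain ⟨T, hTS, hT, hTc⟩ := ih (m - 2) (by omega) S' hS' (by omega) (by
            rcases hcase with ⟨f, hf, hff⟩ | he
            · refine Or.inl ⟨f, ?_, hff⟩
              simp only [S', Finset.mem_erase]
              exact ⟨fun h => hne (by rw [h, hπ] at hff; exact hff.symm),
                fun h => hne (h ▸ hff), hf⟩
            · exact Or.inr (by obtain ⟨c, rfl⟩ := he; exact ⟨c - 1, by omega⟩))
          have hiT : i ∉ T := fun h => by have := hTS h; simp [S'] at this
          have hiT' : π i ∉ T := fun h => by have := hTS h; simp [S'] at this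
          refine ⟨insert i (insert (π i) T), ?_, ?_, ?_⟩
          · intro j hj
            simp only [Finset.mem_insert] at hj
            rcases hj with rfl | rfl | hj
            · exact hi
            · exact hS i hi
            · exact Finset.mem_of_mem_erase (Finset.mem_of_mem_erase (hTS hj))
          · intro j hj
            simp only [Finset.mem_insert] at hj ⊢
            rcases hj with rfl | rfl | hj
            · exact Or.inr (Or.inl rfl)
            · exact Or.inl (hπ i)
            · exact Or.inr (Or.inr (hT j hj))
          · rw [Finset.card_insert_of_notMem, Finset.card_insert_of_notMem hiT', hTc]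
            · omega
            · simp only [Finset.mem_insert, not_or]; exact ⟨Ne.symm hne, hiT⟩
      · push Not at hmov
        obtain ⟨T, hT, hc⟩ := Finset.exists_subset_card_eq hm
        exact ⟨T, hT, fun i hi => (hmov i (hT hi)).symm ▸ hi, hc⟩
  intro t
  induction t using Nat.strong_induction_on with
  | _ t ih =>
    intro S hS hc
    rcases Nat.eq_zero_or_pos t with rfl | ht
    · have : S = ∅ := Finset.card_eq_zero.1 (by simpa using hc)
      exact ⟨fun _ => 0, id, by simp [this], by simp [this], by simp⟩
    by_cases hcase : (∃ i ∈ S, π i = i) ∨ Even a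
    · obtain ⟨T, hTS, hT, hTc⟩ := inv_sub a S hS
        (hc ▸ Nat.le_mul_of_pos_right a ht) hcase
      obtain ⟨g, s, hg, hgs, hgc⟩ := ih (t - 1) (by omega) (S \ T)
        (fun i hi => by
          rw [Finset.mem_sdiff] at hi ⊢
          exact ⟨hS i hi.1, fun h => hi.2 (by simpa [hπ] using hT _ h)⟩)
        (by rw [Finset.card_sdiff_of_subset hTS, hc, hTc, Nat.mul_sub, mul_one])
      refine ⟨fun i => if i ∈ T then t - 1 else g i, fun j => if j = t - 1 then j else s j,
        fun i hi => ?_, fun i hi => ?_, fun j hj => ?_⟩
      · by_cases h : i ∈ T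
        · simp [h]; omega
        · have := hg i (Finset.mem_sdiff.2 ⟨hi, h⟩); simp [h]; omega
      · by_cases h : i ∈ T
        · simp [h, hT i h]
        · have hπT : π i ∉ T := fun hh => h (by simpa [hπ] using hT _ hh)
          have h1 := hgs i (Finset.mem_sdiff.2 ⟨hi, h⟩)
          have h2 := hg i (Finset.mem_sdiff.2 ⟨hi, h⟩)
          simp [h, hπT, h1, h2.ne]
      · by_cases hjt : j = t - 1
        · subst hjt
          rw [← hTc]
          congr 1
          ext i
          simp only [Finset.mem_filter]
          refine ⟨fun ⟨hi, hh⟩ => ?_, fun h => ⟨hTS h, by simp [h]⟩⟩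
          by_contra h
          have := hg i (Finset.mem_sdiff.2 ⟨hi, h⟩)
          simp [h] at hh; omega
        · rw [← hgc j (by omega)]
          congr 1
          ext i
          simp only [Finset.mem_filter, Finset.mem_sdiff]
          by_cases h : i ∈ T
          · simp [h, Ne.symm hjt]
          · simp [h]
    · push Not at hcase
      obtain ⟨hfree, hodd⟩ := hcase
      have ht2 : 2 ≤ t := by
        -- a fixed point free involution lives on an even set
        have heven : Even S.card := by
          obtain ⟨T, -, -, -⟩ := inv_sub 0 S hS (Nat.zero_le _) (Or.inr (by simp))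
          have := Finset.prod_involution (s := S) (f := fun _ => (-1 : ℤ))
            (fun i _ => π i) (fun i hi => by simp) (fun i hi _ => hfree i hi)
            (fun i hi => hS i hi) (fun i hi => hπ i)
          rw [Finset.prod_const] at this
          exact (neg_one_pow_eq_one_iff_even (by decide)).1 this
        by_contra h
        obtain rfl : t = 1 := by omega
        rw [hc, mul_one] at heven
        exact hodd heven
      have htrans : ∀ m, 2 * m ≤ S.card → ∃ U ⊆ S, U.card = m ∧ ∀ i ∈ U, π i ∉ U := by
        intro m
        induction m with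
        | zero => exact fun _ => ⟨∅, by simp, rfl, by simp⟩
        | succ m ihm =>
          intro hm
          obtain ⟨U, hU, hUc, hUπ⟩ := ihm (by omega)
          obtain ⟨i, hi, hiU⟩ := Finset.exists_mem_notMem_of_card_lt_card
            (s := U ∪ U.image π) (t := S) (by
              have := Finset.card_union_le U (U.image π)
              have := Finset.card_image_le (s := U) (f := π)
              omega)
          rw [Finset.mem_union, not_or] at hiU
          refine ⟨insert i U, Finset.insert_subset hi hU, by rw [Finset.card_insert_of_notMem hiU.1, hUc],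
            fun j hj hj' => ?_⟩
          simp only [Finset.mem_insert] at hj hj'
          rcases hj with rfl | hj
          · rcases hj' with h | h
            · exact hfree _ hi h
            · exact hiU.2 (Finset.mem_image.2 ⟨_, h, hπ _⟩)
          · rcases hj' with h | h
            · exact hiU.2 (Finset.mem_image.2 ⟨j, hj, h⟩)
            · exact hUπ j hj h
      obtain ⟨U, hU, hUc, hUπ⟩ := htrans a (by rw [hc]; nlinarith)
      have hW : U.image π ⊆ S := Finset.image_subset_iff.2 fun i hi => hS i (hU hi)
      have hWc : (U.image π).card = a := by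
        rw [Finset.card_image_of_injective _ (Function.LeftInverse.injective hπ), hUc]
      have memW : ∀ i, π i ∈ U ↔ i ∈ U.image π := fun i =>
        ⟨fun h => Finset.mem_image.2 ⟨π i, h, hπ i⟩, fun h => by
          obtain ⟨j, hj, rfl⟩ := Finset.mem_image.1 h; rwa [hπ]⟩
      have hd : Disjoint U (U.image π) := Finset.disjoint_left.2 fun i hi h =>
        hUπ i hi ((memW i).2 h)
      obtain ⟨g, s, hg, hgs, hgc⟩ := ih (t - 2) (by omega) (S \ (U ∪ U.image π))
        (fun i hi => by
          simp only [Finset.mem_sdiff, Finset.mem_union, not_or] at hi ⊢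
          refine ⟨hS i hi.1, fun h => hi.2.2 ((memW i).1 h), fun h => hi.2.1 ?_⟩
          have := (memW _).2 h
          rwa [hπ] at this)
        (by rw [Finset.card_sdiff_of_subset (Finset.union_subset hU hW),
          Finset.card_union_of_disjoint hd, hc, hUc, hWc, Nat.mul_sub]; ring_nf)
      refine ⟨fun i => if i ∈ U then t - 1 else if i ∈ U.image π then t - 2 else g i,
        fun j => if j = t - 1 then t - 2 else if j = t - 2 then t - 1 else s j,
        fun i hi => ?_, fun i hi => ?_, fun j hj => ?_⟩
      · by_cases h : i ∈ U
        · simp [h]; omega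
        by_cases h' : i ∈ U.image π
        · simp only [if_neg h, if_pos h']; omega
        · have := hg i (by simp only [Finset.mem_sdiff, Finset.mem_union]; tauto)
          simp only [if_neg h, if_neg h']; omega
      · have hne : t - 2 ≠ t - 1 := by omega
        by_cases h : i ∈ U
        · have h1 : π i ∉ U := hUπ i h
          have h2 : π i ∈ U.image π := Finset.mem_image_of_mem π h
          simp only [if_pos h, if_neg h1, if_pos h2, if_true]
        · by_cases h' : i ∈ U.image π
          · have h1 : π i ∈ U := (memW i).2 h'
            simp only [if_neg h, if_pos h', if_pos h1, if_neg hne, if_true]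
          · have hi' : i ∈ S \ (U ∪ U.image π) := by
              simp only [Finset.mem_sdiff, Finset.mem_union]; tauto
            have h1 : π i ∉ U := fun hh => h' ((memW i).1 hh)
            have h2 : π i ∉ U.image π := fun hh => h (by simpa [hπ] using (memW _).2 hh)
            have := hg i hi'
            have e := hgs i hi'
            simp only [if_neg h, if_neg h', if_neg h1, if_neg h2, if_neg (show g i ≠ t - 1 by omega),
              if_neg (show g i ≠ t - 2 by omega), e]
      · rcases (show j = t - 1 ∨ j = t - 2 ∨ j < t - 2 by omega) with rfl | rfl | hj'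
        · rw [← hUc]
          congr 1
          ext i
          simp only [Finset.mem_filter]
          refine ⟨fun ⟨hi, hh⟩ => ?_, fun h => ⟨hU h, by simp [h]⟩⟩
          by_contra h
          rw [if_neg h] at hh
          by_cases h' : i ∈ U.image π
          · rw [if_pos h'] at hh; omega
          · rw [if_neg h'] at hh
            have := hg i (by simp only [Finset.mem_sdiff, Finset.mem_union]; tauto)
            omega
        · rw [← hWc]
          congr 1
          ext i
          simp only [Finset.mem_filter]
          refine ⟨fun ⟨hi, hh⟩ => ?_, fun h => ⟨hW h, by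
            rw [if_neg (Finset.disjoint_right.1 hd h), if_pos h]⟩⟩
          by_contra h'
          by_cases h : i ∈ U
          · rw [if_pos h] at hh; omega
          · rw [if_neg h, if_neg h'] at hh
            have := hg i (by simp only [Finset.mem_sdiff, Finset.mem_union]; tauto)
            omega
        · rw [← hgc j hj']
          congr 1
          ext i
          simp only [Finset.mem_filter, Finset.mem_sdiff, Finset.mem_union, not_or]
          by_cases h : i ∈ U
          · simp only [if_pos h]
            exact ⟨fun hh => absurd hh.2 (by omega), fun hh => absurd h hh.1.2.1⟩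
          · by_cases h' : i ∈ U.image π
            · simp only [if_neg h, if_pos h']
              exact ⟨fun hh => absurd hh.2 (by omega), fun hh => absurd h' hh.1.2.2⟩
            · simp [h, h']

/-- A form of `exists_blocks` for a whole finite type. -/
theorem exists_block_fun {ι : Type*} [Fintype ι] [DecidableEq ι] (π : ι → ι) (hπ : ∀ i, π (π i) = i)
    {a t : ℕ} (ha : 0 < a) (hc : Fintype.card ι = a * t) :
    ∃ (g : ι → Fin t) (σ : Equiv.Perm (Fin t)), (∀ i, g (π i) = σ (g i)) ∧
      ∀ j, Fintype.card {i // g i = j} = a := by
  obtain ⟨g, s, hg, hgs, hgc⟩ := exists_blocks π hπ ha t Finset.univ (fun i _ => Finset.mem_univ _) hc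
  have hg' : ∀ i, g i < t := fun i => hg i (Finset.mem_univ _)
  let G : ι → Fin t := fun i => ⟨g i, hg' i⟩
  have hne : ∀ j : Fin t, ∃ i, G i = j := by
    intro j
    have := hgc j j.2
    obtain ⟨i, hi⟩ := Finset.card_pos.1 (by omega : 0 < (Finset.univ.filter fun i => g i = (j : ℕ)).card)
    exact ⟨i, Fin.ext (Finset.mem_filter.1 hi).2⟩
  choose r hr using hne
  let S : Fin t → Fin t := fun j => G (π (r j))
  have hS : ∀ i, G (π i) = S (G i) := fun i => by
    apply Fin.ext
    show g (π i) = g (π (r (G i)))
    rw [hgs i (Finset.mem_univ _), hgs _ (Finset.mem_univ _),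
      show g (r (G i)) = g i from congrArg Fin.val (hr (G i))]
  have hSS : Function.Involutive S := fun j => by
    show S (G (π (r j))) = j
    rw [← hS, hπ, hr]
  refine ⟨G, hSS.toPerm S, hS, fun j => ?_⟩
  rw [Fintype.card_subtype]
  convert hgc j j.2 using 2
  ext i
  simp [G, Fin.ext_iff]

variable {F : Type*} [Field F] {V : Type*} [AddCommGroup V] [Module F V] [FiniteDimensional F V]

omit [FiniteDimensional F V] in
theorem le_of_basis_mem {κ : Type*} {W T : Submodule F V} (b : Module.Basis κ F W)
    (h : ∀ i, (b i : V) ∈ T) : W ≤ T := by
  have : (⊤ : Submodule F W).map W.subtype ≤ T := by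
    rw [← b.span_eq, Submodule.map_span, Submodule.span_le]
    rintro _ ⟨_, ⟨i, rfl⟩, rfl⟩
    exact h i
  rwa [Submodule.map_top, Submodule.range_subtype] at this

/-- An element with scalar square permutes the lines of some basis. -/
theorem exists_monomial_basis (f : V →ₗ[F] V) {z : F} (hz : z ≠ 0) (hf : ∀ v, f (f v) = z • v) :
    ∃ (ι : Type) (_ : Fintype ι) (b : ι → V) (π : ι → ι),
      LinearIndependent F b ∧ span F (Set.range b) = ⊤ ∧ (∀ i, π (π i) = i) ∧
        ∀ i, f (b i) ∈ span F {b (π i)} := by
  have fin : ∀ (ι : Type) [Fintype ι] (b : ι → V) (π : ι → ι), ⊤ ≤ span F (Set.range b) →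
      Fintype.card ι = Module.finrank F V → (∀ i, π (π i) = i) →
      (∀ i, f (b i) ∈ span F {b (π i)}) →
      ∃ (ι : Type) (_ : Fintype ι) (b : ι → V) (π : ι → ι),
      LinearIndependent F b ∧ span F (Set.range b) = ⊤ ∧ (∀ i, π (π i) = i) ∧
        ∀ i, f (b i) ∈ span F {b (π i)} :=
    fun ι _ b π h1 h2 h3 h4 => ⟨ι, inferInstance, b, π,
      linearIndependent_of_top_le_span_of_card_eq_finrank h1 h2, top_le_iff.1 h1, h3, h4⟩
  by_cases hsq : ∃ w, w * w = z
  · obtain ⟨w, rfl⟩ := hsq
    have hw : w ≠ 0 := left_ne_zero_of_mul hz
    by_cases h2 : (2 : F) = 0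
    · -- `f - w` squares to zero
      let N : V →ₗ[F] V := f - w • LinearMap.id
      have hN : ∀ v, N (N v) = 0 := fun v => by
        simp only [N, LinearMap.sub_apply, LinearMap.smul_apply, LinearMap.id_apply, map_sub,
          map_smul, hf, smul_sub, smul_smul]
        rw [show (w * w) • v - w • f v - (w • f v - (w * w) • v)
          = (2 : F) • ((w * w) • v - w • f v) by rw [two_smul]; abel, h2, zero_smul]
      obtain ⟨W, hW⟩ := Submodule.exists_isCompl (LinearMap.ker N)
      have hNW : W.map N ≤ LinearMap.ker N := by
        rintro _ ⟨v, -, rfl⟩; exact LinearMap.mem_ker.2 (hN v)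
      obtain ⟨C, hC⟩ := Submodule.exists_isCompl ((W.map N).comap (LinearMap.ker N).subtype)
      let bW := Module.finBasis F W
      let bC := Module.finBasis F C
      let r := Module.finrank F W
      let c := Module.finrank F C
      have hrW : Module.finrank F (W.map N) = r := by
        rw [← LinearMap.range_domRestrict]
        refine LinearMap.finrank_range_of_inj ((injective_iff_map_eq_zero _).2 fun v hv => Subtype.ext ?_)
        exact (Submodule.disjoint_def.1 hW.disjoint) v.1 hv v.2
      let b : (Fin r × Bool) ⊕ Fin c → V := Sum.elim
        (fun p => if p.2 then f (bW p.1 : V) else (bW p.1 : V)) (fun k => ((bC k : LinearMap.ker N) : V))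
      refine fin _ b (Sum.map (fun p => (p.1, !p.2)) id) ?_ ?_ (by rintro (⟨i, e⟩ | k) <;> simp) ?_
      · have h1 : W ≤ span F (Set.range b) :=
          le_of_basis_mem bW fun i => subset_span ⟨Sum.inl (i, false), by simp [b]⟩
        have h2 : W.map N ≤ span F (Set.range b) := by
          rw [Submodule.map_le_iff_le_comap]
          refine le_of_basis_mem bW fun i => ?_
          show N (bW i : V) ∈ span F (Set.range b)
          have : N (bW i : V) = f (bW i : V) - w • (bW i : V) := rfl
          rw [this]
          exact sub_mem (subset_span ⟨Sum.inl (i, true), by simp [b]⟩) (smul_mem _ w (h1 (bW i).2))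
        have h3 : C.map (LinearMap.ker N).subtype ≤ span F (Set.range b) := by
          rw [Submodule.map_le_iff_le_comap]
          exact le_of_basis_mem bC fun i => subset_span ⟨Sum.inr i, rfl⟩
        have h4 : LinearMap.ker N ≤ span F (Set.range b) := by
          intro v hv
          obtain ⟨u, hu, u', hu', he⟩ := Submodule.mem_sup.1 (hC.sup_eq_top.symm ▸ Submodule.mem_top (x := (⟨v, hv⟩ : LinearMap.ker N)))
          rw [show v = (u : V) + (u' : V) from (congrArg Subtype.val he).symm]
          exact add_mem (h2 hu) (h3 ⟨u', hu', rfl⟩)
        exact hW.sup_eq_top ▸ sup_le h4 h1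
      · have e1 := Submodule.finrank_add_eq_of_isCompl hC
        have e2 := Submodule.finrank_add_eq_of_isCompl hW
        rw [(Submodule.comapSubtypeEquivOfLe hNW).finrank_eq, hrW] at e1
        simp only [Fintype.card_sum, Fintype.card_prod, Fintype.card_fin, Fintype.card_bool]
        omega
      · rintro (⟨i, e⟩ | k)
        · cases e
          · exact Submodule.mem_span_singleton.2 ⟨1, by simp [b]⟩
          · exact Submodule.mem_span_singleton.2 ⟨w * w, by simp [b, hf]⟩
        · refine Submodule.mem_span_singleton.2 ⟨w, ?_⟩
          have : f ((bC k : LinearMap.ker N) : V) - w • ((bC k : LinearMap.ker N) : V) = 0 :=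
            (bC k : LinearMap.ker N).2
          exact (sub_eq_zero.1 this).symm
    · -- eigenvectors span
      let T : Set V := {v | f v ∈ span F {v}}
      have hT : ⊤ ≤ span F T := by
        intro v _
        have e1 : f (w • v + f v) = w • (w • v + f v) := by
          rw [map_add, map_smul, hf, smul_add, smul_smul]; abel
        have e2 : f (w • v - f v) = -w • (w • v - f v) := by
          rw [map_sub, map_smul, hf, smul_sub, smul_smul, neg_mul, neg_smul, neg_smul]; abel
        have : v = (2 * w)⁻¹ • ((w • v + f v) + (w • v - f v)) := by
          rw [show (w • v + f v) + (w • v - f v) = (2 * w) • v by rw [two_mul, add_smul]; abel,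
            smul_smul, inv_mul_cancel₀ (mul_ne_zero h2 hw), one_smul]
        rw [this]
        exact smul_mem _ _ (add_mem
          (subset_span (show _ ∈ T from Submodule.mem_span_singleton.2 ⟨w, e1.symm⟩))
          (subset_span (show _ ∈ T from Submodule.mem_span_singleton.2 ⟨-w, e2.symm⟩)))
      obtain ⟨B, hBT, hBspan, hB⟩ := exists_linearIndependent F T
      have hBf : B.Finite := hB.setFinite
      let e : B ≃ Fin hBf.toFinset.card := (Equiv.subtypeEquivRight fun v => hBf.mem_toFinset.symm).trans
        hBf.toFinset.equivFin
      refine ⟨Fin hBf.toFinset.card, inferInstance, fun i => (e.symm i : V), id, hB.comp _ e.symm.injective,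
        ?_, fun i => rfl, fun i => hBT (e.symm i).2⟩
      rw [show Set.range (fun i => (e.symm i : V)) = B by
        rw [show (fun i => (e.symm i : V)) = Subtype.val ∘ e.symm from rfl,
          Set.range_comp, e.symm.surjective.range_eq, Set.image_univ, Subtype.range_coe], hBspan]
      exact top_le_iff.1 hT
  · -- no eigenvectors
    suffices h : ∀ c k (v : Fin k → V),
        Module.finrank F (span F (Set.range fun p : Fin k × Bool => if p.2 then f (v p.1) else v p.1)) = 2 * k →
        Module.finrank F V - 2 * k ≤ c →
        ∃ k' : ℕ, ∃ v' : Fin k' → V, ⊤ ≤ span F (Set.range fun p : Fin k' × Bool => if p.2 then f (v' p.1) else v' p.1) ∧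
          2 * k' = Module.finrank F V by
      obtain ⟨k, v, hsp, hk⟩ := h _ 0 Fin.elim0
        (by rw [Set.range_eq_empty, span_empty, finrank_bot]) le_rfl
      refine fin _ _ (fun p => (p.1, !p.2)) hsp (by simp; omega) (fun p => by simp) ?_
      rintro ⟨i, e⟩
      cases e
      · exact Submodule.mem_span_singleton.2 ⟨1, by simp⟩
      · exact Submodule.mem_span_singleton.2 ⟨z, by simp [hf]⟩
    intro c
    induction c using Nat.strong_induction_on with
    | _ c ih =>
      intro k v hk hc
      set S := span F (Set.range fun p : Fin k × Bool => if p.2 then f (v p.1) else v p.1) with hS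
      by_cases htop : S = ⊤
      · exact ⟨k, v, top_le_iff.2 htop, by rw [← hk, htop, finrank_top]⟩
      obtain ⟨u, hu⟩ : ∃ u, u ∉ S := by
        by_contra! h
        exact htop (eq_top_iff.2 fun x _ => h x)
      have hfS : ∀ x ∈ S, f x ∈ S := by
        intro x hx
        induction hx using Submodule.span_induction with
        | mem y hy =>
          obtain ⟨⟨i, e⟩, rfl⟩ := hy
          cases e
          · exact subset_span ⟨(i, true), by simp⟩
          · simpa [hf] using smul_mem S z (subset_span ⟨(i, false), by simp⟩ : v i ∈ S)
        | zero => simp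
        | add x y _ _ hx hy => simpa using add_mem hx hy
        | smul r x _ hx => simpa using smul_mem _ r hx
      have hind : LinearIndependent F ![u, f u] := by
        rw [LinearIndependent.pair_iff]
        intro s t h
        by_cases ht : t = 0
        · subst ht
          rw [zero_smul, add_zero, smul_eq_zero] at h
          exact ⟨h.resolve_right fun h0 => hu (h0 ▸ zero_mem _), rfl⟩
        · exfalso
          refine hsq ⟨-s / t, ?_⟩
          have hfu : f u = (-s / t) • u := by
            have := congrArg (fun x => t⁻¹ • x) (eq_neg_of_add_eq_zero_right h)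
            simpa [smul_smul, ht, div_eq_inv_mul] using this
          have := hf u
          rw [hfu, map_smul, hfu, smul_smul] at this
          exact smul_left_injective F (show u ≠ 0 from fun h0 => hu (h0 ▸ zero_mem _)) this
      have hd : Disjoint S (span F (Set.range ![u, f u])) := by
        rw [Submodule.disjoint_def]
        intro x hx hx'
        rw [Matrix.range_cons_cons_empty, Submodule.mem_span_pair] at hx'
        obtain ⟨a, b, rfl⟩ := hx'
        by_contra hne
        have h1 := hfS _ hx
        rw [map_add, map_smul, map_smul, hf] at h1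
        have hdet : a * a - b * b * z ≠ 0 := by
          intro h0
          by_cases hb : b = 0
          · subst hb
            simp at h0; simp [h0] at hne
          · exact hsq ⟨a / b, by field_simp; linear_combination h0⟩
        refine hu ?_
        have : (a * a - b * b * z) • u = a • (a • u + b • f u) - b • (a • f u + b • z • u) := by
          module
        have h2 : (a * a - b * b * z) • u ∈ S := this ▸ sub_mem (smul_mem _ a hx) (smul_mem _ b h1)
        simpa [smul_smul, inv_mul_cancel₀ hdet] using smul_mem S (a * a - b * b * z)⁻¹ h2
      let v' : Fin (k + 1) → V := Fin.cons u v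
      have hS' : span F (Set.range fun p : Fin (k + 1) × Bool => if p.2 then f (v' p.1) else v' p.1) =
          S ⊔ span F (Set.range ![u, f u]) := by
        rw [hS, ← span_union]
        congr 1
        ext x
        constructor
        · rintro ⟨⟨i, e⟩, rfl⟩
          induction i using Fin.cases with
          | zero =>
            refine Or.inr ?_
            cases e
            · exact ⟨0, by simp [v']⟩
            · exact ⟨1, by simp [v']⟩
          | succ i => exact Or.inl ⟨(i, e), by simp [v']⟩
        · rintro (⟨⟨i, e⟩, rfl⟩ | ⟨i, rfl⟩)
          · exact ⟨(i.succ, e), by simp [v']⟩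
          · fin_cases i
            · exact ⟨(0, false), by simp [v']⟩
            · exact ⟨(0, true), by simp [v']⟩
      have hk' : Module.finrank F (span F (Set.range fun p : Fin (k + 1) × Bool =>
          if p.2 then f (v' p.1) else v' p.1)) = 2 * (k + 1) := by
        have := Submodule.finrank_sup_add_finrank_inf_eq S (span F (Set.range ![u, f u]))
        rw [hd.eq_bot, finrank_bot, hk, finrank_span_eq_card hind, Fintype.card_fin] at this
        rw [hS']; omega
      have := Submodule.finrank_le (span F (Set.range fun p : Fin (k + 1) × Bool =>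
          if p.2 then f (v' p.1) else v' p.1))
      exact ih _ (by omega) (k + 1) v' hk' le_rfl

end Cfsg.Agent.Elusive

namespace Cfsg.Agent.Elusive

open Submodule

variable {F : Type*} [Field F] {V : Type*} [AddCommGroup V] [Module F V]

/-- The subspaces spanned by the blocks of a basis. -/
def blockSpan {ι κ : Type*} (b : ι → V) (g : ι → κ) (j : κ) : Submodule F V := span F (b '' {i | g i = j})

theorem blockSpan_finrank {ι κ : Type*} [Fintype ι] [DecidableEq κ] {b : ι → V} (hb : LinearIndependent F b)
    (g : ι → κ) (j : κ) : Module.finrank F (blockSpan (F := F) b g j) = Fintype.card {i // g i = j} := by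
  have := finrank_span_eq_card (hb.comp (Subtype.val : {i // g i = j} → ι) Subtype.val_injective)
  rw [← this, Set.range_comp, Subtype.range_coe_subtype]
  rfl

theorem blockSpan_indep {ι κ : Type*} {b : ι → V} (hb : LinearIndependent F b) (g : ι → κ) :
    iSupIndep (blockSpan (F := F) b g) := by
  intro j
  have hle : (⨆ (k) (_ : k ≠ j), blockSpan (F := F) b g k) ≤ span F (b '' {i | g i ≠ j}) :=
    iSup₂_le fun k hk => span_mono (Set.image_mono fun i hi => by
      show g i ≠ j
      rw [show g i = k from hi]; exact hk)
  refine Disjoint.mono_right hle (hb.disjoint_span_image ?_)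
  exact Set.disjoint_left.2 fun i hi hi' => hi' hi

theorem blockSpan_iSup {ι κ : Type*} (b : ι → V) (g : ι → κ) :
    ⨆ j, blockSpan (F := F) b g j = span F (Set.range b) := by
  refine le_antisymm (iSup_le fun j => span_mono (Set.image_subset_range _ _)) (span_le.2 ?_)
  rintro _ ⟨i, rfl⟩
  exact le_iSup (blockSpan (F := F) b g) (g i) (subset_span ⟨i, rfl, rfl⟩)

theorem blockSpan_map_le {ι κ : Type*} (b : ι → V) (g : ι → κ) (f : V →ₗ[F] V) {π : ι → ι}
    (hf : ∀ i, f (b i) ∈ span F {b (π i)}) (σ : κ → κ) (hσ : ∀ i, g (π i) = σ (g i)) (j : κ) :
    (blockSpan (F := F) b g j).map f ≤ blockSpan b g (σ j) := by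
  rw [blockSpan, Submodule.map_span, span_le]
  rintro _ ⟨_, ⟨i, hi, rfl⟩, rfl⟩
  refine span_mono ?_ (hf i)
  rintro _ rfl
  exact ⟨π i, by show g (π i) = σ j; rw [hσ, show g i = j from hi], rfl⟩

end Cfsg.Agent.Elusive
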