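import Cfsg.Agent.Elusive.InvariantDim

/-!
Elements of prime order of `PSL_n` in characteristic prime to the order: representatives and examples.
-/

namespace Cfsg.Agent.Elusive

open Polynomial Matrix

variable {F : Type*} [Field F] {n : ℕ}

/-- An endomorphism of determinant one gives an element of `SL`. -/
theorem exists_sl_of_end {V : Type*} [AddCommGroup V] [Module F V] [FiniteDimensional F V]
    (hV : Module.finrank F V = n) (f : Module.End F V) (hf : LinearMap.det f = 1) :
    ∃ (x : SpecialLinearGroup (Fin n) F) (e : V ≃ₗ[F] (Fin n → F)),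
      toLin' (x : Matrix (Fin n) (Fin n) F) = e.conjAlgEquiv F f := by
  let e : V ≃ₗ[F] (Fin n → F) := LinearEquiv.ofFinrankEq _ _ (hV.trans (Module.finrank_fin_fun F).symm)
  refine ⟨⟨LinearMap.toMatrix' (e.conjAlgEquiv F f), ?_⟩, e, toLin'_toMatrix' _⟩
  rw [LinearMap.det_toMatrix', ← hf]
  exact LinearMap.det_conj f e

theorem toLin'_pow_eq_smul_one {x : SpecialLinearGroup (Fin n) F} {z : F} {k : ℕ} :
    ((x ^ k : SpecialLinearGroup (Fin n) F) : Matrix (Fin n) (Fin n) F) = z • (1 : Matrix (Fin n) (Fin n) F) ↔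
      (toLin' (x : Matrix (Fin n) (Fin n) F) : Module.End F (Fin n → F)) ^ k = z • 1 := by
  have h : ((x ^ k : SpecialLinearGroup (Fin n) F) : Matrix (Fin n) (Fin n) F) = (x : Matrix (Fin n) (Fin n) F) ^ k :=
    Matrix.SpecialLinearGroup.coe_pow x k
  rw [h]
  show _ ↔ (toLinAlgEquiv' (x : Matrix (Fin n) (Fin n) F)) ^ k = _
  rw [← map_pow, ← map_one (toLinAlgEquiv' : Matrix (Fin n) (Fin n) F ≃ₐ[F] _), ← map_smul,
    toLinAlgEquiv'.injective.eq_iff]

theorem toLin'_eq_smul_one {x : SpecialLinearGroup (Fin n) F} {z : F} :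
    (x : Matrix (Fin n) (Fin n) F) = z • (1 : Matrix (Fin n) (Fin n) F) ↔
      (toLin' (x : Matrix (Fin n) (Fin n) F) : Module.End F (Fin n → F)) = z • 1 := by
  simpa using toLin'_pow_eq_smul_one (x := x) (z := z) (k := 1)

/-- Either `x` is a scalar multiple of a map of order `r`, or `x ^ r` has no `r`-th root among the scalars. -/
theorem order_reduction {r : ℕ} (hr : r.Prime) (hn : 0 < n) {x : SpecialLinearGroup (Fin n) F} {z : F}
    (hx : ((x ^ r : SpecialLinearGroup (Fin n) F) : Matrix (Fin n) (Fin n) F) = z • (1 : Matrix (Fin n) (Fin n) F))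
    (hx' : ∀ c : F, (x : Matrix (Fin n) (Fin n) F) ≠ c • (1 : Matrix (Fin n) (Fin n) F)) :
    (∃ (w : F) (g : Module.End F (Fin n → F)), w ≠ 0 ∧ toLin' (x : Matrix (Fin n) (Fin n) F) = w • g ∧
      g ^ r = 1 ∧ g ≠ 1) ∨ ∀ b : F, b ^ r ≠ z := by
  by_cases h : ∃ b : F, b ^ r = z
  swap
  · exact Or.inr (not_exists.1 h)
  obtain ⟨b, hb⟩ := h
  have : Nonempty (Fin n) := ⟨⟨0, hn⟩⟩
  have hb0 : b ≠ 0 := by
    rintro rfl
    rw [zero_pow hr.ne_zero] at hb
    have h1 := (x ^ r).det_coe
    rw [hx, ← hb, zero_smul, det_zero] at h1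
    exact zero_ne_one h1
  refine Or.inl ⟨b, b⁻¹ • toLin' (x : Matrix (Fin n) (Fin n) F), hb0, (smul_inv_smul₀ hb0 _).symm, ?_, fun h1 => ?_⟩
  · rw [_root_.smul_pow, toLin'_pow_eq_smul_one.1 hx, smul_smul, ← hb, inv_pow, inv_mul_cancel₀ (pow_ne_zero _ hb0), one_smul]
  · refine hx' b (toLin'_eq_smul_one.2 ?_)
    rw [← h1, smul_inv_smul₀ hb0]

variable [Fintype F]

theorem exists_pow_eq_of_not_dvd {r : ℕ} (hr : r.Prime) (h : ¬ r ∣ Fintype.card F - 1) (z : F) :
    ∃ b : F, b ^ r = z := by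
  classical
  rcases eq_or_ne z 0 with rfl | hz
  · exact ⟨0, zero_pow hr.ne_zero⟩
  obtain ⟨u, hu⟩ := (powCoprime (G := Fˣ) (n := r) (by
    rw [Nat.card_units, Nat.card_eq_fintype_card]; exact ((hr.coprime_iff_not_dvd).2 h).symm)).surjective (Units.mk0 z hz)
  exact ⟨u, by simpa [powCoprime] using congrArg Units.val hu⟩

theorem orderOf_eq_one_iff_dvd {r : ℕ} [Fact r.Prime] :
    orderOf ((Fintype.card F : ℕ) : ZMod r) = 1 ↔ r ∣ Fintype.card F - 1 := by
  rw [orderOf_eq_one_iff, ← CharP.cast_eq_zero_iff (ZMod r) r, Nat.cast_sub Fintype.card_pos, Nat.cast_one, sub_eq_zero]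

theorem not_dvd_sub_one {r : ℕ} [Fact r.Prime] (h : 2 ≤ orderOf ((Fintype.card F : ℕ) : ZMod r)) :
    ¬ r ∣ Fintype.card F - 1 := fun hd => by
  rw [orderOf_eq_one_iff_dvd.2 hd] at h
  omega

/-- An element of order `r` with fixed space of dimension `c`. -/
theorem exists_element_fixed (p : ℕ) [Fact p.Prime] [CharP F p] {r : ℕ} [Fact r.Prime]
    (hi : 2 ≤ orderOf ((Fintype.card F : ℕ) : ZMod r)) {c t : ℕ} (ht : 0 < t)
    (hn : c + t * orderOf ((Fintype.card F : ℕ) : ZMod r) = n) :
    ∃ x : SpecialLinearGroup (Fin n) F,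
      ((x ^ r : SpecialLinearGroup (Fin n) F) : Matrix (Fin n) (Fin n) F) = (1 : F) • (1 : Matrix (Fin n) (Fin n) F) ∧
      (∀ z : F, (x : Matrix (Fin n) (Fin n) F) ≠ z • (1 : Matrix (Fin n) (Fin n) F)) ∧
      Module.finrank F ↥(LinearMap.ker ((toLin' (x : Matrix (Fin n) (Fin n) F) : Module.End F (Fin n → F)) - 1)) = c := by
  classical
  have hr := (Fact.out : r.Prime)
  set i := orderOf ((Fintype.card F : ℕ) : ZMod r) with hidef
  have : NeZero i := ⟨by omega⟩
  let K := FiniteField.Extension F p i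
  have : Finite K := Module.finite_of_finite F
  obtain ⟨θ, hθ⟩ := exists_prime_orderOf_dvd_card' (G := Kˣ) r (by
    rw [Nat.card_units, FiniteField.natCard_extension, Nat.card_eq_fintype_card,
      ← CharP.cast_eq_zero_iff (ZMod r) r, Nat.cast_sub (Nat.one_le_pow _ _ Fintype.card_pos), Nat.cast_pow,
      Nat.cast_one, hidef, pow_orderOf_eq_one, sub_self])
  have hθr : (θ : K) ^ r = 1 := by rw [← Units.val_pow_eq_pow_val, ← hθ, pow_orderOf_eq_one, Units.val_one]
  have hθ1 : (θ : K) ≠ 1 := fun h => by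
    rw [Units.ext (show (θ : K) = ((1 : Kˣ) : K) from h), orderOf_one] at hθ
    exact hr.ne_one hθ.symm
  let f : Module.End F ((Fin t → K) × (Fin c → F)) := (Algebra.lsmul F F (Fin t → K) (θ : K)).prodMap 1
  have hfr : f ^ r = 1 := by
    have h : ∀ k, f ^ k = (Algebra.lsmul F F (Fin t → K) ((θ : K) ^ k)).prodMap 1 := by
      intro k
      induction k with
      | zero => simp [map_one]
      | succ k ih => rw [pow_succ, ih, pow_succ, map_mul]; rfl
    rw [h, hθr, map_one]; rfl
  have hdet : LinearMap.det f = 1 := by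
    have h1 : LinearMap.det f ^ r = 1 := by rw [← map_pow, hfr, map_one]
    have hne : LinearMap.det f ≠ 0 := fun h => by rw [h, zero_pow hr.ne_zero] at h1; exact zero_ne_one h1
    have := pow_gcd_eq_one.2 ⟨h1, FiniteField.pow_card_sub_one_eq_one _ hne⟩
    rwa [((hr.coprime_iff_not_dvd).2 (not_dvd_sub_one hi)).gcd_eq_one, pow_one] at this
  have hV : Module.finrank F ((Fin t → K) × (Fin c → F)) = n := by
    rw [Module.finrank_prod, Module.finrank_pi_fintype, Module.finrank_fin_fun, Finset.sum_const, Finset.card_univ,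
      Fintype.card_fin, smul_eq_mul, FiniteField.finrank_extension]
    omega
  obtain ⟨x, e, he⟩ := exists_sl_of_end hV f hdet
  have hker : Module.finrank F ↥(LinearMap.ker (f - 1)) = c := by
    have : LinearMap.ker (f - 1) = LinearMap.range (LinearMap.inr F (Fin t → K) (Fin c → F)) := by
      ext ⟨a, b⟩
      simp only [LinearMap.mem_ker, LinearMap.sub_apply, Module.End.one_apply, sub_eq_zero, LinearMap.mem_range,
        LinearMap.inr_apply, Prod.ext_iff]
      refine ⟨fun h => ⟨b, ?_, rfl⟩, fun ⟨b', h, hb⟩ => ⟨?_, rfl⟩⟩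
      · funext j
        have h' : (θ : K) * a j = a j := congrFun h.1 j
        exact ((mul_left_eq_self₀).1 h').resolve_left hθ1 |>.symm
      · rw [← h]; show (θ : K) • (0 : Fin t → K) = 0
        rw [smul_zero]
    rw [this, LinearMap.finrank_range_of_inj LinearMap.inr_injective, Module.finrank_fin_fun]
  have hxr : (toLin' (x : Matrix (Fin n) (Fin n) F) : Module.End F (Fin n → F)) ^ r = 1 := by
    rw [he, ← map_pow, hfr, map_one]
  have hkx : Module.finrank F ↥(LinearMap.ker ((toLin' (x : Matrix (Fin n) (Fin n) F) : Module.End F (Fin n → F)) - 1)) = c := by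
    rw [← hker, ← LinearEquiv.finrank_map_eq e (LinearMap.ker (f - 1))]
    refine congrArg (fun S : Submodule F (Fin n → F) => Module.finrank F S) ?_
    rw [he, ← map_one (e.conjAlgEquiv F), ← map_sub]
    refine Submodule.ext fun v => ?_
    simp [LinearEquiv.conjAlgEquiv_apply, Submodule.mem_map_equiv]
  refine ⟨x, toLin'_pow_eq_smul_one.2 (by rw [hxr, one_smul]), fun z hz => ?_, hkx⟩
  rw [toLin'_eq_smul_one] at hz
  have hzr : z ^ r = 1 := by
    rw [hz, _root_.smul_pow, one_pow] at hxr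
    have := LinearMap.congr_fun hxr (Pi.single (⟨0, by nlinarith⟩ : Fin n) (1 : F))
    simpa using congrFun this ⟨0, by nlinarith⟩
  have hz1 : z = 1 := by
    have hne : z ≠ 0 := fun h => by rw [h, zero_pow hr.ne_zero] at hzr; exact zero_ne_one hzr
    have := pow_gcd_eq_one.2 ⟨hzr, FiniteField.pow_card_sub_one_eq_one _ hne⟩
    rwa [((hr.coprime_iff_not_dvd).2 (not_dvd_sub_one hi)).gcd_eq_one, pow_one] at this
  rw [hz, hz1, one_smul, sub_self, LinearMap.ker_zero, finrank_top, Module.finrank_fin_fun] at hkx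
  nlinarith

/-- An element whose `r`-th power is a given scalar without `r`-th root. -/
theorem exists_element_bad {r t : ℕ} (hr : r.Prime) (hn : n = t * r) (ht : 0 < t) {z : F}
    (hz : ∀ b : F, b ^ r ≠ z) (hdet : ((-1) ^ (r + 1) * z) ^ t = 1) :
    ∃ x : SpecialLinearGroup (Fin n) F,
      ((x ^ r : SpecialLinearGroup (Fin n) F) : Matrix (Fin n) (Fin n) F) = z • (1 : Matrix (Fin n) (Fin n) F) ∧
      (∀ c : F, (x : Matrix (Fin n) (Fin n) F) ≠ c • (1 : Matrix (Fin n) (Fin n) F)) := by
  classical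
  have hirr := X_pow_sub_C_irreducible_of_prime hr hz
  have : Fact (Irreducible (X ^ r - C z)) := ⟨hirr⟩
  let K := AdjoinRoot (X ^ r - C z)
  have : FiniteDimensional F K := (AdjoinRoot.powerBasis hirr.ne_zero).finite
  let θ : K := AdjoinRoot.root _
  have hθ : θ ^ r = algebraMap F K z := by
    have := AdjoinRoot.aeval_eq (X ^ r - C z) ▸ AdjoinRoot.mk_self (f := X ^ r - C z)
    simp [sub_eq_zero] at this
    exact this
  let f : Module.End F (Fin t → K) := Algebra.lsmul F F (Fin t → K) θ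
  have hfr : f ^ r = z • 1 := by
    rw [← map_pow, hθ, AlgHom.commutes, Algebra.algebraMap_eq_smul_one]
  have hV : Module.finrank F (Fin t → K) = n := by
    rw [Module.finrank_pi_fintype, Finset.sum_const, Finset.card_univ, Fintype.card_fin, smul_eq_mul,
      (AdjoinRoot.powerBasis hirr.ne_zero).finrank, AdjoinRoot.powerBasis_dim, natDegree_X_pow_sub_C, hn]
  let e : (Fin t → K) ≃ₗ[F] (Fin n → F) := LinearEquiv.ofFinrankEq _ _ (hV.trans (Module.finrank_fin_fun F).symm)
  set M := LinearMap.toMatrix' (e.conjAlgEquiv F f)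
  have hMr : M ^ r = z • 1 := by
    apply toLinAlgEquiv'.injective
    rw [map_pow, map_smul, map_one]
    show (toLin' M : Module.End F (Fin n → F)) ^ r = _
    rw [toLin'_toMatrix', ← map_pow, hfr, map_smul, map_one]
  obtain ⟨t', ht', hd⟩ := det_of_pow_eq_scalar hr hz hMr
  obtain rfl : t' = t := Nat.eq_of_mul_eq_mul_right hr.pos (ht'.symm.trans hn)
  refine ⟨⟨M, hd.trans hdet⟩, hMr, fun c hc => hz c ?_⟩
  change M = _ at hc
  rw [hc, _root_.smul_pow, one_pow] at hMr
  have h0 : 0 < n := by rw [hn]; exact Nat.mul_pos ht hr.pos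
  simpa using congrFun (congrFun hMr ⟨0, h0⟩) ⟨0, h0⟩

/-- When a scalar without `r`-th root can occur as `r`-th power of an element of `SL_n`. -/
theorem exists_bad_scalar_iff {r : ℕ} [Fact r.Prime] (hd : r ∣ Fintype.card F - 1) (hn : 0 < n) :
    (∃ z : F, (∀ b : F, b ^ r ≠ z) ∧ ∃ t, n = t * r ∧ ((-1) ^ (r + 1) * z) ^ t = 1) ↔
      ¬ (padicValNat r n ≤ padicValNat r (Fintype.card F - 1) ∧ (r = 2 → Even n → Fintype.card F % 4 = 1)) := by
  classical
  have hr := (Fact.out : r.Prime)
  set q := Fintype.card F with hq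
  set a := padicValNat r (q - 1) with ha
  have hq1 : q - 1 ≠ 0 := by have := Fintype.one_lt_card (α := F); omega
  have ha1 : 1 ≤ a := one_le_padicValNat_of_dvd hq1 hd
  have hpa : r ^ a ∣ q - 1 := pow_padicValNat_dvd
  have hnpa : ¬ r ^ (a + 1) ∣ q - 1 := pow_succ_padicValNat_not_dvd hq1
  constructor
  · rintro ⟨z, hz, t, ht, het⟩ ⟨hv, h2⟩
    have ht0 : t ≠ 0 := by rintro rfl; omega
    set e := (-1 : F) ^ (r + 1) * z with he
    have hnp : ∀ b : F, b ^ r ≠ e := by
      intro b hb
      rcases hr.eq_two_or_odd' with h | h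
      · subst h
        have hsq : IsSquare (-1 : F) := FiniteField.isSquare_neg_one_iff.2 (by
          have := h2 rfl (ht ▸ (even_two.mul_left t)); omega)
        obtain ⟨s, hs⟩ := hsq
        refine hz (b * s) ?_
        rw [mul_pow, hb, he, pow_two s, ← hs]; ring
      · refine hz b ?_
        rw [hb, he, (h.add_one).neg_one_pow, one_mul]
    have he0 : e ≠ 0 := fun h => hnp 0 (by rw [zero_pow hr.ne_zero, h])
    obtain ⟨g, hg⟩ := IsCyclic.exists_ofOrder_eq_natCard (α := Fˣ)
    rw [Nat.card_units, Nat.card_eq_fintype_card, ← hq] at hg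
    have hgen : Units.mk0 e he0 ∈ Subgroup.zpowers g := by
      rw [(Subgroup.eq_top_of_card_eq _ (by rw [Nat.card_zpowers, hg, Nat.card_units, Nat.card_eq_fintype_card]) :
        Subgroup.zpowers g = ⊤)]
      trivial
    rw [mem_zpowers_iff_mem_range_orderOf, Finset.mem_image] at hgen
    obtain ⟨k, -, hk⟩ := hgen
    have hrk : ¬ r ∣ k := fun ⟨l, hl⟩ => hnp ((g ^ l : Fˣ) : F) (by
      rw [← Units.val_pow_eq_pow_val, ← pow_mul, mul_comm, ← hl, hk, Units.val_mk0])
    have h1 : (g ^ k) ^ t = 1 := by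
      rw [hk]; ext; rw [Units.val_pow_eq_pow_val, Units.val_mk0, het, Units.val_one]
    rw [← pow_mul, ← orderOf_dvd_iff_pow_eq_one, hg] at h1
    have hat : r ^ a ∣ t := ((Nat.Prime.coprime_iff_not_dvd hr).2 hrk |>.pow_left a).dvd_of_dvd_mul_left (hpa.trans h1)
    have : a + 1 ≤ padicValNat r n := by
      refine (padicValNat_dvd_iff_le hn.ne').1 ?_
      rw [ht, pow_succ]
      exact mul_dvd_mul hat dvd_rfl
    omega
  · intro h
    obtain ⟨g, hg⟩ := IsCyclic.exists_ofOrder_eq_natCard (α := Fˣ)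
    rw [Nat.card_units, Nat.card_eq_fintype_card, ← hq] at hg
    set u : Fˣ := g ^ ((q - 1) / r ^ a)
    have hu : orderOf u = r ^ a := by
      rw [orderOf_pow_of_dvd (Nat.ne_of_gt (Nat.div_pos (Nat.le_of_dvd (by omega) hpa) (pow_pos hr.pos _)))
        (by rw [hg]; exact Nat.div_dvd_of_dvd hpa), hg, Nat.div_div_self hpa hq1]
    have hnp : ∀ b : F, b ^ r ≠ (u : F) := by
      intro b hb
      have hb0 : b ≠ 0 := fun h0 => u.ne_zero (by rw [← hb, h0, zero_pow hr.ne_zero])
      obtain ⟨m, hm⟩ := hd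
      have h1 : u ^ m = 1 := by
        ext; rw [Units.val_pow_eq_pow_val, ← hb, ← pow_mul, ← hm, FiniteField.pow_card_sub_one_eq_one b hb0, Units.val_one]
      rw [← orderOf_dvd_iff_pow_eq_one, hu] at h1
      exact hnpa (by rw [hm, pow_succ']; exact mul_dvd_mul_left r h1)
    have hrn : r ∣ n := by
      by_contra hc
      refine h ⟨by rw [padicValNat.eq_zero_of_not_dvd hc]; exact Nat.zero_le _, fun h2 he => absurd ?_ hc⟩
      rw [h2]; exact even_iff_two_dvd.1 he
    obtain ⟨t, ht⟩ := hrn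
    refine ⟨u, hnp, t, by rw [ht, mul_comm], ?_⟩
    have hut : a < padicValNat r n → (u : F) ^ t = 1 := fun hlt => by
      have h1 : r ^ (a + 1) ∣ r * t := ht ▸ (padicValNat_dvd_iff_le hn.ne').2 hlt
      rw [pow_succ', Nat.mul_dvd_mul_iff_left hr.pos, ← hu, orderOf_dvd_iff_pow_eq_one] at h1
      rw [← Units.val_pow_eq_pow_val, h1, Units.val_one]
    rcases hr.eq_two_or_odd' with h2 | h2
    · by_cases h4 : q % 4 = 1
      · have hlt : a < padicValNat r n := by
          by_contra hc
          exact h ⟨by omega, fun _ _ => h4⟩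
        have h1 : r ^ (a + 1) ∣ r * t := ht ▸ (padicValNat_dvd_iff_le hn.ne').2 hlt
        have ha2 : 2 ≤ a := by
          refine (padicValNat_dvd_iff_le hq1).1 ?_
          rw [h2]; omega
        rw [pow_succ', Nat.mul_dvd_mul_iff_left hr.pos] at h1
        have hte : Even t := by
          rw [even_iff_two_dvd]
          exact dvd_trans (by rw [h2]; exact dvd_pow_self 2 (by omega)) h1
        rw [mul_pow, hut hlt, mul_one, ← pow_mul, mul_comm, pow_mul, hte.neg_one_pow, one_pow]
      · have hodd : ¬ 2 ∣ q := by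
          rw [h2] at hd; omega
        have ha' : a = 1 := by
          refine le_antisymm ?_ ha1
          by_contra hc
          have : 2 ^ 2 ∣ q - 1 := by rw [← h2]; exact (padicValNat_dvd_iff_le hq1).2 (by omega)
          omega
        rw [ha', pow_one, h2] at hu
        have hu2 : (u : F) ^ 2 = 1 := by rw [← Units.val_pow_eq_pow_val, ← hu, pow_orderOf_eq_one, Units.val_one]
        have hu1 : (u : F) = -1 := by
          rcases sq_eq_one_iff.1 hu2 with h' | h'
          · rw [Units.val_eq_one] at h'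
            rw [h', orderOf_one] at hu; omega
          · exact h'
        rw [h2, hu1]; norm_num
    · have hlt : a < padicValNat r n := by
        by_contra hc
        exact h ⟨by omega, fun h3 => by rw [h3] at h2; exact absurd h2 (by decide)⟩
      rw [(h2.add_one).neg_one_pow, one_mul, hut hlt]

end Cfsg.Agent.Elusive
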