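import Mathlib
import Cfsg.Prelude.Def_GeometricClasses

/-!
Membership in the subfield subgroup of `SL_n`.
-/

namespace Cfsg.Agent.Elusive

variable {F : Type*} [Field F] {n : ℕ} (F₀ : Subfield F)

theorem mem_subfield_of {X : Matrix.SpecialLinearGroup (Fin n) F} {w : F} (hw : w ≠ 0) (M : GL (Fin n) F₀)
    (hX : (X : Matrix (Fin n) (Fin n) F) = w • ((M : Matrix (Fin n) (Fin n) F₀).map F₀.subtype)) :
    X ∈ (Cfsg.Geo.subfieldSubgroup F₀ 1).comap
      (Matrix.SpecialLinearGroup.toGL : Matrix.SpecialLinearGroup (Fin n) F →* GL (Fin n) F) := by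
  rw [Subgroup.mem_comap, Cfsg.Geo.subfieldSubgroup, Subgroup.mem_map]
  refine ⟨Matrix.GeneralLinearGroup.map (F₀.subtype : F₀ →+* F) M *
    Units.map (Matrix.scalar (Fin n) : F →+* Matrix (Fin n) (Fin n) F).toMonoidHom (Units.mk0 w hw),
    Subgroup.mul_mem_sup ⟨M, rfl⟩ ⟨_, rfl⟩, ?_⟩
  apply Units.ext
  simp only [MulEquiv.coe_toMonoidHom, MulAut.conj_apply, one_mul, inv_one, mul_one, Units.val_mul,
    Matrix.SpecialLinearGroup.coe_GL_coe_matrix, hX]
  show (M : Matrix (Fin n) (Fin n) F₀).map F₀.subtype * Matrix.scalar (Fin n) w = _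
  rw [Matrix.scalar_apply, ← Matrix.smul_one_eq_diagonal, Matrix.mul_smul, mul_one]

theorem exists_of_mem_subfield {X : Matrix.SpecialLinearGroup (Fin n) F}
    (hX : X ∈ (Cfsg.Geo.subfieldSubgroup F₀ 1).comap
      (Matrix.SpecialLinearGroup.toGL : Matrix.SpecialLinearGroup (Fin n) F →* GL (Fin n) F)) :
    ∃ (w : Fˣ) (M : GL (Fin n) F₀),
      (X : Matrix (Fin n) (Fin n) F) = (w : F) • ((M : Matrix (Fin n) (Fin n) F₀).map F₀.subtype) := by
  classical
  rw [Subgroup.mem_comap, Cfsg.Geo.subfieldSubgroup, Subgroup.mem_map] at hX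
  obtain ⟨Y, hY, hYX⟩ := hX
  have hnormal : (Cfsg.Geo.scalars (Fin n) F).Normal := ⟨fun a ha g => by
    obtain ⟨c, rfl⟩ := ha
    refine ⟨c, ?_⟩
    apply Units.ext
    simp only [Units.coe_map, Units.val_mul, RingHom.toMonoidHom_eq_coe, MonoidHom.coe_coe]
    rw [← (Matrix.scalar_commute (c : F) (fun r => Commute.all _ r) _).eq, mul_assoc, Units.mul_inv, mul_one]⟩
  obtain ⟨A, ⟨M, rfl⟩, S, ⟨w, rfl⟩, rfl⟩ := Subgroup.mem_sup_of_normal_right.1 hY
  refine ⟨w, M, ?_⟩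
  have := congrArg (fun g : GL (Fin n) F => (g : Matrix (Fin n) (Fin n) F)) hYX
  simp only [MulEquiv.coe_toMonoidHom, MulAut.conj_apply, one_mul, inv_one, mul_one, Units.val_mul,
    Matrix.SpecialLinearGroup.coe_GL_coe_matrix] at this
  rw [← this]
  show (M : Matrix (Fin n) (Fin n) F₀).map F₀.subtype * Matrix.scalar (Fin n) (w : F) = _
  rw [Matrix.scalar_apply, ← Matrix.smul_one_eq_diagonal, Matrix.mul_smul, mul_one]

end Cfsg.Agent.Elusive
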