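import Cfsg.Agent.Elusive.InvariantDim
import Cfsg.Agent.Elusive.SLElements
import Cfsg.Agent.Elusive.SubfieldGroup
import Cfsg.Agent.Linear.Orders

/-!
Semisimple elements of prime order and subfield subgroups of `SL_n`.
-/

namespace Cfsg.Agent.Elusive

open Polynomial Module

variable {F : Type*} [Field F] {V : Type*} [AddCommGroup V] [Module F V] (F₀ : Subfield F)

/-- The coordinates of an `F₀`-combination of basis vectors lie in `F₀`. -/
theorem repr_mem_of_mem_span {ι : Type*} (b : Basis ι F V) {v : V}
    (hv : v ∈ Submodule.span F₀ (Set.range b)) (j : ι) : b.repr v j ∈ F₀ := by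
  classical
  induction hv using Submodule.span_induction with
  | mem x hx =>
    obtain ⟨i, rfl⟩ := hx
    rw [Basis.repr_self, Finsupp.single_apply]
    split_ifs <;> simp
  | zero => simp
  | add x y _ _ hx hy => rw [map_add, Finsupp.add_apply]; exact add_mem hx hy
  | smul c x _ hx =>
    rw [show c • x = (c : F) • x from rfl, map_smul, Finsupp.smul_apply, smul_eq_mul]
    exact mul_mem c.2 hx

/-- A map commuting with `g`, with prescribed determinant, from a scalable invariant summand. -/
theorem exists_commute_det_of_summand [FiniteDimensional F V] {g : Module.End F V} {U R : Submodule F V}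
    (hc : IsCompl U R) (hR : ∀ v ∈ R, g v ∈ R) (hU : ∀ v ∈ U, g v ∈ U) (s : Module.End F U)
    (hs : ∀ u : U, (s ⟨g u, hU u u.2⟩ : V) = g (s u)) :
    ∃ y : Module.End F V, y * g = g * y ∧ LinearMap.det y = LinearMap.det s := by
  classical
  set E := Submodule.prodEquivOfIsCompl U R hc
  set y₀ : Module.End F (U × R) := s.prodMap LinearMap.id
  refine ⟨E.conjAlgEquiv F y₀, ?_, ?_⟩
  · refine LinearMap.ext fun v => ?_
    obtain ⟨⟨u, w⟩, rfl⟩ := E.surjective v
    have hE : ∀ (u : U) (w : R), E (u, w) = (u : V) + w := fun u w => rfl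
    have hgE : g (E (u, w)) = E (⟨g u, hU u u.2⟩, ⟨g w, hR w w.2⟩) := by rw [hE, hE, map_add]
    simp only [Module.End.mul_apply, hgE, LinearEquiv.conjAlgEquiv_apply, LinearMap.comp_apply, LinearEquiv.coe_coe,
      E.symm_apply_apply, y₀, LinearMap.prodMap_apply, LinearMap.id_apply]
    simp only [hE, map_add, hs]
  · rw [show LinearMap.det (E.conjAlgEquiv F y₀) = LinearMap.det y₀ from LinearMap.det_conj y₀ E,
      LinearMap.det_prodMap, LinearMap.det_id, mul_one]

theorem linearIndependent_pow_apply {f : Module.End F V} {P : F[X]} (hP : Irreducible P) {v : V}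
    (hv : aeval f P v = 0) (hv0 : v ≠ 0) :
    LinearIndependent F (fun j : Fin P.natDegree => (f ^ (j : ℕ)) v) := by
  classical
  rw [Fintype.linearIndependent_iff]
  intro c hc j
  set Q : F[X] := ∑ i : Fin P.natDegree, C (c i) * X ^ (i : ℕ)
  have hQv : aeval f Q v = 0 := by
    rw [← hc, map_sum, LinearMap.sum_apply]
    refine Finset.sum_congr rfl fun i _ => ?_
    simp [Algebra.algebraMap_eq_smul_one]
  have hQ : Q = 0 := by
    by_contra hne
    have hlt : Q.natDegree < P.natDegree := by
      rw [Polynomial.natDegree_lt_iff_degree_lt hne]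
      exact Polynomial.degree_sum_fin_lt c
    obtain ⟨a, b, hab⟩ := hP.coprime_iff_not_dvd.2 fun h => by
      have := Polynomial.natDegree_le_of_dvd h hne
      omega
    have := congrArg (fun R => aeval f R v) hab
    simp [hv, hQv] at this
    exact hv0 this.symm
  have := congrArg (fun R : F[X] => R.coeff j) hQ
  simpa [Q, Polynomial.coeff_X_pow, Fin.val_inj] using this

/-- The image of a cyclic family is a combination with the coefficients of the polynomial. -/
theorem apply_cyclic_mem_span {f : Module.End F V} {P : F[X]} (hm : P.Monic) (hP : ∀ i, P.coeff i ∈ F₀) {v : V}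
    (hv : aeval f P v = 0) (j : Fin P.natDegree) :
    f ((f ^ (j : ℕ)) v) ∈ Submodule.span F₀ (Set.range fun j : Fin P.natDegree => (f ^ (j : ℕ)) v) := by
  rw [← Module.End.mul_apply, ← pow_succ']
  rcases Nat.lt_or_ge ((j : ℕ) + 1) P.natDegree with h | h
  · exact Submodule.subset_span ⟨⟨(j : ℕ) + 1, h⟩, rfl⟩
  rw [show (j : ℕ) + 1 = P.natDegree by omega]
  have h1 := hv
  rw [aeval_eq_sum_range, LinearMap.sum_apply, Finset.sum_range_succ, hm.coeff_natDegree, one_smul] at h1
  rw [eq_neg_of_add_eq_zero_right h1]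
  refine neg_mem (Submodule.sum_mem _ fun i hi => ?_)
  rw [LinearMap.smul_apply, show P.coeff i • (f ^ i) v = (⟨_, hP i⟩ : F₀) • (f ^ i) v from rfl]
  exact Submodule.smul_mem _ _ (Submodule.subset_span ⟨⟨i, Finset.mem_range.1 hi⟩, rfl⟩)

variable [Fintype F] {r : ℕ} [Fact r.Prime]

/-- Irreducible factors of `X ^ r - 1` over `F₀` stay irreducible over `F`. -/
theorem irreducible_map_of_dvd [Fintype F₀] (hr : ¬ r ∣ Fintype.card F) (hr₀ : ¬ r ∣ Fintype.card F₀)
    (ho : orderOf ((Fintype.card F : ℕ) : ZMod r) = orderOf ((Fintype.card F₀ : ℕ) : ZMod r))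
    {P : F₀[X]} (hP : Irreducible P) (hd : P ∣ X ^ r - 1) : Irreducible (P.map F₀.subtype) := by
  rw [← cyclotomic_prime_mul_X_sub_one F₀ r] at hd
  rcases hP.prime.dvd_mul.1 hd with h | h
  · have hdeg := Arith.natDegree_irreducible_factor_cyclotomic hr₀ hP h
    have hmap : P.map F₀.subtype ∣ cyclotomic r F := map_cyclotomic r F₀.subtype ▸ Polynomial.map_dvd F₀.subtype h
    obtain ⟨Q, hQ, hQd⟩ := WfDvdMonoid.exists_irreducible_factor
      (Polynomial.not_isUnit_of_natDegree_pos _ (by rw [Polynomial.natDegree_map]; exact hP.natDegree_pos))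
      (Polynomial.map_ne_zero hP.ne_zero : P.map F₀.subtype ≠ 0)
    have hQdeg := Arith.natDegree_irreducible_factor_cyclotomic hr hQ (hQd.trans hmap)
    refine Associated.irreducible ?_ hQ
    exact Polynomial.associated_of_dvd_of_natDegree_le hQd (Polynomial.map_ne_zero hP.ne_zero)
      (by rw [Polynomial.natDegree_map, hdeg, hQdeg, ho])
  · have h1 : P.natDegree = 1 :=
      le_antisymm ((Polynomial.natDegree_le_of_dvd h (X_sub_C_ne_zero (1 : F₀))).trans (natDegree_X_sub_C_le _))
        hP.natDegree_pos
    exact irreducible_of_degree_eq_one (by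
      rw [Polynomial.degree_map, Polynomial.degree_eq_natDegree hP.ne_zero, h1]; rfl)

variable [FiniteDimensional F V]

/-- An invariant subspace has a vector killed by an irreducible polynomial with coefficients in `F₀`. -/
theorem exists_annihilator [Fintype F₀] (hr : ¬ r ∣ Fintype.card F) (hr₀ : ¬ r ∣ Fintype.card F₀)
    (ho : orderOf ((Fintype.card F : ℕ) : ZMod r) = orderOf ((Fintype.card F₀ : ℕ) : ZMod r))
    {f : Module.End F V} (hf : f ^ r = 1) {W : Submodule F V} (hW : ∀ v ∈ W, f v ∈ W) (hne : W ≠ ⊥) :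
    ∃ (v : V) (P : F[X]), v ∈ W ∧ v ≠ 0 ∧ Irreducible P ∧ P.Monic ∧ (∀ i, P.coeff i ∈ F₀) ∧ aeval f P v = 0 := by
  classical
  have key : ∀ s : Multiset F₀[X], (∀ P ∈ s, P ∣ X ^ r - 1 ∧ Irreducible P ∧ P.Monic) → ∀ v ∈ W, v ≠ 0 →
      aeval f (s.prod.map F₀.subtype) v = 0 →
      ∃ (v : V) (P : F[X]), v ∈ W ∧ v ≠ 0 ∧ Irreducible P ∧ P.Monic ∧ (∀ i, P.coeff i ∈ F₀) ∧ aeval f P v = 0 := by
    intro s
    induction s using Multiset.induction_on with
    | empty => intro _ v _ hv h; simp at h; exact absurd h hv
    | cons P s ih =>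
      intro hs v hv hv0 h
      rw [Multiset.prod_cons, Polynomial.map_mul, map_mul, Module.End.mul_apply] at h
      rcases eq_or_ne (aeval f (s.prod.map F₀.subtype) v) 0 with h0 | h0
      · exact ih (fun Q hQ => hs Q (Multiset.mem_cons_of_mem hQ)) v hv hv0 h0
      · obtain ⟨hPd, hPi, hPm⟩ := hs P (Multiset.mem_cons_self _ _)
        refine ⟨_, P.map F₀.subtype, aeval_mem hW _ _ hv, h0, irreducible_map_of_dvd F₀ hr hr₀ ho hPi hPd,
          hPm.map _, fun i => ?_, h⟩
        rw [Polynomial.coeff_map]
        exact (P.coeff i).2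
  obtain ⟨v, hv, hv0⟩ := Submodule.exists_mem_ne_zero_of_ne_bot hne
  have hne0 : (X ^ r - 1 : F₀[X]) ≠ 0 := X_pow_sub_C_ne_zero (Fact.out : r.Prime).pos (1 : F₀)
  refine key (UniqueFactorizationMonoid.normalizedFactors (X ^ r - 1 : F₀[X]))
    (fun P hP => ⟨UniqueFactorizationMonoid.dvd_of_mem_normalizedFactors hP,
      UniqueFactorizationMonoid.irreducible_of_normalized_factor P hP, ?_⟩) v hv hv0 ?_
  · rw [← UniqueFactorizationMonoid.normalize_normalized_factor P hP]
    exact Polynomial.monic_normalize (UniqueFactorizationMonoid.irreducible_of_normalized_factor P hP).ne_zero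
  · obtain ⟨u, hu⟩ := (UniqueFactorizationMonoid.prod_normalizedFactors hne0).symm
    rw [← hu, Polynomial.map_mul, mul_comm, map_mul, Module.End.mul_apply]
    have : aeval f ((X ^ r - 1 : F₀[X]).map F₀.subtype) = 0 := by simp [hf]
    rw [this, LinearMap.zero_apply, map_zero]

/-- Invariant subspaces have bases in which `f` has coefficients in `F₀`. -/
theorem exists_subfield_family [Fintype F₀] (hr : ¬ r ∣ Fintype.card F) (hr₀ : ¬ r ∣ Fintype.card F₀)
    (ho : orderOf ((Fintype.card F : ℕ) : ZMod r) = orderOf ((Fintype.card F₀ : ℕ) : ZMod r))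
    {f : Module.End F V} (hf : f ^ r = 1) (W : Submodule F V) (hW : ∀ v ∈ W, f v ∈ W) :
    ∃ (ι : Type) (_ : Fintype ι) (w : ι → V), LinearIndependent F w ∧ Submodule.span F (Set.range w) = W ∧
      ∀ i, f (w i) ∈ Submodule.span F₀ (Set.range w) := by
  classical
  induction h : Module.finrank F W using Nat.strong_induction_on generalizing W with
  | _ d ih =>
    subst h
    rcases eq_or_ne W ⊥ with rfl | hne
    · exact ⟨Fin 0, inferInstance, fun i => i.elim0, linearIndependent_empty_type, by simp, fun i => i.elim0⟩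
    obtain ⟨v, P, hvW, hv0, hP, hPm, hPc, hPv⟩ := exists_annihilator F₀ hr hr₀ ho hf hW hne
    set u := fun j : Fin P.natDegree => (f ^ (j : ℕ)) v
    have hu := linearIndependent_pow_apply hP hPv hv0
    have huW : Submodule.span F (Set.range u) ≤ W := Submodule.span_le.2 (by
      rintro _ ⟨j, rfl⟩
      have := aeval_mem hW (X ^ (j : ℕ)) v hvW
      simpa [u] using this)
    have hle : Submodule.span F₀ (Set.range u) ≤ (Submodule.span F (Set.range u)).restrictScalars F₀ :=
      Submodule.span_le.2 Submodule.subset_span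
    have huinv : ∀ z ∈ Submodule.span F (Set.range u), f z ∈ Submodule.span F (Set.range u) := by
      intro z hz
      induction hz using Submodule.span_induction with
      | mem x hx => obtain ⟨j, rfl⟩ := hx; exact hle (apply_cyclic_mem_span F₀ hPm hPc hPv j)
      | zero => simp
      | add x y _ _ hx hy => rw [map_add]; exact add_mem hx hy
      | smul c x _ hx => rw [map_smul]; exact Submodule.smul_mem _ c hx
    obtain ⟨R, hRW, hR, hsup, hd⟩ := exists_invariant_compl (semisimple_of_order hf hr) hW huinv huW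
    have hlt : Module.finrank F R < Module.finrank F W := by
      have := finrank_eq_add_of_disjoint hsup hd
      rw [finrank_span_eq_card hu, Fintype.card_fin] at this
      have := hP.natDegree_pos
      omega
    obtain ⟨ι, _, w, hwli, hwspan, hwN⟩ := ih _ hlt R hR rfl
    refine ⟨Fin P.natDegree ⊕ ι, inferInstance, Sum.elim u w, hu.sum_type hwli (hwspan.symm ▸ hd), ?_, ?_⟩
    · rw [Set.Sum.elim_range, Submodule.span_union, hwspan, hsup]
    · rw [Set.Sum.elim_range, Submodule.span_union]
      rintro (j | i)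
      · exact Submodule.mem_sup_left (apply_cyclic_mem_span F₀ hPm hPc hPv j)
      · exact Submodule.mem_sup_right (hwN i)

/-- A map of order `r` commutes with maps of every determinant. -/
theorem exists_commute_det_of_order (hr : ¬ r ∣ Fintype.card F) {f : Module.End F V} (hf : f ^ r = 1)
    (hV : 0 < Module.finrank F V) (lam : F) :
    ∃ y : Module.End F V, y * f = f * y ∧ LinearMap.det y = lam := by
  classical
  have : Fintype (⊤ : Subfield F) := Fintype.ofFinite _
  have hcard : Fintype.card (⊤ : Subfield F) = Fintype.card F :=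
    Fintype.card_congr (Subfield.topEquiv (K := F)).toEquiv
  obtain ⟨v, P, -, hv0, hP, hPm, -, hPv⟩ := exists_annihilator (⊤ : Subfield F) hr (by rwa [hcard]) (by rw [hcard]) hf
    (W := ⊤) (fun v _ => trivial) (fun h => by
      have := congrArg (fun S : Submodule F V => Module.finrank F S) h
      simp at this; omega)
  set u := fun j : Fin P.natDegree => (f ^ (j : ℕ)) v
  set U := Submodule.span F (Set.range u) with hUdef
  have hu := linearIndependent_pow_apply hP hPv hv0
  have hUd : Module.finrank F U = P.natDegree := by rw [finrank_span_eq_card hu, Fintype.card_fin]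
  have hle : Submodule.span (⊤ : Subfield F) (Set.range u) ≤ U.restrictScalars (⊤ : Subfield F) :=
    Submodule.span_le.2 Submodule.subset_span
  have hU : ∀ z ∈ U, f z ∈ U := by
    intro z hz
    induction hz using Submodule.span_induction with
    | mem x hx =>
      obtain ⟨j, rfl⟩ := hx
      exact hle (apply_cyclic_mem_span (⊤ : Subfield F) hPm (fun i => trivial) hPv j)
    | zero => simp
    | add x y _ _ hx hy => rw [map_add]; exact add_mem hx hy
    | smul c x _ hx => rw [map_smul]; exact Submodule.smul_mem _ c hx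
  obtain ⟨R, -, hR, hsup, hd⟩ := exists_invariant_compl (semisimple_of_order hf hr) (W := ⊤) (fun v _ => trivial) hU le_top
  have hc : IsCompl U R := ⟨hd, codisjoint_iff.2 hsup⟩
  -- the field generated by the restriction
  have hPU : ∀ z ∈ U, aeval f P z = 0 := by
    intro z hz
    induction hz using Submodule.span_induction with
    | mem x hx =>
      obtain ⟨j, rfl⟩ := hx
      show aeval f P ((f ^ (j : ℕ)) v) = 0
      have : (f ^ (j : ℕ)) v = aeval f (X ^ (j : ℕ) : F[X]) v := by simp
      rw [this, ← Module.End.mul_apply, ← map_mul, mul_comm, map_mul, Module.End.mul_apply, hPv, map_zero]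
    | zero => simp
    | add x y _ _ hx hy => rw [map_add, hx, hy, add_zero]
    | smul c x _ hx => rw [map_smul, hx, smul_zero]
  set fU : Module.End F U := f.restrict hU
  have haeval : ∀ (Q : F[X]) (z : U), ((aeval fU Q z : U) : V) = aeval f Q z := by
    intro Q
    induction Q using Polynomial.induction_on' with
    | add p q hp hq => intro z; simp [hp, hq]
    | monomial k c =>
      intro z
      simp only [aeval_monomial, Module.End.mul_apply, Module.algebraMap_end_apply, Submodule.coe_smul]
      congr 1
      clear c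
      induction k generalizing z with
      | zero => rfl
      | succ k ih => rw [pow_succ, pow_succ, Module.End.mul_apply, Module.End.mul_apply, ih]; rfl
  have hPfU : aeval fU P = 0 := LinearMap.ext fun z => Subtype.ext ((haeval P z).trans (hPU z z.2))
  have : Fact (Irreducible P) := ⟨hP⟩
  let L := AdjoinRoot P
  have : FiniteDimensional F L := (AdjoinRoot.powerBasis hP.ne_zero).finite
  have : Finite L := Module.finite_of_finite F
  let ρ : L →ₐ[F] Module.End F U := Ideal.Quotient.liftₐ (Ideal.span {P}) (aeval fU) (fun a ha => by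
    obtain ⟨b, rfl⟩ := Ideal.mem_span_singleton'.1 ha
    rw [map_mul, hPfU, mul_zero])
  have hvU : v ∈ U := by
    have : u ⟨0, hP.natDegree_pos⟩ = v := by simp [u]
    exact this ▸ Submodule.subset_span ⟨_, rfl⟩
  let v0 : U := ⟨v, hvU⟩
  let Φ : L →ₗ[F] U := (LinearMap.applyₗ v0).comp ρ.toLinearMap
  have hΦ : Function.Injective Φ := by
    refine (injective_iff_map_eq_zero _).2 fun a ha => ?_
    by_contra hne
    have h1 : ρ a⁻¹ (ρ a v0) = v0 := by
      rw [← Module.End.mul_apply, ← map_mul, inv_mul_cancel₀ hne, map_one, Module.End.one_apply]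
    rw [show ρ a v0 = 0 from ha, map_zero] at h1
    exact hv0 (congrArg Subtype.val h1).symm
  have hfin : Module.finrank F L = Module.finrank F U := by
    rw [hUd, (AdjoinRoot.powerBasis hP.ne_zero).finrank, AdjoinRoot.powerBasis_dim]
  let e : L ≃ₗ[F] U := LinearEquiv.ofBijective Φ ⟨hΦ, (LinearMap.injective_iff_surjective_of_finrank_eq_finrank hfin).1 hΦ⟩
  obtain ⟨a, ha⟩ := FiniteField.norm_surjective F L lam
  have hdet : LinearMap.det (ρ a) = lam := by
    rw [← ha, Algebra.norm_apply, ← LinearMap.det_conj (Algebra.lmul F L a) e]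
    congr 1
    refine LinearMap.ext fun z => ?_
    obtain ⟨c, rfl⟩ := e.surjective z
    simp only [LinearMap.comp_apply, LinearEquiv.coe_coe, e.symm_apply_apply]
    show ρ a (ρ c v0) = ρ (a * c) v0
    rw [map_mul, Module.End.mul_apply]
  obtain ⟨y, hy, hyd⟩ := exists_commute_det_of_summand hc hR hU (ρ a) (fun z => by
    have h : ρ a (fU z) = fU (ρ a z) := by
      have h1 : fU = ρ (AdjoinRoot.root P) := (aeval_X fU).symm
      rw [h1, ← Module.End.mul_apply, ← map_mul, mul_comm, map_mul, Module.End.mul_apply]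
    exact congrArg Subtype.val h)
  exact ⟨y, hy, hyd.trans hdet⟩

end Cfsg.Agent.Elusive
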