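import Cfsg.Agent.Elusive.InvariantDim
import Cfsg.Agent.Elusive.Involution
import Cfsg.Agent.Elusive.SubfieldOdd
import Cfsg.Prelude.Def_GeometricClasses

/-!
Semisimple maps of prime order and decompositions into summands of equal dimension.
-/

namespace Cfsg.Agent.Elusive

open Polynomial Submodule

variable {F : Type*} [Field F] {V : Type*} [AddCommGroup V] [Module F V] [FiniteDimensional F V]

/-- The fixed vectors of a sum of two invariant independent subspaces. -/
theorem finrank_inf_ker_of_sup {f : Module.End F V} {W U R : Submodule F V} (hU : ∀ v ∈ U, f v ∈ U)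
    (hR : ∀ v ∈ R, f v ∈ R) (hsup : U ⊔ R = W) (hd : Disjoint U R) :
    Module.finrank F ↥(W ⊓ LinearMap.ker (f - 1)) =
      Module.finrank F ↥(U ⊓ LinearMap.ker (f - 1)) + Module.finrank F ↥(R ⊓ LinearMap.ker (f - 1)) := by
  refine finrank_eq_add_of_disjoint ?_ (hd.mono inf_le_left inf_le_left)
  refine le_antisymm (sup_le (inf_le_inf_right _ (hsup ▸ le_sup_left)) (inf_le_inf_right _ (hsup ▸ le_sup_right))) ?_
  rintro v ⟨hvW, hvC⟩
  rw [SetLike.mem_coe, LinearMap.mem_ker, LinearMap.sub_apply, Module.End.one_apply, sub_eq_zero] at hvC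
  rw [← hsup] at hvW
  obtain ⟨u, hu, w, hw, rfl⟩ := Submodule.mem_sup.1 hvW
  have hz : f u - u = w - f w := by rw [map_add] at hvC; rw [sub_eq_sub_iff_add_eq_add, hvC, add_comm]
  have h0 : f u - u = 0 :=
    Submodule.disjoint_def.1 hd _ (sub_mem (hU u hu) hu) (hz ▸ sub_mem hw (hR w hw))
  refine Submodule.add_mem_sup ⟨hu, ?_⟩ ⟨hw, ?_⟩
  · rw [SetLike.mem_coe, LinearMap.mem_ker, LinearMap.sub_apply, Module.End.one_apply]; exact h0
  · rw [SetLike.mem_coe, LinearMap.mem_ker, LinearMap.sub_apply, Module.End.one_apply, ← neg_eq_zero, neg_sub, ← hz]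
    exact h0

/-- Splitting an invariant subspace into invariant pieces of equal dimension, one at a time. -/
theorem exists_block_family {f : Module.End F V} (hs : f.IsSemisimple) {a : ℕ}
    (Q : ℕ → Submodule F V → Prop)
    (step : ∀ (t : ℕ) (W : Submodule F V), (∀ v ∈ W, f v ∈ W) → Module.finrank F W = a * (t + 1) → Q (t + 1) W →
      ∃ U ≤ W, (∀ v ∈ U, f v ∈ U) ∧ Module.finrank F U = a ∧
        ∀ R ≤ W, (∀ v ∈ R, f v ∈ R) → U ⊔ R = W → Disjoint U R → Q t R) :
    ∀ (t : ℕ) (W : Submodule F V), (∀ v ∈ W, f v ∈ W) → Module.finrank F W = a * t → Q t W →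
      ∃ w : Fin t → Fin a → V, Submodule.span F (Set.range fun z : Fin t × Fin a => w z.1 z.2) = W ∧
        ∀ j i, f (w j i) ∈ Submodule.span F (Set.range (w j)) := by
  intro t
  induction t with
  | zero =>
    intro W _ hd _
    rw [Nat.mul_zero, Submodule.finrank_eq_zero] at hd
    exact ⟨fun j => j.elim0, by rw [hd, Set.range_eq_empty, Submodule.span_empty], fun j => j.elim0⟩
  | succ t ih =>
    intro W hW hd hQ
    obtain ⟨U, hUW, hU, hUd, hnext⟩ := step t W hW hd hQ
    obtain ⟨R, hRW, hR, hsup, hdis⟩ := exists_invariant_compl hs hW hU hUW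
    have hdim := finrank_eq_add_of_disjoint hsup hdis
    obtain ⟨w, hw, hwinv⟩ := ih R hR (by rw [Nat.mul_succ] at hd; omega) (hnext R hRW hR hsup hdis)
    let b := Module.finBasisOfFinrankEq F U hUd
    have hb : Submodule.span F (Set.range fun i => (b i : V)) = U := by
      have : Submodule.map U.subtype (Submodule.span F (Set.range b)) = U := by rw [b.span_eq, Submodule.map_top, Submodule.range_subtype]
      rw [Submodule.map_span, ← Set.range_comp] at this
      exact this
    refine ⟨Fin.cons (fun i => (b i : V)) w, ?_, fun j i => ?_⟩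
    · rw [← hsup]
      refine Eq.trans ?_ (congrArg₂ (fun A B : Submodule F V => A ⊔ B) hb hw)
      show _ = _ ⊔ _
      rw [← Submodule.span_union]
      congr 1
      ext v
      simp only [Set.mem_range, Set.mem_union, Prod.exists]
      constructor
      · rintro ⟨j, i, rfl⟩
        refine Fin.cases ?_ ?_ j
        · exact Or.inl ⟨i, by simp⟩
        · intro j; exact Or.inr ⟨j, i, by simp⟩
      · rintro (⟨i, rfl⟩ | ⟨j, i, rfl⟩)
        · exact ⟨0, i, by simp⟩
        · exact ⟨j.succ, i, by simp⟩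
    · refine Fin.cases ?_ ?_ j
      · simp only [Fin.cons_zero]; rw [hb]; exact hU _ (b i).2
      · intro j; simp only [Fin.cons_succ]; exact hwinv j i

section order

variable [Fintype F] {r : ℕ} [Fact r.Prime]

/-- An invariant subspace with prescribed numbers of fixed and moving pieces. -/
theorem exists_invariant_sub {f : Module.End F V} (hf : f ^ r = 1) (hr : ¬ r ∣ Fintype.card F)
    {W : Submodule F V} (hW : ∀ v ∈ W, f v ∈ W) {c₁ j : ℕ}
    (hc₁ : c₁ ≤ Module.finrank F ↥(W ⊓ LinearMap.ker (f - 1)))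
    (hj : Module.finrank F ↥(W ⊓ LinearMap.ker (f - 1)) + j * orderOf ((Fintype.card F : ℕ) : ZMod r) ≤ Module.finrank F W) :
    ∃ U ≤ W, (∀ v ∈ U, f v ∈ U) ∧ Module.finrank F U = c₁ + j * orderOf ((Fintype.card F : ℕ) : ZMod r) ∧
      Module.finrank F ↥(U ⊓ LinearMap.ker (f - 1)) = c₁ := by
  set C := LinearMap.ker (f - 1)
  have hs := semisimple_of_order hf hr
  have hfix : ∀ {Z : Submodule F V}, Z ≤ C → ∀ v ∈ Z, f v ∈ Z := fun hZ v hv => by
    have : f v = v := sub_eq_zero.1 (LinearMap.mem_ker.1 (hZ hv))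
    rwa [this]
  obtain ⟨M, hMW, hM, hsup, hd⟩ := exists_invariant_compl hs hW (hfix (inf_le_right : W ⊓ C ≤ C)) inf_le_left
  have hdim := finrank_eq_add_of_disjoint hsup hd
  have hMC : Disjoint C M := Submodule.disjoint_def.2 fun v hv hv' =>
    Submodule.disjoint_def.1 hd v ⟨hMW hv', hv⟩ hv'
  obtain ⟨C₁, hC₁, hC₁d⟩ := exists_le_finrank_eq (W ⊓ C) hc₁
  have hC₁C : C₁ ≤ C := hC₁.trans inf_le_right
  have hCM : (C₁ ⊔ M) ⊓ C = C₁ := by
    rw [sup_inf_assoc_of_le M hC₁C, inf_comm M, hMC.eq_bot, sup_bot_eq]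
  have hinv : ∀ v ∈ C₁ ⊔ M, f v ∈ C₁ ⊔ M := by
    intro v hv
    obtain ⟨x, hx, y, hy, rfl⟩ := Submodule.mem_sup.1 hv
    rw [map_add]
    exact Submodule.add_mem_sup (hfix hC₁C x hx) (hM y hy)
  obtain ⟨U, hU1, hU2, hU, hUd⟩ := exists_between hs hinv (hfix hC₁C) le_sup_left
    (fun Y hY hYi hdis hne => exists_small_of_pow_eq_one hf hr hYi (Submodule.disjoint_def.2 fun v hv hv' =>
      Submodule.disjoint_def.1 hdis v (hCM.le ⟨hY hv', hv⟩) hv') hne) j
    (by rw [finrank_eq_add_of_disjoint rfl (hMC.mono_left hC₁C), hC₁d]; omega)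
  refine ⟨U, hU2.trans (sup_le (hC₁.trans inf_le_left) hMW), hU, by rw [hUd, hC₁d], ?_⟩
  rw [← hC₁d]
  exact congrArg (fun S : Submodule F V => Module.finrank F S)
    (le_antisymm ((inf_le_inf_right _ hU2).trans hCM.le) (le_inf hU1 hC₁C))

/-- With few enough moving pieces, an invariant subspace splits into invariant pieces of dimension `a`. -/
theorem exists_block_family_of_order {f : Module.End F V} (hf : f ^ r = 1) (hr : ¬ r ∣ Fintype.card F) {a t : ℕ}
    (hV : Module.finrank F V = a * t)
    (hC : t * (a % orderOf ((Fintype.card F : ℕ) : ZMod r)) ≤ Module.finrank F (LinearMap.ker (f - 1))) :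
    ∃ w : Fin t → Fin a → V, Submodule.span F (Set.range fun z : Fin t × Fin a => w z.1 z.2) = ⊤ ∧
      ∀ j i, f (w j i) ∈ Submodule.span F (Set.range (w j)) := by
  set c := orderOf ((Fintype.card F : ℕ) : ZMod r)
  have hc0 : 0 < c := orderOf_pos_of_not_dvd hr
  refine exists_block_family (semisimple_of_order hf hr)
    (fun t W => t * (a % c) ≤ Module.finrank F ↥(W ⊓ LinearMap.ker (f - 1))) ?_ t ⊤ (fun v _ => trivial)
    (by rwa [finrank_top]) (by rwa [top_inf_eq])
  intro s W hW hd hQ
  set φ := Module.finrank F ↥(W ⊓ LinearMap.ker (f - 1))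
  obtain ⟨j, hj, -⟩ := finrank_invariant hf hr hW
  rw [hd] at hj
  change a * (s + 1) = φ + j * c at hj
  have hal : a / c * c + a % c = a := Nat.div_add_mod' a c
  rw [Nat.succ_mul] at hQ
  by_cases hcase : j * c + a % c ≤ a
  · obtain ⟨U, hUW, hU, hUd, hUC⟩ := exists_invariant_sub hf hr hW (c₁ := a - j * c) (j := j)
      (by show _ ≤ φ; rw [Nat.mul_succ] at hj; omega) (by show φ + j * c ≤ _; omega)
    refine ⟨U, hUW, hU, by rw [hUd]; show a - j * c + j * c = a; omega, fun R hRW hR hsup hdis => ?_⟩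
    have h := finrank_inf_ker_of_sup hU hR hsup hdis
    change φ = _ at h
    rw [hUC] at h
    have : s * (a % c) ≤ s * a := Nat.mul_le_mul_left s (Nat.mod_le a c)
    rw [Nat.mul_succ, mul_comm a s] at hj
    omega
  · have hjq : a / c ≤ j := by
      by_contra hlt
      have : j * c ≤ a / c * c := Nat.mul_le_mul_right c (by omega)
      omega
    have := Nat.mul_le_mul_right c hjq
    obtain ⟨U, hUW, hU, hUd, hUC⟩ := exists_invariant_sub hf hr hW (c₁ := a % c) (j := a / c)
      (by show _ ≤ φ; omega) (by show φ + a / c * c ≤ _; omega)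
    refine ⟨U, hUW, hU, by rw [hUd]; show a % c + a / c * c = a; omega, fun R hRW hR hsup hdis => ?_⟩
    have h := finrank_inf_ker_of_sup hU hR hsup hdis
    change φ = _ at h
    rw [hUC] at h
    omega

/-- Orbit bases when there are enough fixed vectors and `r - 1` is the order of `q` modulo `r`. -/
theorem exists_cycle_family {f : Module.End F V} (hf : f ^ r = 1) (hr : ¬ r ∣ Fintype.card F)
    (ho : orderOf ((Fintype.card F : ℕ) : ZMod r) = r - 1) (W : Submodule F V) (hW : ∀ v ∈ W, f v ∈ W)
    (hdim : Module.finrank F W ≤ r * Module.finrank F ↥(W ⊓ LinearMap.ker (f - 1))) :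
    ∃ (j u : ℕ) (v : Fin j → V) (w : Fin u → V),
      Submodule.span F (Set.range (Sum.elim (fun z : Fin j × Fin r => (f ^ (z.2 : ℕ)) (v z.1)) w)) = W ∧
      j * r + u = Module.finrank F W ∧ ∀ i, f (w i) = w i := by
  induction h : Module.finrank F W using Nat.strong_induction_on generalizing W with
  | _ d ih =>
    subst h
    set C := LinearMap.ker (f - 1)
    have hr2 := (Fact.out : r.Prime).two_le
    by_cases hWC : W ≤ C
    · let b := Module.finBasis F W
      refine ⟨0, Module.finrank F W, fun i => i.elim0, fun i => (b i : V), ?_, by simp, fun i => ?_⟩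
      · rw [Set.Sum.elim_range, Set.range_eq_empty, Set.empty_union]
        have : Submodule.map W.subtype (Submodule.span F (Set.range b)) = W := by rw [b.span_eq, Submodule.map_top, Submodule.range_subtype]
        rw [Submodule.map_span, ← Set.range_comp] at this
        exact this
      · exact sub_eq_zero.1 (LinearMap.mem_ker.1 (hWC (b i).2))
    have hs := semisimple_of_order hf hr
    have hCinv : ∀ v ∈ W ⊓ C, f v ∈ W ⊓ C := fun v hv => by
      have : f v = v := sub_eq_zero.1 (LinearMap.mem_ker.1 hv.2)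
      rwa [this]
    obtain ⟨M, hMW, hM, hsupM, hdM⟩ := exists_invariant_compl hs hW hCinv inf_le_left
    have hMne : M ≠ ⊥ := fun h => hWC (by rw [← hsupM, h, sup_bot_eq]; exact inf_le_right)
    have hMC : Disjoint C M := Submodule.disjoint_def.2 fun v hv hv' =>
      Submodule.disjoint_def.1 hdM v ⟨hMW hv', hv⟩ hv'
    obtain ⟨U, hUM, hU, hUd⟩ := exists_small_of_pow_eq_one hf hr hM hMC hMne
    rw [ho] at hUd
    obtain ⟨b, hbU, hb0⟩ := Submodule.exists_mem_ne_zero_of_ne_bot (p := U) (fun h => by rw [h, finrank_bot] at hUd; omega)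
    obtain ⟨a₀, ha₀, ha00⟩ := Submodule.exists_mem_ne_zero_of_ne_bot (p := W ⊓ C) (fun h => by
      rw [h, finrank_bot, Nat.mul_zero, Nat.le_zero, Submodule.finrank_eq_zero] at hdim
      exact hWC (hdim ▸ bot_le))
    have hfa : ∀ m, (f ^ m) a₀ = a₀ := fun m => by
      induction m with
      | zero => rfl
      | succ m ih => rw [pow_succ, Module.End.mul_apply, show f a₀ = a₀ from sub_eq_zero.1 (LinearMap.mem_ker.1 ha₀.2), ih]
    set A := Submodule.span F {a₀}
    have hAC : A ≤ W ⊓ C := (Submodule.span_singleton_le_iff_mem _ _).2 ha₀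
    have hUC : Disjoint C U := hMC.mono_right hUM
    have hSd : Module.finrank F ↥(A ⊔ U) = r := by
      rw [finrank_eq_add_of_disjoint rfl (hUC.mono_left (hAC.trans inf_le_right)), finrank_span_singleton ha00, hUd]; omega
    set S := Submodule.span F (Set.range fun l : Fin r => (f ^ (l : ℕ)) (a₀ + b))
    have hgen : ∀ m : ℕ, (f ^ m) (a₀ + b) ∈ S := fun m => Submodule.subset_span
      ⟨⟨m % r, Nat.mod_lt _ (by omega)⟩, by rw [pow_eq_pow_mod m hf]⟩
    have hSinv : ∀ x ∈ S, f x ∈ S := by
      intro x hx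
      induction hx using Submodule.span_induction with
      | mem x hx => obtain ⟨l, rfl⟩ := hx; rw [← Module.End.mul_apply, ← pow_succ']; exact hgen _
      | zero => simp
      | add x y _ _ hx hy => rw [map_add]; exact add_mem hx hy
      | smul c x _ hx => rw [map_smul]; exact Submodule.smul_mem _ c hx
    have hUpow : ∀ m, (f ^ m) b ∈ U := fun m => by
      induction m with
      | zero => exact hbU
      | succ m ih => rw [pow_succ', Module.End.mul_apply]; exact hU _ ih
    have hS : S = A ⊔ U := by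
      refine le_antisymm (Submodule.span_le.2 ?_) ?_
      · rintro _ ⟨l, rfl⟩
        show (f ^ (l : ℕ)) (a₀ + b) ∈ A ⊔ U
        rw [map_add, hfa]
        exact Submodule.add_mem_sup (Submodule.mem_span_singleton_self _) (hUpow _)
      have hsb : (∑ i ∈ Finset.range r, f ^ i) b = 0 := by
        refine Submodule.disjoint_def.1 hUC _ ?_ ?_
        · rw [LinearMap.mem_ker, ← Module.End.mul_apply, mul_geom_sum, hf, sub_self, LinearMap.zero_apply]
        · rw [LinearMap.sum_apply]; exact Submodule.sum_mem _ fun i _ => hUpow i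
      have hrF : (r : F) ≠ 0 := fun h => by
        obtain ⟨e, hp, he⟩ := FiniteField.card F (ringChar F)
        rw [ringChar.spec, Nat.dvd_prime (Fact.out : r.Prime)] at h
        rcases h with h | h
        · exact hp.ne_one h
        · exact hr (by rw [he, h]; exact dvd_pow_self r e.pos.ne')
      have haS : a₀ ∈ S := by
        have hna : (r : F) • a₀ ∈ S := by
          have h : (∑ i ∈ Finset.range r, f ^ i) (a₀ + b) = (r : F) • a₀ := by
            rw [map_add, hsb, add_zero, LinearMap.sum_apply, Finset.sum_congr rfl (fun i _ => hfa i), Finset.sum_const,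
              Finset.card_range, ← Nat.cast_smul_eq_nsmul F]
          rw [← h, LinearMap.sum_apply]
          exact Submodule.sum_mem _ fun i _ => hgen i
        have := S.smul_mem (r : F)⁻¹ hna
        rwa [inv_smul_smul₀ hrF] at this
      refine sup_le ((Submodule.span_singleton_le_iff_mem _ _).2 haS) ?_
      have hbS : b ∈ S := by simpa using S.sub_mem (hgen 0) haS
      obtain ⟨t, ht, -⟩ := finrank_invariant hf hr (W := S ⊓ U) (fun v hv => ⟨hSinv v hv.1, hU v hv.2⟩)
      have hbot : S ⊓ U ⊓ C = ⊥ := eq_bot_iff.2 fun v hv => Submodule.disjoint_def.1 hUC v hv.2 hv.1.2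
      rw [hbot, finrank_bot, zero_add, ho] at ht
      have ht1 : 1 ≤ t := Nat.pos_of_ne_zero fun h0 => by
        rw [h0, zero_mul, Submodule.finrank_eq_zero] at ht
        exact hb0 ((Submodule.mem_bot F).1 (ht ▸ ⟨hbS, hbU⟩))
      have h1 : r - 1 ≤ t * (r - 1) := Nat.le_mul_of_pos_left _ ht1
      have h2 := Submodule.eq_of_le_of_finrank_le (inf_le_right : S ⊓ U ≤ U) (by omega)
      exact h2 ▸ inf_le_left
    have hSW : S ≤ W := hS.le.trans (sup_le (hAC.trans inf_le_left) (hUM.trans hMW))
    obtain ⟨R, hRW, hR, hsup, hdis⟩ := exists_invariant_compl hs hW hSinv hSW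
    have hdimR := finrank_eq_add_of_disjoint hsup hdis
    rw [hS, hSd] at hdimR
    have hfx := finrank_inf_ker_of_sup hSinv hR hsup hdis
    have hSC : Module.finrank F ↥(S ⊓ C) = 1 := by
      rw [hS, sup_inf_assoc_of_le U (hAC.trans inf_le_right), inf_comm U, hUC.eq_bot, sup_bot_eq]
      exact finrank_span_singleton ha00
    rw [hSC] at hfx
    change Module.finrank F ↥(W ⊓ C) = 1 + Module.finrank F ↥(R ⊓ C) at hfx
    obtain ⟨j, u, v, w, hspan, hju, hw⟩ := ih (Module.finrank F R) (by omega) R hR (by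
      show _ ≤ r * Module.finrank F ↥(R ⊓ C)
      rw [hfx, Nat.mul_add, Nat.mul_one] at hdim; omega) rfl
    refine ⟨j + 1, u, Fin.cons (a₀ + b) v, w, ?_, by rw [Nat.succ_mul]; omega, hw⟩
    rw [← hsup, ← hspan, ← Submodule.span_union]
    congr 1
    ext y
    simp only [Set.mem_range, Set.mem_union, Sum.exists, Sum.elim_inl, Sum.elim_inr, Prod.exists]
    constructor
    · rintro (⟨i, l, rfl⟩ | h)
      · refine Fin.cases ?_ ?_ i
        · exact Or.inl ⟨l, by simp⟩
        · intro i; exact Or.inr (Or.inl ⟨i, l, by simp⟩)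
      · exact Or.inr (Or.inr h)
    · rintro (⟨l, rfl⟩ | ⟨i, l, rfl⟩ | h)
      · exact Or.inl ⟨0, l, by simp⟩
      · exact Or.inl ⟨i.succ, l, by simp⟩
      · exact Or.inr h

end order

/-- Orbit bases for a map whose `r`-th power is a scalar without `r`-th root. -/
theorem exists_cycle_family_bad {r : ℕ} (hr : r.Prime) {f : Module.End F V} (hs : f.IsSemisimple) {z : F}
    (hz : ∀ b : F, b ^ r ≠ z) (hf : f ^ r = z • 1) (W : Submodule F V) (hW : ∀ v ∈ W, f v ∈ W) :
    ∃ (j : ℕ) (v : Fin j → V),
      Submodule.span F (Set.range fun x : Fin j × Fin r => (f ^ (x.2 : ℕ)) (v x.1)) = W ∧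
      j * r = Module.finrank F W := by
  induction h : Module.finrank F W using Nat.strong_induction_on generalizing W with
  | _ d ih =>
    subst h
    rcases eq_or_ne W ⊥ with rfl | hne
    · exact ⟨0, fun i => i.elim0, by simp, by simp⟩
    obtain ⟨b, hb, hb0⟩ := Submodule.exists_mem_ne_zero_of_ne_bot hne
    have hP := X_pow_sub_C_irreducible_of_prime hr hz
    have hPb : aeval f (X ^ r - C z) b = 0 := by simp [hf, Algebra.algebraMap_eq_smul_one]
    have hli := linearIndependent_pow_apply hP hPb hb0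
    set u := fun l : Fin r => (f ^ (l : ℕ)) b
    have hli' : LinearIndependent F u :=
      hli.comp (Fin.cast (natDegree_X_pow_sub_C).symm) (Fin.cast_injective _)
    have hpow : ∀ m, (f ^ m) b ∈ W := fun m => by
      induction m with
      | zero => exact hb
      | succ m ih => rw [pow_succ', Module.End.mul_apply]; exact hW _ ih
    set S := Submodule.span F (Set.range u)
    have hSW : S ≤ W := Submodule.span_le.2 (by rintro _ ⟨l, rfl⟩; exact hpow _)
    have hSinv : ∀ x ∈ S, f x ∈ S := by
      intro x hx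
      induction hx using Submodule.span_induction with
      | mem x hx =>
        obtain ⟨l, rfl⟩ := hx
        show f ((f ^ (l : ℕ)) b) ∈ S
        rw [← Module.End.mul_apply, ← pow_succ']
        rcases Nat.lt_or_ge ((l : ℕ) + 1) r with hl | hl
        · exact Submodule.subset_span ⟨⟨(l : ℕ) + 1, hl⟩, rfl⟩
        · rw [show (l : ℕ) + 1 = r by omega, hf]
          exact S.smul_mem z (Submodule.subset_span ⟨⟨0, hr.pos⟩, rfl⟩)
      | zero => simp
      | add x y _ _ hx hy => rw [map_add]; exact add_mem hx hy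
      | smul c x _ hx => rw [map_smul]; exact Submodule.smul_mem _ c hx
    obtain ⟨R, hRW, hR, hsup, hd⟩ := exists_invariant_compl hs hW hSinv hSW
    have hdim := finrank_eq_add_of_disjoint hsup hd
    rw [finrank_span_eq_card hli', Fintype.card_fin] at hdim
    obtain ⟨j, v, hspan, hj⟩ := ih _ (by have := hr.pos; omega) R hR rfl
    refine ⟨j + 1, Fin.cons b v, ?_, by rw [Nat.succ_mul]; omega⟩
    rw [← hsup, ← hspan, ← Submodule.span_union]
    congr 1
    ext y
    simp only [Set.mem_range, Set.mem_union, Prod.exists, u]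
    constructor
    · rintro ⟨i, l, rfl⟩
      refine Fin.cases ?_ ?_ i
      · exact Or.inl ⟨l, by simp⟩
      · intro i; exact Or.inr ⟨i, l, by simp⟩
    · rintro (⟨l, rfl⟩ | ⟨i, l, rfl⟩)
      · exact ⟨0, l, by simp⟩
      · exact ⟨i.succ, l, by simp⟩

variable {n : ℕ}

/-- A spanning family with blocks permuted by `f` gives a decomposition permuted by `f`. -/
theorem exists_decomposition_of_family {a t : ℕ} (ha : 0 < a) (ht : 2 ≤ t) (hn : n = a * t)
    {f : Module.End F (Fin n → F)} (hf : Function.Injective f) {ι : Type*} [Fintype ι] (w : ι → Fin n → F)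
    (hι : Fintype.card ι = n) (hspan : Submodule.span F (Set.range w) = ⊤) (G : ι → Fin t)
    (hG : ∀ j, Fintype.card {i // G i = j} = a) (σ : Equiv.Perm (Fin t))
    (hσ : ∀ i, f (w i) ∈ blockSpan (F := F) w G (σ (G i))) :
    ∃ D : Fin t → Submodule F (Fin n → F), Cfsg.Geo.IsMDecomposition a D ∧
      ∃ τ : Equiv.Perm (Fin t), ∀ j, (D j).map f = D (τ j) := by
  classical
  have hli : LinearIndependent F w :=
    linearIndependent_of_top_le_span_of_card_eq_finrank hspan.ge (by rw [hι, Module.finrank_fin_fun])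
  refine ⟨blockSpan w G, ⟨ht, ha, fun j => ?_, blockSpan_indep hli G, by rw [blockSpan_iSup, hspan]⟩, σ, fun j => ?_⟩
  · rw [blockSpan_finrank hli]; exact hG j
  · refine Submodule.eq_of_le_of_finrank_le ?_ ?_
    · rw [blockSpan, Submodule.map_span, Submodule.span_le]
      rintro _ ⟨_, ⟨i, hi, rfl⟩, rfl⟩
      have := hσ i
      rwa [show G i = j from hi] at this
    · rw [← (Submodule.equivMapOfInjective f hf _).finrank_eq, blockSpan_finrank hli, blockSpan_finrank hli, hG, hG]

end Cfsg.Agent.Elusive
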