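import Cfsg.Agent.Elusive.Imprimitive
import Cfsg.Agent.Linear.Orders

/-!
Fixed and moving dimensions of a map of prime order permuting the summands of a decomposition, and the number
of decompositions.
-/

namespace Cfsg.Agent.Elusive

open Submodule

variable {F : Type*} [Field F] [Fintype F] {n : ℕ}

/-- Lower bounds for the fixed and the moving part. -/
theorem decomposition_bounds' {ι : Type} [Fintype ι] {r : ℕ} [Fact r.Prime] {g : Module.End F (ι → F)} (hg : g ^ r = 1)
    {a t : ℕ} {D : Fin t → Submodule F (ι → F)}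
    (hD : Cfsg.Geo.IsMDecomposition a D) (σ : Equiv.Perm (Fin t)) (hσ : ∀ j, (D j).map g = D (σ j))
    {ℓ : ℕ} (hℓ : ∀ j, σ j = j → ℓ ≤ Module.finrank F ↥(D j ⊓ LinearMap.ker (g - 1))) :
    ∃ s u : ℕ, r * s + u = t ∧
      s * a + u * ℓ ≤ Module.finrank F (LinearMap.ker (g - 1)) ∧
      s * a * (r - 1) + Module.finrank F (LinearMap.ker (g - 1)) ≤ Fintype.card ι := by
  classical
  have hr' := (Fact.out : r.Prime)
  have : NeZero r := ⟨hr'.ne_zero⟩
  set C := LinearMap.ker (g - 1) with hCdef
  have hmem : ∀ {v}, v ∈ C ↔ g v = v := fun {v} => by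
    rw [hCdef, LinearMap.mem_ker, LinearMap.sub_apply, Module.End.one_apply, sub_eq_zero]
  have hne : ∀ j, D j ≠ ⊥ := fun j hb => by
    have := hD.finrank_eq j
    rw [hb, finrank_bot] at this
    exact hD.pos.ne this
  have hinjD : Function.Injective D := fun i j h => by
    by_contra hne'
    have h1 : Disjoint (D i) (D j) := hD.indep.pairwiseDisjoint hne'
    rw [h] at h1
    exact hne j (disjoint_self.1 h1)
  have hpow : ∀ i j, ∀ v ∈ D j, (g ^ i) v ∈ D ((σ ^ i) j) := by
    intro i
    induction i with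
    | zero => intro j v hv; simpa using hv
    | succ i ih =>
      intro j v hv
      rw [pow_succ' g, Module.End.mul_apply, pow_succ' σ, Equiv.Perm.mul_apply, ← hσ]
      exact ⟨_, ih j v hv, rfl⟩
  have hmap : ∀ i j, (D j).map (g ^ i) = D ((σ ^ i) j) := by
    intro i
    induction i with
    | zero => intro j; simp [Module.End.one_eq_id]
    | succ i ih =>
      intro j
      rw [pow_succ', Module.End.mul_eq_comp, Submodule.map_comp, ih, hσ, pow_succ', Equiv.Perm.mul_apply]
  have hσr : ∀ j, (σ ^ r) j = j := fun j => hinjD (by rw [← hmap, hg, Module.End.one_eq_id, Submodule.map_id])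
  have hσr1 : σ ^ r = 1 := Equiv.ext hσr
  have hσmod : ∀ i : ℕ, σ ^ i = σ ^ (i % r) := fun i => pow_eq_pow_mod i hσr1
  -- orbit points are distinct
  have horb : ∀ j, σ j ≠ j → ∀ i k, i < r → k < r → (σ ^ i) j = (σ ^ k) j → i = k := by
    intro j hj i k hi hk he
    have hper : Function.minimalPeriod (σ : Fin t → Fin t) j = r := by
      refine Function.minimalPeriod_eq_prime ?_ (fun h => hj h)
      show (σ : Fin t → Fin t)^[r] j = j
      rw [← Equiv.Perm.coe_pow]; exact hσr j
    rw [Equiv.Perm.coe_pow, Equiv.Perm.coe_pow] at he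
    exact Function.iterate_injOn_Iio_minimalPeriod (by rw [hper]; exact hi) (by rw [hper]; exact hk) he
  let Rep := {z : Fin t // σ z ≠ z ∧ ∀ l : ℕ, z ≤ (σ ^ l) z}
  let Fix := {z : Fin t // σ z = z}
  have hRepUnique : ∀ (z z' : Rep) (i k : ℕ), (σ ^ i) z.1 = (σ ^ k) z'.1 → z = z' := by
    intro z z' i k h
    have h1 : ∀ (z z' : Rep) (i k : ℕ), (σ ^ i) z.1 = (σ ^ k) z'.1 → z.1 ≤ z'.1 := by
      intro z z' i k h
      have := z.2.2 ((r - 1) * k + i)
      rwa [pow_add, Equiv.Perm.mul_apply, h, ← Equiv.Perm.mul_apply, ← pow_add,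
        show (r - 1) * k + k = r * k by rw [← Nat.succ_mul]; congr 1; have := hr'.pos; omega,
        pow_mul, hσr1, one_pow, Equiv.Perm.one_apply] at this
    exact Subtype.ext (le_antisymm (h1 z z' i k h) (h1 z' z k i h.symm))
  have hmove : ∀ z : Rep, ∀ l : ℕ, σ ((σ ^ l) z.1) ≠ (σ ^ l) z.1 := fun z l h => z.2.1 ((σ ^ l).injective (by
    rw [← Equiv.Perm.mul_apply, ← pow_succ, pow_succ', Equiv.Perm.mul_apply]; exact h))
  let Θ : (Rep × Fin r) ⊕ Fix → Fin t := Sum.elim (fun x => (σ ^ (x.2 : ℕ)) x.1.1) (fun x => x.1)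
  have hΘ : Function.Bijective Θ := by
    constructor
    · rintro (⟨z, l⟩ | w) (⟨z', l'⟩ | w') h
      · obtain rfl := hRepUnique z z' l l' h
        obtain rfl : l = l' := Fin.ext (horb z.1 z.2.1 _ _ l.2 l'.2 h)
        rfl
      · exact absurd (show σ ((σ ^ (l : ℕ)) z.1) = (σ ^ (l : ℕ)) z.1 by
          rw [show (σ ^ (l : ℕ)) z.1 = w'.1 from h]; exact w'.2) (hmove z l)
      · exact absurd (show σ ((σ ^ (l' : ℕ)) z'.1) = (σ ^ (l' : ℕ)) z'.1 by
          rw [show (σ ^ (l' : ℕ)) z'.1 = w.1 from h.symm]; exact w.2) (hmove z' l')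
      · exact congrArg Sum.inr (Subtype.ext h)
    · intro j
      by_cases hj : σ j = j
      · exact ⟨Sum.inr ⟨j, hj⟩, rfl⟩
      obtain ⟨l₀, -, hmin⟩ := Finset.exists_min_image (Finset.range r) (fun l => (σ ^ l) j) ⟨0, by simp [hr'.pos]⟩
      have hz : σ ((σ ^ l₀) j) ≠ (σ ^ l₀) j := fun h => hj ((σ ^ l₀).injective (by
        rw [← Equiv.Perm.mul_apply, ← pow_succ, pow_succ', Equiv.Perm.mul_apply]; exact h))
      refine ⟨Sum.inl (⟨(σ ^ l₀) j, hz, fun l => ?_⟩, ⟨((r - 1) * l₀) % r, Nat.mod_lt _ hr'.pos⟩), ?_⟩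
      · rw [← Equiv.Perm.mul_apply, ← pow_add, hσmod (l + l₀)]
        exact hmin _ (Finset.mem_range.2 (Nat.mod_lt _ hr'.pos))
      · show (σ ^ ((r - 1) * l₀ % r)) ((σ ^ l₀) j) = j
        rw [← hσmod, ← Equiv.Perm.mul_apply, ← pow_add,
          show (r - 1) * l₀ + l₀ = r * l₀ by rw [← Nat.succ_mul]; congr 1; have := hr'.pos; omega,
          pow_mul, hσr1, one_pow, Equiv.Perm.one_apply]
  have hcard : r * Fintype.card Rep + Fintype.card Fix = t := by
    have := Fintype.card_of_bijective hΘ
    rw [Fintype.card_sum, Fintype.card_prod, Fintype.card_fin, Fintype.card_fin, mul_comm] at this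
    exact this
  refine ⟨Fintype.card Rep, Fintype.card Fix, hcard, ?_⟩
  -- coordinates
  have hn : Fintype.card ι = t * a := by
    have hint := DirectSum.isInternal_submodule_of_iSupIndep_of_iSup_eq_top hD.indep hD.iSup_eq_top
    have := (hint.collectedBasis fun j => Module.finBasis F (D j))
    have := Module.finrank_eq_card_basis this
    rw [Module.finrank_fintype_fun_eq_card, Fintype.card_sigma] at this
    simpa [hD.finrank_eq] using this
  let Sm : ((j : Fin t) → D j) →ₗ[F] (ι → F) := ∑ j, (D j).subtype.comp (LinearMap.proj j)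
  have hSm : ∀ w, Sm w = ∑ j, (w j : ι → F) := fun w => by simp [Sm]
  have hSminj : Function.Injective Sm := by
    refine (injective_iff_map_eq_zero _).2 fun w hw => funext fun j => Subtype.ext ?_
    rw [hSm] at hw
    exact (iSupIndep_iff_finsetSum_eq_zero_imp_eq_zero _).1 hD.indep Finset.univ (fun j => (w j : ι → F))
      (fun j _ => (w j).2) hw j (Finset.mem_univ _)
  let e := LinearEquiv.ofBijective Sm ⟨hSminj, (LinearMap.injective_iff_surjective_of_finrank_eq_finrank (by
    rw [Module.finrank_pi_fintype, Module.finrank_fintype_fun_eq_card, Finset.sum_congr rfl fun j _ => hD.finrank_eq j,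
      Finset.sum_const, Finset.card_univ, Fintype.card_fin, smul_eq_mul, hn])).1 hSminj⟩
  let p : Fin t → (ι → F) → (ι → F) := fun j v => (e.symm v j : ι → F)
  have hpD : ∀ i j v, v ∈ D i → p j v = if j = i then v else 0 := by
    intro i j v hv
    have : e.symm v = Pi.single i ⟨v, hv⟩ := by
      rw [LinearEquiv.symm_apply_eq]
      show v = Sm _
      rw [hSm, Finset.sum_eq_single i (fun k _ hk => by rw [Pi.single_eq_of_ne hk]; rfl) (fun h => absurd (Finset.mem_univ _) h),
        Pi.single_eq_same]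
    show (e.symm v j : ι → F) = _
    rw [this]
    by_cases h : j = i
    · subst h; rw [Pi.single_eq_same, if_pos rfl]
    · rw [Pi.single_eq_of_ne h, if_neg h]; rfl
  have hpg : ∀ v j, p (σ j) (g v) = g (p j v) := by
    intro v j
    let w : (i : Fin t) → D i := fun i => ⟨g (p (σ.symm i) v), by
      have h := (hσ (σ.symm i)).le ⟨p (σ.symm i) v, (e.symm v (σ.symm i)).2, rfl⟩
      rwa [σ.apply_symm_apply] at h⟩
    have hw : e.symm (g v) = w := by
      rw [LinearEquiv.symm_apply_eq]
      show g v = Sm w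
      rw [hSm, ← Equiv.sum_comp σ]
      simp only [w, σ.symm_apply_apply]
      rw [← map_sum]
      congr 1
      exact ((hSm _).symm.trans (e.apply_symm_apply v)).symm
    show (e.symm (g v) (σ j) : ι → F) = _
    rw [hw]
    simp [w, p]
  have hpsum : ∀ {κ : Type} (S : Finset κ) (f : κ → ι → F) j, p j (∑ k ∈ S, f k) = ∑ k ∈ S, p j (f k) := by
    intro κ S f j
    simp [p, map_sum, Finset.sum_apply]
  constructor
  · -- fixed vectors
    let E : Module.End F (ι → F) := ∑ l ∈ Finset.range r, g ^ l
    let Φ : (((z : Rep) → D z.1) × ((z : Fix) → ↥(D z.1 ⊓ C))) →ₗ[F] (ι → F) :=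
      LinearMap.coprod (∑ z : Rep, (E.comp (D z.1).subtype).comp (LinearMap.proj z))
        (∑ z : Fix, (D z.1 ⊓ C).subtype.comp (LinearMap.proj z))
    have hΦ : ∀ y, Φ y = ∑ z : Rep, E (y.1 z) + ∑ z : Fix, (y.2 z : ι → F) := fun y => by simp [Φ]
    have hrange : LinearMap.range Φ ≤ C := by
      rintro _ ⟨y, rfl⟩
      rw [hΦ]
      refine add_mem (Submodule.sum_mem _ fun z _ => ?_) (Submodule.sum_mem _ fun z _ => (y.2 z).2.2)
      show (g - 1) (E (y.1 z : ι → F)) = 0
      rw [← Module.End.mul_apply, mul_geom_sum, hg, sub_self, LinearMap.zero_apply]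
    have hpE : ∀ (z : Rep) (v : D z.1) j, p j (E v) = ∑ l ∈ Finset.range r, if j = (σ ^ l) z.1 then (g ^ l) v else 0 := by
      intro z v j
      rw [LinearMap.sum_apply, hpsum]
      exact Finset.sum_congr rfl fun l _ => hpD _ j _ (hpow l _ _ v.2)
    have hinj : Function.Injective Φ := by
      refine (injective_iff_map_eq_zero _).2 fun y hy => ?_
      have h1 : ∀ z₀ : Rep, (y.1 z₀ : ι → F) = 0 := by
        intro z₀
        have := congrArg (p z₀.1) hy
        rw [hΦ, show p z₀.1 (∑ z : Rep, E (y.1 z) + ∑ z : Fix, (y.2 z : ι → F)) =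
          p z₀.1 (∑ z : Rep, E (y.1 z)) + p z₀.1 (∑ z : Fix, (y.2 z : ι → F)) by simp [p], hpsum, hpsum] at this
        rw [Finset.sum_eq_single z₀ ?_ (fun h => absurd (Finset.mem_univ _) h),
          Finset.sum_eq_zero (s := (Finset.univ : Finset Fix)) ?_, add_zero, hpE,
          Finset.sum_eq_single 0 ?_ (fun h => absurd (Finset.mem_range.2 hr'.pos) h), pow_zero, pow_zero,
          Equiv.Perm.one_apply, if_pos rfl, Module.End.one_apply] at this
        · simpa [p] using this
        · intro l hl hl0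
          refine if_neg fun h => hl0 (horb z₀.1 z₀.2.1 l 0 (Finset.mem_range.1 hl) hr'.pos ?_)
          rw [pow_zero, Equiv.Perm.one_apply]; exact h.symm
        · intro w _
          rw [hpD _ _ _ (y.2 w).2.1]
          exact if_neg fun h => z₀.2.1 (by rw [h]; exact w.2)
        · intro z _ hz
          rw [hpE]
          refine Finset.sum_eq_zero fun l _ => if_neg fun h => hz (hRepUnique z z₀ l 0 ?_)
          rw [pow_zero, Equiv.Perm.one_apply]; exact h.symm
      have h2 : ∀ w₀ : Fix, (y.2 w₀ : ι → F) = 0 := by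
        intro w₀
        have := congrArg (p w₀.1) hy
        rw [hΦ, Finset.sum_eq_zero (s := (Finset.univ : Finset Rep)) (fun z _ => by rw [h1 z, map_zero]),
          zero_add, hpsum] at this
        rw [Finset.sum_eq_single w₀ ?_ (fun h => absurd (Finset.mem_univ _) h), hpD _ _ _ (y.2 w₀).2.1, if_pos rfl] at this
        · simpa [p] using this
        · intro w _ hw
          rw [hpD _ _ _ (y.2 w).2.1]
          exact if_neg fun h => hw (Subtype.ext h.symm)
      exact Prod.ext (funext fun z => Subtype.ext (h1 z)) (funext fun w => Subtype.ext (h2 w))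
    have := (LinearMap.finrank_range_of_inj hinj).symm.le.trans (Submodule.finrank_mono hrange)
    refine le_trans ?_ this
    rw [Module.finrank_prod, Module.finrank_pi_fintype, Module.finrank_pi_fintype,
      Finset.sum_congr rfl fun (z : Rep) _ => hD.finrank_eq z.1, Finset.sum_const, Finset.card_univ, smul_eq_mul]
    refine Nat.add_le_add_left ?_ _
    rw [← Finset.card_univ, ← smul_eq_mul, ← Finset.sum_const]
    exact Finset.sum_le_sum fun z _ => hℓ z.1 z.2
  · -- moving vectors
    let T := Rep × Fin (r - 1)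
    let Ψ : ((y : T) → D ((σ ^ (y.2 : ℕ)) y.1.1)) →ₗ[F] (ι → F) :=
      ∑ y : T, (D ((σ ^ (y.2 : ℕ)) y.1.1)).subtype.comp (LinearMap.proj y)
    have hΨ : ∀ w, Ψ w = ∑ y, (w y : ι → F) := fun w => by simp [Ψ]
    have hinj : Function.Injective ((g - 1).comp Ψ) := by
      refine (injective_iff_map_eq_zero _).2 fun w hw => ?_
      have hfix : g (Ψ w) = Ψ w := by
        rw [LinearMap.comp_apply, LinearMap.sub_apply, Module.End.one_apply, sub_eq_zero] at hw
        exact hw
      have hpT : ∀ y₀ : T, p ((σ ^ (y₀.2 : ℕ)) y₀.1.1) (Ψ w) = (w y₀ : ι → F) := by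
        intro y₀
        rw [hΨ, hpsum, Finset.sum_eq_single y₀ ?_ (fun h => absurd (Finset.mem_univ _) h), hpD _ _ _ (w y₀).2, if_pos rfl]
        intro y _ hy
        rw [hpD _ _ _ (w y).2]
        refine if_neg fun h => hy ?_
        obtain ⟨z, l⟩ := y
        obtain ⟨z₀, l₀⟩ := y₀
        obtain rfl := hRepUnique z₀ z l₀ l h
        obtain rfl : l = l₀ := Fin.ext (horb z₀.1 z₀.2.1 _ _ (by omega) (by omega) h.symm)
        rfl
      have hlast : ∀ z : Rep, p ((σ ^ (r - 1)) z.1) (Ψ w) = 0 := by
        intro z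
        rw [hΨ, hpsum]
        refine Finset.sum_eq_zero fun y _ => ?_
        rw [hpD _ _ _ (w y).2]
        refine if_neg fun h => ?_
        obtain ⟨z', l⟩ := y
        obtain rfl := hRepUnique z z' (r - 1) l h
        have := horb z.1 z.2.1 _ _ (by have := hr'.pos; omega) (by omega) h
        omega
      have hall : ∀ (z : Rep) (l : ℕ), p ((σ ^ l) z.1) (Ψ w) = 0 := by
        intro z l
        induction l with
        | zero =>
          have h := hpg (Ψ w) ((σ ^ (r - 1)) z.1)
          rw [hfix, hlast, map_zero, ← Equiv.Perm.mul_apply, ← pow_succ',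
            Nat.sub_add_cancel hr'.one_le, hσr] at h
          rw [pow_zero, Equiv.Perm.one_apply]
          exact h
        | succ l ih =>
          have h := hpg (Ψ w) ((σ ^ l) z.1)
          rw [hfix, ih, map_zero, ← Equiv.Perm.mul_apply, ← pow_succ'] at h
          exact h
      funext y
      exact Subtype.ext ((hpT y).symm.trans (hall y.1 y.2))
    have h1 := LinearMap.finrank_range_of_inj hinj
    have h2 := Submodule.finrank_mono (LinearMap.range_comp_le_range Ψ (g - 1))
    have h3 := LinearMap.finrank_range_add_finrank_ker (g - 1)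
    rw [Module.finrank_pi_fintype, Finset.sum_congr rfl fun (y : T) _ => hD.finrank_eq _, Finset.sum_const,
      Finset.card_univ, Fintype.card_prod, Fintype.card_fin, smul_eq_mul] at h1
    rw [Module.finrank_fintype_fun_eq_card] at h3
    rw [mul_right_comm (Fintype.card Rep) a]
    rw [← hCdef] at h3
    omega

/-- Lower bounds for the fixed and the moving part, for `F ^ n`. -/
theorem decomposition_bounds {r : ℕ} [Fact r.Prime] {g : Module.End F (Fin n → F)} (hg : g ^ r = 1)
    (hr : ¬ r ∣ Fintype.card F) {a t : ℕ} {D : Fin t → Submodule F (Fin n → F)}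
    (hD : Cfsg.Geo.IsMDecomposition a D) (σ : Equiv.Perm (Fin t)) (hσ : ∀ j, (D j).map g = D (σ j)) :
    ∃ s u : ℕ, r * s + u = t ∧
      s * a + u * (a % orderOf ((Fintype.card F : ℕ) : ZMod r)) ≤ Module.finrank F (LinearMap.ker (g - 1)) ∧
      s * a * (r - 1) + Module.finrank F (LinearMap.ker (g - 1)) ≤ n := by
  have := decomposition_bounds' hg hD σ hσ (ℓ := a % orderOf ((Fintype.card F : ℕ) : ZMod r)) fun j hj => by
    obtain ⟨m, hm, -⟩ := finrank_invariant hg hr (W := D j) (fun v hv => by
      have h := (hσ j).le ⟨v, hv, rfl⟩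
      rwa [hj] at h)
    rw [hD.finrank_eq] at hm
    conv_lhs => rw [hm, Nat.add_mul_mod_self_right]
    exact Nat.mod_le _ _
  rwa [Fintype.card_fin] at this

/-- The number of decompositions is divisible by `t!` and divides the order of `GL_n`. -/
theorem card_decompositions {a t : ℕ}
    (hne : Nonempty {D : Fin t → Submodule F (Fin n → F) // Cfsg.Geo.IsMDecomposition a D}) :
    Nat.factorial t ∣ Nat.card {D : Fin t → Submodule F (Fin n → F) // Cfsg.Geo.IsMDecomposition a D} ∧
      Nat.card {D : Fin t → Submodule F (Fin n → F) // Cfsg.Geo.IsMDecomposition a D} ∣ Nat.card (GL (Fin n) F) := by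
  classical
  set X := {D : Fin t → Submodule F (Fin n → F) // Cfsg.Geo.IsMDecomposition a D}
  have : Fintype X := Fintype.ofFinite X
  have hinjD : ∀ D : X, Function.Injective D.1 := fun D i j h => by
    by_contra hne'
    have h1 : Disjoint (D.1 i) (D.1 j) := D.2.indep.pairwiseDisjoint hne'
    rw [h] at h1
    have := D.2.finrank_eq j
    rw [disjoint_self.1 h1, finrank_bot] at this
    exact D.2.pos.ne this
  constructor
  · have hperm : ∀ (D : X) (τ : Equiv.Perm (Fin t)), Cfsg.Geo.IsMDecomposition a (D.1 ∘ τ) := fun D τ =>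
      ⟨D.2.two_le, D.2.pos, fun i => D.2.finrank_eq _, D.2.indep.comp τ.injective, by
        rw [show iSup (D.1 ∘ τ) = iSup D.1 from Equiv.iSup_comp τ]; exact D.2.iSup_eq_top⟩
    let K : X → Finset (Submodule F (Fin n → F)) := fun D => Finset.univ.image D.1
    rw [Nat.card_eq_fintype_card, ← Finset.card_univ, Finset.card_eq_sum_card_image K Finset.univ]
    refine Finset.dvd_sum fun S hS => ?_
    obtain ⟨D₀, -, rfl⟩ := Finset.mem_image.1 hS
    refine dvd_of_eq ?_
    rw [← Fintype.card_fin t, ← Fintype.card_perm]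
    refine Finset.card_bij (fun τ _ => (⟨D₀.1 ∘ τ, hperm D₀ τ⟩ : X)) (fun τ _ => ?_) (fun τ _ τ' _ h => ?_) (fun D hD => ?_)
    · rw [Finset.mem_filter]
      exact ⟨Finset.mem_univ _, by
        show Finset.univ.image (D₀.1 ∘ τ) = Finset.univ.image D₀.1
        rw [← Finset.image_image, Finset.image_univ_of_surjective τ.surjective]⟩
    · exact Equiv.ext fun i => hinjD D₀ (congrFun (congrArg Subtype.val h) i)
    · rw [Finset.mem_filter] at hD
      have hex : ∀ i, ∃ j, D₀.1 j = D.1 i := fun i => by
        have h0 : D.1 i ∈ K D := Finset.mem_image_of_mem _ (Finset.mem_univ i)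
        have : D.1 i ∈ Finset.univ.image D₀.1 := by rw [hD.2] at h0; exact h0
        obtain ⟨j, -, hj⟩ := Finset.mem_image.1 this
        exact ⟨j, hj⟩
      choose τ hτ using hex
      have hinj : Function.Injective τ := fun i j h => hinjD D (by rw [← hτ i, ← hτ j, h])
      exact ⟨Equiv.ofBijective τ (Finite.injective_iff_bijective.1 hinj), Finset.mem_univ _, Subtype.ext (funext hτ)⟩
  · have hmapD : ∀ (g : GL (Fin n) F) (D : X),
        Cfsg.Geo.IsMDecomposition a (fun i => (D.1 i).map (Matrix.toLin' (g : Matrix (Fin n) (Fin n) F))) := by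
      intro g D
      let eg := Matrix.toLin'OfInv (M := ((g⁻¹ : GL (Fin n) F) : Matrix (Fin n) (Fin n) F)) (M' := (g : Matrix (Fin n) (Fin n) F))
        (by rw [← Units.val_mul, inv_mul_cancel, Units.val_one]) (by rw [← Units.val_mul, mul_inv_cancel, Units.val_one])
      refine ⟨D.2.two_le, D.2.pos, fun i => ?_, ?_, ?_⟩
      · exact (LinearEquiv.finrank_map_eq eg (D.1 i)).trans (D.2.finrank_eq i)
      · exact D.2.indep.map_orderIso (Submodule.orderIsoMapComap eg)
      · rw [← Submodule.map_iSup, D.2.iSup_eq_top, Submodule.map_top, LinearMap.range_eq_top]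
        exact eg.surjective
    let _ : MulAction (GL (Fin n) F) X :=
      { smul := fun g D => ⟨_, hmapD g D⟩
        one_smul := fun D => Subtype.ext (funext fun i => by
          show (D.1 i).map (Matrix.toLin' ((1 : GL (Fin n) F) : Matrix (Fin n) (Fin n) F)) = D.1 i
          rw [Units.val_one, Matrix.toLin'_one, Submodule.map_id])
        mul_smul := fun g h D => Subtype.ext (funext fun i => by
          show (D.1 i).map (Matrix.toLin' ((g * h : GL (Fin n) F) : Matrix (Fin n) (Fin n) F)) =
            ((D.1 i).map (Matrix.toLin' (h : Matrix (Fin n) (Fin n) F))).map (Matrix.toLin' (g : Matrix (Fin n) (Fin n) F))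
          rw [Units.val_mul, Matrix.toLin'_mul, Submodule.map_comp]) }
    have hbasis : ∀ D : X, ∃ b : Module.Basis (Σ _ : Fin t, Fin a) F (Fin n → F),
        ∀ j, D.1 j = Submodule.span F (Set.range fun i => b ⟨j, i⟩) := by
      intro D
      have hint := DirectSum.isInternal_submodule_of_iSupIndep_of_iSup_eq_top D.2.indep D.2.iSup_eq_top
      let bj := fun j => Module.finBasisOfFinrankEq F (D.1 j) (D.2.finrank_eq j)
      refine ⟨hint.collectedBasis bj, fun j => ?_⟩
      rw [hint.collectedBasis_coe]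
      have : Submodule.map (D.1 j).subtype (Submodule.span F (Set.range (bj j))) = D.1 j := by
        rw [(bj j).span_eq, Submodule.map_top, Submodule.range_subtype]
      rw [Submodule.map_span, ← Set.range_comp] at this
      exact this.symm
    have : MulAction.IsPretransitive (GL (Fin n) F) X := ⟨fun D D' => by
      obtain ⟨b, hb⟩ := hbasis D
      obtain ⟨b', hb'⟩ := hbasis D'
      let T := b.equiv b' (Equiv.refl _)
      refine ⟨Matrix.GeneralLinearGroup.toLin.symm (LinearMap.GeneralLinearGroup.ofLinearEquiv T), Subtype.ext (funext fun j => ?_)⟩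
      show (D.1 j).map (Matrix.toLin' _) = D'.1 j
      rw [show Matrix.toLin' ((Matrix.GeneralLinearGroup.toLin.symm (LinearMap.GeneralLinearGroup.ofLinearEquiv T) :
        GL (Fin n) F) : Matrix (Fin n) (Fin n) F) = T.toLinearMap from Matrix.toLin'_toMatrix' _, hb, hb',
        Submodule.map_span, ← Set.range_comp]
      congr 2
      funext i
      simp [T, Module.Basis.equiv_apply]⟩
    obtain ⟨D₀⟩ := hne
    rw [← MulAction.index_stabilizer_of_transitive (GL (Fin n) F) D₀]
    exact Subgroup.index_dvd_card _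

end Cfsg.Agent.Elusive
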