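import Cfsg.Agent.Arith.FiniteField
import Cfsg.Agent.Spec.PSLn

/-!
Dimensions of invariant subspaces of semisimple maps of prime order.
-/

namespace Cfsg.Agent.Elusive

open Polynomial

variable {F : Type*} [Field F] {V : Type*} [AddCommGroup V] [Module F V]

theorem isSemisimple_of_pow_eq_smul {f : Module.End F V} {r : ℕ} {z : F} (hr : (r : F) ≠ 0) (hz : z ≠ 0)
    (h : f ^ r = z • 1) : f.IsSemisimple := by
  refine Module.End.isSemisimple_of_squarefree_aeval_eq_zero (separable_X_pow_sub_C z hr hz).squarefree ?_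
  simp [h, Algebra.algebraMap_eq_smul_one]

theorem exists_invariant_compl {f : Module.End F V} (hs : f.IsSemisimple) {W X : Submodule F V}
    (hW : ∀ v ∈ W, f v ∈ W) (hX : ∀ v ∈ X, f v ∈ X) (hXW : X ≤ W) :
    ∃ Y ≤ W, (∀ v ∈ Y, f v ∈ Y) ∧ X ⊔ Y = W ∧ Disjoint X Y := by
  obtain ⟨Z, hZ, hXZ⟩ := Module.End.isSemisimple_iff.1 hs X hX
  refine ⟨Z ⊓ W, inf_le_right, fun v hv => ⟨hZ hv.1, hW v hv.2⟩, ?_, hXZ.disjoint.mono_right inf_le_left⟩
  rw [← sup_inf_assoc_of_le Z hXW, hXZ.sup_eq_top, top_inf_eq]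

theorem aeval_mem {f : Module.End F V} {W : Submodule F V} (hW : ∀ v ∈ W, f v ∈ W) (Q : F[X]) :
    ∀ v ∈ W, aeval f Q v ∈ W := by
  induction Q using Polynomial.induction_on' with
  | add Q R hQ hR => intro v hv; rw [map_add]; exact add_mem (hQ v hv) (hR v hv)
  | monomial k a =>
    intro v hv
    rw [aeval_monomial, Module.End.mul_apply, Module.algebraMap_end_apply]
    refine W.smul_mem a ?_
    induction k with
    | zero => simpa using hv
    | succ k ih => rw [pow_succ', Module.End.mul_apply]; exact hW _ ih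

variable [FiniteDimensional F V]

theorem finrank_eq_add_of_disjoint {X Y W : Submodule F V} (h : X ⊔ Y = W) (hd : Disjoint X Y) :
    Module.finrank F W = Module.finrank F X + Module.finrank F Y := by
  have := Submodule.finrank_sup_add_finrank_inf_eq X Y
  rwa [h, hd.eq_bot, finrank_bot, add_zero] at this

theorem exists_le_finrank_eq (X : Submodule F V) {k : ℕ} (hk : k ≤ Module.finrank F X) :
    ∃ X' ≤ X, Module.finrank F X' = k := by
  let b := Module.finBasis F X
  refine ⟨Submodule.span F (Set.range fun i : Fin k => (b (Fin.castLE hk i) : V)), Submodule.span_le.2 ?_, ?_⟩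
  · rintro _ ⟨i, rfl⟩
    exact (b _).2
  · refine (finrank_span_eq_card ((b.linearIndependent.map' X.subtype X.ker_subtype).comp _ (Fin.castLE_injective hk))).trans ?_
    exact Fintype.card_fin k

/-- Invariant subspaces between two given ones, in steps of `i`. -/
theorem exists_between {f : Module.End F V} (hs : f.IsSemisimple) {W X : Submodule F V}
    (hW : ∀ v ∈ W, f v ∈ W) (hX : ∀ v ∈ X, f v ∈ X) (hXW : X ≤ W) {i : ℕ}
    (small : ∀ Y ≤ W, (∀ v ∈ Y, f v ∈ Y) → Disjoint X Y → Y ≠ ⊥ →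
      ∃ U ≤ Y, (∀ v ∈ U, f v ∈ U) ∧ Module.finrank F U = i)
    (t : ℕ) (ht : Module.finrank F X + t * i ≤ Module.finrank F W) :
    ∃ X', X ≤ X' ∧ X' ≤ W ∧ (∀ v ∈ X', f v ∈ X') ∧ Module.finrank F X' = Module.finrank F X + t * i := by
  induction t with
  | zero => exact ⟨X, le_rfl, hXW, hX, by simp⟩
  | succ t ih =>
    rw [Nat.succ_mul] at ht
    rcases Nat.eq_zero_or_pos i with rfl | hi
    · exact ⟨X, le_rfl, hXW, hX, by simp⟩
    obtain ⟨X', h1, h2, h3, h4⟩ := ih (by omega)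
    obtain ⟨Y, hYW, hY, hsup, hd⟩ := exists_invariant_compl hs hW h3 h2
    have hsum := finrank_eq_add_of_disjoint hsup hd
    obtain ⟨U, hUY, hU, hUi⟩ := small Y hYW hY (hd.mono_left h1) (fun h => by
      rw [h, finrank_bot] at hsum; omega)
    refine ⟨X' ⊔ U, h1.trans le_sup_left, sup_le h2 (hUY.trans hYW), fun v hv => ?_, ?_⟩
    · obtain ⟨a, ha, b, hb, rfl⟩ := Submodule.mem_sup.1 hv
      rw [map_add]
      exact Submodule.add_mem_sup (h3 a ha) (hU b hb)
    · rw [finrank_eq_add_of_disjoint rfl (hd.mono_right hUY), h4, hUi, Nat.succ_mul, add_assoc]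

theorem dvd_finrank {f : Module.End F V} (hs : f.IsSemisimple) {W : Submodule F V}
    (hW : ∀ v ∈ W, f v ∈ W) {i : ℕ} (hi : 0 < i)
    (small : ∀ Y ≤ W, (∀ v ∈ Y, f v ∈ Y) → Y ≠ ⊥ → ∃ U ≤ Y, (∀ v ∈ U, f v ∈ U) ∧ Module.finrank F U = i) :
    i ∣ Module.finrank F W := by
  obtain ⟨X, -, hXW, hX, hd⟩ := exists_between hs hW (X := ⊥) (fun v hv => by simp_all) bot_le
    (fun Y a b _ c => small Y a b c) (Module.finrank F W / i)
    (by rw [finrank_bot, zero_add]; exact Nat.div_mul_le_self _ _)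
  rw [finrank_bot, zero_add] at hd
  obtain ⟨Y, hYW, hY, hsup, hdis⟩ := exists_invariant_compl hs hW hX hXW
  have hsum := finrank_eq_add_of_disjoint hsup hdis
  rcases eq_or_ne Y ⊥ with rfl | h
  · rw [finrank_bot, add_zero, hd] at hsum; exact ⟨_, hsum.trans (mul_comm _ _)⟩
  · obtain ⟨U, hUY, -, hU⟩ := small Y hYW hY h
    have := Submodule.finrank_mono hUY
    have := Nat.mod_lt (Module.finrank F W) hi
    have := Nat.div_add_mod (Module.finrank F W) i
    rw [mul_comm i] at this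
    omega

/-- A vector killed by an irreducible polynomial in `f` spans an invariant subspace of that degree. -/
theorem exists_cyclic {f : Module.End F V} {P : F[X]} (hP : Irreducible P) {v : V}
    (hv : aeval f P v = 0) (hv0 : v ≠ 0) {W : Submodule F V} (hW : ∀ w ∈ W, f w ∈ W) (hvW : v ∈ W) :
    ∃ U ≤ W, (∀ w ∈ U, f w ∈ U) ∧ Module.finrank F U = P.natDegree := by
  let φ : Polynomial.degreeLT F P.natDegree →ₗ[F] V :=
    (LinearMap.applyₗ v).comp ((aeval f).toLinearMap.comp (Polynomial.degreeLT F P.natDegree).subtype)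
  have hφ : Function.Injective φ := by
    refine (injective_iff_map_eq_zero _).2 fun Q hQ => Subtype.ext ?_
    by_contra hne
    have hne' : (Q : F[X]) ≠ 0 := hne
    have hQ' : aeval f (Q : F[X]) v = 0 := hQ
    have hlt : (Q : F[X]).natDegree < P.natDegree := by
      rw [Polynomial.natDegree_lt_iff_degree_lt hne']
      exact Polynomial.mem_degreeLT.1 Q.2
    obtain ⟨a, b, hab⟩ := hP.coprime_iff_not_dvd.2 fun h => by
      have := Polynomial.natDegree_le_of_dvd h hne'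
      omega
    have := congrArg (fun R => aeval f R v) hab
    simp [hv, hQ'] at this
    exact hv0 this.symm
  refine ⟨LinearMap.range φ, ?_, ?_, ?_⟩
  · rintro _ ⟨Q, rfl⟩
    show aeval f (Q : F[X]) v ∈ W
    exact aeval_mem hW _ _ hvW
  · rintro _ ⟨Q, rfl⟩
    set P' := P * C P.leadingCoeff⁻¹
    have hmon : P'.Monic := monic_mul_leadingCoeff_inv hP.ne_zero
    refine ⟨⟨(X * (Q : F[X])) %ₘ P', Polynomial.mem_degreeLT.2 ?_⟩, ?_⟩
    · refine (degree_modByMonic_lt _ hmon).trans_le ?_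
      rw [degree_mul, degree_C (inv_ne_zero (leadingCoeff_ne_zero.2 hP.ne_zero)), add_zero]
      exact degree_le_natDegree
    · show aeval f ((X * (Q : F[X])) %ₘ P') v = f (aeval f (Q : F[X]) v)
      have h := congrArg (fun R => aeval f R v) (modByMonic_add_div (X * (Q : F[X])) P')
      simp only [map_add, LinearMap.add_apply] at h
      rw [mul_comm P', map_mul, Module.End.mul_apply] at h
      rw [show aeval f P' v = 0 by rw [show P' = C P.leadingCoeff⁻¹ * P from mul_comm _ _, map_mul,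
        Module.End.mul_apply, hv, map_zero], map_zero, add_zero] at h
      rw [h, map_mul, aeval_X, Module.End.mul_apply]
  · rw [LinearMap.finrank_range_of_inj hφ, (Polynomial.degreeLTEquiv F _).finrank_eq, Module.finrank_fin_fun]

section order

variable [Fintype F] {r : ℕ} [Fact r.Prime]

/-- An invariant subspace without fixed vectors contains one of dimension `ord_r q`. -/
theorem exists_small_of_pow_eq_one {f : Module.End F V} (hf : f ^ r = 1) (hr : ¬ r ∣ Fintype.card F)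
    {Y : Submodule F V} (hY : ∀ v ∈ Y, f v ∈ Y) (hd : Disjoint (LinearMap.ker (f - 1)) Y) (hne : Y ≠ ⊥) :
    ∃ U ≤ Y, (∀ v ∈ U, f v ∈ U) ∧ Module.finrank F U = orderOf ((Fintype.card F : ℕ) : ZMod r) := by
  classical
  have key : ∀ s : Multiset F[X], (∀ P ∈ s, P ∣ cyclotomic r F ∧ Irreducible P) → ∀ v ∈ Y, v ≠ 0 →
      aeval f s.prod v = 0 → ∃ U ≤ Y, (∀ w ∈ U, f w ∈ U) ∧ Module.finrank F U = orderOf ((Fintype.card F : ℕ) : ZMod r) := by
    intro s
    induction s using Multiset.induction_on with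
    | empty => intro _ v _ hv h; simp at h; exact absurd h hv
    | cons P s ih =>
      intro hs v hv hv0 h
      rw [Multiset.prod_cons, map_mul, Module.End.mul_apply] at h
      rcases eq_or_ne (aeval f s.prod v) 0 with h0 | h0
      · exact ih (fun Q hQ => hs Q (Multiset.mem_cons_of_mem hQ)) v hv hv0 h0
      · obtain ⟨hPd, hPi⟩ := hs P (Multiset.mem_cons_self _ _)
        rw [← Arith.natDegree_irreducible_factor_cyclotomic hr hPi hPd]
        exact exists_cyclic hPi h h0 hY (aeval_mem hY _ _ hv)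
  obtain ⟨v, hv, hv0⟩ := Submodule.exists_mem_ne_zero_of_ne_bot hne
  have hne0 : cyclotomic r F ≠ 0 := cyclotomic_ne_zero r F
  have hass := UniqueFactorizationMonoid.prod_normalizedFactors hne0
  refine key (UniqueFactorizationMonoid.normalizedFactors (cyclotomic r F))
    (fun P hP => ⟨UniqueFactorizationMonoid.dvd_of_mem_normalizedFactors hP,
      UniqueFactorizationMonoid.irreducible_of_normalized_factor P hP⟩) v hv hv0 ?_
  have hc : aeval f (cyclotomic r F) v = 0 := by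
    have h1 : (f - 1) (aeval f (cyclotomic r F) v) = 0 := by
      have h2 := congrArg (fun R => aeval f R v) (cyclotomic_prime_mul_X_sub_one F r)
      simp only [mul_comm (cyclotomic r F)] at h2
      simpa [map_mul, Module.End.mul_apply, hf] using h2
    exact Submodule.disjoint_def.1 hd _ (LinearMap.mem_ker.2 h1) (aeval_mem hY _ _ hv)
  obtain ⟨u, hu⟩ := hass.symm
  rw [← hu, mul_comm, map_mul, Module.End.mul_apply, hc, map_zero]

theorem semisimple_of_order {f : Module.End F V} (hf : f ^ r = 1) (hr : ¬ r ∣ Fintype.card F) :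
    f.IsSemisimple := by
  refine isSemisimple_of_pow_eq_smul (z := 1) ?_ one_ne_zero (by rw [hf, one_smul])
  intro h
  obtain ⟨e, hp, he⟩ := FiniteField.card F (ringChar F)
  rw [ringChar.spec, Nat.dvd_prime (Fact.out : r.Prime)] at h
  rcases h with h | h
  · exact hp.ne_one h
  · exact hr (by rw [he, h]; exact dvd_pow_self r e.pos.ne')

theorem orderOf_pos_of_not_dvd (hr : ¬ r ∣ Fintype.card F) : 0 < orderOf ((Fintype.card F : ℕ) : ZMod r) :=
  Nat.pos_of_ne_zero (mt Arith.orderOf_card_natCast_eq_zero_iff.1 hr)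

/-- The moving part of an invariant subspace has dimension a multiple of `ord_r q`, bounded by that of `V`. -/
theorem finrank_invariant {f : Module.End F V} (hf : f ^ r = 1) (hr : ¬ r ∣ Fintype.card F)
    {W : Submodule F V} (hW : ∀ v ∈ W, f v ∈ W) :
    ∃ t, Module.finrank F W = Module.finrank F ↥(W ⊓ LinearMap.ker (f - 1)) + t * orderOf ((Fintype.card F : ℕ) : ZMod r) ∧
      Module.finrank F ↥(W ⊓ LinearMap.ker (f - 1)) ≤ Module.finrank F ↥(LinearMap.ker (f - 1)) := by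
  have hs := semisimple_of_order hf hr
  have hC : ∀ v ∈ W ⊓ LinearMap.ker (f - 1), f v ∈ W ⊓ LinearMap.ker (f - 1) := fun v hv => by
    have : f v = v := sub_eq_zero.1 (LinearMap.mem_ker.1 hv.2)
    rwa [this]
  obtain ⟨Y, hYW, hY, hsup, hd⟩ := exists_invariant_compl hs hW hC inf_le_left
  obtain ⟨t, ht⟩ := dvd_finrank hs hY (orderOf_pos_of_not_dvd hr) fun Z hZY hZ hne =>
    exists_small_of_pow_eq_one hf hr hZ (Submodule.disjoint_def.2 fun v hv hv' =>
      Submodule.disjoint_def.1 hd v ⟨hYW (hZY hv'), hv⟩ (hZY hv')) hne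
  exact ⟨t, by rw [finrank_eq_add_of_disjoint hsup hd, ht, mul_comm], Submodule.finrank_mono inf_le_right⟩

theorem finrank_fixed_mod {f : Module.End F V} (hf : f ^ r = 1) (hr : ¬ r ∣ Fintype.card F) :
    Module.finrank F ↥(LinearMap.ker (f - 1)) % orderOf ((Fintype.card F : ℕ) : ZMod r) =
      Module.finrank F V % orderOf ((Fintype.card F : ℕ) : ZMod r) := by
  obtain ⟨t, ht, -⟩ := finrank_invariant hf hr (W := ⊤) fun v _ => trivial
  rw [finrank_top, top_inf_eq] at ht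
  rw [ht, Nat.add_mul_mod_self_right]

/-- Flags of invariant subspaces with prescribed dimensions. -/
theorem exists_invariant_flag {f : Module.End F V} (hf : f ^ r = 1) (hr : ¬ r ∣ Fintype.card F)
    {c₁ c₂ t₁ t₂ : ℕ} (hc : c₁ ≤ c₂) (hc₂ : c₂ ≤ Module.finrank F ↥(LinearMap.ker (f - 1))) (ht : t₁ ≤ t₂)
    (ht₂ : Module.finrank F ↥(LinearMap.ker (f - 1)) + t₂ * orderOf ((Fintype.card F : ℕ) : ZMod r) ≤ Module.finrank F V) :
    ∃ X Y : Submodule F V, X ≤ Y ∧ (∀ v ∈ X, f v ∈ X) ∧ (∀ v ∈ Y, f v ∈ Y) ∧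
      Module.finrank F X = c₁ + t₁ * orderOf ((Fintype.card F : ℕ) : ZMod r) ∧
      Module.finrank F Y = c₂ + t₂ * orderOf ((Fintype.card F : ℕ) : ZMod r) := by
  set i := orderOf ((Fintype.card F : ℕ) : ZMod r)
  set C := LinearMap.ker (f - 1) with hCdef
  have hs := semisimple_of_order hf hr
  have hfix : ∀ {Z : Submodule F V}, Z ≤ C → ∀ v ∈ Z, f v ∈ Z := fun hZ v hv => by
    have : f v = v := sub_eq_zero.1 (LinearMap.mem_ker.1 (hZ hv))
    rwa [this]
  obtain ⟨M, -, hM, hsup, hd⟩ := exists_invariant_compl hs (W := ⊤) (fun v _ => trivial) (hfix (le_refl C)) le_top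
  have hn := finrank_eq_add_of_disjoint hsup hd
  rw [finrank_top] at hn
  obtain ⟨C₂, hC₂, hC₂'⟩ := exists_le_finrank_eq C hc₂
  obtain ⟨C₁, hC₁, hC₁'⟩ := exists_le_finrank_eq C₂ (hC₂'.symm ▸ hc)
  have hsupinv : ∀ {A B : Submodule F V}, (∀ v ∈ A, f v ∈ A) → (∀ v ∈ B, f v ∈ B) → ∀ v ∈ A ⊔ B, f v ∈ A ⊔ B := by
    intro A B hA hB v hv
    obtain ⟨a, ha, b, hb, rfl⟩ := Submodule.mem_sup.1 hv
    rw [map_add]
    exact Submodule.add_mem_sup (hA a ha) (hB b hb)
  have hCM : ∀ {Z : Submodule F V}, Z ≤ C → (Z ⊔ M) ⊓ C = Z := fun {Z} hZ => by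
    rw [sup_inf_assoc_of_le M hZ, inf_comm M, hd.eq_bot, sup_bot_eq]
  have hsmall : ∀ {Z X₀ : Submodule F V}, Z ≤ C → Z ≤ X₀ → ∀ Y ≤ Z ⊔ M, (∀ v ∈ Y, f v ∈ Y) → Disjoint X₀ Y → Y ≠ ⊥ →
      ∃ U ≤ Y, (∀ v ∈ U, f v ∈ U) ∧ Module.finrank F U = i := by
    intro Z X₀ hZ hZX Y hY hYi hdis hne
    refine exists_small_of_pow_eq_one hf hr hYi (Submodule.disjoint_def.2 fun v hv hv' => ?_) hne
    exact Submodule.disjoint_def.1 hdis v (hZX ((hCM hZ).le ⟨hY hv', hv⟩)) hv'
  have hC₁C : C₁ ≤ C := hC₁.trans hC₂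
  have hmul : t₁ * i ≤ t₂ * i := Nat.mul_le_mul_right i ht
  obtain ⟨X, hX1, hX2, hX, hXd⟩ := exists_between hs (hsupinv (hfix hC₁C) hM) (hfix hC₁C) le_sup_left
    (hsmall hC₁C le_rfl) t₁ (by rw [finrank_eq_add_of_disjoint rfl (hd.mono_left hC₁C)]; omega)
  have hX0d : Module.finrank F ↥(C₂ ⊔ X) = c₂ + t₁ * i := by
    have h := Submodule.finrank_sup_add_finrank_inf_eq C₂ X
    have : C₂ ⊓ X = C₁ := le_antisymm (fun v hv => (hCM hC₁C).le ⟨hX2 hv.2, hC₂ hv.1⟩) (le_inf hC₁ hX1)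
    rw [this, hC₂', hXd, hC₁'] at h
    omega
  obtain ⟨Y, hY1, -, hY, hYd⟩ := exists_between hs (hsupinv (hfix hC₂) hM) (hsupinv (hfix hC₂) hX)
    (sup_le le_sup_left (hX2.trans (sup_le_sup_right hC₁ _))) (hsmall hC₂ le_sup_left) (t₂ - t₁) (by
      rw [hX0d, finrank_eq_add_of_disjoint rfl (hd.mono_left hC₂), hC₂', Nat.sub_mul]; omega)
  refine ⟨X, Y, le_sup_right.trans hY1, hX, hY, by rw [hXd, hC₁'], ?_⟩
  rw [hYd, hX0d, Nat.sub_mul]
  omega

end order

/-- If `f ^ r` is a scalar with no `r`-th root, every invariant subspace has dimension a multiple of `r`. -/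
theorem dvd_finrank_of_irreducible {f : Module.End F V} (hs : f.IsSemisimple) {P : F[X]} (hP : Irreducible P)
    (hf : aeval f P = 0) {W : Submodule F V} (hW : ∀ v ∈ W, f v ∈ W) : P.natDegree ∣ Module.finrank F W :=
  dvd_finrank hs hW hP.natDegree_pos fun Y _ hY hne => by
    obtain ⟨v, hv, hv0⟩ := Submodule.exists_mem_ne_zero_of_ne_bot hne
    exact exists_cyclic hP (by rw [hf]; rfl) hv0 hY hv

theorem exists_invariant_of_irreducible {f : Module.End F V} (hs : f.IsSemisimple) {P : F[X]} (hP : Irreducible P)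
    (hf : aeval f P = 0) {t₁ t₂ : ℕ} (ht : t₁ ≤ t₂) (ht₂ : t₂ * P.natDegree ≤ Module.finrank F V) :
    ∃ X Y : Submodule F V, X ≤ Y ∧ (∀ v ∈ X, f v ∈ X) ∧ (∀ v ∈ Y, f v ∈ Y) ∧
      Module.finrank F X = t₁ * P.natDegree ∧ Module.finrank F Y = t₂ * P.natDegree := by
  have small : ∀ (X₀ Y : Submodule F V), Y ≤ ⊤ → (∀ v ∈ Y, f v ∈ Y) → Disjoint X₀ Y → Y ≠ ⊥ →
      ∃ U ≤ Y, (∀ v ∈ U, f v ∈ U) ∧ Module.finrank F U = P.natDegree := fun _ Y _ hY _ hne => by
    obtain ⟨v, hv, hv0⟩ := Submodule.exists_mem_ne_zero_of_ne_bot hne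
    exact exists_cyclic hP (by rw [hf]; rfl) hv0 hY hv
  have hmul : t₁ * P.natDegree ≤ t₂ * P.natDegree := Nat.mul_le_mul_right _ ht
  obtain ⟨X, -, -, hX, hXd⟩ := exists_between hs (W := ⊤) (fun v _ => trivial) (X := ⊥) (fun v hv => by simp_all)
    bot_le (small ⊥) t₁ (by rw [finrank_bot, finrank_top]; omega)
  rw [finrank_bot, zero_add] at hXd
  obtain ⟨Y, hY1, -, hY, hYd⟩ := exists_between hs (W := ⊤) (fun v _ => trivial) hX le_top (small X) (t₂ - t₁)
    (by rw [hXd, finrank_top, Nat.sub_mul]; omega)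
  exact ⟨X, Y, hY1, hX, hY, hXd, by rw [hYd, hXd, Nat.sub_mul]; omega⟩

/-- Determinant of a matrix with irreducible minimal polynomial `X ^ r - z`. -/
theorem det_of_pow_eq_scalar {n r : ℕ} {M : Matrix (Fin n) (Fin n) F} {z : F} (hr : r.Prime)
    (hz : ∀ b : F, b ^ r ≠ z) (hM : M ^ r = z • 1) :
    ∃ t, n = t * r ∧ M.det = ((-1) ^ (r + 1) * z) ^ t := by
  have hirr := X_pow_sub_C_irreducible_of_prime hr hz
  obtain ⟨t, ht, hc⟩ := Spec.charpoly_eq_pow M hirr (monic_X_pow_sub_C z hr.ne_zero)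
    (by simp [hM, Algebra.algebraMap_eq_smul_one])
  rw [natDegree_X_pow_sub_C] at ht
  refine ⟨t, ht.symm, ?_⟩
  rw [Matrix.det_eq_sign_charpoly_coeff, hc, coeff_zero_eq_eval_zero, eval_pow, eval_sub, eval_pow,
    eval_X, eval_C, zero_pow hr.ne_zero, zero_sub, Fintype.card_fin, ← ht, mul_comm t r, pow_mul, ← mul_pow,
    pow_succ]
  ring

end Cfsg.Agent.Elusive
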