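import Cfsg.Agent.Elusive.Involution
import Cfsg.Agent.SympSub.Iso

/-!
Alternating forms preserved up to a scalar by maps with scalar square, and the determinants of
their centralisers.
-/

namespace Cfsg.Agent.Elusive

open Finset

variable {F : Type*} [Field F] {V : Type*} [AddCommGroup V] [Module F V]

/-- A fixed-point-free involution inside classes of even size. -/
theorem exists_pairing {ι κ : Type*} [Fintype ι] [DecidableEq ι] [DecidableEq κ] (cls : ι → κ)
    (h : ∀ k, Even (univ.filter fun i => cls i = k).card) :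
    ∃ τ : ι → ι, (∀ i, τ (τ i) = i) ∧ (∀ i, τ i ≠ i) ∧ ∀ i, cls (τ i) = cls i := by
  classical
  have hfib : ∀ k, ∃ τ : {i // cls i = k} → {i // cls i = k}, (∀ i, τ (τ i) = i) ∧ ∀ i, τ i ≠ i := by
    intro k
    obtain ⟨d, hd⟩ := h k
    have hc : Fintype.card {i // cls i = k} = Fintype.card (Fin d ⊕ Fin d) := by
      rw [Fintype.card_subtype, hd, Fintype.card_sum, Fintype.card_fin]
    let e := Fintype.equivOfCardEq hc
    refine ⟨fun i => e.symm (Sum.swap (e i)), fun i => by simp, fun i hi => ?_⟩
    have := congrArg e hi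
    rw [Equiv.apply_symm_apply] at this
    generalize e i = w at this
    rcases w with a | a <;> simp at this
  choose τ hτ hτ' using hfib
  have key : ∀ i, cls (τ (cls i) ⟨i, rfl⟩).1 = cls i := fun i => (τ (cls i) ⟨i, rfl⟩).2
  refine ⟨fun i => (τ (cls i) ⟨i, rfl⟩).1, fun i => ?_, fun i h => hτ' _ _ (Subtype.ext h), key⟩
  have : ∀ (k : κ) (j : ι) (hk : cls j = k), (τ (cls j) ⟨j, rfl⟩).1 = (τ k ⟨j, hk⟩).1 := by
    intro k j hk; subst hk; rfl
  exact (this (cls i) _ (key i)).trans (congrArg Subtype.val (hτ _ _))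

/-- The alternating form pairing `b i` with `b (τ i)`. -/
theorem exists_form_of_pairing {ι : Type*} [Fintype ι] [DecidableEq ι] (b : Module.Basis ι F V) {f : Module.End F V}
    (π : ι → ι) (hπ : ∀ i, π (π i) = i) (a : ι → F) (hf : ∀ i, f (b i) = a i • b (π i))
    (τ : ι → ι) (hτ : ∀ i, τ (τ i) = i) (hτ' : ∀ i, τ i ≠ i) {c : F}
    (hc : ∀ i, (π i = i ∧ π (τ i) = τ i ∧ a i * a (τ i) = c) ∨ (π i = τ i ∧ a i * a (τ i) = -c)) :
    ∃ B : LinearMap.BilinForm F V, B.IsAlt ∧ (∀ v, (∀ w, B v w = 0) → v = 0) ∧
      ∀ u v, B (f u) (f v) = c * B u v := by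
  classical
  let e := Fintype.equivFin ι
  let s : ι → F := fun i => if e i < e (τ i) then 1 else -1
  have hs : ∀ i, s (τ i) = - s i := fun i => by
    simp only [s, hτ]
    have hne : e i ≠ e (τ i) := fun h => hτ' i (e.injective h).symm
    rcases lt_or_gt_of_ne hne with h | h
    · rw [if_pos h, if_neg h.not_gt]
    · rw [if_pos h, if_neg h.not_gt, neg_neg]
  have hs0 : ∀ i, s i ≠ 0 := fun i => by
    simp only [s]; split_ifs <;> simp
  let B : LinearMap.BilinForm F V := b.constr F fun i => b.constr F fun j => if j = τ i then s i else 0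
  have hB : ∀ i j, B (b i) (b j) = if j = τ i then s i else 0 := fun i j => by
    simp [B, Module.Basis.constr_basis]
  have hBv : ∀ v j, B v (b j) = b.repr v (τ j) * s (τ j) := by
    intro v j
    conv_lhs => rw [← b.sum_repr v]
    rw [map_sum, LinearMap.sum_apply, Finset.sum_eq_single (τ j)]
    · rw [map_smul, LinearMap.smul_apply, hB, if_pos (hτ j).symm, smul_eq_mul]
    · intro i _ hi
      rw [map_smul, LinearMap.smul_apply, hB, if_neg (fun h => hi (by rw [h, hτ])), smul_zero]
    · exact fun h => absurd (mem_univ _) h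
  refine ⟨B, fun v => ?_, fun v hv => ?_, ?_⟩
  · have : B v v = ∑ j, b.repr v j * (b.repr v (τ j) * s (τ j)) := by
      conv_lhs => arg 2; rw [← b.sum_repr v]
      rw [map_sum]
      exact sum_congr rfl fun j _ => by rw [map_smul, hBv, smul_eq_mul]
    rw [this]
    refine sum_involution (fun j _ => τ j) (fun j _ => ?_) (fun j _ _ => hτ' j) (fun j _ => mem_univ _) (fun j _ => hτ j)
    rw [hτ, hs]; ring
  · refine b.ext_elem fun i => ?_
    have h := hBv v (τ i)
    rw [hv, hτ] at h
    rw [map_zero, Finsupp.zero_apply]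
    exact (mul_eq_zero.1 h.symm).resolve_right (hs0 i)
  · intro u v
    have key : B.compl₁₂ f f = c • B := by
      refine LinearMap.BilinForm.ext_basis b fun i j => ?_
      simp only [LinearMap.compl₁₂_apply, hf, map_smul, LinearMap.smul_apply, hB, smul_eq_mul]
      rcases hc i with ⟨h1, h2, h3⟩ | ⟨h1, h3⟩
      · rw [h1]
        by_cases hj : j = τ i
        · subst hj; rw [if_pos h2, if_pos rfl, ← h3]; ring
        · rw [if_neg (fun h => hj (by rw [← hπ j, h, h2])), if_neg hj]; ring
      · by_cases hj : j = τ i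
        · subst hj
          have h4 : π (τ i) = i := by rw [← h1, hπ]
          rw [h1, h4, if_pos (hτ i).symm, if_pos rfl, hs]
          linear_combination (-s i) * h3
        · rw [h1, if_neg (fun h => hj (by rw [← hπ j, h, hτ]; exact h1)), if_neg hj]; ring
    exact LinearMap.congr_fun₂ key u v

/-- Every non-zero scalar is the determinant of a map commuting with `f`. -/
theorem exists_commute_det [Finite F] [FiniteDimensional F V] {ι : Type*} [Fintype ι] [DecidableEq ι] [Nonempty ι]
    (b : Module.Basis ι F V) {f : Module.End F V}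
    (π : ι → ι) (hπ : ∀ i, π (π i) = i) (a : ι → F) (hf : ∀ i, f (b i) = a i • b (π i))
    (haa : ∀ i, a i * a (π i) ≠ 0) (t : F) :
    ∃ y : Module.End F V, y * f = f * y ∧ LinearMap.det y = t := by
  classical
  have := Fintype.ofFinite F
  obtain ⟨i⟩ := ‹Nonempty ι›
  by_cases hi : π i = i
  · refine ⟨b.constr F fun j => if j = i then t • b j else b j, b.ext fun j => ?_, ?_⟩
    · simp only [Module.End.mul_apply, hf, map_smul, Module.Basis.constr_basis]
      have : π j = i ↔ j = i := ⟨fun h => by rw [← hπ j, h, hi], fun h => by rw [h, hi]⟩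
      by_cases hj : j = i
      · rw [if_pos hj, if_pos (this.2 hj), map_smul, hf, smul_comm]
      · rw [if_neg hj, if_neg (mt this.1 hj), hf]
    · rw [← LinearMap.det_toMatrix b, show LinearMap.toMatrix b b (b.constr F fun j => if j = i then t • b j else b j) =
        Matrix.diagonal (fun j => if j = i then t else 1) from ?_, Matrix.det_diagonal]
      · simp
      · ext j k
        rw [LinearMap.toMatrix_apply, Module.Basis.constr_basis, Matrix.diagonal_apply]
        rcases eq_or_ne j k with rfl | h
        · split_ifs with h' <;> simp_all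
        · rw [if_neg h]
          split_ifs with h' <;> simp [h.symm]
  · obtain ⟨u, v, huv⟩ : ∃ u v : F, u * u - a i * a (π i) * (v * v) = t := by
      rcases eq_or_ne (ringChar F) 2 with h2 | h2
      · obtain ⟨u, hu⟩ := FiniteField.isSquare_of_char_two h2 t
        exact ⟨u, 0, by rw [hu]; ring⟩
      · rcases eq_or_ne (a i * a (π i)) 0 with h0 | h0
        · exact absurd h0 (haa i)
        · obtain ⟨u, v, huv⟩ := FiniteField.exists_root_sum_quadratic (R := F)
            (f := Polynomial.X ^ 2 - Polynomial.C t) (g := Polynomial.C (-(a i * a (π i))) * Polynomial.X ^ 2)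
            (Polynomial.degree_X_pow_sub_C (by norm_num) _) (Polynomial.degree_C_mul_X_pow 2 (neg_ne_zero.2 h0))
            (FiniteField.odd_card_of_char_ne_two h2)
          simp only [Polynomial.eval_mul, Polynomial.eval_C, Polynomial.eval_pow, Polynomial.eval_X,
            Polynomial.eval_sub] at huv
          exact ⟨u, v, by linear_combination huv⟩
    let y : Module.End F V := b.constr F fun j =>
      if j = i ∨ j = π i then u • b j + v • f (b j) else b j
    refine ⟨y, b.ext fun j => ?_, ?_⟩
    · have : (π j = i ∨ π j = π i) ↔ (j = i ∨ j = π i) :=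
        ⟨fun h => h.elim (fun h => Or.inr (by rw [← h, hπ])) (fun h => Or.inl (by rw [← hπ j, h, hπ])),
          fun h => h.elim (fun h => Or.inr (by rw [h])) (fun h => Or.inl (by rw [h, hπ]))⟩
      simp only [Module.End.mul_apply, y, Module.Basis.constr_basis]
      by_cases hj : j = i ∨ j = π i
      · rw [if_pos hj, hf j, map_smul, Module.Basis.constr_basis, if_pos (this.2 hj), map_add, map_smul, map_smul]
        simp only [hf, map_smul, smul_add, smul_smul, mul_comm (a j) u]
        ring_nf
      · rw [if_neg hj, hf j, map_smul, Module.Basis.constr_basis, if_neg (mt this.1 hj)]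
    · rw [← LinearMap.det_toMatrix b, Matrix.twoBlockTriangular_det' _ (fun j => j = i ∨ j = π i) ?_]
      swap
      · intro j hj k hk
        rw [LinearMap.toMatrix_apply, Module.Basis.constr_basis, if_neg hk, Module.Basis.repr_self,
          Finsupp.single_apply, if_neg (fun h => hk (by rw [h]; exact hj))]
      have h1 : (LinearMap.toMatrix b b y).toSquareBlockProp (fun j => ¬ (j = i ∨ j = π i)) = 1 := by
        ext ⟨j, hj⟩ ⟨k, hk⟩
        rw [Matrix.toSquareBlockProp, Matrix.toBlock_apply, LinearMap.toMatrix_apply, Module.Basis.constr_basis,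
          if_neg hk, Module.Basis.repr_self, Finsupp.single_apply, Matrix.one_apply]
        exact if_congr ⟨fun h => Subtype.ext h.symm, fun h => (congrArg Subtype.val h).symm⟩ rfl rfl
      rw [h1, Matrix.det_one, mul_one]
      let g : Fin 2 → {j // j = i ∨ j = π i} := ![⟨i, Or.inl rfl⟩, ⟨π i, Or.inr rfl⟩]
      have hg : Function.Bijective g := by
        refine ⟨fun k l hkl => ?_, fun ⟨j, hj⟩ => ?_⟩
        · fin_cases k <;> fin_cases l <;> simp [g, hi, Ne.symm hi] at hkl ⊢
        · rcases hj with rfl | rfl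
          · exact ⟨0, rfl⟩
          · exact ⟨1, rfl⟩
      rw [← Matrix.det_submatrix_equiv_self (Equiv.ofBijective g hg), Matrix.det_fin_two]
      have ent : ∀ k l : {j // j = i ∨ j = π i},
          (LinearMap.toMatrix b b y).toSquareBlockProp (fun j => j = i ∨ j = π i) k l =
            u * (if (l : ι) = k then 1 else 0) + v * a l * (if π l = k then 1 else 0) := fun k l => by
        rw [Matrix.toSquareBlockProp, Matrix.toBlock_apply, LinearMap.toMatrix_apply, Module.Basis.constr_basis,
          if_pos l.2, hf, smul_smul, map_add, map_smul, map_smul, Finsupp.add_apply, Finsupp.smul_apply,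
          Finsupp.smul_apply, Module.Basis.repr_self, Module.Basis.repr_self, Finsupp.single_apply,
          Finsupp.single_apply, smul_eq_mul, smul_eq_mul]
      simp only [Matrix.submatrix_apply, Equiv.ofBijective_apply, ent]
      simp [g, hi, Ne.symm hi, hπ]
      linear_combination huv

/-- Conjugation into the similitudes of a given alternating form by an element of determinant one. -/
theorem exists_sl_conj {n d : ℕ} (hn : n = 2 * d) {B B' : LinearMap.BilinForm F (Fin n → F)}
    (hA : B.IsAlt) (hB : ∀ v, (∀ w, B v w = 0) → v = 0) (hA' : B'.IsAlt) (hB' : ∀ v, (∀ w, B' v w = 0) → v = 0)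
    {f : Module.End F (Fin n → F)} {c : F} (hf : ∀ u v, B' (f u) (f v) = c * B' u v)
    (hdet : ∀ t : F, t ≠ 0 → ∃ y : Module.End F (Fin n → F), y * f = f * y ∧ LinearMap.det y = t) :
    ∃ Q : Module.End F (Fin n → F), LinearMap.det Q = 1 ∧ ∀ u v, B (Q (f u)) (Q (f v)) = c * B (Q u) (Q v) := by
  have nd : ∀ {C : LinearMap.BilinForm F (Fin n → F)}, C.IsAlt → (∀ v, (∀ w, C v w = 0) → v = 0) → C.Nondegenerate :=
    fun {C} hC h => ⟨h, fun w hw => h w fun v => by rw [← LinearMap.IsAlt.neg hC v w, hw v, neg_zero]⟩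
  obtain ⟨e, he⟩ := SympSub.exists_iso_sympBil hA (nd hA hB) (k := d) (by rw [Module.finrank_fin_fun, hn])
  obtain ⟨e', he'⟩ := SympSub.exists_iso_sympBil hA' (nd hA' hB') (k := d) (by rw [Module.finrank_fin_fun, hn])
  let g : (Fin n → F) ≃ₗ[F] (Fin n → F) := e'.trans e.symm
  have hg : ∀ u v, B (g u) (g v) = B' u v := fun u v => by
    rw [← he, ← he']; simp [g]
  obtain ⟨y, hy, hyd⟩ := hdet (LinearMap.det g.toLinearMap)⁻¹ (inv_ne_zero g.isUnit_det'.ne_zero)
  refine ⟨g.toLinearMap * y, ?_, fun u v => ?_⟩
  · rw [map_mul, hyd, mul_inv_cancel₀ g.isUnit_det'.ne_zero]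
  · have hc : ∀ w, y (f w) = f (y w) := fun w => LinearMap.congr_fun hy w
    simp only [Module.End.mul_apply, hc, LinearEquiv.coe_coe, hg, hf]

end Cfsg.Agent.Elusive
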