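import Mathlib

/-!
A nilpotent map permutes the vectors of some basis, up to sending some of them to zero.
-/

namespace Cfsg.Agent.Elusive

variable {F : Type*} [Field F] {V : Type*} [AddCommGroup V] [Module F V] [FiniteDimensional F V]

/-- A chain of maximal length spans a summand with invariant complement. -/
theorem exists_chain_summand {N : Module.End F V} {p : ℕ} (hp : N ^ p = 0) {W : Submodule F V}
    (hW : ∀ v ∈ W, N v ∈ W) (hne : W ≠ ⊥) :
    ∃ (k : ℕ) (v : V) (R : Submodule F V), 0 < k ∧ (N ^ k) v = 0 ∧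
      LinearIndependent F (fun j : Fin k => (N ^ (j : ℕ)) v) ∧ (∀ u ∈ R, N u ∈ R) ∧
      Submodule.span F (Set.range fun j : Fin k => (N ^ (j : ℕ)) v) ⊔ R = W ∧
      Disjoint (Submodule.span F (Set.range fun j : Fin k => (N ^ (j : ℕ)) v)) R := by
  classical
  have hex : ∃ k, ∀ v ∈ W, (N ^ k) v = 0 := ⟨p, fun v _ => by rw [hp]; rfl⟩
  set k := Nat.find hex with hk
  have hkW : ∀ v ∈ W, (N ^ k) v = 0 := Nat.find_spec hex
  have hk0 : 0 < k := by
    rcases Nat.eq_zero_or_pos k with h | h
    · exfalso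
      refine hne ((Submodule.eq_bot_iff _).2 fun v hv => ?_)
      have := hkW v hv
      rwa [h, pow_zero] at this
    · exact h
  obtain ⟨v, hv, hv0⟩ : ∃ v ∈ W, (N ^ (k - 1)) v ≠ 0 := by
    by_contra h
    push Not at h
    have := Nat.find_le (h := hex) h
    omega
  have hiter : ∀ j, ∀ w ∈ W, (N ^ j) w ∈ W := by
    intro j
    induction j with
    | zero => intro w hw; simpa using hw
    | succ j ih => intro w hw; rw [pow_succ', Module.End.mul_apply]; exact hW _ (ih w hw)
  obtain ⟨φ, hφ⟩ := Module.Projective.exists_dual_ne_zero F hv0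
  set φ' : V →ₗ[F] F := (φ ((N ^ (k - 1)) v))⁻¹ • φ
  have hφ' : φ' ((N ^ (k - 1)) v) = 1 := inv_mul_cancel₀ hφ
  let Φ : (Fin k → F) →ₗ[F] V := Fintype.linearCombination F fun j : Fin k => (N ^ (j : ℕ)) v
  let Ψ : V →ₗ[F] (Fin k → F) := LinearMap.pi fun j : Fin k => φ'.comp (N ^ (k - 1 - (j : ℕ)))
  have hzero : ∀ j, k ≤ j → (N ^ j) v = 0 := fun j hj => by
    rw [show j = (j - k) + k by omega, pow_add, Module.End.mul_apply, hkW v hv, map_zero]
  have hinj : Function.Injective (Ψ.comp Φ) := by
    refine (injective_iff_map_eq_zero _).2 fun c hc => ?_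
    have key : ∀ m : ℕ, ∀ j : Fin k, (j : ℕ) = m → c j = 0 := by
      intro m
      induction m using Nat.strong_induction_on with
      | _ m ih =>
        intro j hj
        have h := congrFun hc j
        simp only [Ψ, Φ, LinearMap.comp_apply, LinearMap.pi_apply, Fintype.linearCombination_apply, map_sum,
          map_smul, Pi.zero_apply, smul_eq_mul] at h
        rw [Finset.sum_eq_single j ?_ (fun h => absurd (Finset.mem_univ _) h)] at h
        · rw [← Module.End.mul_apply, ← pow_add, show k - 1 - (j : ℕ) + (j : ℕ) = k - 1 by omega, hφ', mul_one] at h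
          exact h
        · intro l _ hl
          rcases lt_or_gt_of_ne hl with h1 | h1
          · rw [ih (l : ℕ) (hj ▸ h1) l rfl, zero_mul]
          · have h1' : (j : ℕ) < (l : ℕ) := h1
            rw [← Module.End.mul_apply, ← pow_add, hzero _ (by omega), map_zero, mul_zero]
    exact funext fun j => key _ j rfl
  have hΦinj : Function.Injective Φ := by
    rw [LinearMap.coe_comp] at hinj
    exact Function.Injective.of_comp hinj
  have hli : LinearIndependent F (fun j : Fin k => (N ^ (j : ℕ)) v) :=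
    linearIndependent_iff_injective_fintypeLinearCombination.2 hΦinj
  have hspan : Submodule.span F (Set.range fun j : Fin k => (N ^ (j : ℕ)) v) = LinearMap.range Φ :=
    (Fintype.range_linearCombination F _).symm
  have hU : LinearMap.range Φ ≤ W := by
    rintro _ ⟨c, rfl⟩
    simp only [Φ, Fintype.linearCombination_apply]
    exact sum_mem fun j _ => W.smul_mem _ (hiter _ v hv)
  refine ⟨k, v, W ⊓ LinearMap.ker Ψ, hk0, hkW v hv, hli, fun w hw => ⟨hW w hw.1, ?_⟩, ?_, ?_⟩
  · refine LinearMap.mem_ker.2 (funext fun j => ?_)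
    simp only [Ψ, LinearMap.pi_apply, LinearMap.comp_apply, Pi.zero_apply]
    rw [← Module.End.mul_apply, ← pow_succ]
    rcases Nat.eq_zero_or_pos (j : ℕ) with h | h
    · rw [h, Nat.sub_zero, Nat.sub_add_cancel hk0, hkW w hw.1, map_zero]
    · have := congrFun (LinearMap.mem_ker.1 hw.2) ⟨(j : ℕ) - 1, by omega⟩
      simp only [Ψ, LinearMap.pi_apply, LinearMap.comp_apply, Pi.zero_apply] at this
      rwa [show k - 1 - (j : ℕ) + 1 = k - 1 - ((j : ℕ) - 1) by omega]
  · rw [hspan]
    refine le_antisymm (sup_le hU inf_le_left) fun w hw => ?_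
    obtain ⟨c, hc⟩ := (LinearMap.injective_iff_surjective.1 hinj) (Ψ w)
    rw [LinearMap.comp_apply] at hc
    have : w = Φ c + (w - Φ c) := (add_sub_cancel _ _).symm
    rw [this]
    refine Submodule.add_mem_sup ⟨c, rfl⟩ ⟨sub_mem hw (hU ⟨c, rfl⟩), LinearMap.mem_ker.2 ?_⟩
    rw [map_sub, hc, sub_self]
  · rw [hspan]
    refine Submodule.disjoint_def.2 ?_
    rintro _ ⟨c, rfl⟩ ⟨-, hc⟩
    have : c = 0 := hinj (by rw [LinearMap.comp_apply, map_zero]; exact LinearMap.mem_ker.1 hc)
    rw [this, map_zero]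

/-- An invariant subspace has a family spanning it which `N` maps into itself or to zero. -/
theorem exists_chain_family {N : Module.End F V} {p : ℕ} (hp : N ^ p = 0) (W : Submodule F V)
    (hW : ∀ v ∈ W, N v ∈ W) :
    ∃ (ι : Type) (_ : Fintype ι) (w : ι → V), LinearIndependent F w ∧ Submodule.span F (Set.range w) = W ∧
      ∀ i, N (w i) = 0 ∨ ∃ j, N (w i) = w j := by
  classical
  induction h : Module.finrank F W using Nat.strong_induction_on generalizing W with
  | _ d ih =>
    subst h
    rcases eq_or_ne W ⊥ with rfl | hne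
    · exact ⟨Fin 0, inferInstance, fun i => i.elim0, linearIndependent_empty_type, by simp, fun i => i.elim0⟩
    obtain ⟨k, v, R, hk0, hkv, hli, hR, hsup, hd⟩ := exists_chain_summand hp hW hne
    have hlt : Module.finrank F R < Module.finrank F W := by
      have := Submodule.finrank_sup_add_finrank_inf_eq (Submodule.span F (Set.range fun j : Fin k => (N ^ (j : ℕ)) v)) R
      rw [hsup, hd.eq_bot, finrank_bot, finrank_span_eq_card hli, Fintype.card_fin] at this
      omega
    obtain ⟨ι, _, w, hwli, hwspan, hwN⟩ := ih _ hlt R hR rfl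
    refine ⟨Fin k ⊕ ι, inferInstance, Sum.elim (fun j => (N ^ (j : ℕ)) v) w,
      hli.sum_type hwli (hwspan.symm ▸ hd), ?_, ?_⟩
    · rw [Set.Sum.elim_range, Submodule.span_union, hwspan, hsup]
    · rintro (j | i)
      · simp only [Sum.elim_inl, ← Module.End.mul_apply, ← pow_succ']
        rcases Nat.lt_or_ge ((j : ℕ) + 1) k with hj | hj
        · exact Or.inr ⟨Sum.inl ⟨(j : ℕ) + 1, hj⟩, rfl⟩
        · exact Or.inl (by rw [show (j : ℕ) + 1 = k by omega, hkv])
      · rcases hwN i with h | ⟨j, h⟩
        · exact Or.inl h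
        · exact Or.inr ⟨Sum.inr j, h⟩

/-- A nilpotent map sends each vector of some basis to zero or to another vector of the basis. -/
theorem exists_chain_basis {n : ℕ} (hn : Module.finrank F V = n) {N : Module.End F V} {p : ℕ} (hp : N ^ p = 0) :
    ∃ b : Module.Basis (Fin n) F V, ∀ i, N (b i) = 0 ∨ ∃ j, N (b i) = b j := by
  obtain ⟨ι, _, w, hli, hspan, hN⟩ := exists_chain_family hp ⊤ (fun v _ => trivial)
  let b := Module.Basis.mk hli hspan.ge
  let e : ι ≃ Fin n := Fintype.equivFinOfCardEq ((Module.finrank_eq_card_basis b).symm.trans hn)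
  refine ⟨b.reindex e, fun i => ?_⟩
  rw [Module.Basis.reindex_apply, Module.Basis.mk_apply]
  rcases hN (e.symm i) with h | ⟨j, h⟩
  · exact Or.inl h
  · exact Or.inr ⟨e j, by rw [h, Module.Basis.reindex_apply, e.symm_apply_apply, Module.Basis.mk_apply]⟩

end Cfsg.Agent.Elusive
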