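import Mathlib

/-!
A nilpotent map splits the space into cyclic pieces; the sums of any sub-collection of their dimensions occur
as dimensions of invariant summands.
-/

namespace Cfsg.Agent.Elusive

variable {F : Type*} [Field F] {V : Type*} [AddCommGroup V] [Module F V] [FiniteDimensional F V]

/-- A cyclic piece of maximal length has an invariant complement. -/
theorem exists_cyclic_summand {N : Module.End F V} {p : ℕ} (hp : N ^ p = 0) {W : Submodule F V}
    (hW : ∀ v ∈ W, N v ∈ W) (hne : W ≠ ⊥) :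
    ∃ (k : ℕ) (U R : Submodule F V), 0 < k ∧ k ≤ p ∧ (∀ v ∈ U, N v ∈ U) ∧ (∀ v ∈ R, N v ∈ R) ∧
      U ⊔ R = W ∧ Disjoint U R ∧ Module.finrank F U = k := by
  classical
  have hex : ∃ k, ∀ v ∈ W, (N ^ k) v = 0 := ⟨p, fun v _ => by rw [hp]; rfl⟩
  set k := Nat.find hex with hk
  have hkW : ∀ v ∈ W, (N ^ k) v = 0 := Nat.find_spec hex
  have hk0 : 0 < k := by
    rcases Nat.eq_zero_or_pos k with h | h
    · exfalso
      refine hne ((Submodule.eq_bot_iff _).2 fun v hv => ?_)
      have := hkW v hv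
      rwa [h, pow_zero] at this
    · exact h
  have hkp : k ≤ p := Nat.find_le fun v _ => by rw [hp]; rfl
  obtain ⟨v, hv, hv0⟩ : ∃ v ∈ W, (N ^ (k - 1)) v ≠ 0 := by
    by_contra h
    push Not at h
    have := Nat.find_le (h := hex) h
    omega
  have hiter : ∀ j, ∀ w ∈ W, (N ^ j) w ∈ W := by
    intro j
    induction j with
    | zero => intro w hw; simpa using hw
    | succ j ih => intro w hw; rw [pow_succ', Module.End.mul_apply]; exact hW _ (ih w hw)
  obtain ⟨φ, hφ⟩ := Module.Projective.exists_dual_ne_zero F hv0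
  set φ' : V →ₗ[F] F := (φ ((N ^ (k - 1)) v))⁻¹ • φ
  have hφ' : φ' ((N ^ (k - 1)) v) = 1 := inv_mul_cancel₀ hφ
  let Φ : (Fin k → F) →ₗ[F] V := Fintype.linearCombination F fun j : Fin k => (N ^ (j : ℕ)) v
  let Ψ : V →ₗ[F] (Fin k → F) := LinearMap.pi fun j : Fin k => φ'.comp (N ^ (k - 1 - (j : ℕ)))
  have hzero : ∀ j, k ≤ j → (N ^ j) v = 0 := fun j hj => by
    rw [show j = (j - k) + k by omega, pow_add, Module.End.mul_apply, hkW v hv, map_zero]
  -- `Ψ ∘ Φ` is unitriangular
  have hinj : Function.Injective (Ψ.comp Φ) := by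
    refine (injective_iff_map_eq_zero _).2 fun c hc => ?_
    have key : ∀ m : ℕ, ∀ j : Fin k, (j : ℕ) = m → c j = 0 := by
      intro m
      induction m using Nat.strong_induction_on with
      | _ m ih =>
        intro j hj
        have h := congrFun hc j
        simp only [Ψ, Φ, LinearMap.comp_apply, LinearMap.pi_apply, Fintype.linearCombination_apply, map_sum,
          map_smul, Pi.zero_apply, smul_eq_mul] at h
        rw [Finset.sum_eq_single j ?_ (fun h => absurd (Finset.mem_univ _) h)] at h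
        · rw [← Module.End.mul_apply, ← pow_add, show k - 1 - (j : ℕ) + (j : ℕ) = k - 1 by omega, hφ', mul_one] at h
          exact h
        · intro l _ hl
          rcases lt_or_gt_of_ne hl with h1 | h1
          · rw [ih (l : ℕ) (hj ▸ h1) l rfl, zero_mul]
          · have h1' : (j : ℕ) < (l : ℕ) := h1
            rw [← Module.End.mul_apply, ← pow_add, hzero _ (by omega), map_zero, mul_zero]
    exact funext fun j => key _ j rfl
  have hΦinj : Function.Injective Φ := by
    rw [LinearMap.coe_comp] at hinj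
    exact Function.Injective.of_comp hinj
  have hU : LinearMap.range Φ ≤ W := by
    rintro _ ⟨c, rfl⟩
    simp only [Φ, Fintype.linearCombination_apply]
    exact sum_mem fun j _ => W.smul_mem _ (hiter _ v hv)
  have hUinv : ∀ w ∈ LinearMap.range Φ, N w ∈ LinearMap.range Φ := by
    rintro _ ⟨c, rfl⟩
    simp only [Φ, Fintype.linearCombination_apply, map_sum, map_smul]
    refine sum_mem fun j _ => Submodule.smul_mem _ _ ?_
    rw [← Module.End.mul_apply, ← pow_succ']
    rcases Nat.lt_or_ge ((j : ℕ) + 1) k with h | h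
    · exact ⟨Pi.single ⟨(j : ℕ) + 1, h⟩ 1, by simp [Φ]⟩
    · rw [hzero _ h]; exact zero_mem _
  refine ⟨k, LinearMap.range Φ, W ⊓ LinearMap.ker Ψ, hk0, hkp, hUinv, fun w hw => ⟨hW w hw.1, ?_⟩, ?_, ?_,
    by rw [LinearMap.finrank_range_of_inj hΦinj, Module.finrank_fin_fun]⟩
  · refine LinearMap.mem_ker.2 (funext fun j => ?_)
    simp only [Ψ, LinearMap.pi_apply, LinearMap.comp_apply, Pi.zero_apply]
    rw [← Module.End.mul_apply, ← pow_succ]
    rcases Nat.eq_zero_or_pos (j : ℕ) with h | h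
    · rw [h, Nat.sub_zero, Nat.sub_add_cancel hk0, hkW w hw.1, map_zero]
    · have := congrFun (LinearMap.mem_ker.1 hw.2) ⟨(j : ℕ) - 1, by omega⟩
      simp only [Ψ, LinearMap.pi_apply, LinearMap.comp_apply, Pi.zero_apply] at this
      rwa [show k - 1 - (j : ℕ) + 1 = k - 1 - ((j : ℕ) - 1) by omega]
  · refine le_antisymm (sup_le hU inf_le_left) fun w hw => ?_
    obtain ⟨c, hc⟩ := (LinearMap.injective_iff_surjective.1 hinj) (Ψ w)
    rw [LinearMap.comp_apply] at hc
    have : w = Φ c + (w - Φ c) := (add_sub_cancel _ _).symm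
    rw [this]
    refine Submodule.add_mem_sup ⟨c, rfl⟩ ⟨sub_mem hw (hU ⟨c, rfl⟩), LinearMap.mem_ker.2 ?_⟩
    rw [map_sub, hc, sub_self]
  · refine Submodule.disjoint_def.2 ?_
    rintro _ ⟨c, rfl⟩ ⟨-, hc⟩
    have : c = 0 := hinj (by rw [LinearMap.comp_apply, map_zero]; exact LinearMap.mem_ker.1 hc)
    rw [this, map_zero]

/-- Invariant summands of every dimension that is a sum of some of the block sizes. -/
theorem exists_partition_pairs {N : Module.End F V} {p : ℕ} (hp : N ^ p = 0) (W : Submodule F V)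
    (hW : ∀ v ∈ W, N v ∈ W) :
    ∃ μ : Multiset ℕ, (∀ a ∈ μ, 0 < a ∧ a ≤ p) ∧ μ.sum = Module.finrank F W ∧
      ∀ ν ≤ μ, ∃ A B : Submodule F V, (∀ v ∈ A, N v ∈ A) ∧ (∀ v ∈ B, N v ∈ B) ∧ A ⊔ B = W ∧ Disjoint A B ∧
        Module.finrank F A = ν.sum := by
  classical
  induction h : Module.finrank F W using Nat.strong_induction_on generalizing W with
  | _ d ih =>
    subst h
    rcases eq_or_ne W ⊥ with rfl | hne
    · refine ⟨0, by simp, by simp, fun ν hν => ⟨⊥, ⊥, by simp, by simp, sup_bot_eq _, disjoint_bot_left, ?_⟩⟩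
      rw [nonpos_iff_eq_zero.1 hν]; simp
    obtain ⟨k, U, R, hk0, hkp, hU, hR, hsup, hd, hUk⟩ := exists_cyclic_summand hp hW hne
    have hdim : Module.finrank F W = k + Module.finrank F R := by
      have := Submodule.finrank_sup_add_finrank_inf_eq U R
      rw [hsup, hd.eq_bot, finrank_bot, hUk] at this
      omega
    obtain ⟨μ, hμ, hsum, hpairs⟩ := ih _ (by omega) R hR rfl
    have hinv : ∀ {A : Submodule F V}, (∀ v ∈ A, N v ∈ A) → ∀ v ∈ U ⊔ A, N v ∈ U ⊔ A := by
      intro A hA v hv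
      obtain ⟨a, ha, b, hb, rfl⟩ := Submodule.mem_sup.1 hv
      rw [map_add]
      exact Submodule.add_mem_sup (hU a ha) (hA b hb)
    refine ⟨k ::ₘ μ, ?_, by rw [Multiset.sum_cons, hsum, hdim], fun ν hν => ?_⟩
    · intro a ha
      rcases Multiset.mem_cons.1 ha with rfl | ha
      exacts [⟨hk0, hkp⟩, hμ a ha]
    by_cases hmem : k ∈ ν
    · obtain ⟨ν', rfl⟩ := Multiset.exists_cons_of_mem hmem
      obtain ⟨A, B, hA, hB, hAB, hdis, hAd⟩ := hpairs ν' ((Multiset.cons_le_cons_iff k).1 hν)
      refine ⟨U ⊔ A, B, hinv hA, hB, by rw [sup_assoc, hAB, hsup], ?_, ?_⟩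
      · exact Disjoint.disjoint_sup_left_of_disjoint_sup_right hdis (hAB ▸ hd)
      · have := Submodule.finrank_sup_add_finrank_inf_eq U A
        rw [(hd.mono_right (hAB ▸ le_sup_left)).eq_bot, finrank_bot, hUk, hAd] at this
        rw [Multiset.sum_cons]; omega
    · obtain ⟨A, B, hA, hB, hAB, hdis, hAd⟩ := hpairs ν ((Multiset.le_cons_of_notMem hmem).1 hν)
      refine ⟨A, U ⊔ B, hA, hinv hB, by rw [sup_left_comm, hAB, hsup], ?_, hAd⟩
      exact (Disjoint.disjoint_sup_left_of_disjoint_sup_right hdis.symm (by rw [sup_comm]; exact hAB ▸ hd)).symm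

/-- With parts `1` and `2` only, which totals occur. -/
theorem parts_le_two_iff {n m : ℕ} (hm : m ≤ n) :
    (∀ μ : Multiset ℕ, (∀ a ∈ μ, 0 < a ∧ a ≤ 2) → μ.sum = n → ∃ ν : Multiset ℕ, ν ≤ μ ∧ ν.sum = m) ↔
      (Odd n ∨ Even m) := by
  constructor
  · intro h
    rcases Nat.even_or_odd n with hn | hn
    swap
    · exact Or.inl hn
    obtain ⟨k, rfl⟩ := hn
    obtain ⟨ν, hν, hs⟩ := h (Multiset.replicate k 2) (fun a ha => by rw [Multiset.eq_of_mem_replicate ha]; omega)
      (by simp only [Multiset.sum_replicate, smul_eq_mul]; omega)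
    obtain ⟨j, -, rfl⟩ := Multiset.le_replicate_iff.1 hν
    refine Or.inr ⟨j, ?_⟩
    simp only [Multiset.sum_replicate, smul_eq_mul] at hs
    omega
  · intro h μ hμ hsum
    have hμeq : μ = Multiset.replicate (μ.count 2) 2 + Multiset.replicate (μ.count 1) 1 := by
      ext a
      rw [Multiset.count_add, Multiset.count_replicate, Multiset.count_replicate]
      rcases eq_or_ne a 2 with rfl | h2
      · simp
      rcases eq_or_ne a 1 with rfl | h1
      · simp
      rw [if_neg (Ne.symm h2), if_neg (Ne.symm h1), Nat.add_zero, Multiset.count_eq_zero]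
      exact fun ha => by have := hμ a ha; omega
    rw [hμeq, Multiset.sum_add, Multiset.sum_replicate, Multiset.sum_replicate, smul_eq_mul, smul_eq_mul] at hsum
    refine ⟨Multiset.replicate (min (μ.count 2) (m / 2)) 2 + Multiset.replicate (m - 2 * min (μ.count 2) (m / 2)) 1,
      le_trans (add_le_add ((Multiset.replicate_le_replicate 2).2 (min_le_left _ _))
        ((Multiset.replicate_le_replicate 1).2 ?_)) hμeq.ge, ?_⟩
    · rcases h with ⟨a, ha⟩ | ⟨a, ha⟩ <;> omega
    · simp only [Multiset.sum_add, Multiset.sum_replicate, smul_eq_mul]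
      omega

end Cfsg.Agent.Elusive
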