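import Cfsg.Agent.Classical.OrthForms
import Mathlib.LinearAlgebra.Matrix.GeneralLinearGroup.Card

/-!
Counting totally singular subspaces of an orthogonal space by counting their bases.
-/

set_option autoImplicit false

namespace Cfsg.Agent.Elusive.OrthTS

open QuadraticMap Submodule Cfsg.Agent.Classical

variable {F : Type*} [Field F] {V : Type*} [AddCommGroup V] [Module F V]

/-- A basis of a totally singular subspace. -/
def IsFrame (Q : QuadraticForm F V) {m : ℕ} (t : Fin m → V) : Prop :=
  LinearIndependent F t ∧ ∀ c : Fin m → F, Q (∑ l, c l • t l) = 0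

theorem isFrame_map {W : Type*} [AddCommGroup W] [Module F W] {Q : QuadraticForm F V} {R : QuadraticForm F W}
    (e : V ≃ₗ[F] W) (h : ∀ v, R (e v) = Q v) {m : ℕ} (t : Fin m → V) :
    IsFrame R (e ∘ t) ↔ IsFrame Q t := by
  refine and_congr (e.toLinearMap.linearIndependent_iff_of_injOn e.injective.injOn) (forall_congr' fun c => ?_)
  rw [← h (∑ l, c l • t l), map_sum e]
  simp

theorem card_frames_congr {W : Type*} [AddCommGroup W] [Module F W] {Q : QuadraticForm F V} {R : QuadraticForm F W}
    (e : V ≃ₗ[F] W) (h : ∀ v, R (e v) = Q v) (m : ℕ) :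
    Nat.card {t : Fin m → V // IsFrame Q t} = Nat.card {t : Fin m → W // IsFrame R t} :=
  Nat.card_congr ((
    (Equiv.piCongrRight fun _ : Fin m => e.toEquiv)).subtypeEquiv fun t => (isFrame_map e h t).symm)

/-- Singular vectors extend to frames in equally many ways. -/
theorem card_frames_hypAdd [Finite F] [Finite V] {Q : QuadraticForm F V} (hQ : QNondeg Q) (m : ℕ) :
    Nat.card {t : Fin (m + 1) → (F × F) × V // IsFrame (hypAdd Q) t} =
      (Nat.card {x : (F × F) × V // hypAdd Q x = 0} - 1) * Nat.card F ^ m *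
        Nat.card {t : Fin m → V // IsFrame Q t} := by
  classical
  have : Fintype V := Fintype.ofFinite V
  have : Fintype F := Fintype.ofFinite F
  let S := {x : (F × F) × V // hypAdd Q x = 0 ∧ x ≠ 0}
  let fib := fun u : (F × F) × V => {t : Fin m → (F × F) × V // IsFrame (hypAdd Q) (Fin.cons u t)}
  have e1 : {t : Fin (m + 1) → (F × F) × V // IsFrame (hypAdd Q) t} ≃ Σ u : S, fib u.1 :=
    { toFun := fun t => ⟨⟨t.1 0, by
          have := t.2.2 (Pi.single 0 1)
          rwa [Finset.sum_eq_single 0 (fun l _ hl => by rw [Pi.single_eq_of_ne hl, zero_smul])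
            (fun h => absurd (Finset.mem_univ _) h), Pi.single_eq_same, one_smul] at this,
          t.2.1.ne_zero 0⟩, Fin.tail t.1, by rw [Fin.cons_self_tail]; exact t.2⟩
      invFun := fun p => ⟨Fin.cons p.1.1 p.2.1, p.2.2⟩
      left_inv := fun t => Subtype.ext (Fin.cons_self_tail t.1)
      right_inv := by
        rintro ⟨⟨u, hu⟩, ⟨t, ht⟩⟩
        rfl }
  have e2 : ∀ u : S, Nat.card (fib u.1) = Nat.card F ^ m * Nat.card {t : Fin m → V // IsFrame Q t} := by
    intro u
    obtain ⟨g, hg⟩ := OQ_transitive_singular (qNondeg_hypAdd hQ)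
      (u := hE F V) (by simp) (by simp) u.2.2 u.2.1
    have hfib : Nat.card (fib (hE F V)) = Nat.card (fib u.1) :=
      Nat.card_congr ((Equiv.piCongrRight fun _ : Fin m => (g.1.toEquiv)).subtypeEquiv fun t => by
        rw [← isFrame_map g.1 g.2 (Fin.cons (hE F V) t),
          show g.1 ∘ (Fin.cons (hE F V) t : Fin (m + 1) → (F × F) × V) = Fin.cons u.1 (g.1 ∘ t) from by
            funext l
            refine Fin.cases ?_ (fun l => ?_) l
            · simpa using hg
            · simp]
        rfl)
    rw [← hfib]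
    have hchar : ∀ t : Fin m → (F × F) × V, IsFrame (hypAdd Q) (Fin.cons (hE F V) t) ↔
        (∀ l, (t l).1.2 = 0) ∧ IsFrame Q (fun l => (t l).2) := by
      intro t
      have hsum : ∀ c : Fin (m + 1) → F, (∑ l, c l • (Fin.cons (hE F V) t : Fin (m + 1) → (F × F) × V) l) =
          ((c 0 + ∑ l, c l.succ * (t l).1.1, ∑ l, c l.succ * (t l).1.2), ∑ l, c l.succ • (t l).2) := fun c => by
        simp [Fin.sum_univ_succ, Prod.ext_iff, Prod.fst_sum, Prod.snd_sum]
      constructor
      · intro h
        have h0 : ∀ l, (t l).1.2 = 0 := by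
          intro l
          have ha := h.2 (Fin.cons 0 (Pi.single l 1))
          have hb := h.2 (Fin.cons 1 (Pi.single l 1))
          simp [hsum, Pi.single_apply, ite_mul, ite_smul] at ha hb
          linear_combination hb - ha
        refine ⟨h0, Fintype.linearIndependent_iff.2 fun c hc l => ?_, fun c => ?_⟩
        · have := Fintype.linearIndependent_iff.1 h.1 (Fin.cons (-∑ l, c l * (t l).1.1) c)
            (by simp [hsum, h0, hc]) l.succ
          simpa using this
        · have := h.2 (Fin.cons 0 c)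
          simpa [hsum, h0] using this
      · rintro ⟨h0, h⟩
        refine ⟨Fintype.linearIndependent_iff.2 fun c hc => ?_, fun c => ?_⟩
        · rw [hsum, Prod.ext_iff, Prod.ext_iff] at hc
          have h1 := Fintype.linearIndependent_iff.1 h.1 (fun l => c l.succ) hc.2
          intro l
          refine Fin.cases ?_ h1 l
          simpa [h1] using hc.1.1
        · simpa [hsum, h0] using h.2 fun l => c l.succ
    let e : fib (hE F V) ≃ (Fin m → F) × {t : Fin m → V // IsFrame Q t} :=
      { toFun := fun t => (fun l => (t.1 l).1.1, ⟨fun l => (t.1 l).2, ((hchar _).1 t.2).2⟩)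
        invFun := fun p => ⟨fun l => ((p.1 l, 0), p.2.1 l), (hchar _).2 ⟨fun _ => rfl, p.2.2⟩⟩
        left_inv := fun t => Subtype.ext (funext fun l => Prod.ext (Prod.ext rfl (((hchar _).1 t.2).1 l).symm) rfl)
        right_inv := fun p => rfl }
    rw [Nat.card_congr e, Nat.card_prod, Nat.card_fun, Nat.card_fin]
  have e3 : Nat.card S = Nat.card {x : (F × F) × V // hypAdd Q x = 0} - 1 := by
    simp only [S, Nat.card_eq_fintype_card, Fintype.card_subtype]
    rw [← Finset.filter_filter, Finset.filter_ne', Finset.card_erase_of_mem (by simp)]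
  rw [Nat.card_congr e1, Nat.card_sigma, Finset.sum_congr rfl (fun u _ => e2 u), Finset.sum_const,
    Finset.card_univ, smul_eq_mul, ← Nat.card_eq_fintype_card, e3, ← mul_assoc]

theorem card_frames_hypExt [Finite F] {W : Type*} [AddCommGroup W] [Module F W] [Finite W] {Q₀ : QuadraticForm F W}
    (hQ : QNondeg Q₀) : ∀ m d : ℕ, m ≤ d →
      Nat.card {t : Fin m → HypSpace F d W // IsFrame (hypExt d Q₀) t} =
        ∏ k ∈ Finset.range m, Nat.card F ^ (m - 1 - k) * (Nat.card {x // hypExt (d - k) Q₀ x = 0} - 1) := by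
  intro m
  induction m with
  | zero =>
    intro d _
    have : Nonempty {t : Fin 0 → HypSpace F d W // IsFrame (hypExt d Q₀) t} :=
      ⟨⟨Fin.elim0, linearIndependent_empty_type, fun c => by simp⟩⟩
    have : Subsingleton {t : Fin 0 → HypSpace F d W // IsFrame (hypExt d Q₀) t} := inferInstance
    rw [Nat.card_of_subsingleton (Classical.arbitrary _), Finset.prod_range_zero]
  | succ m ih =>
    intro d hd
    obtain ⟨d, rfl⟩ := Nat.exists_eq_add_of_le' (show 1 ≤ d by omega)
    rw [card_frames_congr (hypSplit d) (hypSplit_spec d Q₀), card_frames_hypAdd (qNondeg_hypExt d hQ),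
      ← card_zeros_congr (hypSplit d) (hypSplit_spec d Q₀), ih d (by omega), Finset.prod_range_succ',
      Nat.sub_zero, Nat.sub_zero, Nat.add_sub_cancel, mul_comm _ (Nat.card F ^ m * _),
      mul_comm (Nat.card F ^ m) (Nat.card _ - 1)]
    congr 1
    refine Finset.prod_congr rfl fun k _ => ?_
    rw [show m - (k + 1) = m - 1 - k by omega, Nat.add_sub_add_right]

/-- The frames of `Q` are the bases of its totally singular subspaces. -/
theorem card_spaces_mul [Fintype F] [Finite V] (Q : QuadraticForm F V) (m : ℕ) :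
    Nat.card {W : Submodule F V // Module.finrank F W = m ∧ ∀ w ∈ W, Q w = 0} *
        ∏ i ∈ Finset.range m, (Fintype.card F ^ m - Fintype.card F ^ i) =
      Nat.card {t : Fin m → V // IsFrame Q t} := by
  classical
  have : Fintype V := Fintype.ofFinite V
  have : FiniteDimensional F V := .of_finite
  let T := {W : Submodule F V // Module.finrank F W = m ∧ ∀ w ∈ W, Q w = 0}
  let g : (Σ W : T, {t : Fin m → W.1 // LinearIndependent F t}) → {t : Fin m → V // IsFrame Q t} := fun p =>
    ⟨fun l => (p.2.1 l : V), p.2.2.map' p.1.1.subtype (ker_subtype _), fun c =>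
      p.1.2.2 _ (sum_mem fun l _ => smul_mem _ _ (p.2.1 l).2)⟩
  have hspan : ∀ p, span F (Set.range (g p).1) = p.1.1 := fun p => by
    refine eq_of_le_of_finrank_le (span_le.2 ?_) ?_
    · rintro _ ⟨l, rfl⟩; exact (p.2.1 l).2
    · rw [finrank_span_eq_card (g p).2.1, Fintype.card_fin, p.1.2.1]
  have hg : Function.Bijective g := by
    constructor
    · intro p p' h
      have hW : p.1 = p'.1 := Subtype.ext (by rw [← hspan, h, hspan])
      obtain ⟨W, t, ht⟩ := p
      obtain ⟨W', t', ht'⟩ := p'
      obtain rfl : W = W' := hW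
      have : t = t' := funext fun l => Subtype.ext (congrFun (congrArg Subtype.val h) l)
      subst this
      rfl
    · rintro ⟨s, hs⟩
      refine ⟨⟨⟨span F (Set.range s), by rw [finrank_span_eq_card hs.1, Fintype.card_fin], fun v hv => ?_⟩,
        ⟨fun l => ⟨s l, subset_span ⟨l, rfl⟩⟩, LinearIndependent.of_comp (span F (Set.range s)).subtype hs.1⟩⟩, rfl⟩
      obtain ⟨c, rfl⟩ := (mem_span_range_iff_exists_fun F).1 hv
      exact hs.2 c
  have key := Nat.card_eq_of_bijective g hg
  rw [Nat.card_sigma, Finset.sum_congr rfl (g := fun _ => ∏ i ∈ Finset.range m,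
      (Fintype.card F ^ m - Fintype.card F ^ i)) (fun W _ => by
      rw [card_linearIndependent (le_of_eq W.2.1.symm), W.2.1]
      exact Fin.prod_univ_eq_prod_range (fun i => Fintype.card F ^ m - Fintype.card F ^ i) m),
    Finset.sum_const, Finset.card_univ, ← Nat.card_eq_fintype_card, smul_eq_mul] at key
  exact key

/-- The number of totally singular subspaces. -/
theorem card_spaces_hypExt [Fintype F] [Finite V] {W : Type*} [AddCommGroup W] [Module F W] [Finite W]
    (Q : QuadraticForm F V) {Q₀ : QuadraticForm F W} (hQ₀ : QNondeg Q₀) {m d : ℕ} (hmd : m ≤ d)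
    (e : V ≃ₗ[F] HypSpace F d W) (h : ∀ v, hypExt d Q₀ (e v) = Q v) :
    Nat.card {W : Submodule F V // Module.finrank F W = m ∧ ∀ w ∈ W, Q w = 0} *
        ∏ i ∈ Finset.range m, (Fintype.card F ^ (m - i) - 1) =
      ∏ i ∈ Finset.range m, (Nat.card {x // hypExt (d - i) Q₀ x = 0} - 1) := by
  have key := card_spaces_mul Q m
  rw [card_frames_congr e h, card_frames_hypExt hQ₀ m d hmd, Finset.prod_mul_distrib, Nat.card_eq_fintype_card (α := F),
    Finset.prod_range_reflect (fun k => Fintype.card F ^ k) m] at key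
  have e1 : ∏ i ∈ Finset.range m, (Fintype.card F ^ m - Fintype.card F ^ i) =
      (∏ i ∈ Finset.range m, Fintype.card F ^ i) * ∏ i ∈ Finset.range m, (Fintype.card F ^ (m - i) - 1) := by
    rw [← Finset.prod_mul_distrib]
    refine Finset.prod_congr rfl fun i hi => ?_
    rw [Finset.mem_range] at hi
    rw [Nat.mul_sub, mul_one, ← pow_add, Nat.add_sub_cancel' hi.le]
  rw [e1, mul_left_comm] at key
  exact Nat.eq_of_mul_eq_mul_left (Finset.prod_pos fun i _ => pow_pos Fintype.card_pos i) key

/-- A prime dividing the number of totally singular subspaces of `quadFormOdd d`. -/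
theorem dvd_card_odd [Fintype F] {m d r : ℕ} [Fact r.Prime] (hmd : m ≤ d)
    (h : r ∣ Nat.card {W : Submodule F (Unit ⊕ (Fin d ⊕ Fin d) → F) //
      Module.finrank F W = m ∧ ∀ w ∈ W, Cfsg.quadFormOdd d F w = 0}) :
    ¬ r ∣ Fintype.card F ∧ ∃ j, d < j + m ∧ j ≤ d ∧ r ∣ Fintype.card F ^ (2 * j) - 1 := by
  have hr := (Fact.out : r.Prime)
  have key := card_spaces_hypExt (oddQF d F) (qNondeg_of_anisotropic anisotropic_sqQF) hmd (oddEquiv d)
    (oddEquiv_spec d)
  simp only [oddQF_apply, card_zeros_hypExt_odd, Nat.card_eq_fintype_card (α := F)] at key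
  have h' := (h.mul_right _).trans (dvd_of_eq key)
  obtain ⟨i, hi, hi'⟩ := (Prime.dvd_finsetProd_iff hr.prime _).1 h'
  rw [Finset.mem_range] at hi
  refine ⟨fun hq => ?_, d - i, by omega, by omega, hi'⟩
  have h1 : r ∣ Fintype.card F ^ (2 * (d - i)) := dvd_pow hq (by omega)
  have h2 := Nat.dvd_sub h1 hi'
  rw [Nat.sub_sub_self (Nat.one_le_pow _ _ Fintype.card_pos)] at h2
  exact hr.ne_one (Nat.dvd_one.1 h2)

end Cfsg.Agent.Elusive.OrthTS
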