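import Cfsg.Agent.Elusive.TensorRank
import Cfsg.Agent.Elusive.InvariantDim
import Mathlib.LinearAlgebra.Matrix.ToLinearEquiv
import Mathlib.LinearAlgebra.Dimension.Free

/-!
A lower bound for the rank of `A ⊗ B - 1` when both factors move, and the parity of the rank of
`B - 1` for isometries of odd order.
-/

set_option autoImplicit false

namespace Cfsg.Agent.Elusive.Tensor

open Matrix Module
open scoped Kronecker

variable {F : Type*} [Field F]

/-- An isometry of odd order of a nondegenerate bilinear form moves an even number of dimensions. -/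
theorem even_rank_of_isometry {b r : ℕ} (h2 : (2 : F) ≠ 0) (hr : Odd r) (hrF : (r : F) ≠ 0)
    {G B : Matrix (Fin b) (Fin b) F} (hG : G.det ≠ 0) (hB : Bᵀ * G * B = G) (hBr : B ^ r = 1) :
    Even (B - 1).rank := by
  classical
  set f : Module.End F (Fin b → F) := toLinAlgEquiv' B with hf
  set R := LinearMap.range (f - 1)
  have hfr : f ^ r = 1 := by rw [hf, ← map_pow, hBr, map_one]
  have hrk : (B - 1).rank = finrank F R := by
    rw [Matrix.rank]
    show finrank F (LinearMap.range (B - 1).mulVecLin) = finrank F (LinearMap.range (f - 1))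
    have : (B - 1).mulVecLin = f - 1 := LinearMap.ext fun x => by simp [hf, sub_mulVec]
    rw [this]
  set β := Matrix.toBilin' G
  have hβ : ∀ u v, β u v = u ⬝ᵥ (G *ᵥ v) := fun u v => Matrix.toBilin'_apply' G u v
  have hiso : ∀ u v, β (f u) (f v) = β u v := fun u v => by
    show β (B *ᵥ u) (B *ᵥ v) = _
    rw [hβ, hβ]
    conv_rhs => rw [← hB, ← Matrix.mulVec_mulVec, ← Matrix.mulVec_mulVec, Matrix.dotProduct_mulVec u Bᵀ,
      Matrix.vecMul_transpose]
  have hnd : β.Nondegenerate := LinearMap.BilinForm.nondegenerate_toBilin'_of_det_ne_zero' G hG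
  have hdis : ∀ x ∈ R, f x = x → x = 0 := by
    rintro _ ⟨w, rfl⟩ hx
    set x := (f - 1) w
    have hk : ∀ k : ℕ, (f ^ k) w = w + (k : F) • x := by
      intro k
      induction k with
      | zero => simp
      | succ k ih =>
        rw [pow_succ', Module.End.mul_apply, ih, map_add, map_smul, hx]
        have : f w = w + x := by simp [x]
        rw [this, Nat.cast_succ, add_smul, one_smul]; abel
    have h := hk r
    rw [hfr, Module.End.one_apply, left_eq_add, smul_eq_zero] at h
    exact h.resolve_left hrF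
  have hperp : ∀ x ∈ R, ∀ k, f k = k → β x k = 0 := by
    rintro _ ⟨w, rfl⟩ k hk
    rw [LinearMap.sub_apply, Module.End.one_apply, map_sub, LinearMap.sub_apply, sub_eq_zero]
    conv_lhs => rw [← hk]
    exact hiso w k
  have hsup : R ⊔ LinearMap.ker (f - 1) = ⊤ := by
    refine Submodule.eq_top_of_finrank_eq ?_
    have h1 := Submodule.finrank_sup_add_finrank_inf_eq R (LinearMap.ker (f - 1))
    have h2 : finrank F R + finrank F (LinearMap.ker (f - 1)) = finrank F (Fin b → F) :=
      LinearMap.finrank_range_add_finrank_ker (f - 1)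
    have h3 : R ⊓ LinearMap.ker (f - 1) = ⊥ := by
      rw [eq_bot_iff]
      rintro x ⟨hx, hx'⟩
      exact (Submodule.mem_bot F).2 (hdis x hx (sub_eq_zero.1 (LinearMap.mem_ker.1 hx')))
    rw [h3, finrank_bot, add_zero] at h1
    omega
  have hRinv : ∀ x ∈ R, f x ∈ R := by
    rintro _ ⟨w, rfl⟩
    exact ⟨f w, by simp⟩
  let g : Module.End F R := f.restrict hRinv
  let γ : LinearMap.BilinForm F R := β.restrict R
  have hγ : γ.Nondegenerate := by
    have hleft : ∀ x : R, (∀ y : R, γ x y = 0) → x = 0 := by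
      intro x hx
      refine Subtype.ext (hnd.1 x fun y => ?_)
      obtain ⟨y1, hy1, y2, hy2, rfl⟩ := Submodule.mem_sup.1 (hsup ▸ Submodule.mem_top : y ∈ R ⊔ LinearMap.ker (f - 1))
      rw [map_add, hperp x x.2 y2 (sub_eq_zero.1 (LinearMap.mem_ker.1 hy2)), add_zero]
      exact hx ⟨y1, hy1⟩
    exact LinearMap.BilinForm.Nondegenerate.ofSeparatingLeft hleft
  let bs := finBasis F R
  set M := LinearMap.BilinForm.toMatrix bs γ with hM
  set S := LinearMap.toMatrix bs bs g with hS
  have hMdet : M.det ≠ 0 := (LinearMap.BilinForm.nondegenerate_iff_det_ne_zero bs).1 hγ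
  have hSM : Sᵀ * M * S = M := by
    rw [hM, hS, ← LinearMap.BilinForm.toMatrix_comp]
    congr 1
    refine LinearMap.BilinForm.ext fun u v => ?_
    exact hiso u v
  have hSr : S ^ r = 1 := by
    rw [hS, show LinearMap.toMatrix bs bs g = LinearMap.toMatrixAlgEquiv bs g from rfl, ← map_pow]
    rw [show g ^ r = 1 from LinearMap.ext fun x => Subtype.ext (by
      rw [Module.End.pow_restrict r hRinv, LinearMap.coe_restrict_apply, hfr]; rfl), map_one]
  have hne : (1 - S).det ≠ 0 := by
    intro h0
    obtain ⟨v, hv, hv0⟩ := Matrix.exists_mulVec_eq_zero_iff.2 h0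
    refine hv ?_
    rw [sub_mulVec, one_mulVec, sub_eq_zero] at hv0
    have hx : g (bs.equivFun.symm v) = bs.equivFun.symm v := by
      apply bs.equivFun.injective
      rw [LinearEquiv.apply_symm_apply]
      have := LinearMap.toMatrix_mulVec_repr bs bs g (bs.equivFun.symm v)
      rw [← hS] at this
      have hv' : (bs.repr (bs.equivFun.symm v) : Fin (finrank F R) → F) = v := bs.equivFun.apply_symm_apply v
      rw [hv', ← hv0] at this
      exact this.symm
    have h0' := hdis _ (bs.equivFun.symm v).2 (congrArg Subtype.val hx)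
    have : bs.equivFun.symm v = 0 := Subtype.ext h0'
    exact bs.equivFun.symm.injective (this.trans (map_zero _).symm)
  have hdetS : S.det = (-1) ^ finrank F R := by
    have e : (1 - S)ᵀ * (M * S) = M * (S - 1) := by
      rw [transpose_sub, transpose_one, sub_mul, one_mul, ← mul_assoc, hSM, mul_sub, mul_one]
    have := congrArg Matrix.det e
    rw [det_mul, det_mul, det_transpose, det_mul, ← neg_sub 1 S, det_neg, Fintype.card_fin] at this
    have h3 : (1 - S).det * M.det * (S.det - (-1) ^ finrank F R) = 0 := by linear_combination this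
    exact sub_eq_zero.1 ((mul_eq_zero.1 h3).resolve_left (mul_ne_zero hne hMdet))
  have h1 : ((-1 : F) ^ finrank F R) ^ r = 1 := by rw [← hdetS, ← det_pow, hSr, det_one]
  rw [hrk]
  rcases Nat.even_or_odd (finrank F R) with h | h
  · exact h
  · exfalso
    rw [← pow_mul, (h.mul hr).neg_one_pow] at h1
    exact h2 (by linear_combination -h1)

variable {a b : ℕ}

/-- The kernel of `A ⊗ B - 1` is small when `B` moves some cyclic subspace. -/
theorem le_rank_cyclic {A : Matrix (Fin a) (Fin a) F} {B : Matrix (Fin b) (Fin b) F} (hA : IsUnit A)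
    {v : Fin b → F} {U : Submodule F (Fin b → F)} (hU : U = Submodule.span F (Set.range fun k : ℕ => (Bᵀ ^ k) *ᵥ v)) :
    a * finrank F U ≤ (A ⊗ₖ B - 1).rank + a := by
  classical
  obtain ⟨W, hW⟩ := Submodule.exists_isCompl U
  let toM : (Fin a × Fin b → F) →ₗ[F] Matrix (Fin a) (Fin b) F :=
    { toFun := fun X => Matrix.of fun i j => X (i, j)
      map_add' := fun X Y => rfl
      map_smul' := fun c X => rfl }
  set K := LinearMap.ker (A ⊗ₖ B - 1).mulVecLin
  have hK : ∀ X ∈ K, A * toM X * Bᵀ = toM X := by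
    intro X hX
    rw [LinearMap.mem_ker, mulVecLin_apply, sub_mulVec, one_mulVec, sub_eq_zero] at hX
    ext i j
    conv_rhs => rw [show toM X i j = X (i, j) from rfl, ← hX]
    simp only [Matrix.mul_apply, Matrix.mulVec, dotProduct, Matrix.kroneckerMap_apply, Fintype.sum_prod_type,
      Matrix.transpose_apply, Finset.sum_mul, toM, LinearMap.coe_mk, AddHom.coe_mk, Matrix.of_apply]
    rw [Finset.sum_comm]
    exact Finset.sum_congr rfl fun i' _ => Finset.sum_congr rfl fun j' _ =>
      (show A i i' * X (i', j') * B j j' = A i i' * B j j' * X (i', j') by ring)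
  let L : K →ₗ[F] (Fin a → F) × (W →ₗ[F] (Fin a → F)) :=
    { toFun := fun X => (toM X.1 *ᵥ v, (toM X.1).mulVecLin ∘ₗ W.subtype)
      map_add' := fun X Y => by
        refine Prod.ext ?_ (LinearMap.ext fun w => ?_)
        · simp [add_mulVec]
        · simp [add_mulVec]
      map_smul' := fun c X => by
        refine Prod.ext ?_ (LinearMap.ext fun w => ?_)
        · simp [smul_mulVec]
        · simp [smul_mulVec] }
  have hinj : Function.Injective L := by
    refine (injective_iff_map_eq_zero _).2 fun X hX => ?_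
    obtain ⟨hXv, hXW⟩ := Prod.ext_iff.1 hX
    change toM X.1 *ᵥ v = 0 at hXv
    have hpow : ∀ k : ℕ, toM X.1 *ᵥ ((Bᵀ ^ k) *ᵥ v) = 0 := by
      intro k
      induction k with
      | zero => simpa using hXv
      | succ k ih =>
        refine Matrix.mulVec_injective_of_isUnit hA ?_
        show A *ᵥ _ = A *ᵥ 0
        rw [mulVec_zero, pow_succ', ← mulVec_mulVec, mulVec_mulVec _ (toM X.1) Bᵀ, mulVec_mulVec _ A, ← Matrix.mul_assoc,
          hK _ X.2]
        exact ih
    have hzero : ∀ w, toM X.1 *ᵥ w = 0 := by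
      intro w
      obtain ⟨u, hu, w', hw', rfl⟩ :=
        Submodule.mem_sup.1 (hW.sup_eq_top ▸ Submodule.mem_top : w ∈ U ⊔ W)
      have h1 : U ≤ LinearMap.ker (toM X.1).mulVecLin := by
        rw [hU, Submodule.span_le]
        rintro _ ⟨k, rfl⟩
        exact hpow k
      have h2 : toM X.1 *ᵥ w' = 0 := LinearMap.congr_fun hXW ⟨w', hw'⟩
      rw [mulVec_add, h2, add_zero]
      exact h1 hu
    refine Subtype.ext (funext fun p => ?_)
    have := congrFun (hzero (Pi.single p.2 1)) p.1
    rw [mulVec_single_one] at this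
    exact this
  have h1 := LinearMap.finrank_le_finrank_of_injective hinj
  rw [finrank_prod, finrank_linearMap, finrank_fin_fun] at h1
  have h2 := LinearMap.finrank_range_add_finrank_ker (A ⊗ₖ B - 1).mulVecLin
  rw [finrank_fintype_fun_eq_card, Fintype.card_prod, Fintype.card_fin, Fintype.card_fin] at h2
  change (A ⊗ₖ B - 1).rank + finrank F K = a * b at h2
  have h3 := Submodule.finrank_add_eq_of_isCompl hW
  rw [finrank_fin_fun] at h3
  have h4 : a * b = a * finrank F U + finrank F W * a := by
    rw [mul_comm (finrank F W) a, ← mul_add, h3]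
  omega

variable [Fintype F] {r : ℕ} [Fact r.Prime]

/-- If both factors move, `A ⊗ B - 1` has large rank. -/
theorem le_rank_of_pow_eq_one_both {A : Matrix (Fin a) (Fin a) F} {B : Matrix (Fin b) (Fin b) F}
    (hr : ¬ r ∣ Fintype.card F) (hA : IsUnit A) (hB : B ^ r = 1) (hB1 : B ≠ 1) :
    a * orderOf ((Fintype.card F : ℕ) : ZMod r) ≤ (A ⊗ₖ B - 1).rank + a := by
  classical
  set f : Module.End F (Fin b → F) := toLinAlgEquiv' Bᵀ with hf
  have hfr : f ^ r = 1 := by rw [hf, ← map_pow, ← transpose_pow, hB, transpose_one, map_one]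
  have hne : f ≠ 1 := fun h => hB1 (by
    have : Bᵀ = 1 := toLinAlgEquiv'.injective (h.trans (map_one _).symm)
    rw [← transpose_transpose B, this, transpose_one])
  obtain ⟨w, hw⟩ : ∃ w, (f - 1) w ≠ 0 := by
    by_contra! h
    exact hne (sub_eq_zero.1 (LinearMap.ext h))
  set v := (f - 1) w
  set U := Submodule.span F (Set.range fun k : ℕ => (Bᵀ ^ k) *ᵥ v) with hU
  have hinv : ∀ x ∈ U, f x ∈ U := by
    intro x hx
    induction hx using Submodule.span_induction with
    | mem x hx =>
      obtain ⟨k, rfl⟩ := hx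
      refine Submodule.subset_span ⟨k + 1, ?_⟩
      show (Bᵀ ^ (k + 1)) *ᵥ v = Bᵀ *ᵥ ((Bᵀ ^ k) *ᵥ v)
      rw [mulVec_mulVec, pow_succ']
    | zero => simp
    | add x y _ _ hx hy => rw [map_add]; exact add_mem hx hy
    | smul c x _ hx => rw [map_smul]; exact Submodule.smul_mem _ _ hx
  have hrange : U ≤ LinearMap.range (f - 1) := by
    rw [hU, Submodule.span_le]
    rintro _ ⟨k, rfl⟩
    refine ⟨(f ^ k) w, ?_⟩
    have hc : Commute (f - 1) (f ^ k) := ((Commute.pow_self f k).symm.sub_left (Commute.one_left _))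
    rw [← Module.End.mul_apply, hc.eq, Module.End.mul_apply, hf, ← map_pow]
    rfl
  have hrF : (r : F) ≠ 0 := by
    intro h
    obtain ⟨p, hp⟩ := CharP.exists F
    have : Fact p.Prime := ⟨(CharP.char_is_prime_or_zero F p).resolve_right (CharP.char_ne_zero_of_finite F p)⟩
    obtain ⟨e, -, he⟩ := FiniteField.card F p
    rw [CharP.cast_eq_zero_iff F p, Nat.prime_dvd_prime_iff_eq this.out Fact.out] at h
    exact hr (he ▸ h ▸ dvd_pow_self p e.pos.ne')
  have hbot : U ⊓ LinearMap.ker (f - 1) = ⊥ := by
    rw [eq_bot_iff]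
    rintro x ⟨hx, hx'⟩
    obtain ⟨y, rfl⟩ := hrange hx
    have hxx : f ((f - 1) y) = (f - 1) y := sub_eq_zero.1 (LinearMap.mem_ker.1 hx')
    have hk : ∀ k : ℕ, (f ^ k) y = y + (k : F) • (f - 1) y := by
      intro k
      induction k with
      | zero => simp
      | succ k ih =>
        rw [pow_succ', Module.End.mul_apply, ih, map_add, map_smul, hxx]
        have : f y = y + (f - 1) y := by simp
        conv_lhs => rw [this]
        rw [Nat.cast_succ, add_smul, one_smul]; abel
    have h := hk r
    rw [hfr, Module.End.one_apply, left_eq_add, smul_eq_zero] at h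
    exact (Submodule.mem_bot F).2 (h.resolve_left hrF)
  obtain ⟨t, ht, -⟩ := finrank_invariant hfr hr hinv
  rw [hbot, finrank_bot, zero_add] at ht
  have ht0 : 0 < t := by
    rcases Nat.eq_zero_or_pos t with rfl | h
    · exfalso
      rw [zero_mul, Submodule.finrank_eq_zero] at ht
      refine hw ((Submodule.mem_bot F).1 (ht ▸ ?_))
      exact Submodule.subset_span ⟨0, by simp⟩
    · exact h
  have h1 := le_rank_cyclic (A := A) (B := B) hA hU
  rw [ht] at h1
  have h2 : a * orderOf ((Fintype.card F : ℕ) : ZMod r) ≤ a * (t * orderOf ((Fintype.card F : ℕ) : ZMod r)) :=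
    Nat.mul_le_mul_left _ (Nat.le_mul_of_pos_left _ ht0)
  omega

end Cfsg.Agent.Elusive.Tensor
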