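import Cfsg.Agent.Elusive.SympOrder
import Cfsg.Agent.Elusive.TensorForms

/-!
Isometries of odd prime order of a nondegenerate symmetric bilinear form in odd characteristic:
orthogonal sums of invariant nondegenerate subspaces.
-/

set_option autoImplicit false

namespace Cfsg.Agent.Elusive.Orth

open Polynomial Submodule

variable {F : Type*} [Field F] {V : Type*} [AddCommGroup V] [Module F V]

theorem symm_zero {B : LinearMap.BilinForm F V} (hA : B.IsSymm) {x y : V} (h : B x y = 0) : B y x = 0 :=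
  (hA.eq y x).trans h

theorem nonDegOn_sup {B : LinearMap.BilinForm F V} (hA : B.IsSymm) {X Y : Submodule F V} (hX : NonDegOn B X)
    (hY : NonDegOn B Y) (ho : ∀ x ∈ X, ∀ y ∈ Y, B x y = 0) : NonDegOn B (X ⊔ Y) := by
  intro z hz h
  obtain ⟨x, hx, y, hy, rfl⟩ := mem_sup.1 hz
  have h1 : x = 0 := hX x hx fun x' hx' => by
    have := h x' (mem_sup_left hx')
    rwa [map_add, LinearMap.add_apply, symm_zero hA (ho x' hx' y hy), add_zero] at this
  subst h1
  rw [zero_add] at h ⊢
  exact hY y hy fun y' hy' => h y' (mem_sup_right hy')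

theorem nonDegOn_restrict {B : LinearMap.BilinForm F V} (hA : B.IsSymm) {W : Submodule F V} (hW : NonDegOn B W) :
    (B.restrict W).IsSymm ∧ (B.restrict W).Nondegenerate :=
  ⟨⟨fun x y => hA.eq x.1 y.1⟩, fun x h => Subtype.ext (hW x x.2 fun y hy => h ⟨y, hy⟩),
    fun y h => Subtype.ext (hW y y.2 fun x hx => symm_zero hA (h ⟨x, hx⟩))⟩

variable [FiniteDimensional F V]

theorem nonDegOn_split {B : LinearMap.BilinForm F V} (hA : B.IsSymm) {W U : Submodule F V} (hUW : U ≤ W)
    (hU : NonDegOn B U) (hW : NonDegOn B W) :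
    U ⊔ W ⊓ B.orthogonal U = W ∧ Disjoint U (W ⊓ B.orthogonal U) ∧ NonDegOn B (W ⊓ B.orthogonal U) := by
  have hc := LinearMap.BilinForm.isCompl_orthogonal_of_restrict_nondegenerate (fun _ _ h => symm_zero hA h)
    (nonDegOn_restrict hA hU).2
  have hsup : U ⊔ W ⊓ B.orthogonal U = W := by
    rw [inf_comm, ← sup_inf_assoc_of_le _ hUW, hc.sup_eq_top, top_inf_eq]
  refine ⟨hsup, hc.disjoint.mono_right inf_le_right, fun x hx h => hW x hx.1 fun w hw => ?_⟩
  rw [← hsup] at hw
  obtain ⟨u, hu, y, hy, rfl⟩ := mem_sup.1 hw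
  rw [map_add, h y hy, symm_zero hA (hx.2 u hu), add_zero]

/-- Repeatedly splitting off pieces of dimension `c`. -/
theorem exists_nonDegOn_mult {B : LinearMap.BilinForm F V} (hA : B.IsSymm) {f : Module.End F V}
    (hB : ∀ u v, B (f u) (f v) = B u v) (hf : Function.Injective f) {c : ℕ} (W : Submodule F V)
    (hW : ∀ v ∈ W, f v ∈ W) (hN : NonDegOn B W)
    (step : ∀ Y ≤ W, (∀ v ∈ Y, f v ∈ Y) → NonDegOn B Y → Y ≠ ⊥ →
      ∃ U ≤ Y, (∀ v ∈ U, f v ∈ U) ∧ NonDegOn B U ∧ Module.finrank F U = c)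
    (j : ℕ) (hj : j * c ≤ Module.finrank F W) :
    ∃ U ≤ W, (∀ v ∈ U, f v ∈ U) ∧ NonDegOn B U ∧ Module.finrank F U = j * c := by
  induction j with
  | zero => exact ⟨⊥, bot_le, fun v hv => by simp_all, nonDegOn_bot B, by simp⟩
  | succ j ih =>
    rw [Nat.succ_mul] at hj
    obtain ⟨U, hUW, hU, hUN, hUd⟩ := ih (by omega)
    obtain ⟨hsup, hdis, hYN⟩ := nonDegOn_split hA hUW hUN hN
    have hY : ∀ v ∈ W ⊓ B.orthogonal U, f v ∈ W ⊓ B.orthogonal U :=
      fun v hv => ⟨hW v hv.1, orthogonal_invariant hB hf hU v hv.2⟩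
    rcases Nat.eq_zero_or_pos c with rfl | hc
    · exact ⟨U, hUW, hU, hUN, by simpa using hUd⟩
    obtain ⟨U', hU'Y, hU', hU'N, hU'd⟩ := step _ inf_le_left hY hYN fun h => by
      have := finrank_eq_add_of_disjoint hsup hdis
      rw [h, finrank_bot] at this; omega
    refine ⟨U ⊔ U', sup_le hUW (hU'Y.trans inf_le_left), fun v hv => ?_,
      nonDegOn_sup hA hUN hU'N fun x hx y hy => (hU'Y hy).2 x hx, ?_⟩
    · obtain ⟨a, ha, b, hb, rfl⟩ := mem_sup.1 hv
      rw [map_add]
      exact add_mem_sup (hU a ha) (hU' b hb)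
    · rw [finrank_eq_add_of_disjoint rfl (hdis.mono_right hU'Y), hUd, hU'd, Nat.succ_mul]

section order

variable [Fintype F] {r : ℕ} [Fact r.Prime] {B : LinearMap.BilinForm F V} {f : Module.End F V}

/-- The fixed part of a nondegenerate invariant subspace is nondegenerate. -/
theorem nonDegOn_inf_ker (hB : ∀ u v, B (f u) (f v) = B u v) (hf : f ^ r = 1)
    (hr : ¬ r ∣ Fintype.card F) {W : Submodule F V} (hW : ∀ v ∈ W, f v ∈ W) (hN : NonDegOn B W) :
    NonDegOn B (W ⊓ LinearMap.ker (f - 1)) := by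
  set C := LinearMap.ker (f - 1)
  have hmem : ∀ {v}, v ∈ C ↔ f v = v := fun {v} => by
    rw [LinearMap.mem_ker, LinearMap.sub_apply, Module.End.one_apply, sub_eq_zero]
  obtain ⟨Y, hYW, hY, hsup, hd⟩ := exists_invariant_compl (semisimple_of_order hf hr) hW
    (X := W ⊓ C) (fun v hv => by rw [hmem.1 hv.2]; exact hv) inf_le_left
  intro x hx h
  refine hN x hx.1 fun w hw => ?_
  rw [← hsup] at hw
  obtain ⟨c, hc, y, hy, rfl⟩ := mem_sup.1 hw
  rw [map_add, h c hc, zero_add]
  let φ : Y →ₗ[F] Y := f.restrict hY - LinearMap.id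
  have hφ : Function.Injective φ := (injective_iff_map_eq_zero _).2 fun z hz => Subtype.ext
    (Submodule.disjoint_def.1 hd _ ⟨hYW z.2, hmem.2 (sub_eq_zero.1 (congrArg Subtype.val hz))⟩ z.2)
  obtain ⟨z, hz⟩ := LinearMap.injective_iff_surjective.1 hφ ⟨y, hy⟩
  have hz' : f z.1 - z.1 = y := congrArg Subtype.val hz
  rw [← hz', map_sub]
  conv_lhs => arg 1; rw [← hmem.1 hx.2]
  rw [hB, sub_self]

/-- A nondegenerate invariant subspace without fixed vectors has even dimension. -/
theorem even_finrank_of_fixed_free (hA : B.IsSymm) (h2 : (2 : F) ≠ 0) (hB : ∀ u v, B (f u) (f v) = B u v) (hf : f ^ r = 1)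
    (hr : ¬ r ∣ Fintype.card F) (hr2 : r ≠ 2) {W : Submodule F V} (hW : ∀ v ∈ W, f v ∈ W) (hN : NonDegOn B W)
    (hC : Disjoint (LinearMap.ker (f - 1)) W) : Even (Module.finrank F W) := by
  classical
  have hrp : r.Prime := Fact.out
  have hrF : (r : F) ≠ 0 := fun h => by
    obtain ⟨p, hp⟩ := CharP.exists F
    have : Fact p.Prime := ⟨(CharP.char_is_prime_or_zero F p).resolve_right (CharP.char_ne_zero_of_finite F p)⟩
    obtain ⟨e, -, he⟩ := FiniteField.card F p
    rw [CharP.cast_eq_zero_iff F p, Nat.prime_dvd_prime_iff_eq this.out hrp] at h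
    exact hr (he ▸ h ▸ dvd_pow_self p e.pos.ne')
  let bs := Module.finBasis F W
  set g : Module.End F W := f.restrict hW with hg
  have hgr : g ^ r = 1 := LinearMap.ext fun x => Subtype.ext (by
    rw [hg, Module.End.pow_restrict r hW, LinearMap.coe_restrict_apply, hf]; rfl)
  set S := LinearMap.toMatrixAlgEquiv bs g with hS
  have hev := Tensor.even_rank_of_isometry h2 (hrp.odd_of_ne_two hr2) hrF
    (G := LinearMap.BilinForm.toMatrix bs (B.restrict W)) (B := S)
    ((LinearMap.BilinForm.nondegenerate_iff_det_ne_zero bs).1 (nonDegOn_restrict hA hN).2)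
    (by
      rw [hS]
      show (LinearMap.toMatrix bs bs g).transpose * _ * LinearMap.toMatrix bs bs g = _
      rw [← LinearMap.BilinForm.toMatrix_comp]
      congr 1
      exact LinearMap.BilinForm.ext fun u v => hB u v)
    (by rw [hS, ← map_pow, hgr, map_one])
  have hu : IsUnit (S - 1) := by
    rw [hS, ← map_one (LinearMap.toMatrixAlgEquiv bs), ← map_sub]
    refine IsUnit.map _ ((Module.End.isUnit_iff _).2 ?_)
    have hinj : Function.Injective (g - 1 : Module.End F W) := (injective_iff_map_eq_zero _).2 fun x hx =>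
      Subtype.ext (Submodule.disjoint_def.1 hC _ (LinearMap.mem_ker.2 (congrArg Subtype.val hx)) x.2)
    exact ⟨hinj, LinearMap.injective_iff_surjective.1 hinj⟩
  rwa [Matrix.rank_of_isUnit _ hu, Fintype.card_fin] at hev

/-- A nondegenerate invariant subspace without fixed vectors contains one of dimension `c`, where `c` is the
least even multiple of the order of `q` modulo `r`. -/
theorem exists_nonDegOn_small (hA : B.IsSymm) (h2 : (2 : F) ≠ 0) (hB : ∀ u v, B (f u) (f v) = B u v) (hf : f ^ r = 1)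
    (hr : ¬ r ∣ Fintype.card F) (hr2 : r ≠ 2) {W : Submodule F V} (hW : ∀ v ∈ W, f v ∈ W) (hN : NonDegOn B W)
    (hC : Disjoint (LinearMap.ker (f - 1)) W) (hne : W ≠ ⊥) {i c : ℕ}
    (hi : i = orderOf ((Fintype.card F : ℕ) : ZMod r)) (hc : c = if Even i then i else 2 * i) :
    ∃ U ≤ W, (∀ v ∈ U, f v ∈ U) ∧ NonDegOn B U ∧ Module.finrank F U = c := by
  classical
  have hinj := injective_of_pow_eq_one (r := r) hf
  have hi0 : 0 < i := hi ▸ orderOf_pos_of_not_dvd hr
  have hirr : ∀ (U X : Submodule F V), U ≤ W → Module.finrank F U = i → X ≤ U → (∀ v ∈ X, f v ∈ X) →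
      X = ⊥ ∨ X = U := by
    intro U X hUW hUd hXU hX
    obtain ⟨k, hk, -⟩ := finrank_invariant hf hr hX
    rw [← hi, (hC.mono_right (hXU.trans hUW)).symm.eq_bot, finrank_bot, zero_add] at hk
    rcases Nat.eq_zero_or_pos k with rfl | hk0
    · rw [zero_mul, finrank_eq_zero] at hk; exact Or.inl hk
    · exact Or.inr (eq_of_le_of_finrank_le hXU (by rw [hk, hUd]; exact Nat.le_mul_of_pos_left _ hk0))
  have hiso : ∀ U ≤ W, (∀ v ∈ U, f v ∈ U) → Module.finrank F U = i → ¬ NonDegOn B U →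
      ∀ x ∈ U, ∀ y ∈ U, B x y = 0 := by
    intro U hUW hU hUd hnd x hx y hy
    rcases hirr U (U ⊓ B.orthogonal U) hUW hUd inf_le_left
      (fun v hv => ⟨hU v hv.1, orthogonal_invariant hB hinj hU v hv.2⟩) with h | h
    · refine absurd (fun z hz hzU => (mem_bot F).1 (h ▸ ⟨hz, fun w hw => symm_zero hA (hzU w hw)⟩)) hnd
    · exact (h.symm ▸ hy : y ∈ U ⊓ B.orthogonal U).2 x hx
  obtain ⟨U, hUW, hU, hUd⟩ := exists_small_of_pow_eq_one hf hr hW hC hne
  rw [← hi] at hUd
  by_cases hUN : NonDegOn B U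
  · refine ⟨U, hUW, hU, hUN, ?_⟩
    have := even_finrank_of_fixed_free hA h2 hB hf hr hr2 hU hUN (hC.mono_right hUW)
    rw [hUd] at this
    rw [hc, if_pos this, hUd]
  have hUi := hiso U hUW hU hUd hUN
  have hperp : ∀ v ∈ W ⊓ B.orthogonal U, f v ∈ W ⊓ B.orthogonal U :=
    fun v hv => ⟨hW v hv.1, orthogonal_invariant hB hinj hU v hv.2⟩
  obtain ⟨R, hRW, hR, hsup, hd⟩ := exists_invariant_compl (semisimple_of_order hf hr) hW hperp inf_le_left
  have hpair : ∀ u ∈ U, (∀ v ∈ R, B u v = 0) → u = 0 := fun u hu h => hN u (hUW hu) fun w hw => by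
    rw [← hsup] at hw
    obtain ⟨a, ha, b, hb, rfl⟩ := mem_sup.1 hw
    rw [map_add, h b hb, ha.2 u hu, add_zero]
  have hpair' : ∀ v ∈ R, (∀ u ∈ U, B u v = 0) → v = 0 := fun v hv h =>
    Submodule.disjoint_def.1 hd v ⟨hRW hv, h⟩ hv
  have hRd : Module.finrank F R = i := by
    let φ : R →ₗ[F] Module.Dual F U := ((LinearMap.lcomp F F U.subtype).comp B.flip).comp R.subtype
    have hφ : Function.Injective φ := (injective_iff_map_eq_zero _).2 fun v hv =>
      Subtype.ext (hpair' v v.2 fun u hu => LinearMap.congr_fun hv ⟨u, hu⟩)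
    let ψ : U →ₗ[F] Module.Dual F R := ((LinearMap.lcomp F F R.subtype).comp B).comp U.subtype
    have hψ : Function.Injective ψ := (injective_iff_map_eq_zero _).2 fun u hu =>
      Subtype.ext (hpair u u.2 fun v hv => LinearMap.congr_fun hu ⟨v, hv⟩)
    have h1 := LinearMap.finrank_le_finrank_of_injective hφ
    have h2 := LinearMap.finrank_le_finrank_of_injective hψ
    rw [Subspace.dual_finrank_eq] at h1 h2
    omega
  by_cases hev : Even i
  swap
  · have hRi := hiso R hRW hR hRd fun h => hev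
      (hRd ▸ even_finrank_of_fixed_free hA h2 hB hf hr hr2 hR h (hC.mono_right hRW))
    refine ⟨U ⊔ R, sup_le hUW hRW, fun v hv => ?_, fun x hx h => ?_, ?_⟩
    · obtain ⟨a, ha, b, hb, rfl⟩ := mem_sup.1 hv
      rw [map_add]
      exact add_mem_sup (hU a ha) (hR b hb)
    · obtain ⟨u, hu, v, hv, rfl⟩ := mem_sup.1 hx
      have hv0 : v = 0 := hpair' v hv fun u' hu' => by
        have := h u' (mem_sup_left hu')
        rw [map_add, LinearMap.add_apply, hUi u hu u' hu', zero_add] at this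
        exact symm_zero hA this
      subst hv0
      rw [add_zero] at h ⊢
      exact hpair u hu fun v' hv' => h v' (mem_sup_right hv')
    · rw [finrank_eq_add_of_disjoint rfl, hUd, hRd, hc, if_neg hev, two_mul]
      exact Submodule.disjoint_def.2 fun x hxU hxR => hpair' x hxR fun u hu => hUi u hu x hxU
  · rw [if_pos hev] at hc
    have : Fintype (⊤ : Subfield F) := Fintype.ofFinite _
    have hcard : Fintype.card (⊤ : Subfield F) = Fintype.card F :=
      Fintype.card_congr (Subfield.topEquiv (K := F)).toEquiv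
    obtain ⟨v₀, P, hv₀, hv₀0, hP, hPm, -, hPv⟩ := exists_annihilator (⊤ : Subfield F) hr (by rwa [hcard])
      (by rw [hcard]) hf hU (fun h => by rw [h, finrank_bot] at hUd; omega)
    have hcyc : ∀ v, aeval f P v = 0 → v ≠ 0 →
        ∃ S : Submodule F V, v ∈ S ∧ (∀ w ∈ S, f w ∈ S) ∧ Module.finrank F S = P.natDegree ∧
          ∀ X : Submodule F V, (∀ w ∈ X, f w ∈ X) → v ∈ X → S ≤ X := by
      intro v hv hv0
      set w := fun j : Fin P.natDegree => (f ^ (j : ℕ)) v
      have hS : ∀ x ∈ span F (Set.range w), f x ∈ span F (Set.range w) := by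
        intro x hx
        induction hx using Submodule.span_induction with
        | mem x hx =>
          obtain ⟨j, rfl⟩ := hx
          exact Submodule.span_le_restrictScalars (⊤ : Subfield F) F (Set.range w)
            (apply_cyclic_mem_span (⊤ : Subfield F) hPm (fun _ => trivial) hv j)
        | zero => simp
        | add x y _ _ hx hy => rw [map_add]; exact add_mem hx hy
        | smul a x _ hx => rw [map_smul]; exact smul_mem _ a hx
      refine ⟨_, ?_, hS, ?_, fun X hX hvX => span_le.2 ?_⟩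
      · exact subset_span ⟨⟨0, hP.natDegree_pos⟩, by simp [w]⟩
      · rw [finrank_span_eq_card (linearIndependent_pow_apply hP hv hv0), Fintype.card_fin]
      · rintro _ ⟨j, rfl⟩
        show (f ^ (j : ℕ)) v ∈ X
        generalize (j : ℕ) = m
        induction m with
        | zero => simpa using hvX
        | succ m ih => rw [pow_succ', Module.End.mul_apply]; exact hX _ ih
    have hdeg : P.natDegree = i := by
      obtain ⟨S, hvS, hS, hSd, hSmin⟩ := hcyc v₀ hPv hv₀0
      rcases hirr U S hUW hUd (hSmin U hU hv₀) hS with h | h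
      · exact absurd ((mem_bot F).1 (h ▸ hvS)) hv₀0
      · rw [← hSd, h, hUd]
    have hUk : ∀ u ∈ U, aeval f P u = 0 := by
      have : U ⊓ LinearMap.ker (aeval f P) = U := by
        refine (hirr U _ hUW hUd inf_le_left fun v hv => ⟨hU v hv.1, ?_⟩).resolve_left fun h =>
          hv₀0 ((mem_bot F).1 (h ▸ ⟨hv₀, hPv⟩))
        show aeval f P (f v) = 0
        rw [← Module.End.mul_apply, show aeval f P * f = f * aeval f P by
          conv_lhs => arg 2; rw [← aeval_X (R := F) f]
          rw [← map_mul, mul_comm, map_mul, aeval_X], Module.End.mul_apply, show aeval f P v = 0 from hv.2, map_zero]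
      exact fun u hu => (this.symm ▸ hu : u ∈ U ⊓ _).2
    obtain ⟨i', hi'⟩ := hev
    set q := Fintype.card F
    have hinv : aeval (f ^ (r - 1)) P = aeval f P ^ q ^ i' := by
      have hexp : ∀ s : ℕ, expand F (q ^ s) P = P ^ q ^ s := by
        intro s
        induction s with
        | zero => simp
        | succ s ih => rw [pow_succ' q, ← expand_expand, ih, map_pow, FiniteField.expand_card, ← pow_mul]
      rw [← map_pow, ← hexp, expand_aeval, pow_eq_pow_mod (q ^ i') hf]
      congr 2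
      have h1 : ((q : ZMod r) ^ i') * ((q : ZMod r) ^ i') = 1 := by
        rw [← pow_add, ← hi', hi, pow_orderOf_eq_one]
      have h2 : ((q : ZMod r) ^ i') ≠ 1 := fun h => by
        have := Nat.le_of_dvd (by omega) (hi ▸ orderOf_dvd_of_pow_eq_one h)
        omega
      have h3 := ((mul_self_eq_one_iff.1 h1).resolve_left h2)
      have h4 : ((q ^ i' : ℕ) : ZMod r) = ((r - 1 : ℕ) : ZMod r) := by
        rw [Nat.cast_pow, h3, Nat.cast_sub (Fact.out : r.Prime).one_le, ZMod.natCast_self, Nat.cast_one, zero_sub]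
      rw [ZMod.natCast_eq_natCast_iff'] at h4
      rw [h4, Nat.mod_eq_of_lt (by have := (Fact.out : r.Prime).pos; omega)]
    have hRk : ∀ v ∈ R, aeval f P v = 0 := fun v hv => hpair' _ (aeval_mem hR P v hv) fun u hu => by
      rw [sympBil_aeval_adjoint hB hf, hinv]
      have : (aeval f P ^ q ^ i') u = 0 := by
        rw [← Nat.sub_add_cancel (Nat.one_le_pow i' q Fintype.card_pos), pow_succ, Module.End.mul_apply, hUk u hu, map_zero]
      rw [this, map_zero, LinearMap.zero_apply]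
    let Y := W ⊓ LinearMap.ker (aeval f P)
    by_contra hcon
    have hvv : ∀ v ∈ Y, B v v = 0 := by
      intro v hv
      rcases eq_or_ne v 0 with rfl | hv0
      · simp
      obtain ⟨S, hvS, hS, hSd, hSmin⟩ := hcyc v hv.2 hv0
      rw [hdeg] at hSd
      have hSW := hSmin W hW hv.1
      refine hiso S hSW hS hSd (fun h => hcon ⟨S, hSW, hS, h, hSd.trans hc.symm⟩) v hvS _ hvS
    have hYiso : ∀ u ∈ Y, ∀ w ∈ Y, B u w = 0 := by
      intro u hu w hw
      have h1 := hvv (u + w) (add_mem hu hw)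
      simp only [map_add, LinearMap.add_apply, hvv u hu, hvv w hw, zero_add, add_zero, hA.eq w u, ← two_mul] at h1
      exact (mul_eq_zero.1 h1).resolve_left h2
    obtain ⟨u, hu, hu0⟩ := exists_mem_ne_zero_of_ne_bot (p := U) (fun h => by rw [h, finrank_bot] at hUd; omega)
    exact hu0 (hpair u hu fun v hv => hYiso u ⟨hUW hu, hUk u hu⟩ v ⟨hRW hv, hRk v hv⟩)

/-- The moving part of a nondegenerate invariant subspace. -/
theorem exists_moving_part (hA : B.IsSymm) (h2 : (2 : F) ≠ 0) (hB : ∀ u v, B (f u) (f v) = B u v) (hf : f ^ r = 1)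
    (hr : ¬ r ∣ Fintype.card F) (hr2 : r ≠ 2) {W : Submodule F V} (hW : ∀ v ∈ W, f v ∈ W) (hN : NonDegOn B W)
    {i c : ℕ} (hi : i = orderOf ((Fintype.card F : ℕ) : ZMod r)) (hc : c = if Even i then i else 2 * i) :
    ∃ M ≤ W, (∀ v ∈ M, f v ∈ M) ∧ NonDegOn B M ∧ (∀ x ∈ W ⊓ LinearMap.ker (f - 1), ∀ y ∈ M, B x y = 0) ∧
      Disjoint (LinearMap.ker (f - 1)) M ∧ W ⊓ LinearMap.ker (f - 1) ⊔ M = W ∧
      (∀ j, j * c ≤ Module.finrank F M → ∃ U ≤ M, (∀ v ∈ U, f v ∈ U) ∧ NonDegOn B U ∧ Module.finrank F U = j * c) ∧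
      ∃ j, Module.finrank F W = Module.finrank F ↥(W ⊓ LinearMap.ker (f - 1)) + j * c ∧
        Module.finrank F M = j * c := by
  set C := LinearMap.ker (f - 1) with hCdef
  have hinj := injective_of_pow_eq_one (r := r) hf
  have hCN := nonDegOn_inf_ker hB hf hr hW hN
  obtain ⟨hsup, hd, hMN⟩ := nonDegOn_split hA inf_le_left hCN hN
  set M := W ⊓ B.orthogonal (W ⊓ C)
  have hCinv : ∀ v ∈ W ⊓ C, f v ∈ W ⊓ C := fun v hv => by
    have : f v = v := sub_eq_zero.1 (LinearMap.mem_ker.1 hv.2)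
    rwa [this]
  have hM : ∀ v ∈ M, f v ∈ M := fun v hv => ⟨hW v hv.1, orthogonal_invariant hB hinj hCinv v hv.2⟩
  have hCM : Disjoint C M := Submodule.disjoint_def.2 fun v hv hv' =>
    Submodule.disjoint_def.1 hd v ⟨hv'.1, hv⟩ hv'
  have step : ∀ Y ≤ M, (∀ v ∈ Y, f v ∈ Y) → NonDegOn B Y → Y ≠ ⊥ →
      ∃ U ≤ Y, (∀ v ∈ U, f v ∈ U) ∧ NonDegOn B U ∧ Module.finrank F U = c :=
    fun Y hYM hY hYN hne => exists_nonDegOn_small hA h2 hB hf hr hr2 hY hYN (hCM.mono_right hYM) hne hi hc
  have hmult := exists_nonDegOn_mult hA hB hinj M hM hMN step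
  refine ⟨M, inf_le_left, hM, hMN, fun x hx y hy => hy.2 x hx, hCM, hsup, hmult, Module.finrank F M / c, ?_⟩
  have hdvd : Module.finrank F M = Module.finrank F M / c * c := by
    obtain ⟨U, hUM, hU, hUN, hUd⟩ := hmult (Module.finrank F M / c) (Nat.div_mul_le_self _ _)
    obtain ⟨hsup', hd', hRN⟩ := nonDegOn_split hA hUM hUN hMN
    have hsum := finrank_eq_add_of_disjoint hsup' hd'
    rcases eq_or_ne (M ⊓ B.orthogonal U) ⊥ with h | h
    · rw [h, finrank_bot, add_zero, hUd] at hsum; exact hsum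
    · obtain ⟨U', hU'R, -, -, hU'd⟩ := step _ inf_le_left
        (fun v hv => ⟨hM v hv.1, orthogonal_invariant hB hinj hU v hv.2⟩) hRN h
      have h1 := Submodule.finrank_mono hU'R
      have h2 := Nat.div_add_mod' (Module.finrank F M) c
      have hi0 : 0 < i := hi ▸ orderOf_pos_of_not_dvd hr
      have hc0 : 0 < c := by rw [hc]; split_ifs <;> omega
      have h3 := Nat.mod_lt (Module.finrank F M) hc0
      omega
  exact ⟨by rw [finrank_eq_add_of_disjoint hsup hd, ← hdvd], hdvd⟩

/-- An isometry agreeing with `f` on a nondegenerate invariant subspace and trivial on its orthogonal. -/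
theorem exists_isometry_on (hA : B.IsSymm) (hB : ∀ u v, B (f u) (f v) = B u v) {U : Submodule F V}
    (hU : ∀ v ∈ U, f v ∈ U) (hN : NonDegOn B U) :
    ∃ g : Module.End F V, (∀ u v, B (g u) (g v) = B u v) ∧ (∀ v ∈ U, g v = f v) ∧
      (∀ v ∈ B.orthogonal U, g v = v) ∧ IsCompl U (B.orthogonal U) := by
  have hc := LinearMap.BilinForm.isCompl_orthogonal_of_restrict_nondegenerate (fun _ _ h => symm_zero hA h)
    (nonDegOn_restrict hA hN).2
  refine ⟨LinearMap.ofIsCompl hc (f ∘ₗ U.subtype) (B.orthogonal U).subtype, fun u v => ?_, fun v hv => ?_,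
    fun v hv => ?_, hc⟩
  · obtain ⟨a, ha, a', ha', rfl⟩ := mem_sup.1 (hc.sup_eq_top ▸ mem_top : u ∈ U ⊔ B.orthogonal U)
    obtain ⟨b, hb, b', hb', rfl⟩ := mem_sup.1 (hc.sup_eq_top ▸ mem_top : v ∈ U ⊔ B.orthogonal U)
    have key : ∀ (a a' : V), a ∈ U → a' ∈ B.orthogonal U →
        LinearMap.ofIsCompl hc (f ∘ₗ U.subtype) (B.orthogonal U).subtype (a + a') = f a + a' := fun a a' ha ha' => by
      rw [map_add]
      exact congrArg₂ (· + ·) (LinearMap.ofIsCompl_apply_left hc ⟨a, ha⟩) (LinearMap.ofIsCompl_apply_right hc ⟨a', ha'⟩)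
    rw [key a a' ha ha', key b b' hb hb']
    simp only [map_add, LinearMap.add_apply]
    rw [hB, symm_zero hA (ha' _ (hU b hb)), symm_zero hA (ha' b hb), hb' (f a) (hU a ha), hb' a ha]
  · exact LinearMap.ofIsCompl_apply_left hc ⟨v, hv⟩
  · exact LinearMap.ofIsCompl_apply_right hc ⟨v, hv⟩

end order

end Cfsg.Agent.Elusive.Orth
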