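import Cfsg.Agent.Elusive.SympOrder
import Cfsg.Agent.ClassConj.FormConj

/-!
Totally isotropic invariant subspaces for isometries of odd prime order.
-/

namespace Cfsg.Agent.Elusive

open Polynomial Submodule

variable {F : Type*} [Field F] {V : Type*} [AddCommGroup V] [Module F V]

/-- The form vanishes on `X`. -/
def IsoOn (B : LinearMap.BilinForm F V) (X : Submodule F V) : Prop := ∀ x ∈ X, ∀ y ∈ X, B x y = 0

theorem isoOn_bot (B : LinearMap.BilinForm F V) : IsoOn B ⊥ := fun x hx y _ => by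
  rw [(mem_bot F).1 hx, map_zero, LinearMap.zero_apply]

theorem isoOn_sup {B : LinearMap.BilinForm F V} (hA : B.IsAlt) {X Y : Submodule F V} (hX : IsoOn B X)
    (hY : IsoOn B Y) (ho : ∀ x ∈ X, ∀ y ∈ Y, B x y = 0) : IsoOn B (X ⊔ Y) := by
  intro u hu v hv
  obtain ⟨x, hx, y, hy, rfl⟩ := mem_sup.1 hu
  obtain ⟨x', hx', y', hy', rfl⟩ := mem_sup.1 hv
  simp only [map_add, LinearMap.add_apply, hX x hx x' hx', ho x hx y' hy',
    alt_symm_zero hA (ho x' hx' y hy), hY y hy y' hy', add_zero]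

variable [FiniteDimensional F V]

theorem two_mul_finrank_le {B : LinearMap.BilinForm F V} {W X : Submodule F V} (hXW : X ≤ W)
    (hW : NonDegOn B W) (hX : IsoOn B X) : 2 * Module.finrank F X ≤ Module.finrank F W := by
  let Ψ : X →ₗ[F] Module.Dual F W := ((LinearMap.lcomp F F W.subtype).comp B).comp X.subtype
  have hΨ : Function.Injective Ψ := (injective_iff_map_eq_zero _).2 fun x hx =>
    Subtype.ext (hW x (hXW x.2) fun y hy => LinearMap.congr_fun hx ⟨y, hy⟩)
  let X' : Submodule F W := X.comap W.subtype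
  have hle : LinearMap.range Ψ ≤ X'.dualAnnihilator := by
    rintro _ ⟨x, rfl⟩
    rw [Submodule.mem_dualAnnihilator]
    intro w hw
    exact hX x x.2 w hw
  have h1 := Submodule.finrank_mono hle
  rw [LinearMap.finrank_range_of_inj hΨ] at h1
  have h2 := Subspace.finrank_add_finrank_dualAnnihilator_eq X'
  have h3 : Module.finrank F X' = Module.finrank F X := (comapSubtypeEquivOfLe hXW).finrank_eq
  omega

/-- A nondegenerate subspace has isotropic subspaces of every dimension up to one half. -/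
theorem exists_isoOn {B : LinearMap.BilinForm F V} (hA : B.IsAlt) {W : Submodule F V} (hW : NonDegOn B W)
    {a : ℕ} (ha : 2 * a ≤ Module.finrank F W) : ∃ X ≤ W, IsoOn B X ∧ Module.finrank F X = a := by
  obtain ⟨hA', hN'⟩ := nonDegOn_restrict hA hW
  obtain ⟨m, b, hef, hee, hff⟩ := Forms.exists_symplectic_basis hA' hN'
  have hm : a ≤ m := by
    rw [Module.finrank_eq_card_basis b, Fintype.card_sum, Fintype.card_fin] at ha; omega
  refine ⟨span F (Set.range fun l : Fin a => (b (.inl (Fin.castLE hm l)) : V)), span_le.2 ?_, ?_, ?_⟩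
  · rintro _ ⟨l, rfl⟩
    exact (b _).2
  · intro x hx y hy
    induction hx using Submodule.span_induction with
    | zero => simp
    | add a b _ _ ha hb => simp [ha, hb]
    | smul a b _ hb => simp [hb]
    | mem x hx =>
      obtain ⟨l, rfl⟩ := hx
      induction hy using Submodule.span_induction with
      | zero => simp
      | add a b _ _ ha hb => simp [ha, hb]
      | smul a b _ hb => simp [hb]
      | mem y hy => obtain ⟨l', rfl⟩ := hy; exact hee _ _
  · rw [finrank_span_eq_card, Fintype.card_fin]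
    exact (b.linearIndependent.map' W.subtype W.ker_subtype).comp _
      (Sum.inl_injective.comp (Fin.castLE_injective hm))

section order

variable [Fintype F] {r : ℕ} [Fact r.Prime] {B : LinearMap.BilinForm F V} {f : Module.End F V}

omit [FiniteDimensional F V] [Fintype F] [Fact r.Prime] in
theorem mem_ker_sub_one {v : V} : v ∈ LinearMap.ker (f - 1) ↔ f v = v := by
  rw [LinearMap.mem_ker, LinearMap.sub_apply, Module.End.one_apply, sub_eq_zero]

theorem dvd_finrank_moving (hf : f ^ r = 1) (hr : ¬ r ∣ Fintype.card F) {Y : Submodule F V}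
    (hY : ∀ v ∈ Y, f v ∈ Y) (hC : Disjoint (LinearMap.ker (f - 1)) Y) :
    orderOf ((Fintype.card F : ℕ) : ZMod r) ∣ Module.finrank F Y := by
  obtain ⟨k, hk, -⟩ := finrank_invariant hf hr hY
  rw [hC.symm.eq_bot, finrank_bot, zero_add] at hk
  exact Dvd.intro_left k hk.symm

/-- An invariant subspace is the sum of its fixed part and a part inside the range of `f - 1`. -/
theorem exists_fixed_moving (hf : f ^ r = 1) (hr : ¬ r ∣ Fintype.card F) {W : Submodule F V}
    (hW : ∀ v ∈ W, f v ∈ W) :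
    ∃ Y ≤ W, (∀ v ∈ Y, f v ∈ Y) ∧ Disjoint (LinearMap.ker (f - 1)) Y ∧ Y ≤ LinearMap.range (f - 1) ∧
      Module.finrank F W = Module.finrank F ↥(W ⊓ LinearMap.ker (f - 1)) + Module.finrank F Y := by
  set C := LinearMap.ker (f - 1) with hCdef
  obtain ⟨Y, hYW, hY, hsup, hd⟩ := exists_invariant_compl (semisimple_of_order hf hr) hW
    (X := W ⊓ C) (fun v hv => by rw [mem_ker_sub_one.1 hv.2]; exact hv) inf_le_left
  have hCY : Disjoint C Y := Submodule.disjoint_def.2 fun v hv hv' =>
    Submodule.disjoint_def.1 hd v ⟨hYW hv', hv⟩ hv'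
  refine ⟨Y, hYW, hY, hCY, ?_, finrank_eq_add_of_disjoint hsup hd⟩
  let φ : Y →ₗ[F] Y := f.restrict hY - LinearMap.id
  have hφ : Function.Injective φ := (injective_iff_map_eq_zero _).2 fun z hz => Subtype.ext
    (Submodule.disjoint_def.1 hCY _ (mem_ker_sub_one.2 (sub_eq_zero.1 (congrArg Subtype.val hz))) z.2)
  intro y hy
  obtain ⟨z, hz⟩ := LinearMap.injective_iff_surjective.1 hφ ⟨y, hy⟩
  exact ⟨z, congrArg Subtype.val hz⟩

/-- Mutually orthogonal minimal nondegenerate invariant blocks. -/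
theorem exists_blocks_moving (hA : B.IsAlt) (hB : ∀ u v, B (f u) (f v) = B u v) (hf : f ^ r = 1)
    (hr : ¬ r ∣ Fintype.card F) (hr2 : r ≠ 2) {i c : ℕ} (hi : i = orderOf ((Fintype.card F : ℕ) : ZMod r))
    (hc : c = if Even i then i else 2 * i) :
    ∀ (l : ℕ) (M : Submodule F V), (∀ v ∈ M, f v ∈ M) → NonDegOn B M → Disjoint (LinearMap.ker (f - 1)) M →
      l * c ≤ Module.finrank F M →
      ∃ D : Fin l → Submodule F V, (∀ s, D s ≤ M ∧ (∀ v ∈ D s, f v ∈ D s) ∧ NonDegOn B (D s) ∧ Module.finrank F (D s) = c) ∧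
        ∀ s s', s ≠ s' → ∀ u ∈ D s, ∀ v ∈ D s', B u v = 0 := by
  have hc0 : 0 < c := by
    have := hi ▸ orderOf_pos_of_not_dvd hr
    rw [hc]; split_ifs <;> omega
  intro l
  induction l with
  | zero => exact fun _ _ _ _ _ => ⟨fun s => s.elim0, fun s => s.elim0, fun s => s.elim0⟩
  | succ l ih =>
    intro M hM hN hC hd
    rw [Nat.succ_mul] at hd
    obtain ⟨U, hUM, hU, hUN, hUd⟩ := exists_nonDegOn_small hA hB hf hr hr2 hM hN hC
      (fun h => by rw [h, finrank_bot] at hd; omega) hi hc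
    obtain ⟨hsup, hdis, hRN⟩ := nonDegOn_split hA hUM hUN hN
    have hdim := finrank_eq_add_of_disjoint hsup hdis
    obtain ⟨D, hD, ho⟩ := ih (M ⊓ B.orthogonal U)
      (fun v hv => ⟨hM v hv.1, orthogonal_invariant hB (injective_of_pow_eq_one (r := r) hf) hU v hv.2⟩)
      hRN (hC.mono_right inf_le_left) (by omega)
    refine ⟨Fin.cons U D, fun s => ?_, fun s s' hss' => ?_⟩
    · obtain rfl | ⟨s, rfl⟩ := Fin.eq_zero_or_eq_succ s
      · rw [Fin.cons_zero]; exact ⟨hUM, hU, hUN, hUd⟩
      · rw [Fin.cons_succ]; exact ⟨(hD s).1.trans inf_le_left, (hD s).2⟩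
    · obtain rfl | ⟨s, rfl⟩ := Fin.eq_zero_or_eq_succ s <;> obtain rfl | ⟨s', rfl⟩ := Fin.eq_zero_or_eq_succ s'
      · exact absurd rfl hss'
      · intro u hu v hv
        simp only [Fin.cons_zero, Fin.cons_succ] at hu hv
        exact ((hD s').1 hv).2 u hu
      · intro u hu v hv
        simp only [Fin.cons_zero, Fin.cons_succ] at hu hv
        exact alt_symm_zero hA (((hD s).1 hu).2 v hv)
      · simpa using ho s s' (fun h => hss' (by rw [h]))

/-- When `i` is odd half of the moving part is isotropic and invariant. -/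
theorem exists_isoOn_odd (hA : B.IsAlt) (hB : ∀ u v, B (f u) (f v) = B u v) (hf : f ^ r = 1)
    (hr : ¬ r ∣ Fintype.card F) (hr2 : r ≠ 2) {i : ℕ} (hi : i = orderOf ((Fintype.card F : ℕ) : ZMod r))
    (hodd : ¬ Even i) :
    ∀ (b : ℕ) (M : Submodule F V), (∀ v ∈ M, f v ∈ M) → NonDegOn B M → Disjoint (LinearMap.ker (f - 1)) M →
      2 * (b * i) ≤ Module.finrank F M →
      ∃ X ≤ M, (∀ v ∈ X, f v ∈ X) ∧ IsoOn B X ∧ Module.finrank F X = b * i := by
  have hi0 : 0 < i := hi ▸ orderOf_pos_of_not_dvd hr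
  have hinj := injective_of_pow_eq_one (r := r) hf
  intro b
  induction b with
  | zero => exact fun _ _ _ _ _ => ⟨⊥, bot_le, fun v hv => by simp_all, isoOn_bot B, by simp⟩
  | succ b ih =>
    intro M hM hN hC hd
    have hd' : 2 * (b * i) + 2 * i ≤ Module.finrank F M := by rw [← Nat.mul_add, ← Nat.succ_mul]; exact hd
    obtain ⟨Y, hYM, hY, hYN, hYd⟩ := exists_nonDegOn_small hA hB hf hr hr2 hM hN hC
      (fun h => by rw [h, finrank_bot] at hd'; omega) hi (c := 2 * i) (by rw [if_neg hodd])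
    obtain ⟨U, hUY, hU, hUd⟩ := exists_small_of_pow_eq_one hf hr hY (hC.mono_right hYM)
      (fun h => by rw [h, finrank_bot] at hYd; omega)
    rw [← hi] at hUd
    have hUI : IsoOn B U := by
      intro x hx y hy
      have hinv : ∀ v ∈ U ⊓ B.orthogonal U, f v ∈ U ⊓ B.orthogonal U :=
        fun v hv => ⟨hU v hv.1, orthogonal_invariant hB hinj hU v hv.2⟩
      have hdvd := dvd_finrank_moving hf hr hinv (hC.mono_right (inf_le_left.trans (hUY.trans hYM)))
      rw [← hi] at hdvd
      rcases Nat.eq_zero_or_pos (Module.finrank F ↥(U ⊓ B.orthogonal U)) with h0 | h0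
      · rw [Submodule.finrank_eq_zero] at h0
        refine absurd ?_ hodd
        rw [← hUd]
        exact even_finrank_of_nonDegOn hA fun z hz hzU =>
          (mem_bot F).1 (h0 ▸ ⟨hz, fun w hw => alt_symm_zero hA (hzU w hw)⟩)
      · have := eq_of_le_of_finrank_le (inf_le_left : U ⊓ B.orthogonal U ≤ U) (by rw [hUd]; exact Nat.le_of_dvd h0 hdvd)
        exact (this.symm ▸ hy : y ∈ U ⊓ B.orthogonal U).2 x hx
    obtain ⟨hsup, hdis, hRN⟩ := nonDegOn_split hA hYM hYN hN
    have hdim := finrank_eq_add_of_disjoint hsup hdis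
    obtain ⟨X, hXR, hX, hXI, hXd⟩ := ih (M ⊓ B.orthogonal Y)
      (fun v hv => ⟨hM v hv.1, orthogonal_invariant hB hinj hY v hv.2⟩) hRN (hC.mono_right inf_le_left) (by omega)
    refine ⟨U ⊔ X, sup_le (hUY.trans hYM) (hXR.trans inf_le_left), fun v hv => ?_,
      isoOn_sup hA hUI hXI fun x hx y hy => (hXR hy).2 x (hUY hx), ?_⟩
    · obtain ⟨x, hx, y, hy, rfl⟩ := mem_sup.1 hv
      rw [map_add]
      exact add_mem_sup (hU x hx) (hX y hy)
    · rw [finrank_eq_add_of_disjoint rfl (hdis.mono hUY hXR), hUd, hXd, Nat.succ_mul, add_comm]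

/-- A nonzero invariant subspace without fixed vectors has an irreducible factor of the cyclotomic polynomial
killing one of its minimal invariant subspaces. -/
theorem exists_factor_of_block (hf : f ^ r = 1) (hr : ¬ r ∣ Fintype.card F) {U : Submodule F V}
    (hU : ∀ v ∈ U, f v ∈ U) (hC : Disjoint (LinearMap.ker (f - 1)) U) (hne : U ≠ ⊥) :
    ∃ (P : F[X]) (v : V), v ∈ U ∧ v ≠ 0 ∧ aeval f P v = 0 ∧ Irreducible P ∧ P.Monic ∧ P ∣ cyclotomic r F ∧
      P.natDegree = orderOf ((Fintype.card F : ℕ) : ZMod r) := by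
  classical
  have : Fintype (⊤ : Subfield F) := Fintype.ofFinite _
  have hcard : Fintype.card (⊤ : Subfield F) = Fintype.card F :=
    Fintype.card_congr (Subfield.topEquiv (K := F)).toEquiv
  obtain ⟨v, P, hv, hv0, hP, hPm, -, hPv⟩ := exists_annihilator (⊤ : Subfield F) hr (by rwa [hcard])
    (by rw [hcard]) hf hU hne
  have hdvd : P ∣ X ^ r - 1 := by
    by_contra h
    obtain ⟨x, y, hxy⟩ := (hP.coprime_iff_not_dvd).2 h
    have := congrArg (fun R => aeval f R v) hxy
    simp [Module.End.mul_apply, hPv, hf] at this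
    exact hv0 this.symm
  rw [← cyclotomic_prime_mul_X_sub_one F r] at hdvd
  rcases hP.prime.dvd_mul.1 hdvd with h | h
  · exact ⟨P, v, hv, hv0, hPv, hP, hPm, h, Arith.natDegree_irreducible_factor_cyclotomic hr hP h⟩
  · exfalso
    refine hv0 (Submodule.disjoint_def.1 hC v (mem_ker_sub_one.2 ?_) hv)
    obtain ⟨R, hR⟩ := (hP.dvd_symm (irreducible_X_sub_C (1 : F)) (by simpa using h) : X - C (1 : F) ∣ P)
    have hRu : IsUnit R := ((hR ▸ hP).isUnit_or_isUnit rfl).resolve_left (irreducible_X_sub_C (1 : F)).not_isUnit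
    obtain ⟨u, hu, rfl⟩ := Polynomial.isUnit_iff.1 hRu
    rw [hR, map_mul, aeval_C, Module.End.mul_apply, Module.algebraMap_end_apply, map_smul, smul_eq_zero] at hPv
    rcases hPv with h0 | h0
    · exact absurd h0 hu.ne_zero
    · simpa [sub_eq_zero] using h0

omit [FiniteDimensional F V] in
/-- At most `(r-1)/i` irreducible factors. -/
theorem card_factors_mul_le (hr : ¬ r ∣ Fintype.card F) {ι : Type*} [Fintype ι] (P : ι → F[X])
    (hP : ∀ s, Irreducible (P s) ∧ (P s).Monic ∧ P s ∣ cyclotomic r F) (hinj : Function.Injective P) :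
    Fintype.card ι * orderOf ((Fintype.card F : ℕ) : ZMod r) ≤ r - 1 := by
  classical
  have hdvd : ∏ s, P s ∣ cyclotomic r F :=
    Finset.prod_dvd_of_coprime (fun s _ s' _ hss' => (hP s).1.coprime_iff_not_dvd.2 fun h =>
      hss' (hinj (eq_of_monic_of_associated (hP s).2.1 (hP s').2.1 ((hP s).1.associated_of_dvd (hP s').1 h))))
      fun s _ => (hP s).2.2
  have h := natDegree_le_of_dvd hdvd (cyclotomic_ne_zero r F)
  rw [natDegree_prod _ _ (fun s _ => (hP s).1.ne_zero), natDegree_cyclotomic, Nat.totient_prime Fact.out,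
    Finset.sum_congr rfl (fun s _ => Arith.natDegree_irreducible_factor_cyclotomic hr (hP s).1 (hP s).2.2),
    Finset.sum_const, Finset.card_univ, smul_eq_mul] at h
  exact h

/-- Two orthogonal blocks with the same annihilator contain an isotropic invariant subspace. -/
theorem exists_isoOn_pair (hA : B.IsAlt) (hB : ∀ u v, B (f u) (f v) = B u v) (hf : f ^ r = 1) (hr2 : r ≠ 2)
    {U U' : Submodule F V} (hU : ∀ v ∈ U, f v ∈ U) (hU' : ∀ v ∈ U', f v ∈ U') (hUN : NonDegOn B U)
    (hU'N : NonDegOn B U') (ho : ∀ x ∈ U, ∀ y ∈ U', B x y = 0) (hC : Disjoint (LinearMap.ker (f - 1)) U)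
    {P : F[X]} (hP : Irreducible P) (hPm : P.Monic) {v v' : V} (hv : v ∈ U) (hv0 : v ≠ 0) (hPv : aeval f P v = 0)
    (hv' : v' ∈ U') (hv'0 : v' ≠ 0) (hPv' : aeval f P v' = 0) (hUd : Module.finrank F U = P.natDegree)
    (hU'd : Module.finrank F U' = P.natDegree) :
    ∃ X ≤ U ⊔ U', (∀ x ∈ X, f x ∈ X) ∧ IsoOn B X ∧ Module.finrank F X = P.natDegree := by
  classical
  have : Fintype (⊤ : Subfield F) := Fintype.ofFinite _
  have hinj := injective_of_pow_eq_one (r := r) hf
  have hbasis : ∀ {U : Submodule F V} (_ : ∀ x ∈ U, f x ∈ U) {v : V} (_ : v ∈ U) (_ : v ≠ 0)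
      (_ : aeval f P v = 0) (_ : Module.finrank F U = P.natDegree),
      ∃ b : Module.Basis (Fin P.natDegree) F U, ∀ j, (b j : V) = (f ^ (j : ℕ)) v := by
    intro U hU v hv hv0 hPv hUd
    have hmem : ∀ j : ℕ, (f ^ j) v ∈ U := fun j => by
      induction j with
      | zero => exact hv
      | succ j ih => rw [pow_succ', Module.End.mul_apply]; exact hU _ ih
    have hli : LinearIndependent F (fun j : Fin P.natDegree => (⟨(f ^ (j : ℕ)) v, hmem j⟩ : U)) :=
      LinearIndependent.of_comp U.subtype (linearIndependent_pow_apply hP hPv hv0)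
    have : Nonempty (Fin P.natDegree) := ⟨⟨0, hP.natDegree_pos⟩⟩
    refine ⟨basisOfLinearIndependentOfCardEqFinrank hli (by rw [Fintype.card_fin, hUd]), fun j => ?_⟩
    rw [coe_basisOfLinearIndependentOfCardEqFinrank]
  obtain ⟨b, hb⟩ := hbasis hU hv hv0 hPv hUd
  obtain ⟨b', hb'⟩ := hbasis hU' hv' hv'0 hPv' hU'd
  let T : U ≃ₗ[F] U := LinearEquiv.ofBijective (f.restrict hU)
    ⟨fun x y h => Subtype.ext (hinj (congrArg Subtype.val h)),
      LinearMap.injective_iff_surjective.1 fun x y h => Subtype.ext (hinj (congrArg Subtype.val h))⟩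
  let T' : U' ≃ₗ[F] U' := LinearEquiv.ofBijective (f.restrict hU')
    ⟨fun x y h => Subtype.ext (hinj (congrArg Subtype.val h)),
      LinearMap.injective_iff_surjective.1 fun x y h => Subtype.ext (hinj (congrArg Subtype.val h))⟩
  let g₀ := b.equiv b' (Equiv.refl _)
  have hg₀ : ∀ x : U, g₀ (T x) = T' (g₀ x) := by
    have key : g₀.toLinearMap ∘ₗ T.toLinearMap = T'.toLinearMap ∘ₗ g₀.toLinearMap := by
      refine b.ext fun j => Subtype.ext ?_
      show (g₀ (T (b j)) : V) = f (g₀ (b j) : V)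
      rw [show g₀ (b j) = b' j by simp [g₀], hb']
      rcases Nat.lt_or_ge ((j : ℕ) + 1) P.natDegree with hj | hj
      · rw [show T (b j) = b ⟨(j : ℕ) + 1, hj⟩ from Subtype.ext (by
          show f (b j : V) = _
          rw [hb, hb, ← Module.End.mul_apply, ← pow_succ']), show g₀ (b ⟨(j : ℕ) + 1, hj⟩) = b' ⟨(j : ℕ) + 1, hj⟩ by simp [g₀],
          hb', ← Module.End.mul_apply, ← pow_succ']
      · have hrel : ∀ {w : V}, aeval f P w = 0 →
            f ((f ^ (j : ℕ)) w) = ∑ l : Fin P.natDegree, (-P.coeff l) • (f ^ (l : ℕ)) w := by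
          intro w hw
          rw [← Module.End.mul_apply, ← pow_succ', show (j : ℕ) + 1 = P.natDegree by omega]
          rw [aeval_eq_sum_range, LinearMap.sum_apply, Finset.sum_range_succ, hPm.coeff_natDegree, one_smul] at hw
          rw [eq_neg_of_add_eq_zero_right hw, ← Finset.sum_neg_distrib, Finset.sum_range]
          exact Finset.sum_congr rfl fun l _ => by rw [LinearMap.smul_apply, neg_smul]
        rw [hrel hPv', show T (b j) = ∑ l : Fin P.natDegree, (-P.coeff (l : ℕ)) • b l from Subtype.ext (by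
          show f (b j : V) = _
          rw [hb, hrel hPv, Submodule.coe_sum]
          exact Finset.sum_congr rfl fun l _ => by rw [Submodule.coe_smul, hb]), map_sum, Submodule.coe_sum]
        exact Finset.sum_congr rfl fun l _ => by rw [map_smul, Submodule.coe_smul, show g₀ (b l) = b' l by simp [g₀], hb']
    exact fun x => LinearMap.congr_fun key x
  obtain ⟨hA1, hN1⟩ := nonDegOn_restrict hA hUN
  obtain ⟨hA2, hN2⟩ := nonDegOn_restrict hA hU'N
  have hN2' : (-(B.restrict U')).Nondegenerate :=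
    ⟨fun x hx => hN2.1 x fun y => neg_eq_zero.1 (hx y), fun y hy => hN2.2 y fun x => neg_eq_zero.1 (hy x)⟩
  obtain ⟨φ, hφ, hφB⟩ := ClassConj.exists_intertwiner_of_fix_eq_zero (β := B.restrict U) (β' := -(B.restrict U'))
    (ε := -1) (by ring) hN1 hN2'
    (fun x y => by rw [← LinearMap.IsAlt.neg hA1 y x, neg_one_mul])
    (fun x y => by rw [LinearMap.neg_apply, LinearMap.neg_apply, LinearMap.neg_apply, LinearMap.neg_apply,
      ← LinearMap.IsAlt.neg hA2 y x, neg_one_mul])
    T T' (fun x y => hB x y) (fun x y => by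
      rw [LinearMap.neg_apply, LinearMap.neg_apply, LinearMap.neg_apply, LinearMap.neg_apply]
      exact congrArg Neg.neg (hB x y))
    g₀ hg₀ (fun x hx => Subtype.ext (by
      have h2 : f (f (x : V)) = x := congrArg Subtype.val hx
      have h3 : ∀ k, (f ^ (2 * k)) (x : V) = x := fun k => by
        induction k with
        | zero => simp
        | succ k ih => rw [Nat.mul_succ, pow_add, Module.End.mul_apply, pow_two, Module.End.mul_apply, h2, ih]
      obtain ⟨k, hk⟩ := (Fact.out : r.Prime).odd_of_ne_two hr2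
      have h4 := LinearMap.congr_fun hf (x : V)
      rw [hk, pow_succ', Module.End.mul_apply, h3, Module.End.one_apply] at h4
      exact Submodule.disjoint_def.1 hC _ (mem_ker_sub_one.2 h4) x.2))
  let G : U →ₗ[F] V := U.subtype + U'.subtype ∘ₗ φ.toLinearMap
  have hGinj : Function.Injective G := (injective_iff_map_eq_zero _).2 fun x hx => by
    have hx' : (x : V) + φ x = 0 := hx
    refine Subtype.ext (hUN x x.2 fun y hy => ?_)
    rw [eq_neg_of_add_eq_zero_left hx', map_neg, LinearMap.neg_apply, alt_symm_zero hA (ho y hy _ (φ x).2), neg_zero]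
  refine ⟨LinearMap.range G, ?_, ?_, ?_, by rw [LinearMap.finrank_range_of_inj hGinj, hUd]⟩
  · rintro _ ⟨x, rfl⟩
    exact add_mem_sup x.2 (φ x).2
  · rintro _ ⟨x, rfl⟩
    refine ⟨T x, ?_⟩
    show (T x : V) + φ (T x) = f ((x : V) + φ x)
    rw [map_add, hφ]
    rfl
  · rintro _ ⟨x, rfl⟩ _ ⟨y, rfl⟩
    show B ((x : V) + φ x) ((y : V) + φ y) = 0
    have h := hφB x y
    rw [LinearMap.neg_apply, LinearMap.neg_apply] at h
    change -(B (φ x : V) (φ y)) = B (x : V) y at h
    simp only [map_add, LinearMap.add_apply, ho _ x.2 _ (φ y).2, alt_symm_zero hA (ho _ y.2 _ (φ x).2)]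
    rw [← h]
    ring

/-- When `i` is even, pairs of equal blocks give isotropic invariant subspaces. -/
theorem exists_isoOn_even (hA : B.IsAlt) (hB : ∀ u v, B (f u) (f v) = B u v) (hf : f ^ r = 1)
    (hr : ¬ r ∣ Fintype.card F) (hr2 : r ≠ 2) {i : ℕ} (hi : i = orderOf ((Fintype.card F : ℕ) : ZMod r))
    (hev : Even i) :
    ∀ (b j : ℕ) (M : Submodule F V), (∀ v ∈ M, f v ∈ M) → NonDegOn B M → Disjoint (LinearMap.ker (f - 1)) M →
      Module.finrank F M = j * i → (b = 0 ∨ 2 * b + (r - 1) / i ≤ j + 1) →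
      ∃ X ≤ M, (∀ v ∈ X, f v ∈ X) ∧ IsoOn B X ∧ Module.finrank F X = b * i := by
  have hi0 : 0 < i := hi ▸ orderOf_pos_of_not_dvd hr
  have hinj := injective_of_pow_eq_one (r := r) hf
  intro b
  induction b with
  | zero => exact fun _ _ _ _ _ _ _ => ⟨⊥, bot_le, fun v hv => by simp_all, isoOn_bot B, by simp⟩
  | succ b ih =>
    intro j M hM hN hC hd hcond
    have hj : (r - 1) / i + 1 ≤ j := by omega
    obtain ⟨D, hD, ho⟩ := exists_blocks_moving hA hB hf hr hr2 hi (c := i) (by rw [if_pos hev]) ((r - 1) / i + 1) M hM hN hC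
      (by rw [hd]; exact Nat.mul_le_mul_right i hj)
    have hne : ∀ s, D s ≠ ⊥ := fun s h => by
      have := (hD s).2.2.2; rw [h, finrank_bot] at this; omega
    choose P v hv hv0 hPv hP hPm hPc hPd using fun s =>
      exists_factor_of_block hf hr (hD s).2.1 (hC.mono_right (hD s).1) (hne s)
    obtain ⟨s, s', hPss, hss⟩ : ∃ s s', P s = P s' ∧ s ≠ s' := by
      by_contra h
      push Not at h
      have := card_factors_mul_le hr P (fun s => ⟨hP s, hPm s, hPc s⟩) fun s s' hs => by
        by_contra hne'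
        exact hne' (h s s' hs)
      rw [Fintype.card_fin, ← hi] at this
      have h1 := Nat.div_add_mod' (r - 1) i
      have h2 := Nat.mod_lt (r - 1) hi0
      rw [Nat.succ_mul] at this
      omega
    obtain ⟨Z, hZle, hZ, hZI, hZd⟩ := exists_isoOn_pair hA hB hf hr2 (hD s).2.1 (hD s').2.1 (hD s).2.2.1
      (hD s').2.2.1 (ho s s' hss) (hC.mono_right (hD s).1) (hP s) (hPm s) (hv s) (hv0 s) (hPv s) (hv s') (hv0 s')
      (hPss ▸ hPv s') (by rw [(hD s).2.2.2, hPd, ← hi]) (by rw [(hD s').2.2.2, hPd, ← hi])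
    rw [hPd, ← hi] at hZd
    have hW2 : D s ⊔ D s' ≤ M := sup_le (hD s).1 (hD s').1
    have hW2N := nonDegOn_sup hA (hD s).2.2.1 (hD s').2.2.1 (ho s s' hss)
    have hW2i : ∀ x ∈ D s ⊔ D s', f x ∈ D s ⊔ D s' := fun x hx => by
      obtain ⟨a, ha, b, hb, rfl⟩ := mem_sup.1 hx
      rw [map_add]
      exact add_mem_sup ((hD s).2.1 a ha) ((hD s').2.1 b hb)
    have hW2d : Module.finrank F ↥(D s ⊔ D s') = 2 * i := by
      rw [finrank_eq_add_of_disjoint rfl, (hD s).2.2.2, (hD s').2.2.2, two_mul]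
      exact Submodule.disjoint_def.2 fun x hx hx' => (hD s).2.2.1 x hx fun y hy =>
        alt_symm_zero hA (ho s s' hss y hy x hx')
    obtain ⟨hsup, hdis, hRN⟩ := nonDegOn_split hA hW2 hW2N hN
    have hdim := finrank_eq_add_of_disjoint hsup hdis
    obtain ⟨X, hXR, hX, hXI, hXd⟩ := ih (j - 2) (M ⊓ B.orthogonal (D s ⊔ D s'))
      (fun v hv => ⟨hM v hv.1, orthogonal_invariant hB hinj hW2i v hv.2⟩) hRN (hC.mono_right inf_le_left)
      (by rw [Nat.sub_mul]; omega) (by omega)
    refine ⟨Z ⊔ X, sup_le (hZle.trans hW2) (hXR.trans inf_le_left), fun x hx => ?_,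
      isoOn_sup hA hZI hXI fun x hx y hy => (hXR hy).2 x (hZle hx), ?_⟩
    · obtain ⟨a, ha, b, hb, rfl⟩ := mem_sup.1 hx
      rw [map_add]
      exact add_mem_sup (hZ a ha) (hX b hb)
    · rw [finrank_eq_add_of_disjoint rfl (hdis.mono hZle hXR), hZd, hXd, Nat.succ_mul, add_comm]

end order

end Cfsg.Agent.Elusive
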