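import Cfsg.Agent.Elusive.OrthOrder
import Cfsg.Agent.Elusive.SympIsotropic
import Cfsg.Agent.Elusive25.Models
import Cfsg.Agent.Elusive25.Even
import Cfsg.Agent.OrthGen.Index
import Cfsg.Agent.Forms25.Disc

/-!
Elements of prime order of plus type orthogonal groups in odd characteristic: elements with small fixed space,
elements without fixed vectors, and square roots of minus one.
-/

set_option autoImplicit false
set_option linter.unusedSectionVars false

namespace Cfsg.Agent.Elusive.OrthPlus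

open Module QuadraticMap Matrix Cfsg.Agent.Classical Cfsg.Agent.Forms Cfsg.Agent.Elusive

variable {F : Type*} [Field F] [Fintype F]

theorem finite_OQ {ι : Type*} [Fintype ι] (R : QuadraticForm F (ι → F)) : Finite (OQ R) := by
  classical
  have : Finite ((ι → F) ≃ₗ[F] (ι → F)) :=
    Finite.of_injective (fun e => (e : (ι → F) → (ι → F))) DFunLike.coe_injective
  exact Subtype.finite

theorem finrank_space (d : ℕ) : finrank F (Fin d ⊕ Fin d → F) = 2 * d := by
  rw [finrank_fintype_fun_eq_card, Fintype.card_sum, Fintype.card_fin]; omega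

/-- The powers of an isometry as endomorphisms. -/
theorem toLinearMap_pow {V : Type*} [AddCommGroup V] [Module F V] {R : QuadraticForm F V} (g : OQ R) (k : ℕ) :
    ((g ^ k : OQ R).1 : V ≃ₗ[F] V).toLinearMap = (g.1.toLinearMap : Module.End F V) ^ k := by
  induction k with
  | zero => rfl
  | succ k ih =>
    rw [pow_succ, pow_succ, ← ih]
    rfl

/-- Orthogonal sum of two isometries. -/
theorem exists_sum {r d₁ d₂ : ℕ} (g₁ : OQ (plusQF d₁ F)) (g₂ : OQ (plusQF d₂ F)) (h₁ : g₁ ^ r = 1)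
    (h₂ : g₂ ^ r = 1) (hfix : ∀ v, g₂.1 v = v → v = 0) :
    ∃ g : OQ (plusQF (d₁ + d₂) F), g ^ r = 1 ∧
      finrank F (LinearMap.ker ((g.1.toLinearMap : Module.End F _) - 1)) ≤
        finrank F (LinearMap.ker ((g₁.1.toLinearMap : Module.End F _) - 1)) := by
  classical
  let T : (Fin (d₁ + d₂) ⊕ Fin (d₁ + d₂) → F) ≃ₗ[F] (Fin d₁ ⊕ Fin d₁ → F) × (Fin d₂ ⊕ Fin d₂ → F) :=
    { toFun := fun v => (fun s => v (s.map (Fin.castAdd d₂) (Fin.castAdd d₂)),
        fun s => v (s.map (Fin.natAdd d₁) (Fin.natAdd d₁)))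
      invFun := fun p => Sum.elim (Fin.append (fun i => p.1 (.inl i)) fun i => p.2 (.inl i))
        (Fin.append (fun i => p.1 (.inr i)) fun i => p.2 (.inr i))
      map_add' := fun _ _ => rfl
      map_smul' := fun _ _ => rfl
      left_inv := fun v => funext fun s => by
        rcases s with i | i <;> refine Fin.addCases (fun j => ?_) (fun j => ?_) i <;> simp
      right_inv := fun p => Prod.ext (funext fun s => by rcases s with i | i <;> simp)
        (funext fun s => by rcases s with i | i <;> simp) }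
  have hT : ∀ v, plusQF (d₁ + d₂) F v = plusQF d₁ F (T v).1 + plusQF d₂ F (T v).2 := fun v => by
    rw [plusQF_apply, plusQF_apply, plusQF_apply, Cfsg.quadFormPlus, Cfsg.quadFormPlus, Cfsg.quadFormPlus,
      Fin.sum_univ_add]
    rfl
  let mk : OQ (plusQF d₁ F) × OQ (plusQF d₂ F) →* OQ (plusQF (d₁ + d₂) F) :=
    { toFun := fun p => ⟨T ≪≫ₗ (p.1.1.prodCongr p.2.1) ≪≫ₗ T.symm, fun v => by
        rw [hT, hT v]
        simp only [LinearEquiv.trans_apply, LinearEquiv.apply_symm_apply, LinearEquiv.prodCongr_apply]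
        rw [p.1.2, p.2.2]⟩
      map_one' := Subtype.ext (LinearEquiv.ext fun v => by simp)
      map_mul' := fun p p' => Subtype.ext (LinearEquiv.ext fun v => by simp) }
  refine ⟨mk (g₁, g₂), by rw [← map_pow, Prod.pow_def, h₁, h₂]; exact map_one mk, ?_⟩
  let ψ : LinearMap.ker (((mk (g₁, g₂)).1.toLinearMap : Module.End F _) - 1) →ₗ[F] (Fin d₁ ⊕ Fin d₁ → F) :=
    (LinearMap.fst F _ _ ∘ₗ T.toLinearMap) ∘ₗ Submodule.subtype _
  have hfixed : ∀ v, v ∈ LinearMap.ker (((mk (g₁, g₂)).1.toLinearMap : Module.End F _) - 1) →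
      g₁.1 (T v).1 = (T v).1 ∧ g₂.1 (T v).2 = (T v).2 := fun v hv => by
    rw [LinearMap.mem_ker, LinearMap.sub_apply, Module.End.one_apply, sub_eq_zero] at hv
    have h := congrArg T (show T.symm ((g₁.1.prodCongr g₂.1) (T v)) = v from hv)
    rw [LinearEquiv.apply_symm_apply, LinearEquiv.prodCongr_apply, Prod.ext_iff] at h
    exact h
  have hψ : Function.Injective ψ := (injective_iff_map_eq_zero _).2 fun v hv => by
    refine Subtype.ext (T.injective ?_)
    rw [ZeroMemClass.coe_zero, map_zero]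
    exact Prod.ext hv (hfix _ (hfixed v v.2).2)
  rw [← LinearMap.finrank_range_of_inj hψ]
  refine Submodule.finrank_mono ?_
  rintro _ ⟨v, rfl⟩
  rw [LinearMap.mem_ker, LinearMap.sub_apply, Module.End.one_apply, sub_eq_zero]
  exact (hfixed v v.2).1

theorem dvd_pow_sub_one {r : ℕ} [Fact r.Prime] {i t : ℕ} (hi : i = orderOf ((Fintype.card F : ℕ) : ZMod r))
    (h : i ∣ t) : r ∣ Fintype.card F ^ t - 1 := by
  obtain ⟨k, rfl⟩ := h
  rw [← ZMod.natCast_eq_zero_iff, Nat.cast_sub (Nat.one_le_pow _ _ Fintype.card_pos), Nat.cast_pow, pow_mul,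
    hi, pow_orderOf_eq_one, one_pow, Nat.cast_one, sub_self]

/-- An element without fixed vectors when `i` divides `d`. -/
theorem exists_fixed_free {r : ℕ} [Fact r.Prime] {d i : ℕ} (hd : 1 ≤ d)
    (hi : i = orderOf ((Fintype.card F : ℕ) : ZMod r)) (hid : i ∣ d) :
    ∃ g : OQ (plusQF d F), g ^ r = 1 ∧ ∀ v, g.1 v = v → v = 0 :=
  Elusive25.exists_fpf_plus hd (dvd_pow_sub_one hi hid)

/-- An element fixing at most `2 d % c` dimensions. -/
theorem exists_small_fixed (h2 : (2 : F) ≠ 0) {r : ℕ} [Fact r.Prime] (hr : ¬ r ∣ Fintype.card F) (hr2 : r ≠ 2)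
    {d i c : ℕ} (hi : i = orderOf ((Fintype.card F : ℕ) : ZMod r)) (hc : c = if Even i then i else 2 * i)
    (hk : 0 < 2 * d % c) :
    ∃ g : OQ (plusQF d F), g ^ r = 1 ∧
      finrank F (LinearMap.ker ((g.1.toLinearMap : Module.End F _) - 1)) ≤ 2 * d % c := by
  classical
  set q := Fintype.card F with hq
  have hi0 : 0 < i := hi ▸ orderOf_pos_of_not_dvd hr
  have hcev : Even c := by rw [hc]; split_ifs with h; exacts [h, even_two_mul i]
  obtain ⟨c', hc'⟩ := hcev
  have hc0 : 0 < c := by rw [hc]; split_ifs <;> omega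
  obtain ⟨k', hk'⟩ : Even (2 * d % c) := by
    rw [Nat.even_iff, Nat.mod_mod_of_dvd _ (show 2 ∣ c by omega)]; omega
  have hdm := Nat.div_add_mod (2 * d) c
  set J := 2 * d / c
  have hdk : d = k' + c' * J := by
    have : c * J = 2 * (c' * J) := by rw [hc']; ring
    omega
  -- the part without fixed vectors
  have hfree : ∀ J', i ∣ c' * J' → ∀ d₁, d = d₁ + c' * J' → ∀ g₁ : OQ (plusQF d₁ F), g₁ ^ r = 1 →
      finrank F (LinearMap.ker ((g₁.1.toLinearMap : Module.End F _) - 1)) ≤ 2 * d % c →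
      ∃ g : OQ (plusQF d F), g ^ r = 1 ∧
        finrank F (LinearMap.ker ((g.1.toLinearMap : Module.End F _) - 1)) ≤ 2 * d % c := by
    intro J' hdvd d₁ hd₁ g₁ hg₁ hle
    rcases Nat.eq_zero_or_pos (c' * J') with h0 | hpos
    · rw [h0, add_zero] at hd₁
      subst hd₁
      exact ⟨g₁, hg₁, hle⟩
    obtain ⟨g₂, hg₂, hfix⟩ := exists_fixed_free (F := F) (r := r) hpos hi hdvd
    subst hd₁
    obtain ⟨g, hg, hgd⟩ := exists_sum g₁ g₂ hg₁ hg₂ hfix
    exact ⟨g, hg, hgd.trans hle⟩
  by_cases hJ : i ∣ c' * J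
  · refine hfree J hJ k' hdk 1 (one_pow r) ((Submodule.finrank_le _).trans ?_)
    rw [finrank_space]; omega
  -- one elliptic block
  have hiev : Even i := by
    by_contra h
    rw [if_neg h] at hc
    exact hJ ⟨J, by rw [show c' = i by omega]⟩
  rw [if_pos hiev] at hc
  obtain ⟨J', hJ'⟩ : ∃ J', J = 2 * J' + 1 := by
    refine (Nat.not_even_iff_odd.1 fun he => hJ ?_)
    obtain ⟨t, ht⟩ := he
    exact ⟨t, by rw [← hc, hc', ht]; ring⟩
  obtain ⟨n, hn⟩ : ∃ n, c' + k' = n + 1 := ⟨c' + k' - 1, by omega⟩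
  have : Finite (OQ (plusQF (n + 1) F)) := finite_OQ _
  obtain ⟨g₁, hg₁⟩ := exists_prime_orderOf_dvd_card' (G := OQ (plusQF (n + 1) F)) r (by
    rw [Nat.card_congr (OQCongr (Q := plusQF (n + 1) F) (plusEquiv (n + 1)) (plusEquiv_spec (n + 1))).toEquiv,
      card_OQ_plus, Nat.card_eq_fintype_card]
    have hmem := Finset.dvd_prod_of_mem (fun l => Fintype.card F ^ (2 * (l + 1)) - 1)
      (Finset.mem_range.2 (show c' - 1 < n by omega))
    exact Dvd.dvd.mul_left ((dvd_pow_sub_one hi (dvd_of_eq (by omega))).trans hmem) _)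
  have hg₁r : g₁ ^ r = 1 := by rw [← hg₁, pow_orderOf_eq_one]
  refine hfree (2 * J') ⟨J', by rw [← hc, hc']; ring⟩ (n + 1) (by rw [hdk, hJ']; ring_nf; omega) g₁ hg₁r ?_
  set f : Module.End F (Fin (n + 1) ⊕ Fin (n + 1) → F) := g₁.1.toLinearMap with hf
  have hfr : f ^ r = 1 := by rw [hf, ← toLinearMap_pow, hg₁r]; rfl

  have hiso : ∀ u v, (plusQF (n + 1) F).polarBilin (f u) (f v) = (plusQF (n + 1) F).polarBilin u v :=
    fun u v => OQ_polar g₁ u v
  obtain ⟨M, -, -, -, -, -, hsup, -, j, hj, hjd⟩ := Orth.exists_moving_part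
    (B := (plusQF (n + 1) F).polarBilin) ⟨fun u v => polar_comm _ u v⟩ h2 hiso hfr hr hr2 (W := ⊤)
    (fun _ _ => trivial) (fun u _ hu => bNondeg_plusQF u fun v => hu v trivial) hi
    (hc.trans (if_pos hiev).symm)
  rw [top_inf_eq, finrank_top, finrank_space] at hj
  have hj0 : j ≠ 0 := by
    rintro rfl
    rw [zero_mul, Submodule.finrank_eq_zero] at hjd
    rw [hjd, sup_bot_eq, top_inf_eq, LinearMap.ker_eq_top, sub_eq_zero] at hsup
    have : g₁ = 1 := Subtype.ext (LinearEquiv.toLinearMap_injective hsup)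
    rw [this, orderOf_one] at hg₁
    exact (Fact.out : r.Prime).ne_one hg₁.symm
  have hjc : c ≤ j * c := Nat.le_mul_of_pos_left _ (Nat.pos_of_ne_zero hj0)
  omega

/-- No element without fixed vectors when `i` is even and `2 d / i` is odd. -/
theorem exists_fixed_vector {r : ℕ} [Fact r.Prime] (hr2 : r ≠ 2) {n i : ℕ}
    (hi : i = orderOf ((Fintype.card F : ℕ) : ZMod r)) (hiev : Even i) (hJ : ∃ J, Odd J ∧ 2 * (n + 1) = i * J)
    (g : OQ (plusQF (n + 1) F)) (hg : g ^ r = 1) : ∃ v, v ≠ 0 ∧ g.1 v = v := by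
  classical
  by_contra hno
  push Not at hno
  set q := Fintype.card F
  let X := {v : Fin (n + 1) ⊕ Fin (n + 1) → F // plusQF (n + 1) F v = 0}
  let σ : Function.End X := fun v => ⟨g.1 v.1, by rw [OQ_map_app]; exact v.2⟩
  have hσ : ∀ k : ℕ, ∀ v : X, ((σ ^ k) v).1 = (g ^ k).1 v.1 := by
    intro k
    induction k with
    | zero => intro v; rfl
    | succ k ih =>
      intro v
      rw [pow_succ', pow_succ']
      show g.1 ((σ ^ k) v).1 = g.1 ((g ^ k).1 v.1)
      rw [ih]
  have hσr : σ ^ r ^ 1 = 1 := by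
    funext v
    refine Subtype.ext ((hσ _ v).trans ?_)
    rw [pow_one, hg]; rfl
  have hmod := Equiv.Perm.card_fixedPoints_modEq hσr
  have hfix : Fintype.card σ.fixedPoints = 1 := Fintype.card_eq_one_iff.2
    ⟨⟨⟨0, map_zero _⟩, Subtype.ext (map_zero g.1)⟩, fun w => Subtype.ext (Subtype.ext (by
      by_contra hw
      exact hno _ hw (congrArg Subtype.val w.2)))⟩
  rw [hfix, ← ZMod.natCast_eq_natCast_iff, Nat.cast_one] at hmod
  have hX : Fintype.card X + q ^ n = q ^ (2 * n + 1) + q ^ (n + 1) := by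
    rw [← Nat.card_eq_fintype_card, show q = Nat.card F from Nat.card_eq_fintype_card.symm,
      card_zeros_congr (Q := plusQF (n + 1) F) (plusEquiv (n + 1)) (plusEquiv_spec (n + 1))]
    exact card_zeros_hypExt_plus n
  have hX' := congrArg (Nat.cast : ℕ → ZMod r) hX
  push_cast at hX'
  rw [hmod] at hX'
  obtain ⟨J, hJ, hJn⟩ := hJ
  obtain ⟨i', rfl⟩ := hiev
  set z : ZMod r := (q : ZMod r)
  have hz : z ^ (i' + i') = 1 := hi ▸ pow_orderOf_eq_one z
  have hi0 : 0 < i' := by
    by_contra h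
    rw [show i' = 0 by omega, add_zero, zero_mul] at hJn
    omega
  have hzi : z ^ i' = -1 := by
    rcases mul_self_eq_one_iff.1 (show z ^ i' * z ^ i' = 1 by rw [← pow_add, hz]) with h | h
    · exact absurd (Nat.le_of_dvd hi0 (hi ▸ orderOf_dvd_of_pow_eq_one h)) (by omega)
    · exact h
  have hzd : z ^ (n + 1) = -1 := by
    rw [show n + 1 = i' * J by
      have : (i' + i') * J = 2 * (i' * J) := by ring
      omega, pow_mul, hzi, hJ.neg_one_pow]
  rw [show 2 * n + 1 = n + 1 + n by omega, pow_add _ (n + 1), hzd] at hX'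
  have h2r : (2 : ZMod r) ≠ 0 := by
    intro h
    have := (ZMod.natCast_eq_zero_iff 2 r).1 (by exact_mod_cast h)
    exact hr2 ((Nat.prime_dvd_prime_iff_eq Fact.out Nat.prime_two).1 this)
  have hzn : z ^ n = -1 := by
    have h : (2 : ZMod r) * (z ^ n + 1) = 0 := by linear_combination hX'
    exact eq_neg_of_add_eq_zero_left ((mul_eq_zero.1 h).resolve_left h2r)
  rw [pow_succ, hzn, neg_one_mul, neg_inj] at hzd
  rw [hzd, orderOf_one] at hi
  omega

/-- An invariant nondegenerate subspace of a square root of minus one has even dimension. -/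
theorem even_finrank_of_sq_neg_one {V : Type*} [AddCommGroup V] [Module F V] [FiniteDimensional F V]
    (h2 : (2 : F) ≠ 0) {R : QuadraticForm F V} {f : Module.End F V} (hiso : ∀ v, R (f v) = R v)
    (hff : ∀ v, f (f v) = -v) {W : Submodule F V} (hW : ∀ v ∈ W, f v ∈ W) (hN : NonDegOn R.polarBilin W) :
    Even (finrank F W) := by
  by_cases hι : IsSquare (-1 : F)
  · obtain ⟨ι, hι⟩ := hι
    have hι0 : ι ≠ 0 := fun h => by rw [h, mul_zero, neg_eq_zero] at hι; exact one_ne_zero hι
    have hTS : ∀ a : F, a * a = -1 → IsoOn R.polarBilin (W ⊓ LinearMap.ker (f - a • 1)) := fun a ha => by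
      have hR0 : ∀ v ∈ W ⊓ LinearMap.ker (f - a • 1 : Module.End F V), R v = 0 := fun v hv => by
        have hv' := hv.2
        rw [SetLike.mem_coe, LinearMap.mem_ker, LinearMap.sub_apply, LinearMap.smul_apply, Module.End.one_apply,
          sub_eq_zero] at hv'
        have h : R (a • v) = R v := by rw [← hv', hiso]
        rw [QuadraticMap.map_smul, ha, smul_eq_mul, neg_one_mul, neg_eq_iff_add_eq_zero, ← two_mul] at h
        exact (mul_eq_zero.1 h).resolve_left h2
      intro x hx y hy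
      rw [polarBilin_apply_apply, polar, hR0 _ (add_mem hx hy), hR0 x hx, hR0 y hy, sub_zero, sub_zero]
    have h1 := two_mul_finrank_le inf_le_left hN (hTS ι hι.symm)
    have h3 := two_mul_finrank_le inf_le_left hN (hTS (-ι) (by rw [neg_mul_neg, ← hι]))
    have hle : W ≤ (W ⊓ LinearMap.ker (f - ι • 1)) ⊔ (W ⊓ LinearMap.ker (f - (-ι) • 1)) := by
      intro v hv
      have h2ι : (2 : F) * ι ≠ 0 := mul_ne_zero h2 hι0
      refine Submodule.mem_sup.2 ⟨(2 * ι)⁻¹ • (ι • v + f v), ⟨W.smul_mem _ (add_mem (W.smul_mem _ hv) (hW v hv)), ?_⟩,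
        (2 * ι)⁻¹ • (ι • v - f v), ⟨W.smul_mem _ (sub_mem (W.smul_mem _ hv) (hW v hv)), ?_⟩, ?_⟩
      · simp only [SetLike.mem_coe, LinearMap.mem_ker, LinearMap.sub_apply, LinearMap.smul_apply, Module.End.one_apply,
          map_smul, map_add, hff]
        match_scalars <;> field_simp
        all_goals first | ring1 | linear_combination hι | linear_combination -hι
      · simp only [SetLike.mem_coe, LinearMap.mem_ker, LinearMap.sub_apply, LinearMap.smul_apply, Module.End.one_apply,
          map_smul, map_sub, hff]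
        match_scalars <;> field_simp
        all_goals first | ring1 | linear_combination hι | linear_combination -hι
      · match_scalars <;> field_simp <;> ring
    have h4 := (Submodule.finrank_mono hle).trans (Submodule.finrank_add_le_finrank_add_finrank _ _)
    exact ⟨finrank F ↥(W ⊓ LinearMap.ker (f - ι • 1)), by omega⟩
  · by_contra hodd
    rw [Nat.not_even_iff_odd] at hodd
    let φ : Module.End F W := f.restrict hW
    have hφ : φ * φ = (-1 : F) • 1 := LinearMap.ext fun v => Subtype.ext (by simpa [φ] using hff v)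
    have h := congrArg LinearMap.det hφ
    rw [map_mul, LinearMap.det_smul, map_one, mul_one, hodd.neg_one_pow] at h
    exact hι ⟨_, h.symm⟩

theorem isUnit_of_sq_neg_one {ι : Type*} [Fintype ι] [DecidableEq ι] {M : Matrix ι ι F} (h : M * M = -1) :
    IsUnit M :=
  IsUnit.of_mul_eq_one (-M) (by rw [mul_neg, h, neg_neg])

theorem levi_neg_one {d : ℕ} (A : GL (Fin d) F) (hA : (A : Matrix (Fin d) (Fin d) F) = -1)
    (v : Fin d ⊕ Fin d → F) : (levi A).1 v = -v := by
  have hAi : ((A⁻¹ : GL (Fin d) F) : Matrix (Fin d) (Fin d) F) = -1 := by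
    have h : ((A * A : GL (Fin d) F) : Matrix (Fin d) (Fin d) F) = 1 := by rw [Units.val_mul, hA]; simp
    rw [inv_eq_of_mul_eq_one_right (Units.ext h), hA]
  rw [levi_apply, leviMat_mulVec, hA, hAi, Matrix.transpose_neg, Matrix.transpose_one]
  simp only [neg_mulVec, one_mulVec]
  ext (i | i) <;> simp

/-- A square root of minus one in the commutator subgroup. -/
theorem exists_sq_neg_one {d : ℕ} (hd : 2 ≤ d) (h2 : (2 : F) ≠ 0) (h : Even d ∨ Fintype.card F % 8 = 1) :
    ∃ g ∈ commutator (OQ (plusQF d F)), ∀ v, g.1 (g.1 v) = -v := by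
  classical
  have hx : Fintype.card F ≠ 2 ∨ d ≠ 2 := Or.inl fun h' => by
    have hodd := FiniteField.odd_card_of_char_ne_two (F := F) fun hc => h2 (by
      have := ringChar.charP F; rw [hc] at this; exact CharTwo.two_eq_zero)
    omega
  obtain ⟨A, hA, hdet⟩ : ∃ A : Matrix (Fin d) (Fin d) F, A * A = -1 ∧ IsSquare A.det := by
    rcases h with ⟨k, rfl⟩ | h8
    · refine ⟨(Matrix.fromBlocks (1 : Matrix (Fin k) (Fin k) F) (-(2 : F) • (1 : Matrix (Fin k) (Fin k) F)) (1 : Matrix (Fin k) (Fin k) F) (-1 : Matrix (Fin k) (Fin k) F)).reindex finSumFinEquiv finSumFinEquiv, ?_, ?_⟩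
      · have hM : Matrix.fromBlocks (1 : Matrix (Fin k) (Fin k) F) (-(2 : F) • (1 : Matrix (Fin k) (Fin k) F))
              (1 : Matrix (Fin k) (Fin k) F) (-1 : Matrix (Fin k) (Fin k) F) *
            Matrix.fromBlocks (1 : Matrix (Fin k) (Fin k) F) (-(2 : F) • (1 : Matrix (Fin k) (Fin k) F))
              (1 : Matrix (Fin k) (Fin k) F) (-1 : Matrix (Fin k) (Fin k) F) = -1 := by
          rw [Matrix.fromBlocks_multiply, show (-1 : Matrix (Fin k ⊕ Fin k) (Fin k ⊕ Fin k) F) =
            Matrix.fromBlocks (-1 : Matrix (Fin k) (Fin k) F) 0 0 (-1 : Matrix (Fin k) (Fin k) F) by rw [← Matrix.fromBlocks_one, Matrix.fromBlocks_neg, neg_zero]]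
          congr 1 <;> simp <;> module
        rw [Matrix.reindex_apply, Matrix.submatrix_mul_equiv, hM]
        ext i j
        simp [Matrix.one_apply]
      · rw [Matrix.det_reindex_self, Matrix.det_fromBlocks_one₁₁]
        refine ⟨1, ?_⟩
        rw [one_mul, show (-1 : Matrix (Fin k) (Fin k) F) - -(2 : F) • 1 = 1 by module, Matrix.det_one, mul_one]
    · have hcard : Nat.card Fˣ = Fintype.card F - 1 := by rw [Nat.card_units, Nat.card_eq_fintype_card]
      have : IsCyclic Fˣ := inferInstance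
      obtain ⟨u, hu⟩ := IsCyclic.exists_generator (α := Fˣ)
      have hou : orderOf u = Fintype.card F - 1 := by rw [orderOf_eq_card_of_forall_mem_zpowers hu, hcard]
      set e := (Fintype.card F - 1) / 8
      have he : Fintype.card F - 1 = 8 * e := by omega
      have he0 : 0 < e := by have := Fintype.one_lt_card (α := F); omega
      set w : F := ((u ^ e : Fˣ) : F)
      have hw : w ^ 4 = -1 := by
        have h1 : w ^ 4 * w ^ 4 = 1 := by
          rw [← pow_add, ← Units.val_pow_eq_pow_val, ← pow_mul,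
            show e * (4 + 4) = orderOf u by rw [hou, he]; ring, pow_orderOf_eq_one, Units.val_one]
        rcases mul_self_eq_one_iff.1 h1 with h | h
        · rw [← Units.val_pow_eq_pow_val, Units.val_eq_one, ← pow_mul] at h
          have := Nat.le_of_dvd (by omega) (orderOf_dvd_of_pow_eq_one h)
          omega
        · exact h
      refine ⟨(w ^ 2) • 1, ?_, ⟨w ^ d, ?_⟩⟩
      · rw [smul_mul_smul_comm, one_mul, ← pow_add, hw, neg_one_smul]
      · rw [Matrix.det_smul, Matrix.det_one, mul_one, Fintype.card_fin, ← pow_add, ← pow_mul, two_mul]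
  let A' : GL (Fin d) F := (isUnit_of_sq_neg_one hA).unit
  refine ⟨levi A', (isSquare_det_of_levi hx (by omega) A').2.2 hdet, fun v => ?_⟩
  rw [← LinearEquiv.mul_apply, ← Subgroup.coe_mul, ← map_mul]
  exact levi_neg_one _ (by rw [Units.val_mul, IsUnit.unit_spec, hA]) v

/-- No square root of minus one in the commutator subgroup. -/
theorem no_sq_neg_one {d : ℕ} (hd : 2 ≤ d) (h2 : (2 : F) ≠ 0) (hdodd : Odd d) (h8 : Fintype.card F % 8 ≠ 1)
    {f : OQ (plusQF d F)} (hf : f ∈ commutator (OQ (plusQF d F))) : ¬ ∀ v, f.1 (f.1 v) = -v := by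
  classical
  intro hff
  have hx : Fintype.card F ≠ 2 ∨ d ≠ 2 := Or.inr (by obtain ⟨k, hk⟩ := hdodd; omega)
  -- minus one is a square
  obtain ⟨ι, hι⟩ : IsSquare (-1 : F) := by
    let A : GL (Fin d) F := (isUnit_one (M := Matrix (Fin d) (Fin d) F)).neg.unit
    have hA : (A : Matrix (Fin d) (Fin d) F) = -1 := IsUnit.unit_spec _
    have hlev : levi A = f * f := Subtype.ext (LinearEquiv.ext fun v => by
      rw [levi_neg_one A hA, Subgroup.coe_mul, LinearEquiv.mul_apply, hff])
    have := (isSquare_det_of_levi hx (by omega) A).2.1 (hlev ▸ mul_mem hf hf)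
    rwa [hA, Matrix.det_neg, Matrix.det_one, mul_one, Fintype.card_fin, hdodd.neg_one_pow] at this
  have hι0 : ι ≠ 0 := fun h => by rw [h, mul_zero, neg_eq_zero] at hι; exact one_ne_zero hι
  -- `ι` is not a square
  have hιns : ¬ IsSquare ι := by
    rintro ⟨w, rfl⟩
    refine h8 ?_
    have hw0 : w ≠ 0 := fun h => hι0 (by rw [h, mul_zero])
    have hw4 : w ^ 4 = -1 := by rw [hι]; ring
    have hord : orderOf w = 2 ^ (2 + 1) := by
      refine orderOf_eq_prime_pow ?_ ?_
      · rw [show (2 : ℕ) ^ 2 = 4 from rfl, hw4]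
        exact fun h => h2 (by linear_combination -h)
      · rw [show (2 : ℕ) ^ (2 + 1) = 4 * 2 from rfl, pow_mul, hw4, neg_one_sq]
    have h := orderOf_dvd_of_pow_eq_one (FiniteField.pow_card_sub_one_eq_one w hw0)
    rw [hord] at h
    have := Fintype.one_lt_card (α := F)
    omega
  -- eigenspaces
  set f' : Module.End F (Fin d ⊕ Fin d → F) := f.1.toLinearMap
  set A := LinearMap.ker (f' - ι • 1)
  set B := LinearMap.ker (f' - (-ι) • 1)
  have hmA : ∀ {v}, v ∈ A ↔ f.1 v = ι • v := fun {v} => by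
    rw [LinearMap.mem_ker, LinearMap.sub_apply, sub_eq_zero]; rfl
  have hmB : ∀ {v}, v ∈ B ↔ f.1 v = (-ι) • v := fun {v} => by
    rw [LinearMap.mem_ker, LinearMap.sub_apply, sub_eq_zero]; rfl
  have h0 : ∀ a : F, a * a = -1 → ∀ v, f.1 v = a • v → (plusQF d F) v = 0 := fun a ha v hv => by
    have h : (plusQF d F) (a • v) = (plusQF d F) v := by rw [← hv, OQ_map_app]
    rw [QuadraticMap.map_smul, ha, smul_eq_mul, neg_one_mul, neg_eq_iff_add_eq_zero, ← two_mul] at h
    exact (mul_eq_zero.1 h).resolve_left h2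
  have hA0 : ∀ v ∈ A, (plusQF d F) v = 0 := fun v hv => h0 ι hι.symm v (hmA.1 hv)
  have hB0 : ∀ v ∈ B, (plusQF d F) v = 0 := fun v hv => h0 (-ι) (by rw [neg_mul_neg, ← hι]) v (hmB.1 hv)
  have hpol : ∀ {S : Submodule F (Fin d ⊕ Fin d → F)}, (∀ v ∈ S, (plusQF d F) v = 0) → ∀ x ∈ S, ∀ y ∈ S, polar (plusQF d F) x y = 0 := fun h x hx y hy => by
    rw [polar, h _ (add_mem hx hy), h x hx, h y hy, sub_zero, sub_zero]
  have hsup : ∀ v : (Fin d ⊕ Fin d → F), ∃ a ∈ A, ∃ b ∈ B, a + b = v := fun v => by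
    have h2ι : (2 : F) * ι ≠ 0 := mul_ne_zero h2 hι0
    refine ⟨(2 * ι)⁻¹ • (ι • v + f.1 v), hmA.2 ?_, (2 * ι)⁻¹ • (ι • v - f.1 v), hmB.2 ?_, ?_⟩
    · simp only [map_smul, map_add, hff]
      match_scalars <;> field_simp
      all_goals first | ring1 | linear_combination hι | linear_combination -hι
    · simp only [map_smul, map_sub, hff]
      match_scalars <;> field_simp
      all_goals first | ring1 | linear_combination hι | linear_combination -hι
    · match_scalars <;> field_simp <;> ring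
  have hN : NonDegOn (plusQF d F).polarBilin (⊤ : Submodule F (Fin d ⊕ Fin d → F)) := fun u _ hu => bNondeg_plusQF u fun v => hu v trivial
  have hAd := two_mul_finrank_le le_top hN (fun x hx y hy => hpol hA0 x hx y hy)
  have hBd := two_mul_finrank_le le_top hN (fun x hx y hy => hpol hB0 x hx y hy)
  rw [finrank_top, finrank_space] at hAd hBd
  have hAB : d ≤ finrank F A ∧ d ≤ finrank F B := by
    have hle : (⊤ : Submodule F (Fin d ⊕ Fin d → F)) ≤ A ⊔ B := fun v _ => by
      obtain ⟨a, ha, b, hb, rfl⟩ := hsup v; exact Submodule.add_mem_sup ha hb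
    have h4 := (Submodule.finrank_mono hle).trans (Submodule.finrank_add_le_finrank_add_finrank _ _)
    rw [finrank_top, finrank_space] at h4
    omega
  let a : Basis (Fin d) F A := Module.finBasisOfFinrankEq F A (by omega)
  let φ : B →ₗ[F] (Fin d → F) := LinearMap.pi fun i => ((plusQF d F).polarBilin (a i)).comp B.subtype
  have hφ : Function.Injective φ := (injective_iff_map_eq_zero _).2 fun b hb => Subtype.ext
    (bNondeg_plusQF (b : (Fin d ⊕ Fin d → F)) fun v => by
      obtain ⟨x, hx, y, hy, rfl⟩ := hsup v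
      rw [polar_add_right, hpol hB0 _ b.2 y hy, add_zero, polar_comm]
      have hx' : x = ∑ i, (a.repr ⟨x, hx⟩ i) • (a i : (Fin d ⊕ Fin d → F)) := by
        have h := congrArg Subtype.val (a.sum_repr ⟨x, hx⟩)
        rw [Submodule.coe_sum] at h
        exact h.symm.trans (Finset.sum_congr rfl fun i _ => rfl)
      rw [hx', ← polarBilin_apply_apply, map_sum, LinearMap.sum_apply]
      refine Finset.sum_eq_zero fun i _ => ?_
      rw [map_smul, LinearMap.smul_apply, show (plusQF d F).polarBilin (a i) b = 0 from congrFun hb i, smul_zero])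
  let φe : B ≃ₗ[F] (Fin d → F) := LinearEquiv.ofBijective φ ⟨hφ,
    (LinearMap.injective_iff_surjective_of_finrank_eq_finrank (by rw [finrank_fin_fun]; omega)).1 hφ⟩
  let L : (Fin d ⊕ Fin d → F) →ₗ[F] (Fin d ⊕ Fin d → F) :=
    { toFun := fun v => (a.equivFun.symm (v ∘ Sum.inl) : (Fin d ⊕ Fin d → F)) + (φe.symm (v ∘ Sum.inr) : (Fin d ⊕ Fin d → F))
      map_add' := fun u v => by
        rw [show (u + v) ∘ Sum.inl = u ∘ Sum.inl + v ∘ Sum.inl from rfl,
          show (u + v) ∘ Sum.inr = u ∘ Sum.inr + v ∘ Sum.inr from rfl, map_add, map_add]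
        push_cast
        abel
      map_smul' := fun t v => by
        rw [show (t • v) ∘ Sum.inl = t • (v ∘ Sum.inl) from rfl,
          show (t • v) ∘ Sum.inr = t • (v ∘ Sum.inr) from rfl, map_smul, map_smul, RingHom.id_apply, smul_add]
        push_cast
        rfl }
  have hLR : ∀ v, (plusQF d F) (L v) = (plusQF d F) v := fun v => by
    show (plusQF d F) ((a.equivFun.symm (v ∘ Sum.inl) : (Fin d ⊕ Fin d → F)) + (φe.symm (v ∘ Sum.inr) : (Fin d ⊕ Fin d → F))) = (plusQF d F) v
    rw [QuadraticMap.map_add (plusQF d F), hA0 _ (Subtype.coe_prop _), hB0 _ (Subtype.coe_prop _), zero_add, zero_add,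
      a.equivFun_symm_apply, Submodule.coe_sum, ← polarBilin_apply_apply, map_sum, LinearMap.sum_apply,
      plusQF_eq_dot, dotProduct]
    refine Finset.sum_congr rfl fun i _ => ?_
    rw [Submodule.coe_smul, map_smul, LinearMap.smul_apply, smul_eq_mul]
    congr 1
    exact congrFun (φe.apply_symm_apply (v ∘ Sum.inr)) i
  have hLinj : Function.Injective L := (injective_iff_map_eq_zero _).2 fun v hv =>
    bNondeg_plusQF v fun w => by
      show polar (plusQF d F) v w = 0
      have : polar (plusQF d F) (L v) (L w) = polar (plusQF d F) v w := by simp only [polar, ← map_add, hLR]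
      rw [← this, hv, polar_zero_left]
  let g : OQ (plusQF d F) := ⟨LinearEquiv.ofBijective L ⟨hLinj, LinearMap.injective_iff_surjective.1 hLinj⟩, hLR⟩
  let S : GL (Fin d) F := Units.map (Matrix.scalar (Fin d) : F →+* _).toMonoidHom (Units.mk0 ι hι0)
  have hS : (S : Matrix (Fin d) (Fin d) F) = ι • 1 := by
    simp [S, Matrix.smul_one_eq_diagonal]
  have hSi : ((S⁻¹ : GL (Fin d) F) : Matrix (Fin d) (Fin d) F) = (-ι) • 1 := by
    refine Units.inv_eq_of_mul_eq_one_right ?_
    rw [hS, smul_mul_smul_comm, one_mul, mul_neg, ← hι, neg_neg, one_smul]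
  have hconj : f * g = g * levi S := Subtype.ext (LinearEquiv.ext fun v => by
    rw [Subgroup.coe_mul, Subgroup.coe_mul, LinearEquiv.mul_apply, LinearEquiv.mul_apply]
    show f.1 (L v) = L ((levi S).1 v)
    rw [levi_apply, leviMat_mulVec, hS, hSi, Matrix.transpose_smul, Matrix.transpose_one]
    show f.1 ((a.equivFun.symm (v ∘ Sum.inl) : (Fin d ⊕ Fin d → F)) + (φe.symm (v ∘ Sum.inr) : (Fin d ⊕ Fin d → F))) =
      (a.equivFun.symm _ : (Fin d ⊕ Fin d → F)) + (φe.symm _ : (Fin d ⊕ Fin d → F))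
    rw [Sum.elim_comp_inl, Sum.elim_comp_inr, smul_mulVec, smul_mulVec, one_mulVec, one_mulVec, map_smul, map_smul,
      map_add, hmA.1 (Subtype.coe_prop _), hmB.1 (Subtype.coe_prop _)]
    rfl)
  have hmem : levi S ∈ commutator (OQ (plusQF d F)) := by
    rw [show levi S = g⁻¹ * f * g by rw [mul_assoc, hconj, inv_mul_cancel_left]]
    exact (inferInstance : (commutator (OQ (plusQF d F))).Normal).conj_mem' f hf g
  have := (isSquare_det_of_levi hx (by omega) S).2.1 hmem
  rw [hS, Matrix.det_smul, Matrix.det_one, mul_one, Fintype.card_fin] at this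
  obtain ⟨k, hk⟩ := hdodd
  rw [hk, pow_succ, pow_mul] at this
  exact hιns (Cfsg.Agent.Forms25.isSquare_of_isSquare_mul (pow_ne_zero _ (pow_ne_zero 2 hι0)) ⟨ι ^ k, by ring⟩ this)

end Cfsg.Agent.Elusive.OrthPlus
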