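import Cfsg.Agent.Elusive.OrthTypes
import Cfsg.Agent.Elusive.OrthOrder
import Cfsg.Agent.Elusive.OrthPlusModels
import Cfsg.Agent.OrthGen.Index

/-!
Isometries of odd prime order `r ≠ p` of a quadratic space of even dimension, in any characteristic, and the
elliptic subspaces of a given dimension they fix.
-/

set_option autoImplicit false
set_option linter.unusedSectionVars false

namespace Cfsg.Agent.Elusive.OrthElliptic

open Module QuadraticMap Cfsg.Agent.Classical Cfsg.Agent.Forms Cfsg.Agent.Elusive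
open Cfsg.Geo (IsPlusTypeOn IsNondegenerateOn)

/-- The type of a space without fixed vectors of dimension `j c`. -/
def PlusBlocks (i j : ℕ) : Prop := Odd i ∨ Even j

/-- An element with moving part of dimension `j c` exists. -/
def Valid (i c n : ℕ) (s : Prop) (j : ℕ) : Prop := j * c ≤ n ∧ (j * c = n → (s ↔ PlusBlocks i j))

/-- Such an element fixes an elliptic subspace of dimension `m`. -/
def Opt (i c n m : ℕ) (s : Prop) (j : ℕ) : Prop :=
  ∃ e j', j' ≤ j ∧ e + j' * c = m ∧ e + j * c ≤ n ∧ (e = 0 → ¬ PlusBlocks i j') ∧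
    (0 < e → e + j * c = n → ¬ ((s ↔ PlusBlocks i j) ↔ PlusBlocks i j'))

variable {F : Type*} [Field F] [Fintype F] {ι : Type} [Fintype ι] [DecidableEq ι]

/-- An elliptic subspace of dimension `m`. -/
def IsEll (R : QuadraticForm F (ι → F)) (m : ℕ) (W : Submodule F (ι → F)) : Prop :=
  finrank F W = m ∧ IsNondegenerateOn (polar ⇑R) W ∧ ¬ IsPlusTypeOn ⇑R W

variable {R : QuadraticForm F (ι → F)}

/-- The numbers attached to `r`. -/
theorem index_facts {r : ℕ} [Fact r.Prime] (hr : ¬ r ∣ Fintype.card F) {i c : ℕ}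
    (hi : i = orderOf ((Fintype.card F : ℕ) : ZMod r)) (hc : c = if Even i then i else 2 * i) :
    0 < i ∧ 0 < c ∧ Even c ∧ i ∣ c := by
  have hi0 : 0 < i := hi ▸ orderOf_pos_of_not_dvd hr
  rw [hc]
  split_ifs with h
  · exact ⟨hi0, hi0, h, dvd_rfl⟩
  · exact ⟨hi0, by omega, even_two_mul i, dvd_mul_left i 2⟩

theorem mem_fix {g : OQ R} {v : ι → F} :
    v ∈ LinearMap.ker ((g.1.toLinearMap : Module.End F (ι → F)) - 1) ↔ g.1 v = v := by
  rw [LinearMap.mem_ker, LinearMap.sub_apply, Module.End.one_apply, sub_eq_zero]; rfl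

/-- The fixed and moving parts of an invariant nondegenerate subspace. -/
theorem exists_moving {g : OQ R} {r : ℕ} [Fact r.Prime] (hr : ¬ r ∣ Fintype.card F) (hr2 : r ≠ 2)
    (hg : g ^ r = 1) {W : Submodule F (ι → F)} (hW : ∀ v ∈ W, g.1 v ∈ W) (hN : NonDegOn R.polarBilin W)
    {i c : ℕ} (hi : i = orderOf ((Fintype.card F : ℕ) : ZMod r)) (hc : c = if Even i then i else 2 * i) :
    ∃ M ≤ W, (∀ v ∈ M, g.1 v ∈ M) ∧ NonDegOn R.polarBilin M ∧
      (∀ x ∈ W ⊓ LinearMap.ker ((g.1.toLinearMap : Module.End F (ι → F)) - 1), ∀ y ∈ M, polar R x y = 0) ∧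
      (∀ v ∈ M, g.1 v = v → v = 0) ∧
      W ⊓ LinearMap.ker ((g.1.toLinearMap : Module.End F (ι → F)) - 1) ⊔ M = W ∧
      NonDegOn R.polarBilin (W ⊓ LinearMap.ker ((g.1.toLinearMap : Module.End F (ι → F)) - 1)) ∧
      (∀ j, j * c ≤ finrank F M → ∃ U ≤ M, (∀ v ∈ U, g.1 v ∈ U) ∧ NonDegOn R.polarBilin U ∧ finrank F U = j * c) ∧
      ∃ j, finrank F W = finrank F ↥(W ⊓ LinearMap.ker ((g.1.toLinearMap : Module.End F (ι → F)) - 1)) + j * c ∧
        finrank F M = j * c := by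
  set f : Module.End F (ι → F) := g.1.toLinearMap with hf
  have hfr : f ^ r = 1 := by rw [hf, ← OrthPlus.toLinearMap_pow, hg]; rfl
  have hiso : ∀ u v, R.polarBilin (f u) (f v) = R.polarBilin u v := fun u v => OQ_polar g u v
  have hker := Orth.nonDegOn_inf_ker hiso hfr hr hW hN
  have hfree : ∀ M, Disjoint (LinearMap.ker (f - 1)) M → ∀ v ∈ M, g.1 v = v → v = 0 :=
    fun M hd v hv hgv => Submodule.disjoint_def.1 hd v (mem_fix.2 hgv) hv
  by_cases h2 : (2 : F) = 0
  · have hA : R.polarBilin.IsAlt := fun v => by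
      rw [polarBilin_apply_apply, polar_self, two_nsmul, ← two_mul, h2, zero_mul]
    obtain ⟨M, h1, h2', h3, h4, h5, h6, h7, h8⟩ :=
      Cfsg.Agent.Elusive.exists_moving_part hA hiso hfr hr hr2 hW hN hi hc
    exact ⟨M, h1, h2', h3, h4, hfree M h5, h6, hker, h7, h8⟩
  · obtain ⟨M, h1, h2', h3, h4, h5, h6, h7, h8⟩ :=
      Orth.exists_moving_part ⟨fun u v => polar_comm R u v⟩ h2 hiso hfr hr hr2 hW hN hi hc
    exact ⟨M, h1, h2', h3, h4, hfree M h5, h6, hker, h7, h8⟩

theorem apply_pow {g : OQ R} (k : ℕ) (v : ι → F) :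
    (g ^ k).1 v = ((g.1.toLinearMap : Module.End F (ι → F)) ^ k) v := by
  rw [← OrthPlus.toLinearMap_pow]; rfl

/-- The type of a nondegenerate invariant space without fixed vectors. -/
theorem plus_iff_of_fixed_free {g : OQ R} {r : ℕ} [Fact r.Prime] (hr : ¬ r ∣ Fintype.card F) (hr2 : r ≠ 2)
    (hg : g ^ r = 1) {i c : ℕ} (hi : i = orderOf ((Fintype.card F : ℕ) : ZMod r))
    (hc : c = if Even i then i else 2 * i) {M : Submodule F (ι → F)} (hM : ∀ v ∈ M, g.1 v ∈ M)
    (hN : NonDegOn R.polarBilin M) (hfree : ∀ v ∈ M, g.1 v = v → v = 0) {j : ℕ} (hd : finrank F M = j * c) :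
    IsPlusTypeOn ⇑R M ↔ PlusBlocks i j := by
  classical
  obtain ⟨hi0, hc0, hce, hic⟩ := index_facts hr hi hc
  rcases Nat.eq_zero_or_pos j with rfl | hj
  · exact iff_of_true (OrthTypes.plus_of_finrank_zero (by rw [hd, zero_mul])) (Or.inr Even.zero)
  obtain ⟨n, hn⟩ : ∃ n, j * c = 2 * (n + 1) := by
    obtain ⟨c', rfl⟩ := hce
    have : 0 < j * c' := Nat.mul_pos hj (by omega)
    exact ⟨j * c' - 1, by rw [mul_add]; omega⟩
  -- the vectors of value one are permuted without fixed points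
  let X := {w : M // R (w : ι → F) = 1}
  let σ : Function.End X := fun w => ⟨⟨g.1 w.1.1, hM _ w.1.2⟩, by
    show R (g.1 w.1.1) = 1
    rw [OQ_map_app]; exact w.2⟩
  have hσ : ∀ k : ℕ, ∀ w : X, ((σ ^ k) w).1.1 = (g ^ k).1 w.1.1 := by
    intro k
    induction k with
    | zero => intro w; rfl
    | succ k ih =>
      intro w
      rw [pow_succ', pow_succ']
      show g.1 ((σ ^ k) w).1.1 = g.1 ((g ^ k).1 w.1.1)
      rw [ih]
  have hσr : σ ^ r ^ 1 = 1 := by
    funext w
    refine Subtype.ext (Subtype.ext ((hσ _ w).trans ?_))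
    rw [pow_one, hg]; rfl
  have hmod := Equiv.Perm.card_fixedPoints_modEq hσr
  have hfix : Fintype.card σ.fixedPoints = 0 := Fintype.card_eq_zero_iff.2 ⟨fun w => by
    have h0 := hfree w.1.1.1 w.1.1.2 (congrArg (fun x : X => x.1.1) w.2)
    have h1 := w.1.2
    rw [h0, map_zero] at h1
    exact zero_ne_one h1⟩
  rw [hfix, ← ZMod.natCast_eq_natCast_iff, Nat.cast_zero] at hmod
  obtain ⟨hplus, hminus⟩ := OrthTypes.card_value_one hN (n := n) (hd.trans hn)
  set z : ZMod r := ((Fintype.card F : ℕ) : ZMod r) with hzdef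
  have hzi : z ^ i = 1 := hi ▸ pow_orderOf_eq_one z
  have hz0 : z ≠ 0 := fun h => by
    rw [h, zero_pow hi0.ne'] at hzi
    exact zero_ne_one hzi
  have hne : (1 : ZMod r) ≠ -1 := fun h => by
    have h' : ((2 : ℕ) : ZMod r) = 0 := by push_cast; linear_combination h
    exact hr2 ((Nat.prime_dvd_prime_iff_eq Fact.out Nat.prime_two).1 ((ZMod.natCast_eq_zero_iff 2 r).1 h'))
  have hX : (Nat.card X : ZMod r) = 0 := by rw [Nat.card_eq_fintype_card, hmod]
  -- the sign of the power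
  have hsign : (PlusBlocks i j → z ^ (n + 1) = 1) ∧ (¬ PlusBlocks i j → z ^ (n + 1) = -1) := by
    rcases Nat.even_or_odd i with hev | hod
    · rw [if_pos hev] at hc
      obtain ⟨i', hi'⟩ := hev
      have hzh : z ^ i' = -1 := by
        rcases mul_self_eq_one_iff.1 (show z ^ i' * z ^ i' = 1 by rw [← pow_add, ← hi', hzi]) with h | h
        · exact absurd (Nat.le_of_dvd (by omega) (hi ▸ orderOf_dvd_of_pow_eq_one h)) (by omega)
        · exact h
      have hexp : n + 1 = i' * j := by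
        rw [hc, hi', mul_add, mul_comm j] at hn
        omega
      rw [hexp, pow_mul, hzh]
      refine ⟨fun h => ?_, fun h => ?_⟩
      · exact (h.resolve_left (Nat.not_odd_iff_even.2 ⟨i', hi'⟩)).neg_one_pow
      · exact (Nat.not_even_iff_odd.1 fun he => h (Or.inr he)).neg_one_pow
    · rw [if_neg (Nat.not_even_iff_odd.2 hod)] at hc
      have hexp : n + 1 = i * j := by
        rw [hc, mul_left_comm, mul_comm j] at hn
        omega
      exact ⟨fun _ => by rw [hexp, pow_mul, hzi, one_pow], fun h => absurd (Or.inl hod) h⟩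
  constructor
  · intro hp
    by_contra hb
    have h := congrArg (Nat.cast : ℕ → ZMod r) (hplus hp)
    rw [Nat.cast_add, hX, zero_add, Nat.cast_pow, Nat.cast_pow, ← hzdef,
      show 2 * n + 1 = n + 1 + n by omega, pow_add _ (n + 1), hsign.2 hb] at h
    exact hne (mul_right_cancel₀ (pow_ne_zero n hz0) ((one_mul _).trans h))
  · intro hb
    by_contra hp
    have h := congrArg (Nat.cast : ℕ → ZMod r) (hminus hp)
    rw [hX, Nat.cast_add, Nat.cast_pow, Nat.cast_pow, ← hzdef, show 2 * n + 1 = n + 1 + n by omega,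
      pow_add _ (n + 1), hsign.1 hb, one_mul] at h
    exact hne (mul_right_cancel₀ (pow_ne_zero n hz0) (by linear_combination -h))

section ext

variable {A B : Submodule F (ι → F)}

/-- Extension of an isometry of a summand by the identity on the other. -/
noncomputable def extHom (hc : IsCompl A B) (ho : ∀ x ∈ A, ∀ y ∈ B, polar R x y = 0) :
    OQ (R.comp B.subtype) →* OQ R where
  toFun h := ⟨(Submodule.prodEquivOfIsCompl A B hc).symm ≪≫ₗ ((LinearEquiv.refl F A).prodCongr h.1) ≪≫ₗ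
      Submodule.prodEquivOfIsCompl A B hc, fun v => by
    obtain ⟨⟨x, y⟩, rfl⟩ := (Submodule.prodEquivOfIsCompl A B hc).surjective v
    rw [LinearEquiv.trans_apply, LinearEquiv.trans_apply, LinearEquiv.symm_apply_apply]
    show R ((x : ι → F) + (h.1 y : ι → F)) = R ((x : ι → F) + (y : ι → F))
    rw [QuadraticMap.map_add R, QuadraticMap.map_add R (x : ι → F) (y : ι → F),
      show R (h.1 y : ι → F) = R (y : ι → F) from h.2 y, ho x x.2 _ (h.1 y).2, ho x x.2 y y.2]⟩
  map_one' := Subtype.ext (LinearEquiv.ext fun v => (Submodule.prodEquivOfIsCompl A B hc).apply_symm_apply v)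
  map_mul' g h := Subtype.ext (LinearEquiv.ext fun v => by
    set E := Submodule.prodEquivOfIsCompl A B hc
    show E ((LinearEquiv.refl F A).prodCongr (g * h).1 (E.symm v)) =
      E ((LinearEquiv.refl F A).prodCongr g.1 (E.symm (E ((LinearEquiv.refl F A).prodCongr h.1 (E.symm v)))))
    rw [LinearEquiv.symm_apply_apply]
    rfl)

theorem extHom_apply (hc : IsCompl A B) (ho : ∀ x ∈ A, ∀ y ∈ B, polar R x y = 0) (h : OQ (R.comp B.subtype))
    (x : A) (y : B) : (extHom hc ho h).1 ((x : ι → F) + (y : ι → F)) = (x : ι → F) + (h.1 y : ι → F) := by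
  set E := Submodule.prodEquivOfIsCompl A B hc
  show E ((LinearEquiv.refl F A).prodCongr h.1 (E.symm ((x : ι → F) + (y : ι → F)))) = _
  rw [show (x : ι → F) + (y : ι → F) = E (x, y) from rfl, LinearEquiv.symm_apply_apply]
  rfl

theorem extHom_injective (hc : IsCompl A B) (ho : ∀ x ∈ A, ∀ y ∈ B, polar R x y = 0) :
    Function.Injective (extHom hc ho) := fun g h hgh => Subtype.ext (LinearEquiv.ext fun y => Subtype.ext (by
  have h1 := extHom_apply hc ho g 0 y
  rw [hgh, extHom_apply hc ho h 0 y] at h1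
  simpa using h1.symm))

end ext

/-- An isometry of a nondegenerate space without fixed vectors. -/
theorem exists_free_element {U : Submodule F (ι → F)} (hU : NonDegOn R.polarBilin U) {r : ℕ} [Fact r.Prime]
    (hr : ¬ r ∣ Fintype.card F) (hr2 : r ≠ 2) {i c : ℕ} (hi : i = orderOf ((Fintype.card F : ℕ) : ZMod r))
    (hc : c = if Even i then i else 2 * i) {j : ℕ} (hd : finrank F U = j * c)
    (ht : IsPlusTypeOn ⇑R U ↔ PlusBlocks i j) :
    ∃ h : OQ (R.comp U.subtype), h ^ r = 1 ∧ ∀ u, h.1 u = u → u = 0 := by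
  obtain ⟨hi0, hc0, hce, hic⟩ := index_facts hr hi hc
  rcases Nat.eq_zero_or_pos j with rfl | hj
  · rw [zero_mul] at hd
    have : Subsingleton U := Module.finrank_zero_iff.1 hd
    exact ⟨1, one_pow r, fun u _ => Subsingleton.elim _ _⟩
  obtain ⟨c', hc'⟩ := hce
  obtain ⟨n, hn⟩ : ∃ n, j * c' = n + 1 := ⟨j * c' - 1, by have := Nat.mul_pos hj (show 0 < c' by omega); omega⟩
  have htrans : ∀ {V : Type _} [AddCommGroup V] [Module F V] {S : QuadraticForm F V} (e : U ≃ₗ[F] V),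
      (∀ w, S (e w) = R (w : ι → F)) → (∃ h : OQ S, h ^ r = 1 ∧ ∀ v, h.1 v = v → v = 0) →
      ∃ h : OQ (R.comp U.subtype), h ^ r = 1 ∧ ∀ u, h.1 u = u → u = 0 := by
    intro V _ _ S e he hh
    obtain ⟨h, hhr, hfix⟩ := hh
    refine ⟨(OQCongr (Q := R.comp U.subtype) e he).symm h, by rw [← map_pow, hhr, map_one], fun u hu => ?_⟩
    have : e.symm (h.1 (e u)) = u := hu
    exact e.map_eq_zero_iff.1 (hfix _ (by
      conv_rhs => rw [← this]
      rw [e.apply_symm_apply]))
  have hd' : finrank F U = 2 * (n + 1) := by rw [hd, ← hn, hc', mul_add]; omega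
  rcases OrthTypes.exists_model hU hd' with ⟨hp, e, he⟩ | ⟨hp, a, b, hab, e, he⟩
  · refine htrans e (fun w => (he w).symm) (Elusive25.exists_fpf_plus (by omega)
      (OrthPlus.dvd_pow_sub_one hi ?_))
    rcases Nat.even_or_odd i with hev | hod
    · rw [if_pos hev] at hc
      obtain ⟨t, ht'⟩ : Even j := (ht.1 hp).resolve_left (Nat.not_odd_iff_even.2 hev)
      exact ⟨t, by rw [← hn, ht', ← hc, hc']; ring⟩
    · rw [if_neg (Nat.not_even_iff_odd.2 hod)] at hc
      exact ⟨j, by rw [← hn, show c' = i by omega, mul_comm]⟩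
  · refine htrans e (fun w => (he w).symm) (Elusive25.exists_fpf_minus hab ?_)
    have hb : ¬ PlusBlocks i j := fun h => hp (ht.2 h)
    rw [PlusBlocks, not_or, Nat.not_odd_iff_even, Nat.not_even_iff_odd] at hb
    obtain ⟨hev, hjo⟩ := hb
    rw [if_pos hev] at hc
    rw [← ZMod.natCast_eq_zero_iff, Nat.cast_add, Nat.cast_pow, Nat.cast_one]
    set z : ZMod r := ((Fintype.card F : ℕ) : ZMod r) with hzdef
    have hzi : z ^ i = 1 := hi ▸ pow_orderOf_eq_one z
    have hzh : z ^ c' = -1 := by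
      rcases mul_self_eq_one_iff.1 (show z ^ c' * z ^ c' = 1 by rw [← pow_add, ← hc', hc, hzi]) with h | h
      · exact absurd (Nat.le_of_dvd (by omega) (hi ▸ orderOf_dvd_of_pow_eq_one h)) (by omega)
      · exact h
    rw [← hn, mul_comm, pow_mul, hzh, hjo.neg_one_pow, neg_add_cancel]

variable (hB : BNondeg R)
include hB

theorem nonDegOn_top : NonDegOn R.polarBilin (⊤ : Submodule F (ι → F)) :=
  fun u _ hu => hB u fun v => hu v trivial

/-- An element with moving part of dimension `j c`. -/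
theorem exists_element (hVe : Even (Fintype.card ι)) {r : ℕ} [Fact r.Prime] (hr : ¬ r ∣ Fintype.card F)
    (hr2 : r ≠ 2) {i c : ℕ} (hi : i = orderOf ((Fintype.card F : ℕ) : ZMod r))
    (hc : c = if Even i then i else 2 * i) {j : ℕ}
    (hj : Valid i c (Fintype.card ι) (IsPlusTypeOn ⇑R ⊤) j) :
    ∃ g : OQ R, g ^ r = 1 ∧
      finrank F (LinearMap.ker ((g.1.toLinearMap : Module.End F (ι → F)) - 1)) + j * c = Fintype.card ι := by
  obtain ⟨hi0, hc0, hce, hic⟩ := index_facts hr hi hc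
  obtain ⟨U, hU, hUd, ht⟩ : ∃ U : Submodule F (ι → F), NonDegOn R.polarBilin U ∧ finrank F U = j * c ∧
      (IsPlusTypeOn ⇑R U ↔ PlusBlocks i j) := by
    rcases hj.1.eq_or_lt with h | h
    · exact ⟨⊤, nonDegOn_top hB, by rw [finrank_top, finrank_fintype_fun_eq_card, h], hj.2 h⟩
    rcases Nat.eq_zero_or_pos j with rfl | hj0
    · exact ⟨⊥, nonDegOn_bot _, by rw [finrank_bot, zero_mul],
        iff_of_true OrthTypes.plus_bot (Or.inr Even.zero)⟩
    obtain ⟨c', hc'⟩ := hce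
    have hpos : 0 < j * c' := Nat.mul_pos hj0 (by omega)
    have hjc : j * c = 2 * (j * c' - 1 + 1) := by rw [hc', mul_add]; omega
    obtain ⟨U, -, hU, hUd, ht⟩ := OrthTypes.exists_sub (nonDegOn_top hB)
      (by rw [finrank_top, finrank_fintype_fun_eq_card]; exact hVe) (n := j * c' - 1)
      (by rw [finrank_top, finrank_fintype_fun_eq_card, ← hjc]; exact h) (PlusBlocks i j)
    exact ⟨U, hU, by rw [hUd, hjc], ht⟩
  obtain ⟨h, hhr, hfree⟩ := exists_free_element hU hr hr2 hi hc hUd ht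
  set P := LinearMap.BilinForm.orthogonal R.polarBilin U
  have hcpl : IsCompl P U := (OrthTypes.isCompl_orth hU).symm
  have ho : ∀ x ∈ P, ∀ y ∈ U, polar R x y = 0 := fun x hx y hy => (polar_comm R x y).trans (hx y hy)
  refine ⟨extHom hcpl ho h, by rw [← map_pow, hhr, map_one], ?_⟩
  have hker : LinearMap.ker (((extHom hcpl ho h).1.toLinearMap : Module.End F (ι → F)) - 1) = P := by
    ext v
    obtain ⟨x, hx, y, hy, rfl⟩ := Submodule.mem_sup.1 (hcpl.sup_eq_top ▸ Submodule.mem_top : v ∈ P ⊔ U)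
    rw [mem_fix, extHom_apply hcpl ho h ⟨x, hx⟩ ⟨y, hy⟩, add_right_inj]
    constructor
    · intro he
      have : (⟨y, hy⟩ : U) = 0 := hfree _ (Subtype.ext he)
      rw [show y = 0 from congrArg Subtype.val this, add_zero]
      exact hx
    · intro hm
      have hy0 : y = 0 := Submodule.disjoint_def.1 hcpl.disjoint y ((add_sub_cancel_left x y) ▸ P.sub_mem hm hx) hy
      subst hy0
      rw [show (⟨0, hy⟩ : U) = 0 from rfl, map_zero]; rfl
  rw [hker, ← hUd, Submodule.finrank_add_eq_of_isCompl hcpl, finrank_fintype_fun_eq_card]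

/-- Elements of odd prime order fixing an elliptic subspace. -/
theorem exists_fixed (hVe : Even (Fintype.card ι)) {r : ℕ} [Fact r.Prime] (hr : ¬ r ∣ Fintype.card F)
    (hr2 : r ≠ 2) {i c : ℕ} (hi : i = orderOf ((Fintype.card F : ℕ) : ZMod r))
    (hc : c = if Even i then i else 2 * i) {m : ℕ} (hme : Even m)
    (hopt : ∀ j, Valid i c (Fintype.card ι) (IsPlusTypeOn ⇑R ⊤) j →
      Opt i c (Fintype.card ι) m (IsPlusTypeOn ⇑R ⊤) j)
    {g : OQ R} (hg : g ^ r = 1) : ∃ W, IsEll R m W ∧ ∀ v ∈ W, g.1 v ∈ W := by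
  classical
  obtain ⟨hi0, hc0, hce, hic⟩ := index_facts hr hi hc
  obtain ⟨M, -, hM, hMN, ho, hfree, hsup, hCN, hmult, j, hj, hMd⟩ :=
    exists_moving hr hr2 hg (W := ⊤) (fun _ _ => trivial) (nonDegOn_top hB) hi hc
  set C := (⊤ : Submodule F (ι → F)) ⊓ LinearMap.ker ((g.1.toLinearMap : Module.End F (ι → F)) - 1)
  rw [finrank_top, finrank_fintype_fun_eq_card] at hj
  have hjev : Even (j * c) := hce.mul_left j
  have hCe : Even (finrank F C) := by
    rw [Nat.even_iff] at hVe hjev ⊢; omega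
  have hMσ := plus_iff_of_fixed_free hr hr2 hg hi hc hM hMN hfree hMd
  have hV : IsPlusTypeOn ⇑R ⊤ ↔ (IsPlusTypeOn ⇑R C ↔ PlusBlocks i j) := by
    rw [← hsup, OrthTypes.plus_sup_iff hB hCN hMN ho hCe (hMd ▸ hjev), hMσ]
  obtain ⟨e, j', hj', hem, hen, he0, hetop⟩ := hopt j ⟨by omega, fun h => by
    have hC0 : IsPlusTypeOn ⇑R C := OrthTypes.plus_of_finrank_zero (by omega)
    rw [hV, iff_true_left hC0]⟩
  obtain ⟨U, hUM, hU, hUN, hUd⟩ := hmult j' (by rw [hMd]; exact Nat.mul_le_mul_right c hj')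
  have hUσ := plus_iff_of_fixed_free hr hr2 hg hi hc hU hUN (fun v hv => hfree v (hUM hv)) hUd
  have hUe : Even (finrank F U) := hUd ▸ hce.mul_left j'
  obtain ⟨C', hC', hC'N, hC'd, hW⟩ : ∃ C' ≤ C, NonDegOn R.polarBilin C' ∧ finrank F C' = e ∧
      ¬ (IsPlusTypeOn ⇑R C' ↔ PlusBlocks i j') := by
    rcases Nat.eq_zero_or_pos e with rfl | hepos
    · exact ⟨⊥, bot_le, nonDegOn_bot _, finrank_bot F _, fun h => he0 rfl (h.1 OrthTypes.plus_bot)⟩
    rcases hen.eq_or_lt with h | h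
    · exact ⟨C, le_rfl, hCN, by omega, fun h' => hetop hepos h (by
        rw [hV]; exact ⟨fun hh => by tauto, fun hh => by tauto⟩)⟩
    · obtain ⟨n, hn⟩ : ∃ n, e = 2 * (n + 1) := by
        have hj'e : Even (j' * c) := hce.mul_left j'
        rw [Nat.even_iff] at hme hj'e
        exact ⟨e / 2 - 1, by omega⟩
      obtain ⟨C', hC', hC'N, hC'd, hC't⟩ := OrthTypes.exists_sub hCN hCe (n := n) (by omega) (¬ PlusBlocks i j')
      exact ⟨C', hC', hC'N, hC'd.trans hn.symm, by rw [hC't]; tauto⟩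
  have ho' : ∀ x ∈ C', ∀ y ∈ U, polar R x y = 0 := fun x hx y hy => ho x (hC' hx) y (hUM hy)
  refine ⟨C' ⊔ U, ⟨?_, OrthTypes.nondeg_iff.2 (OrthTypes.nonDegOn_sup hC'N hUN ho'), ?_⟩, fun v hv => ?_⟩
  · rw [OrthTypes.finrank_sup hC'N ho', hC'd, hUd, hem]
  · rw [OrthTypes.plus_sup_iff hB hC'N hUN ho' (by
      rw [hC'd]
      have hj'e : Even (j' * c) := hce.mul_left j'
      rw [Nat.even_iff] at hme hj'e ⊢
      omega) hUe, hUσ]
    exact hW
  · obtain ⟨x, hx, y, hy, rfl⟩ := Submodule.mem_sup.1 hv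
    rw [map_add, mem_fix.1 (hC' hx).2]
    exact Submodule.add_mem_sup hx (hU y hy)

/-- Elements of odd prime order fixing no elliptic subspace. -/
theorem exists_not_fixed (hVe : Even (Fintype.card ι)) {r : ℕ} [Fact r.Prime] (hr : ¬ r ∣ Fintype.card F)
    (hr2 : r ≠ 2) {i c : ℕ} (hi : i = orderOf ((Fintype.card F : ℕ) : ZMod r))
    (hc : c = if Even i then i else 2 * i) {m : ℕ} {j : ℕ}
    (hj : Valid i c (Fintype.card ι) (IsPlusTypeOn ⇑R ⊤) j)
    (hno : ¬ Opt i c (Fintype.card ι) m (IsPlusTypeOn ⇑R ⊤) j) :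
    ∃ g : OQ R, g ^ r = 1 ∧ ∀ W, IsEll R m W → ¬ ∀ v ∈ W, g.1 v ∈ W := by
  classical
  obtain ⟨hi0, hc0, hce, hic⟩ := index_facts hr hi hc
  obtain ⟨g, hg, hgd⟩ := exists_element hB hVe hr hr2 hi hc hj
  refine ⟨g, hg, fun W ⟨hWd, hWn, hWm⟩ hW => hno ?_⟩
  obtain ⟨M, -, hM, hMN, ho, hfree, hsup, hCN, -, jV, hjV, hMd⟩ :=
    exists_moving hr hr2 hg (W := ⊤) (fun _ _ => trivial) (nonDegOn_top hB) hi hc
  rw [top_inf_eq] at hjV ho hsup hCN
  rw [finrank_top, finrank_fintype_fun_eq_card] at hjV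
  obtain rfl : jV = j := Nat.eq_of_mul_eq_mul_right hc0 (by omega)
  set K := LinearMap.ker ((g.1.toLinearMap : Module.End F (ι → F)) - 1) with hKdef
  have hjev : Even (jV * c) := hce.mul_left jV
  have hKe : Even (finrank F K) := by rw [Nat.even_iff] at hVe hjev ⊢; omega
  have hV : IsPlusTypeOn ⇑R ⊤ ↔ (IsPlusTypeOn ⇑R K ↔ PlusBlocks i jV) := by
    rw [← hsup, OrthTypes.plus_sup_iff hB hCN hMN ho hKe (hMd ▸ hjev),
      plus_iff_of_fixed_free hr hr2 hg hi hc hM hMN hfree hMd]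
  obtain ⟨N, hNW, hN, hNN, hoW, hfreeW, hsupW, hCWN, -, j', hj', hNd⟩ :=
    exists_moving hr hr2 hg hW (OrthTypes.nondeg_iff.1 hWn) hi hc
  rw [← hKdef] at hj' hsupW hCWN hoW
  -- the moving part of `W` is orthogonal to all fixed vectors
  have hNperp : ∀ x ∈ K, ∀ y ∈ N, polar R x y = 0 := fun x hx y hy => by
    let φ : N →ₗ[F] N := (g.1.toLinearMap : Module.End F (ι → F)).restrict hN - LinearMap.id
    have hφ : Function.Injective φ := (injective_iff_map_eq_zero _).2 fun w hw => Subtype.ext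
      (hfreeW w.1 w.2 (sub_eq_zero.1 (congrArg Subtype.val hw)))
    obtain ⟨w, hw⟩ := LinearMap.injective_iff_surjective.1 hφ ⟨y, hy⟩
    rw [← show g.1 w.1 - w.1 = y from congrArg Subtype.val hw, polar_sub_right]
    conv_lhs => arg 1; rw [← mem_fix.1 hx]
    rw [OQ_polar, sub_self]
  have hNle : finrank F N + finrank F K ≤ Fintype.card ι := by
    rw [add_comm, ← OrthTypes.finrank_sup hCN hNperp]
    exact (Submodule.finrank_le _).trans_eq (finrank_fintype_fun_eq_card F)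
  refine ⟨finrank F ↥(W ⊓ K), j', Nat.le_of_mul_le_mul_right (by omega) hc0, by omega, ?_, fun h0 hb => hWm ?_,
    fun h0 htop hb => hWm ?_⟩
  · have := Submodule.finrank_mono (inf_le_right : W ⊓ K ≤ K)
    omega
  · rw [← hsupW, Submodule.finrank_eq_zero.1 h0, bot_sup_eq]
    exact (plus_iff_of_fixed_free hr hr2 hg hi hc hN hNN hfreeW hNd).2 hb
  · have hK : W ⊓ K = K := Submodule.eq_of_le_of_finrank_le inf_le_right (by omega)
    rw [hK] at hsupW hCWN hoW
    rw [← hsupW, OrthTypes.plus_sup_iff hB hCWN hNN hoW hKe (hNd ▸ hce.mul_left j'),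
      plus_iff_of_fixed_free hr hr2 hg hi hc hN hNN hfreeW hNd]
    rw [hV] at hb
    by_cases hσ : PlusBlocks i jV <;> by_cases hK' : IsPlusTypeOn ⇑R K <;>
      simp only [hσ, hK', iff_true, iff_false, true_iff, false_iff, not_true_eq_false, not_false_eq_true,
        not_not] at hb ⊢ <;> assumption

/-- The orthogonal group of the complement divides the stabiliser. -/
theorem exists_card_eq (hVe : Even (Fintype.card ι)) {m : ℕ} (hme : Even m) {W₀ : Submodule F (ι → F)}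
    (hW₀ : IsEll R m W₀) :
    ∃ z, Nat.card {W : Submodule F (ι → F) // IsEll R m W} *
      Nat.card (OQ (R.comp (LinearMap.BilinForm.orthogonal R.polarBilin W₀).subtype)) * z = Nat.card (OQ R) := by
  classical
  obtain ⟨hd, hn, hm⟩ := hW₀
  have : Finite (OQ R) := OrthPlus.finite_OQ R
  have hWN := OrthTypes.nondeg_iff.1 hn
  letI : MulAction (OQ R) (Submodule F (ι → F)) :=
    { smul := fun g W => W.map g.1.toLinearMap
      one_smul := fun W => W.map_id
      mul_smul := fun g h W => W.map_comp h.1.toLinearMap g.1.toLinearMap }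
  have horb : ∀ W, W ∈ MulAction.orbit (OQ R) W₀ ↔ IsEll R m W := by
    intro W
    constructor
    · rintro ⟨g, rfl⟩
      refine ⟨(LinearEquiv.finrank_map_eq g.1 W₀).trans hd, OrthTypes.nondeg_iff.2 ?_, ?_⟩
      · rintro _ ⟨w, hw, rfl⟩ h0
        have : w = 0 := hWN w hw fun y hy => (OQ_polar g w y).symm.trans (h0 _ ⟨y, hy, rfl⟩)
        rw [this, map_zero]
      · rintro ⟨U, hU, hts, hUd⟩
        refine hm ⟨U.map (g⁻¹).1.toLinearMap, ?_, ?_, ?_⟩
        · rintro _ ⟨u, hu, rfl⟩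
          obtain ⟨w, hw, rfl⟩ := hU hu
          show (g⁻¹).1 (g.1 w) ∈ W₀
          rw [← LinearEquiv.mul_apply, ← Subgroup.coe_mul, inv_mul_cancel]
          exact hw
        · rintro _ ⟨u, hu, rfl⟩
          show R ((g⁻¹).1 u) = 0
          rw [OQ_map_app]; exact hts u hu
        · rw [show finrank F ↥(g • W₀) = finrank F W₀ from LinearEquiv.finrank_map_eq g.1 W₀] at hUd
          rw [show finrank F ↥(U.map (g⁻¹).1.toLinearMap) = finrank F U from LinearEquiv.finrank_map_eq _ U]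
          exact hUd
    · rintro ⟨hd', hn', hm'⟩
      obtain ⟨g, hg⟩ := OrthTypes.exists_isometry_map hB hVe hWN (OrthTypes.nondeg_iff.1 hn') (hd.symm ▸ hme)
        (hd.trans hd'.symm) (iff_of_false hm hm')
      exact ⟨g, hg⟩
  have hcard : Nat.card {W : Submodule F (ι → F) // IsEll R m W} * Nat.card (MulAction.stabilizer (OQ R) W₀) =
      Nat.card (OQ R) := by
    rw [← Nat.card_congr (Equiv.subtypeEquivRight horb), Nat.card_congr (MulAction.orbitEquivQuotientStabilizer _ _),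
      ← Subgroup.index, Subgroup.index_mul_card]
  have hcpl := OrthTypes.isCompl_orth hWN
  set φ := extHom (R := R) hcpl fun x hx y hy => hy x hx
  have hφ : φ.range ≤ MulAction.stabilizer (OQ R) W₀ := by
    rintro _ ⟨h, rfl⟩
    refine MulAction.mem_stabilizer_iff.2 (Submodule.eq_of_le_of_finrank_eq ?_ (LinearEquiv.finrank_map_eq _ W₀))
    rintro _ ⟨x, hx, rfl⟩
    show (φ h).1 x ∈ W₀
    have := extHom_apply (R := R) hcpl (fun x hx y hy => hy x hx) h ⟨x, hx⟩ 0
    simp only [ZeroMemClass.coe_zero, add_zero, map_zero] at this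
    rw [this]; exact hx
  obtain ⟨z, hz⟩ := (Nat.card_congr (MonoidHom.ofInjective (extHom_injective hcpl fun x hx y hy => hy x hx)).toEquiv).symm ▸
    Subgroup.card_dvd_of_le hφ
  exact ⟨z, by rw [mul_assoc, ← hz]; exact hcard⟩

theorem exists_value_ne_zero (h : 0 < Fintype.card ι) : ∃ v, R v ≠ 0 := by
  by_contra hno
  push Not at hno
  obtain ⟨k⟩ := Fintype.card_pos_iff.1 h
  have h0 := congrFun (hB (Pi.single k (1 : F)) fun v => by simp [polar, hno]) k
  rw [Pi.single_eq_same] at h0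
  exact one_ne_zero h0

omit hB in
/-- Every element of order `r` of the projective group fixes an elliptic subspace of dimension `m`. -/
def AllFix (R : QuadraticForm F (ι → F)) (m r : ℕ) : Prop :=
  ∀ x : Matrix.GeneralLinearGroup ι F, x ∈ Cfsg.Geo.omegaGL ⇑R →
    (∃ z : F, ((x ^ r : Matrix.GeneralLinearGroup ι F) : Matrix ι ι F) = z • (1 : Matrix ι ι F)) →
    (∀ z : F, (x : Matrix ι ι F) ≠ z • (1 : Matrix ι ι F)) →
    ∃ W, IsEll R m W ∧ W.map (Matrix.toLin' (x : Matrix ι ι F)) ≤ W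

theorem exists_isEll (hVe : Even (Fintype.card ι)) {m : ℕ} (hm : 2 ≤ m) (hme : Even m) (hmn : m < Fintype.card ι) :
    ∃ W, IsEll R m W := by
  obtain ⟨k, rfl⟩ := hme
  obtain ⟨U, -, hU, hUd, ht⟩ := OrthTypes.exists_sub (nonDegOn_top hB)
    (by rw [finrank_top, finrank_fintype_fun_eq_card]; exact hVe) (n := k - 1)
    (by rw [finrank_top, finrank_fintype_fun_eq_card]; omega) False
  exact ⟨U, by omega, OrthTypes.nondeg_iff.2 hU, ht.1⟩

/-- A bad element from an isometry. -/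
theorem not_allFix (hVe : Even (Fintype.card ι)) {m : ℕ} (hm : 2 ≤ m) (hme : Even m) (hmn : m < Fintype.card ι)
    {r : ℕ} {g : OQ R} (hg : g ∈ commutator (OQ R)) {z : F} (hgr : ∀ v, (g ^ r).1 v = z • v)
    (hno : ∀ W, IsEll R m W → ¬ ∀ v ∈ W, g.1 v ∈ W) : ¬ AllFix R m r := by
  intro h
  obtain ⟨W₀, hW₀⟩ := exists_isEll hB hVe hm hme hmn
  have hmul := Elusive25.glOf_mulVec R g
  have hxr : ((Elusive25.glOf R g ^ r : Matrix.GeneralLinearGroup ι F) : Matrix ι ι F) = z • (1 : Matrix ι ι F) :=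
    Matrix.ext_iff_mulVec.2 fun v => by
      rw [← map_pow, Elusive25.glOf_mulVec, hgr, Matrix.smul_mulVec, Matrix.one_mulVec]
  obtain ⟨W, hW, hWx⟩ := h _ (Elusive25.glOf_mem_omegaGL _ hg) ⟨z, hxr⟩ fun a ha =>
    hno W₀ hW₀ fun v hv => by
      rw [← hmul, ha, Matrix.smul_mulVec, Matrix.one_mulVec]; exact W₀.smul_mem a hv
  exact hno W hW fun v hv => hWx ⟨v, hv, by rw [Matrix.toLin'_apply]; exact hmul v⟩

/-- It is enough to look at isometries. -/
theorem allFix_of (hpos : 0 < Fintype.card ι) {m r : ℕ}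
    (h : ∀ g ∈ commutator (OQ R), ∀ z : F, z * z = 1 → (∀ v, (g ^ r).1 v = z • v) →
      (∀ a : F, ∃ v, g.1 v ≠ a • v) → ∃ W, IsEll R m W ∧ ∀ v ∈ W, g.1 v ∈ W) : AllFix R m r := by
  intro x hxm ⟨z, hz⟩ hns
  obtain ⟨y, hy, rfl⟩ := hxm
  set g : OQ R := OrthGen.matEquiv R y
  have hgc : g ∈ commutator (OQ R) := (mem_Omega_iff_matEquiv _ y).1 hy
  have hxg : Elusive25.glOf R g = (Cfsg.isometryGroup F ⇑R).subtype y := by simp [Elusive25.glOf, g]
  rw [← hxg] at hz hns ⊢
  have hmul := Elusive25.glOf_mulVec R g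
  have hgz : ∀ v, (g ^ r).1 v = z • v := fun v => by
    rw [← Elusive25.glOf_mulVec, map_pow, hz, Matrix.smul_mulVec, Matrix.one_mulVec]
  obtain ⟨v₀, hv₀⟩ := exists_value_ne_zero hB hpos
  have hz2 : z * z = 1 := by
    have h1 := (g ^ r).2 v₀
    rw [hgz, QuadraticMap.map_smul, smul_eq_mul] at h1
    exact (mul_eq_right₀ hv₀).1 h1
  obtain ⟨W, hW, hinv⟩ := h g hgc z hz2 hgz fun a => by
    by_contra hno
    push Not at hno
    exact hns a (Matrix.ext_iff_mulVec.2 fun v => by rw [hmul, hno, Matrix.smul_mulVec, Matrix.one_mulVec])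
  refine ⟨W, hW, ?_⟩
  rintro _ ⟨v, hv, rfl⟩
  rw [Matrix.toLin'_apply, hmul]
  exact hinv v hv

/-- The criterion for odd primes different from the characteristic. -/
theorem allFix_iff (hVe : Even (Fintype.card ι)) (hn4 : Fintype.card ι ≠ 4) {m : ℕ} (hm : 2 ≤ m) (hme : Even m)
    (hmn : m < Fintype.card ι) {r : ℕ} [Fact r.Prime] (hr : ¬ r ∣ Fintype.card F) (hr2 : r ≠ 2) {i c : ℕ}
    (hi : i = orderOf ((Fintype.card F : ℕ) : ZMod r)) (hc : c = if Even i then i else 2 * i) :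
    AllFix R m r ↔ ∀ j, Valid i c (Fintype.card ι) (IsPlusTypeOn ⇑R ⊤) j →
      Opt i c (Fintype.card ι) m (IsPlusTypeOn ⇑R ⊤) j := by
  classical
  have hrp : r.Prime := Fact.out
  constructor
  · intro h j hj
    by_contra hno
    obtain ⟨g, hg, hbad⟩ := exists_not_fixed hB hVe hr hr2 hi hc hj hno
    exact not_allFix hB hVe hm hme hmn (Elusive25.mem_commutator_of_pow hB
      (Or.inr (by rwa [finrank_fintype_fun_eq_card])) (hrp.odd_of_ne_two hr2) hg) (r := r) (z := 1)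
      (fun v => by rw [hg, one_smul]; rfl) hbad h
  · intro hopt
    refine allFix_of hB (by omega) fun g hgc z hz2 hgz hns => ?_
    -- a sign times the isometry has order dividing `r`
    let g' : OQ R := ⟨g.1.trans (LinearEquiv.smulOfNeZero F (ι → F) z (left_ne_zero_of_mul_eq_one hz2)),
      fun v => by
        show R (z • g.1 v) = R v
        rw [QuadraticMap.map_smul, hz2, one_smul, OQ_map_app]⟩
    have hg' : ∀ v, g'.1 v = z • g.1 v := fun v => rfl
    have hpow : ∀ k : ℕ, ∀ v, (g' ^ k).1 v = z ^ k • (g ^ k).1 v := by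
      intro k
      induction k with
      | zero => intro v; simp
      | succ k ih =>
        intro v
        rw [pow_succ', pow_succ', pow_succ', Subgroup.coe_mul, LinearEquiv.mul_apply, ih, hg', Subgroup.coe_mul,
          LinearEquiv.mul_apply, map_smul, smul_smul]
    have hg'r : g' ^ r = 1 := Subtype.ext (LinearEquiv.ext fun v => by
      obtain ⟨k, hk⟩ := hrp.odd_of_ne_two hr2
      have hzz : z ^ r = z := by rw [hk, pow_succ, pow_mul, _root_.sq, hz2, one_pow, one_mul]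
      rw [hpow, hgz, hzz, smul_smul, hz2, one_smul]
      rfl)
    obtain ⟨W, hW, hinv⟩ := exists_fixed hB hVe hr hr2 hi hc hme hopt hg'r
    refine ⟨W, hW, fun v hv => ?_⟩
    have := W.smul_mem z (hinv v hv)
    rwa [hg', smul_smul, hz2, one_smul] at this

omit hB in
/-- The divisibility of a ratio of group orders. -/
theorem dvd_ratio {r q N z E E' A a b H D : ℕ} [Fact r.Prime] (hq : 1 < q) (hr : ¬ r ∣ q) (hrN : r ∣ N)
    (hE : 0 < E) (hH : q ^ (2 * (H + 1)) - 1 = E * A) (hHD : H < D)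
    (heq : N * (2 * q ^ a * E * ∏ l ∈ Finset.range H, (q ^ (2 * (l + 1)) - 1)) * z =
      2 * q ^ b * E' * ∏ l ∈ Finset.range D, (q ^ (2 * (l + 1)) - 1)) :
    r ∣ E' ∨ r ∣ A ∨ ∃ l, H < l ∧ l < D ∧ r ∣ q ^ (2 * (l + 1)) - 1 := by
  have hrp : r.Prime := Fact.out
  rw [← Finset.prod_range_mul_prod_Ico _ hHD.le, Finset.prod_eq_prod_Ico_succ_bot hHD, hH] at heq
  set P := ∏ l ∈ Finset.range H, (q ^ (2 * (l + 1)) - 1)
  have hP : 0 < 2 * E * P := Nat.mul_pos (Nat.mul_pos two_pos hE) (Finset.prod_pos fun l _ =>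
    Nat.sub_pos_of_lt (Nat.one_lt_pow (by omega) hq))
  have h : N * q ^ a * z = q ^ b * (E' * (A * ∏ l ∈ Finset.Ico (H + 1) D, (q ^ (2 * (l + 1)) - 1))) :=
    Nat.eq_of_mul_eq_mul_left hP (by linear_combination heq)
  have hdvd : r ∣ q ^ b * (E' * (A * ∏ l ∈ Finset.Ico (H + 1) D, (q ^ (2 * (l + 1)) - 1))) :=
    h ▸ dvd_mul_of_dvd_left (dvd_mul_of_dvd_left hrN _) _
  rcases hrp.dvd_mul.1 hdvd with h1 | h1
  · exact absurd (hrp.dvd_of_dvd_pow h1) hr
  rcases hrp.dvd_mul.1 h1 with h2 | h2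
  · exact Or.inl h2
  rcases hrp.dvd_mul.1 h2 with h3 | h3
  · exact Or.inr (Or.inl h3)
  · obtain ⟨l, hl, hl'⟩ := (Prime.dvd_finsetProd_iff hrp.prime _).1 h3
    rw [Finset.mem_Ico] at hl
    exact Or.inr (Or.inr ⟨l, by omega, hl.2, hl'⟩)

end Cfsg.Agent.Elusive.OrthElliptic
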