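import Cfsg.Agent.Elusive.OrthElliptic

/-!
Elliptic subspaces fixed by involutions of orthogonal groups in characteristic two.
-/

set_option autoImplicit false
set_option linter.unusedSectionVars false

namespace Cfsg.Agent.Elusive.OrthElliptic

open Module QuadraticMap Cfsg.Agent.Classical Cfsg.Agent.Forms Cfsg.Agent.Elusive
open Cfsg.Geo (IsPlusTypeOn IsNondegenerateOn)

variable {F : Type*} [Field F] [Fintype F] {ι : Type} [Fintype ι] [DecidableEq ι] {R : QuadraticForm F (ι → F)}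
  {g : OQ R}

/-- An invariant nondegenerate subspace of given dimension and type. -/
def HasInv (R : QuadraticForm F (ι → F)) (g : OQ R) (X : Submodule F (ι → F)) (μ : ℕ) (t : Prop) : Prop :=
  ∃ W ≤ X, (∀ v ∈ W, g.1 v ∈ W) ∧ NonDegOn R.polarBilin W ∧ finrank F W = 2 * μ ∧ (IsPlusTypeOn ⇑R W ↔ t)

theorem polar_self_zero (h2 : (2 : F) = 0) (v : ι → F) : polar R v v = 0 := by
  rw [polar_self, two_nsmul, ← two_mul, h2, zero_mul]

theorem finrank_span_pair_of_polar {u v : ι → F} (huu : polar R u u = 0) (h : polar R u v ≠ 0) :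
    finrank F (Submodule.span F (Set.range ![u, v])) = 2 := by
  rw [finrank_span_eq_card (LinearIndependent.pair_iff.2 fun s t hst => ?_), Fintype.card_fin]
  have h1 := congrArg (fun x => polar R u x) hst
  simp only [polar_add_right, polar_smul_right, huu, polar_zero_right, smul_eq_mul, mul_zero, zero_add] at h1
  have ht : t = 0 := (mul_eq_zero.1 h1).resolve_right h
  subst ht
  rw [zero_smul, add_zero] at hst
  exact ⟨(smul_eq_zero.1 hst).resolve_right fun hu0 => h (by rw [hu0, polar_zero_left]), rfl⟩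

theorem nonDegOn_span_pair {u v : ι → F} (huu : polar R u u = 0) (hvv : polar R v v = 0) (h : polar R u v ≠ 0) :
    NonDegOn R.polarBilin (Submodule.span F (Set.range ![u, v])) := by
  intro x hx hx0
  obtain ⟨c, rfl⟩ := (Submodule.mem_span_range_iff_exists_fun F).1 hx
  rw [Fin.sum_univ_two] at hx0 ⊢
  simp only [Matrix.cons_val_zero, Matrix.cons_val_one] at hx0 ⊢
  have h1 : polar R (c 0 • u + c 1 • v) u = 0 := hx0 u (Submodule.subset_span ⟨0, rfl⟩)
  have h2 : polar R (c 0 • u + c 1 • v) v = 0 := hx0 v (Submodule.subset_span ⟨1, rfl⟩)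
  simp only [polar_add_left, polar_smul_left, huu, hvv, smul_eq_mul, mul_zero, zero_add, add_zero,
    polar_comm R v u] at h1 h2
  rw [(mul_eq_zero.1 h1).resolve_right h, (mul_eq_zero.1 h2).resolve_right h, zero_smul, zero_smul, add_zero]

/-- An invariant plane, or an invariant hyperbolic subspace of dimension four. -/
theorem exists_block (h2 : (2 : F) = 0) (hgg : ∀ v, g.1 (g.1 v) = v) {X : Submodule F (ι → F)}
    (hX : ∀ v ∈ X, g.1 v ∈ X) (hN : NonDegOn R.polarBilin X) (hne : X ≠ ⊥) :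
    ∃ μ t, HasInv R g X μ t ∧ (μ = 1 ∨ (μ = 2 ∧ t)) := by
  classical
  have hneg : ∀ x : ι → F, -x = x := fun x => by
    refine neg_eq_of_add_eq_zero_left ?_
    rw [← two_smul F, h2, zero_smul]
  set N : Module.End F (ι → F) := (g.1.toLinearMap : Module.End F (ι → F)) - 1 with hNdef
  have hNv : ∀ v, N v = g.1 v + v := fun v => by
    show g.1 v - v = _
    rw [sub_eq_add_neg, hneg]
  have hgN : ∀ v, g.1 (N v) = N v := fun v => by rw [hNv, map_add, hgg, add_comm]
  have hRN : ∀ v, R (N v) = polar R v (N v) := fun v => by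
    rw [hNv, QuadraticMap.map_add R, OQ_map_app, polar_add_right, polar_self_zero h2, add_zero, polar_comm,
      ← two_mul, h2, zero_mul, zero_add]
  have hgadj : ∀ u v, polar R (g.1 u) v = polar R u (g.1 v) := fun u v => by
    conv_lhs => rw [← OQ_polar g, hgg]
  have hadj : ∀ u v, polar R (N u) v = polar R u (N v) := fun u v => by
    rw [hNv, hNv, polar_add_left, polar_add_right, hgadj]
  have hmem : ∀ v ∈ X, N v ∈ X := fun v hv => by rw [hNv]; exact add_mem (hX v hv) hv
  by_cases hc : ∃ v ∈ X, R (N v) ≠ 0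
  · obtain ⟨v, hv, hv0⟩ := hc
    rw [hRN] at hv0
    refine ⟨1, _, ⟨Submodule.span F (Set.range ![v, N v]), ?_, ?_,
      nonDegOn_span_pair (polar_self_zero h2 v) (polar_self_zero h2 _) hv0,
      finrank_span_pair_of_polar (polar_self_zero h2 v) hv0, Iff.rfl⟩, Or.inl rfl⟩
    · refine Submodule.span_le.2 ?_
      rintro _ ⟨i, rfl⟩
      fin_cases i
      exacts [hv, hmem v hv]
    · intro x hx
      induction hx using Submodule.span_induction with
      | mem x hx =>
        obtain ⟨i, rfl⟩ := hx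
        fin_cases i
        · show g.1 v ∈ _
          rw [show g.1 v = N v + v by rw [hNv, add_assoc, ← two_smul F v, h2, zero_smul, add_zero]]
          exact add_mem (Submodule.subset_span ⟨1, rfl⟩) (Submodule.subset_span ⟨0, rfl⟩)
        · show g.1 (N v) ∈ _
          rw [hgN]; exact Submodule.subset_span ⟨1, rfl⟩
      | zero => simp
      | add x y _ _ hx hy => rw [map_add]; exact add_mem hx hy
      | smul c x _ hx => rw [map_smul]; exact Submodule.smul_mem _ c hx
  push Not at hc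
  by_cases hz : ∀ v ∈ X, N v = 0
  · have hid : ∀ v ∈ X, g.1 v = v := fun v hv => by
      have h := hz v hv
      rw [hNv] at h
      exact (eq_neg_of_add_eq_zero_left h).trans (hneg v)
    obtain ⟨x, hx, hx0⟩ := Submodule.exists_mem_ne_zero_of_ne_bot hne
    obtain ⟨y, hy, hxy⟩ : ∃ y ∈ X, polar R x y ≠ 0 := by
      by_contra hno
      push Not at hno
      exact hx0 (hN x hx hno)
    have hle : Submodule.span F (Set.range ![x, y]) ≤ X := Submodule.span_le.2 (by
      rintro _ ⟨i, rfl⟩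
      fin_cases i
      exacts [hx, hy])
    exact ⟨1, _, ⟨_, hle, fun v hv => by rw [hid v (hle hv)]; exact hv,
      nonDegOn_span_pair (polar_self_zero h2 x) (polar_self_zero h2 y) hxy,
      finrank_span_pair_of_polar (polar_self_zero h2 x) hxy, Iff.rfl⟩, Or.inl rfl⟩
  push Not at hz
  obtain ⟨v, hv, hNv0⟩ := hz
  obtain ⟨u₀, hu₀, hu₀0⟩ : ∃ u ∈ X, polar R (N v) u ≠ 0 := by
    by_contra hno
    push Not at hno
    exact hNv0 (hN _ (hmem v hv) hno)
  set u := (polar R (N v) u₀)⁻¹ • u₀ with hudef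
  have hu : u ∈ X := X.smul_mem _ hu₀
  have hNvu : polar R (N v) u = 1 := by rw [hudef, polar_smul_right, smul_eq_mul, inv_mul_cancel₀ hu₀0]
  have hvNu : polar R v (N u) = 1 := by rw [← hadj]; exact hNvu
  have hvNv : polar R v (N v) = 0 := by rw [← hRN]; exact hc v hv
  have huNu : polar R u (N u) = 0 := by rw [← hRN]; exact hc u hu
  have hNN : ∀ w, N (N w) = 0 := fun w => by rw [hNv, hgN, ← two_smul F, h2, zero_smul]
  have hNNp : ∀ a b, polar R (N a) (N b) = 0 := fun a b => by rw [hadj, hNN, polar_zero_right]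
  have hgx : ∀ w, g.1 w = N w + w := fun w => by rw [hNv, add_assoc, ← two_smul F w, h2, zero_smul, add_zero]
  let fam : Fin 4 → (ι → F) := ![v, u, N v, N u]
  have hco : ∀ c : Fin 4 → F, polar R (∑ i, c i • fam i) (N u) = c 0 ∧ polar R (∑ i, c i • fam i) (N v) = c 1 ∧
      polar R (∑ i, c i • fam i) u = c 0 * polar R v u + c 2 ∧
      polar R (∑ i, c i • fam i) v = c 1 * polar R u v + c 3 := fun c => by
    simp only [Fin.sum_univ_four, fam, Matrix.cons_val_zero, Matrix.cons_val_one, Matrix.cons_val,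
      polar_add_left, polar_smul_left, smul_eq_mul, hvNu, huNu, hNNp, hvNv, hNvu, polar_self_zero h2,
      polar_comm R u (N v), polar_comm R (N u) u, polar_comm R (N v) v, polar_comm R (N u) v, mul_zero, mul_one,
      add_zero, zero_add, and_self]
  have hzero : ∀ c : Fin 4 → F, (∀ i, polar R (∑ j, c j • fam j) (fam i) = 0) → c = 0 := fun c hc' => by
    obtain ⟨e0, e1, e2, e3⟩ := hco c
    have h0 : c 0 = 0 := e0 ▸ hc' 3
    have h1 : c 1 = 0 := e1 ▸ hc' 2
    have h2' : c 0 * polar R v u + c 2 = 0 := e2 ▸ hc' 1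
    have h3 : c 1 * polar R u v + c 3 = 0 := e3 ▸ hc' 0
    rw [h0, zero_mul, zero_add] at h2'
    rw [h1, zero_mul, zero_add] at h3
    funext i
    fin_cases i
    exacts [h0, h1, h2', h3]
  set B₄ := Submodule.span F (Set.range fam)
  have hli : LinearIndependent F fam := Fintype.linearIndependent_iff.2 fun c hc' i =>
    congrFun (hzero c fun j => by rw [hc', polar_zero_left]) i
  have hBN : NonDegOn R.polarBilin B₄ := fun x hx hx0 => by
    obtain ⟨c, rfl⟩ := (Submodule.mem_span_range_iff_exists_fun F).1 hx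
    have h : c = 0 := hzero c fun i => hx0 _ (Submodule.subset_span ⟨i, rfl⟩)
    simp [h]
  have hBd : finrank F B₄ = 4 := by rw [finrank_span_eq_card hli, Fintype.card_fin]
  have hBX : B₄ ≤ X := Submodule.span_le.2 (by
    rintro _ ⟨i, rfl⟩
    fin_cases i
    exacts [hv, hu, hmem v hv, hmem u hu])
  refine ⟨2, True, ⟨B₄, hBX, ?_, hBN, hBd, iff_of_true ?_ trivial⟩, Or.inr ⟨rfl, trivial⟩⟩
  · intro x hx
    induction hx using Submodule.span_induction with
    | mem x hx =>
      obtain ⟨i, rfl⟩ := hx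
      fin_cases i
      · show g.1 v ∈ _
        rw [hgx]; exact add_mem (Submodule.subset_span ⟨2, rfl⟩) (Submodule.subset_span ⟨0, rfl⟩)
      · show g.1 u ∈ _
        rw [hgx]; exact add_mem (Submodule.subset_span ⟨3, rfl⟩) (Submodule.subset_span ⟨1, rfl⟩)
      · show g.1 (N v) ∈ _
        rw [hgN]; exact Submodule.subset_span ⟨2, rfl⟩
      · show g.1 (N u) ∈ _
        rw [hgN]; exact Submodule.subset_span ⟨3, rfl⟩
    | zero => simp
    | add x y _ _ hx hy => rw [map_add]; exact add_mem hx hy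
    | smul c x _ hx => rw [map_smul]; exact Submodule.smul_mem _ c hx
  · have hTd : finrank F (Submodule.span F (Set.range (fam ∘ ![2, 3]))) = 2 := by
      rw [finrank_span_eq_card (hli.comp ![2, 3] (by decide)), Fintype.card_fin]
    refine OrthMax.plus_of_ts (U := Submodule.span F (Set.range (fam ∘ ![2, 3])))
      (Submodule.span_mono (Set.range_comp_subset_range _ _)) (fun x hx => ?_) (by rw [hBd]; exact ⟨2, rfl⟩)
      (by rw [hBd, hTd])
    obtain ⟨c, rfl⟩ := (Submodule.mem_span_range_iff_exists_fun F).1 hx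
    rw [Fin.sum_univ_two]
    simp only [Function.comp_apply, fam, Matrix.cons_val_zero, Matrix.cons_val_one, Matrix.cons_val]
    rw [QuadraticMap.map_add R, QuadraticMap.map_smul, QuadraticMap.map_smul, hc v hv, hc u hu, polar_smul_left,
      polar_smul_right, hNNp]
    simp

section split

variable (hB : BNondeg R)
include hB

/-- Splitting off a block. -/
theorem exists_rest {X B : Submodule F (ι → F)} (hX : ∀ v ∈ X, g.1 v ∈ X) (hN : NonDegOn R.polarBilin X)
    (hBX : B ≤ X) (hBi : ∀ v ∈ B, g.1 v ∈ B) (hBN : NonDegOn R.polarBilin B) (hBe : Even (finrank F B))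
    {D μ : ℕ} (hD : finrank F X = 2 * D) (hμ : finrank F B = 2 * μ) :
    ∃ Y ≤ X, (∀ v ∈ Y, g.1 v ∈ Y) ∧ NonDegOn R.polarBilin Y ∧ finrank F Y = 2 * (D - μ) ∧ μ ≤ D ∧
      (IsPlusTypeOn ⇑R X ↔ (IsPlusTypeOn ⇑R B ↔ IsPlusTypeOn ⇑R Y)) ∧
      ∀ k t s, HasInv R g Y k s → (t ↔ (IsPlusTypeOn ⇑R B ↔ s)) → HasInv R g X (μ + k) t := by
  obtain ⟨hsup, hdis, hYN⟩ := Orth.nonDegOn_split (B := R.polarBilin) ⟨fun u v => polar_comm R u v⟩ hBX hBN hN
  set Y := X ⊓ LinearMap.BilinForm.orthogonal R.polarBilin B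
  have ho : ∀ x ∈ B, ∀ y ∈ Y, polar R x y = 0 := fun x hx y hy => hy.2 x hx
  have hYi : ∀ v ∈ Y, g.1 v ∈ Y := fun v hv => ⟨hX v hv.1,
    orthogonal_invariant (f := (g.1.toLinearMap : Module.End F (ι → F))) (fun u w => OQ_polar g u w) g.1.injective
      hBi v hv.2⟩
  have hd : finrank F B + finrank F Y = 2 * D := by rw [← OrthTypes.finrank_sup hBN ho, hsup, hD]
  refine ⟨Y, inf_le_left, hYi, hYN, by omega, by omega, ?_, fun k t s ⟨W, hWY, hWi, hWN, hWd, hWs⟩ hts => ?_⟩
  · conv_lhs => rw [← hsup]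
    exact OrthTypes.plus_sup_iff hB hBN hYN ho hBe (by rw [show finrank F Y = 2 * (D - μ) by omega]; exact even_two_mul _)
  · have ho' : ∀ x ∈ B, ∀ y ∈ W, polar R x y = 0 := fun x hx y hy => ho x hx y (hWY hy)
    refine ⟨B ⊔ W, sup_le hBX (hWY.trans inf_le_left), fun v hv => ?_, OrthTypes.nonDegOn_sup hBN hWN ho',
      by rw [OrthTypes.finrank_sup hBN ho']; omega, ?_⟩
    · obtain ⟨x, hx, y, hy, rfl⟩ := Submodule.mem_sup.1 hv
      rw [map_add]
      exact Submodule.add_mem_sup (hBi x hx) (hWi y hy)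
    · rw [OrthTypes.plus_sup_iff hB hBN hWN ho' hBe (hWd ▸ even_two_mul k), hWs]
      exact hts.symm

/-- Invariant subspaces of matching type. -/
theorem hasInv_of_match (h2 : (2 : F) = 0) (hgg : ∀ v, g.1 (g.1 v) = v) :
    ∀ (D : ℕ) (X : Submodule F (ι → F)), (∀ v ∈ X, g.1 v ∈ X) → NonDegOn R.polarBilin X → finrank F X = 2 * D →
      ∀ μ ≤ D, (IsPlusTypeOn ⇑R X ↔ Even μ) → HasInv R g X μ (IsPlusTypeOn ⇑R X) := by
  intro D
  induction D using Nat.strong_induction_on with
  | _ D ih =>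
    intro X hX hN hD μ hμ hmatch
    rcases Nat.eq_zero_or_pos μ with rfl | hμ0
    · exact ⟨⊥, bot_le, fun v hv => by rw [(Submodule.mem_bot F).1 hv, map_zero]; exact Submodule.zero_mem _,
        nonDegOn_bot _, by rw [finrank_bot], iff_of_true OrthTypes.plus_bot (hmatch.2 Even.zero)⟩
    rcases hμ.eq_or_lt with rfl | hμlt
    · exact ⟨X, le_rfl, hX, hN, hD, Iff.rfl⟩
    obtain ⟨ν, t, ⟨B, hBX, hBi, hBN, hBd, hBt⟩, hν⟩ := exists_block h2 hgg hX hN (fun h => by
      rw [h, finrank_bot] at hD; omega)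
    obtain ⟨Y, hYX, hYi, hYN, hYd, hνD, hXY, hext⟩ :=
      exists_rest hB hX hN hBX hBi hBN (hBd ▸ even_two_mul ν) hD hBd
    have hlift : ∀ k s, HasInv R g Y k s → HasInv R g X k s :=
      fun k s ⟨W, hWY, h⟩ => ⟨W, hWY.trans hYX, h⟩
    by_cases hBp : IsPlusTypeOn ⇑R B
    · have hXY' : IsPlusTypeOn ⇑R X ↔ IsPlusTypeOn ⇑R Y := hXY.trans (iff_true_left hBp).symm.symm
      by_cases hle : μ ≤ D - ν
      · rw [hXY'] at hmatch ⊢
        exact hlift _ _ (ih (D - ν) (by omega) Y hYi hYN hYd μ hle hmatch)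
      · have hν2 : ν = 2 := (hν.resolve_left (by omega)).1
        have hμ1 : μ ≠ 1 := by
          rintro rfl
          exact Nat.not_even_one (hmatch.1 (hXY'.2 (OrthTypes.plus_of_finrank_zero (by omega))))
        have h := ih (D - ν) (by omega) Y hYi hYN hYd (μ - 2) (by omega)
          (by rw [← hXY', hmatch]; conv_lhs => rw [show μ = μ - 2 + 2 by omega]
              simp [parity_simps])
        have := hext (μ - 2) (IsPlusTypeOn ⇑R X) _ h (by rw [hXY', iff_true_left hBp])
        rwa [show ν + (μ - 2) = μ by omega] at this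
    · have hν1 : ν = 1 := hν.resolve_right fun h => hBp (hBt.2 h.2)
      subst hν1
      have hXY' : IsPlusTypeOn ⇑R X ↔ ¬ IsPlusTypeOn ⇑R Y := hXY.trans (iff_false_left hBp)
      have h := ih (D - 1) (by omega) Y hYi hYN hYd (μ - 1) (by omega) (by
        have := hmatch
        rw [hXY', show μ = μ - 1 + 1 by omega, Nat.even_add_one, not_iff_not] at this
        exact this)
      have := hext (μ - 1) (IsPlusTypeOn ⇑R X) _ h (by rw [hXY', iff_false_left hBp])
      rwa [show 1 + (μ - 1) = μ by omega] at this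

/-- An invariant hyperbolic plane. -/
theorem hasInv_plane (h2 : (2 : F) = 0) (hgg : ∀ v, g.1 (g.1 v) = v) :
    ∀ (D : ℕ) (X : Submodule F (ι → F)), (∀ v ∈ X, g.1 v ∈ X) → NonDegOn R.polarBilin X → finrank F X = 2 * D →
      ¬ (IsPlusTypeOn ⇑R X ↔ Even D) → HasInv R g X 1 True := by
  intro D
  induction D using Nat.strong_induction_on with
  | _ D ih =>
    intro X hX hN hD hno
    rcases Nat.eq_zero_or_pos D with rfl | hD0
    · exact absurd (iff_of_true (OrthTypes.plus_of_finrank_zero hD) Even.zero) hno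
    obtain ⟨ν, t, ⟨B, hBX, hBi, hBN, hBd, hBt⟩, hν⟩ := exists_block h2 hgg hX hN (fun h => by
      rw [h, finrank_bot] at hD; omega)
    obtain ⟨Y, hYX, hYi, hYN, hYd, hνD, hXY, -⟩ :=
      exists_rest hB hX hN hBX hBi hBN (hBd ▸ even_two_mul ν) hD hBd
    by_cases h1 : ν = 1 ∧ IsPlusTypeOn ⇑R B
    · obtain ⟨rfl, hp⟩ := h1
      exact ⟨B, hBX, hBi, hBN, hBd, iff_of_true hp trivial⟩
    have hrec : ¬ (IsPlusTypeOn ⇑R Y ↔ Even (D - ν)) := fun hY => hno (by
      rw [hXY, hY]
      rcases hν with rfl | ⟨rfl, ht⟩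
      · have hBm : ¬ IsPlusTypeOn ⇑R B := fun h => h1 ⟨rfl, h⟩
        rw [iff_false_left hBm]
        conv_rhs => rw [show D = D - 1 + 1 by omega, Nat.even_add_one]
      · rw [iff_true_left (hBt.2 ht)]
        conv_rhs => rw [show D = D - 2 + 2 by omega]
        simp [parity_simps])
    obtain ⟨W, hWY, h⟩ := ih (D - ν) (by rcases hν with rfl | ⟨rfl, -⟩ <;> omega) Y hYi hYN hYd hrec
    exact ⟨W, hWY.trans hYX, h⟩

/-- Involutions fix elliptic subspaces in characteristic two. -/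
theorem exists_fixed_involution_even (h2 : (2 : F) = 0) (hgg : ∀ v, g.1 (g.1 v) = v) {D μ : ℕ}
    (hD : Fintype.card ι = 2 * D) (hV : ¬ IsPlusTypeOn ⇑R ⊤) (hμ : μ < D) (hμ0 : 0 < μ) (hpar : Odd μ ∨ Even D) :
    ∃ W, IsEll R (2 * μ) W ∧ ∀ v ∈ W, g.1 v ∈ W := by
  have hTd : finrank F (⊤ : Submodule F (ι → F)) = 2 * D := by rw [finrank_top, finrank_fintype_fun_eq_card, hD]
  suffices h : HasInv R g ⊤ μ False by
    obtain ⟨W, -, hWi, hWN, hWd, hWt⟩ := h
    exact ⟨W, ⟨hWd, OrthTypes.nondeg_iff.2 hWN, fun hp => hWt.1 hp⟩, hWi⟩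
  rcases Nat.even_or_odd μ with hev | hod
  swap
  · obtain ⟨W, hW, hWi, hWN, hWd, hWt⟩ := hasInv_of_match hB h2 hgg D ⊤ (fun _ _ => trivial) (nonDegOn_top hB) hTd μ
      hμ.le (iff_of_false hV (Nat.not_even_iff_odd.2 hod))
    exact ⟨W, hW, hWi, hWN, hWd, hWt.trans (iff_false_intro hV)⟩
  have hDe : Even D := hpar.resolve_left (Nat.not_odd_iff_even.2 hev)
  obtain ⟨B, hBX, hBi, hBN, hBd, hBt⟩ := hasInv_plane hB h2 hgg D ⊤ (fun _ _ => trivial) (nonDegOn_top hB) hTd
    (fun h => hV (h.2 hDe))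
  obtain ⟨Y, -, hYi, hYN, hYd, -, hXY, hext⟩ := exists_rest hB (X := ⊤) (fun _ _ => trivial) (nonDegOn_top hB)
    hBX hBi hBN (hBd ▸ even_two_mul 1) hTd hBd
  have hYm : ¬ IsPlusTypeOn ⇑R Y := fun h => hV (hXY.2 (iff_of_true (hBt.2 trivial) h))
  have hodd : Odd (μ - 1) := by
    rw [← Nat.not_even_iff_odd]
    intro h
    obtain ⟨a, ha⟩ := h
    obtain ⟨b, hb⟩ := hev
    omega
  have h := hasInv_of_match hB h2 hgg (D - 1) Y hYi hYN hYd (μ - 1) (by omega)
    (iff_of_false hYm (Nat.not_even_iff_odd.2 hodd))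
  have := hext (μ - 1) False _ h ⟨False.elim, fun hh => hYm (hh.1 (hBt.2 trivial))⟩
  rwa [show 1 + (μ - 1) = μ by omega] at this

end split

end Cfsg.Agent.Elusive.OrthElliptic
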