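import Cfsg.Agent.Elusive.OrthEllipticTwo
import Cfsg.Agent.OrthGen.Spinor

/-!
Square roots of minus one in orthogonal groups of minus type in odd characteristic, and their spinor norm.
-/

set_option autoImplicit false
set_option linter.unusedSectionVars false

namespace Cfsg.Agent.Elusive.OrthElliptic

open Module QuadraticMap Cfsg.Agent.Classical Cfsg.Agent.Forms Cfsg.Agent.Elusive Cfsg.Agent.OrthGen
open Cfsg.Geo (IsPlusTypeOn IsNondegenerateOn)

variable {F : Type*} [Field F] [Fintype F]

/-- A square root of `-1` lies in the commutator subgroup exactly when `2` is a square. -/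
theorem mem_commutator_iff_sq_neg_one {ι : Type} [Fintype ι] [DecidableEq ι] {R : QuadraticForm F (ι → F)}
    (h2 : (2 : F) ≠ 0) (hq : Fintype.card F % 2 = 1) (hB : BNondeg R) {f : OQ R}
    (hff : ∀ v, f.1 (f.1 v) = -v) {d : ℕ} (hd : Fintype.card ι = 2 * d) (hdodd : Odd d) :
    f ∈ commutator (OQ R) ↔ IsSquare (2 : F) := by
  classical
  have hd1 : 1 ≤ d := hdodd.pos
  have hRQ : RQ R = ⊤ := RQ_eq_top hB (notExceptional_of_two_ne_zero h2)
  obtain ⟨u, -, hu⟩ := OrthInvolField.exists_skew_planes_symm h2 hq hff d ⊤ (fun _ _ => trivial) (nonDegOn_top hB)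
    (by rw [finrank_top, finrank_fintype_fun_eq_card, hd])
  have huu : ∀ i j, polar R (u i) (u j) = if i = j then (1 : F) else 0 := fun i j => (hu i j).1
  have huf : ∀ i j, polar R (u i) (f.1 (u j)) = 0 := fun i j => (hu i j).2
  have hfu : ∀ i j, polar R (f.1 (u i)) (u j) = 0 := fun i j => by rw [skew hff, huf, neg_zero]
  have hff' : ∀ i j, polar R (f.1 (u i)) (f.1 (u j)) = if i = j then (1 : F) else 0 := fun i j => by
    rw [OQ_polar]; exact huu i j
  -- the second family
  let b : Fin d → (ι → F) := fun i => u i + f.1 (u i)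
  have hbb : ∀ i j, polar R (b i) (b j) = if i = j then (2 : F) else 0 := fun i j => by
    simp only [b, polar_add_left, polar_add_right, huu, huf, hfu, hff']
    split_ifs <;> norm_num
  have hRu : ∀ i, R (u i) = (2 : F)⁻¹ := fun i => by
    rw [OrthInvolField.eq_half_mul h2, huu, if_pos rfl, mul_one]
  have hRb : ∀ i, R (b i) = 1 := fun i => by
    rw [OrthInvolField.eq_half_mul h2, hbb, if_pos rfl, inv_mul_cancel₀ h2]
  obtain ⟨g₁, h11, h12, h13⟩ := OrthInvolField.exists_neg_on h2 hB hRQ d u
    (fun i j h => by rw [huu, if_neg h]) fun i => by rw [hRu]; exact inv_ne_zero h2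
  obtain ⟨g₂, h21, h22, h23⟩ := OrthInvolField.exists_neg_on h2 hB hRQ d b
    (fun i j h => by rw [hbb, if_neg h]) fun i => by rw [hRb]; exact one_ne_zero
  have hg₁f : ∀ j, g₁.1 (f.1 (u j)) = f.1 (u j) := fun j => h12 _ fun i => huf i j
  have hfix : ∀ j, g₂.1 (u j) - g₂.1 (f.1 (u j)) = u j - f.1 (u j) := fun j => by
    rw [← map_sub]
    refine h22 _ fun i => ?_
    simp only [b, polar_add_left, polar_sub_right, huu, huf, hfu, hff']
    ring
  have hneg : ∀ j, g₂.1 (u j) + g₂.1 (f.1 (u j)) = -(u j + f.1 (u j)) := fun j => by rw [← map_add]; exact h21 j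
  have h2u : ∀ j, g₂.1 (u j) = -f.1 (u j) ∧ g₂.1 (f.1 (u j)) = -u j := fun j => by
    constructor
    · refine smul_right_injective _ h2 ?_
      show (2 : F) • g₂.1 (u j) = (2 : F) • -f.1 (u j)
      rw [two_smul, two_smul]
      calc g₂.1 (u j) + g₂.1 (u j)
          = (g₂.1 (u j) - g₂.1 (f.1 (u j))) + (g₂.1 (u j) + g₂.1 (f.1 (u j))) := by abel
        _ = -f.1 (u j) + -f.1 (u j) := by rw [hfix, hneg]; abel
    · refine smul_right_injective _ h2 ?_
      show (2 : F) • g₂.1 (f.1 (u j)) = (2 : F) • -u j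
      rw [two_smul, two_smul]
      calc g₂.1 (f.1 (u j)) + g₂.1 (f.1 (u j))
          = (g₂.1 (u j) + g₂.1 (f.1 (u j))) - (g₂.1 (u j) - g₂.1 (f.1 (u j))) := by abel
        _ = -u j + -u j := by rw [hfix, hneg]; abel
  let fam : Fin d ⊕ Fin d → (ι → F) := Sum.elim u fun a => f.1 (u a)
  have hfo : ∀ a b, a ≠ b → polar R (fam a) (fam b) = 0 := by
    rintro (a | a) (c | c) h
    · exact (huu a c).trans (if_neg fun e => h (congrArg Sum.inl e))
    · exact huf a c
    · exact hfu a c
    · exact (hff' a c).trans (if_neg fun e => h (congrArg Sum.inr e))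
  have hf0 : ∀ a, polar R (fam a) (fam a) ≠ 0 := by
    rintro (a | a)
    · exact ((huu a a).trans (if_pos rfl)).trans_ne one_ne_zero
    · exact ((hff' a a).trans (if_pos rfl)).trans_ne one_ne_zero
  have hspan : Submodule.span F (Set.range fam) = ⊤ :=
    (OrthInvolField.linearIndependent_of_orth hfo hf0).span_eq_top_of_card_eq_finrank'
      (by rw [Fintype.card_sum, Fintype.card_fin, finrank_fintype_fun_eq_card, hd]; omega)
  have heq : f = g₂ * g₁ := Subtype.ext (LinearEquiv.ext fun v => by
    have hv : v ∈ Submodule.span F (Set.range fam) := hspan ▸ Submodule.mem_top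
    rw [Subgroup.coe_mul, LinearEquiv.mul_apply]
    induction hv using Submodule.span_induction with
    | mem x hx =>
      obtain ⟨a | a, rfl⟩ := hx
      · show f.1 (u a) = g₂.1 (g₁.1 (u a))
        rw [h11, map_neg, (h2u a).1, neg_neg]
      · show f.1 (f.1 (u a)) = g₂.1 (g₁.1 (f.1 (u a)))
        rw [hg₁f, hff, (h2u a).2]
    | zero => simp
    | add x y _ _ hx hy => simp only [map_add, hx, hy]
    | smul c x _ hx => simp only [map_smul, hx])
  rw [commutator_eq_ker_sgnHom h2 hB (by rw [finrank_fintype_fun_eq_card, hd]; omega) hRQ, MonoidHom.mem_ker, heq,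
    map_mul, h13, h23, Prod.mk_mul_mk, Prod.mk_eq_one, ← pow_add, ← two_mul, pow_mul, neg_one_sq, one_pow]
  simp only [hRu, hRb, isSquare_inv, IsSquare.one, if_true, Finset.prod_const, Finset.card_univ, Fintype.card_fin,
    hdodd.neg_one_pow, true_and]
  by_cases hs : IsSquare (2 : F)
  · simp [hs, hdodd.neg_one_pow]
  · simp [hs]

/-- A square root of `-1` in an orthogonal group of minus type in dimension twice an odd number. -/
theorem exists_sq_neg_one_minus (h2 : (2 : F) ≠ 0) (hq : Fintype.card F % 2 = 1) (hns : ¬ IsSquare (-1 : F))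
    {n : ℕ} (hn : Even n) {a b : F} (hab : BinaryAniso a b) :
    ∃ g : OQ (minusQF n a b), ∀ v, g.1 (g.1 v) = -v := by
  classical
  let w : Fin (n + 1) ⊕ Fin (n + 1) → F := fun _ => (2 : F)⁻¹
  set R := weightedSumSquares F w
  have hR : ∀ v, R v = ∑ i, (2 : F)⁻¹ * (v i * v i) := fun v => by
    simp [R, w, weightedSumSquares_apply]
  have hB : BNondeg R := fun v hv => funext fun k => by
    have h := hv (Pi.single k 1)
    rw [polar, hR, hR, hR, ← Finset.sum_sub_distrib, ← Finset.sum_sub_distrib,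
      Finset.sum_eq_single k (fun i _ hi => by simp [Pi.single_eq_of_ne hi]) (fun h' => absurd (Finset.mem_univ k) h'),
      Pi.add_apply, Pi.single_eq_same] at h
    have : (2 : F)⁻¹ * (2 * v k) = 0 := by linear_combination h
    rwa [inv_mul_cancel_left₀ h2] at this
  let f₀ : (Fin (n + 1) ⊕ Fin (n + 1) → F) ≃ₗ[F] (Fin (n + 1) ⊕ Fin (n + 1) → F) :=
    { toFun := fun v => Sum.elim (fun i => -v (.inr i)) fun i => v (.inl i)
      invFun := fun v => Sum.elim (fun i => v (.inr i)) fun i => -v (.inl i)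
      map_add' := fun u v => funext fun s => by rcases s with i | i <;> simp [add_comm]
      map_smul' := fun c v => funext fun s => by rcases s with i | i <;> simp
      left_inv := fun v => funext fun s => by rcases s with i | i <;> simp
      right_inv := fun v => funext fun s => by rcases s with i | i <;> simp }
  let f : OQ R := ⟨f₀, fun v => by
    rw [hR, hR, Fintype.sum_sum_type, Fintype.sum_sum_type, add_comm]
    simp [f₀]⟩
  have hff : ∀ v, f.1 (f.1 v) = -v := fun v => funext fun s => by rcases s with i | i <;> simp [f, f₀]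
  have hd : finrank F (⊤ : Submodule F (Fin (n + 1) ⊕ Fin (n + 1) → F)) = 2 * (n + 1) := by
    rw [finrank_top, finrank_fintype_fun_eq_card, Fintype.card_sum, Fintype.card_fin]; omega
  have hm : ¬ IsPlusTypeOn ⇑R ⊤ := fun h => by
    have := (plus_iff_of_sq_neg_one h2 hq hns hB hff (n + 1) ⊤ (fun _ _ => trivial) (nonDegOn_top hB) hd).1 h
    rw [Nat.even_add_one] at this
    exact this hn
  obtain ⟨-, a', b', hab', e, he⟩ :=
    (OrthTypes.exists_model (nonDegOn_top hB) hd).resolve_left fun h => hm h.1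
  obtain ⟨T, hT⟩ := exists_quadFormMinus_equiv hab' hab n
  refine ⟨OQCongr (Q := R) ((LinearEquiv.ofTop _ rfl).symm.trans (e.trans T)) (fun v => ?_) f, fun v => ?_⟩
  · rw [LinearEquiv.trans_apply, LinearEquiv.trans_apply, minusQF_apply, hT, ← minusQF_apply, ← he]
    rfl
  · set E := (LinearEquiv.ofTop (⊤ : Submodule F (Fin (n + 1) ⊕ Fin (n + 1) → F)) rfl).symm.trans (e.trans T)
    show E (f.1 (E.symm (E (f.1 (E.symm v))))) = -v
    rw [E.symm_apply_apply, hff, map_neg, E.apply_symm_apply]

end Cfsg.Agent.Elusive.OrthElliptic
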