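import Cfsg.Agent.Elusive.FieldExtOrthMinus
import Cfsg.Agent.Forms25.Disc
import Cfsg.Agent.Forms.Discriminant
import Cfsg.Agent.Elusive.SkewPlanes
import Mathlib.FieldTheory.Finite.Basic

/-!
Every element of `Ω⁻(q)` with scalar square, `q` odd, is conjugate under `Ω⁻(q)` to one normalising a
given self-adjoint quadratic field.
-/

set_option autoImplicit false
set_option linter.unusedSectionVars false

namespace Cfsg.Agent.Elusive.OrthInvolField

open Module QuadraticMap Cfsg.Agent.Classical Cfsg.Agent.OrthGen Cfsg.Agent.Forms Cfsg.Agent.Elusive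

section general

variable {F : Type*} [Field F] {V : Type*} [AddCommGroup V] [Module F V] [FiniteDimensional F V]
  {R : QuadraticForm F V}

theorem linearIndependent_of_orth {ι : Type*} [Fintype ι] {e : ι → V}
    (ho : ∀ i j, i ≠ j → polar R (e i) (e j) = 0) (h0 : ∀ i, polar R (e i) (e i) ≠ 0) : LinearIndependent F e := by
  rw [Fintype.linearIndependent_iff]
  intro c hc i
  have h := congrArg (fun x => R.polarBilin (e i) x) hc
  simp only [map_sum, map_smul, map_zero, smul_eq_mul, QuadraticMap.polarBilin_apply_apply] at h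
  rw [Finset.sum_eq_single i (fun j _ hj => by rw [ho i j hj.symm, mul_zero]) (fun h => absurd (Finset.mem_univ i) h)] at h
  exact (mul_eq_zero.1 h).resolve_right (h0 i)

theorem polar_self_eq_two (v : V) : polar R v v = 2 * R v := by
  rw [polar_self, nsmul_eq_mul, Nat.cast_ofNat]

/-- An isometry between two bases with the same values of the form. -/
theorem exists_isometry (h2 : (2 : F) ≠ 0) {ι : Type*} [Finite ι] (b b' : Basis ι F V)
    (h : ∀ i j, polar R (b i) (b j) = polar R (b' i) (b' j)) : ∃ g : OQ R, ∀ i, g.1 (b i) = b' i := by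
  let T := b.equiv b' (Equiv.refl _)
  have hTi : ∀ i, T (b i) = b' i := fun i => Basis.equiv_apply _ _ _ _
  have hc : R.polarBilin.compl₁₂ T.toLinearMap T.toLinearMap = R.polarBilin :=
    LinearMap.BilinForm.ext_basis b fun i j => by
      rw [LinearMap.compl₁₂_apply, LinearEquiv.coe_coe, hTi, hTi]
      exact (h i j).symm
  refine ⟨⟨T, fun v => mul_left_cancel₀ h2 ?_⟩, hTi⟩
  rw [← polar_self_eq_two, ← polar_self_eq_two]
  exact LinearMap.congr_fun (LinearMap.congr_fun hc v) v

theorem eq_half_mul (h2 : (2 : F) ≠ 0) (v : V) : R v = (2 : F)⁻¹ * polar R v v := by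
  rw [polar_self_eq_two, inv_mul_cancel_left₀ h2]

theorem det_toMatrix_orth {κ : Type*} [Fintype κ] [DecidableEq κ] (c : Basis κ F V)
    (hc : ∀ i j, i ≠ j → polar R (c i) (c j) = 0) :
    (LinearMap.BilinForm.toMatrix c R.polarBilin).det = ∏ i, polar R (c i) (c i) := by
  rw [show LinearMap.BilinForm.toMatrix c R.polarBilin = Matrix.diagonal fun i => polar R (c i) (c i) from
    Matrix.ext fun i j => by
      rcases eq_or_ne i j with rfl | h
      · simp
      · simp [Matrix.diagonal_apply_ne _ h, hc i j h], Matrix.det_diagonal]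

variable [Finite F]

/-- The product of the reflections in an orthogonal family. -/
theorem exists_neg_on (h2 : (2 : F) ≠ 0) (hB : BNondeg R) (hRQ : RQ R = ⊤) [Finite V]
    [∀ v : V, Decidable (IsSquare (R v))] :
    ∀ (k : ℕ) (b : Fin k → V), (∀ i j, i ≠ j → polar R (b i) (b j) = 0) → (∀ i, R (b i) ≠ 0) →
      ∃ g : OQ R, (∀ i, g.1 (b i) = -b i) ∧ (∀ v, (∀ i, polar R (b i) v = 0) → g.1 v = v) ∧
        sgnHom hB hRQ g = ((-1) ^ k, ∏ i, if IsSquare (R (b i)) then (-1 : ℤˣ) else 1) := by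
  intro k
  induction k with
  | zero => exact fun b _ _ => ⟨1, fun i => i.elim0, fun v _ => rfl, by simp [Prod.ext_iff]⟩
  | succ k ih =>
    intro b ho h0
    obtain ⟨g, hg1, hg2, hg3⟩ := ih (fun i => b i.castSucc) (fun i j h => ho _ _ (by simpa using h)) (fun i => h0 _)
    refine ⟨g * reflQ R (b (Fin.last k)) (h0 _), fun i => ?_, fun v hv => ?_, ?_⟩
    · rw [Subgroup.coe_mul, LinearEquiv.mul_apply]
      obtain ⟨j, rfl⟩ | rfl := Fin.eq_castSucc_or_eq_last i
      · rw [reflQ_fix R (h0 _) (ho _ _ (Fin.castSucc_ne_last j).symm), hg1]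
      · rw [reflQ_self, map_neg, hg2]
        exact fun j => ho _ _ (Fin.castSucc_ne_last j)
    · rw [Subgroup.coe_mul, LinearEquiv.mul_apply, reflQ_fix R (h0 _) (hv _), hg2 v fun i => hv _]
    · rw [map_mul, hg3, sgnHom_refl h2 hB hRQ, Prod.mk_mul_mk, Fin.prod_univ_castSucc, pow_succ]

/-- Normal orthogonal bases of nondegenerate subspaces. -/
theorem exists_normal_family (h2 : (2 : F) ≠ 0) {S : Submodule F V} (hS : NonDegOn R.polarBilin S) {n : ℕ}
    (hn : finrank F S = n + 1) {α : F} (hα : ¬ IsSquare α) :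
    ∃ e : Fin (n + 1) → V, (∀ i, e i ∈ S) ∧ (∀ i j, i ≠ j → polar R (e i) (e j) = 0) ∧
      (∀ i, i ≠ Fin.last n → polar R (e i) (e i) = 1) ∧
      (polar R (e (Fin.last n)) (e (Fin.last n)) = 1 ∨ polar R (e (Fin.last n)) (e (Fin.last n)) = α) := by
  obtain ⟨hsym, hnd⟩ := Orth.nonDegOn_restrict (B := R.polarBilin) ⟨fun u v => polar_comm R u v⟩ hS
  obtain ⟨b, hb, hb1, hb2⟩ := exists_orthogonal_basis_symm h2 hsym hnd hn hα
  exact ⟨fun i => b i, fun i => (b i).2, hb, hb1, hb2⟩

theorem exists_value_on (h2 : (2 : F) ≠ 0) {S : Submodule F V} (hS : NonDegOn R.polarBilin S)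
    (hS2 : 2 ≤ finrank F S) (c : F) : ∃ u ∈ S, R u = c := by
  obtain ⟨u, hu⟩ := exists_value (Q := R.comp S.subtype) (fun x hx => Subtype.ext (hS x x.2 fun y hy => by
    simpa [polar, QuadraticMap.comp_apply] using hx ⟨y, hy⟩)) h2 hS2 c
  exact ⟨u, u.2, hu⟩

theorem prod_normal (n : ℕ) (val : Fin (n + 1) → F) (h : ∀ i, i ≠ Fin.last n → val i = 1) :
    ∏ i, val i = val (Fin.last n) := by
  rw [Finset.prod_eq_single (Fin.last n) (fun i _ hi => h i hi) (fun hi => absurd (Finset.mem_univ _) hi)]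

/-- The Gram determinants of two orthogonal bases differ by a square. -/
theorem isSquare_prod_mul {ι ι' : Type*} [Fintype ι] [DecidableEq ι] [Fintype ι'] [DecidableEq ι']
    (b : Basis ι F V) (b' : Basis ι' F V) (hb : ∀ i j, i ≠ j → polar R (b i) (b j) = 0)
    (hb' : ∀ i j, i ≠ j → polar R (b' i) (b' j) = 0) :
    IsSquare ((∏ i, polar R (b i) (b i)) * ∏ i, polar R (b' i) (b' i)) := by
  have h := Forms25.isSquare_gram_det_change R.polarBilin b b'
  rwa [det_toMatrix_orth b hb, det_toMatrix_orth b' hb'] at h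

variable {hB : BNondeg R} {hRQ : RQ R = ⊤}

/-- Adjusting a conjugating isometry into the commutator subgroup. -/
theorem exists_commutator_conj [Finite V] (h2 : (2 : F) ≠ 0) (hn : 2 ≤ finrank F V) (S f : V → V)
    (hneg : ∀ v, S (-v) = -S v) {g₀ h₁ h₂ : OQ R}
    (hg₀ : ∃ ε : F, (ε = 1 ∨ ε = -1) ∧ ∀ v, g₀.1.symm (f (g₀.1 (S v))) = ε • S (g₀.1.symm (f (g₀.1 v))))
    (h₁f : ∃ ε : F, (ε = 1 ∨ ε = -1) ∧ ∀ v, h₁.1 (f v) = ε • f (h₁.1 v))
    (h₂f : ∀ v, h₂.1 (f v) = f (h₂.1 v))
    (h₁s : (sgnHom hB hRQ h₁).1 = -1) (h₂s : sgnHom hB hRQ h₂ = (1, -1)) :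
    ∃ g ∈ commutator (OQ R), ∃ ε : F, (ε = 1 ∨ ε = -1) ∧
      ∀ v, g.1.symm (f (g.1 (S v))) = ε • S (g.1.symm (f (g.1 v))) := by
  obtain ⟨h, ⟨η, hη, hhf⟩, hsgn⟩ : ∃ h : OQ R, (∃ ε : F, (ε = 1 ∨ ε = -1) ∧ ∀ v, h.1 (f v) = ε • f (h.1 v)) ∧
      sgnHom hB hRQ h = sgnHom hB hRQ g₀ := by
    obtain ⟨e, l⟩ := sgnHom hB hRQ g₀
    obtain ⟨η, hη, hh₁⟩ := h₁f
    have c1 : sgnHom hB hRQ h₁ = (-1, (sgnHom hB hRQ h₁).2) := Prod.ext h₁s rfl
    have h12 : ∀ v, (h₁ * h₂).1 (f v) = η • f ((h₁ * h₂).1 v) := fun v => by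
      rw [Subgroup.coe_mul, LinearEquiv.mul_apply, h₂f, hh₁]; rfl
    rcases Int.units_eq_one_or e with rfl | rfl <;> rcases Int.units_eq_one_or l with rfl | rfl <;>
      rcases Int.units_eq_one_or (sgnHom hB hRQ h₁).2 with hl | hl <;> rw [hl] at c1
    · exact ⟨1, ⟨1, Or.inl rfl, fun v => by simp⟩, map_one _⟩
    · exact ⟨1, ⟨1, Or.inl rfl, fun v => by simp⟩, map_one _⟩
    · exact ⟨h₂, ⟨1, Or.inl rfl, fun v => by rw [one_smul, h₂f]⟩, h₂s⟩
    · exact ⟨h₂, ⟨1, Or.inl rfl, fun v => by rw [one_smul, h₂f]⟩, h₂s⟩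
    · exact ⟨h₁, ⟨η, hη, hh₁⟩, c1⟩
    · exact ⟨h₁ * h₂, ⟨η, hη, h12⟩, by rw [map_mul, c1, h₂s]; decide⟩
    · exact ⟨h₁ * h₂, ⟨η, hη, h12⟩, by rw [map_mul, c1, h₂s]; decide⟩
    · exact ⟨h₁, ⟨η, hη, hh₁⟩, c1⟩
  refine ⟨h⁻¹ * g₀, ?_, ?_⟩
  · rw [commutator_eq_ker_sgnHom h2 hB hn hRQ, MonoidHom.mem_ker, map_mul, map_inv, hsgn, inv_mul_cancel]
  · obtain ⟨ε, hε, hg⟩ := hg₀
    refine ⟨ε, hε, fun v => ?_⟩
    have hgv : ∀ w, (h⁻¹ * g₀).1 w = h.1.symm (g₀.1 w) := fun w => rfl
    have hgs : ∀ w, (h⁻¹ * g₀).1.symm w = g₀.1.symm (h.1 w) := fun w =>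
      (h⁻¹ * g₀).1.injective (by rw [LinearEquiv.apply_symm_apply, hgv]; simp)
    rw [hgs, hgs, hgv, hgv, hhf, hhf, LinearEquiv.apply_symm_apply, LinearEquiv.apply_symm_apply, map_smul, map_smul, hg]
    rcases hη with rfl | rfl
    · rw [one_smul, one_smul]
    · rw [neg_one_smul, neg_one_smul, hneg, smul_neg]

end general

section field

variable {F : Type*} [Field F] [Fintype F] {V : Type*} [AddCommGroup V] [Module F V] [FiniteDimensional F V] [Finite V]
  {R : QuadraticForm F V} {K : Type*} [Field K] [Finite K] [Algebra F K] [Module K V] [IsScalarTower F K V]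

/-- An orthonormal family spans a nondegenerate subspace. -/
theorem nonDegOn_span {ι : Type*} [Fintype ι] {e : ι → V} (ho : ∀ i j, i ≠ j → polar R (e i) (e j) = 0)
    (h0 : ∀ i, polar R (e i) (e i) ≠ 0) : NonDegOn R.polarBilin (Submodule.span F (Set.range e)) := by
  intro x hx h
  obtain ⟨c, rfl⟩ := Submodule.mem_span_range_iff_exists_fun F |>.1 hx
  refine Finset.sum_eq_zero fun i _ => ?_
  have h' := h (e i) (Submodule.subset_span ⟨i, rfl⟩)
  simp only [map_sum, map_smul, LinearMap.sum_apply, LinearMap.smul_apply, smul_eq_mul,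
    QuadraticMap.polarBilin_apply_apply] at h'
  rw [Finset.sum_eq_single i (fun j _ hj => by rw [ho j i hj, mul_zero]) (fun h => absurd (Finset.mem_univ i) h)] at h'
  rw [(mul_eq_zero.1 h').resolve_right (h0 i), zero_smul]

theorem span_eq {ι : Type*} [Fintype ι] {e : ι → V} {S : Submodule F V} (he : ∀ i, e i ∈ S)
    (ho : ∀ i j, i ≠ j → polar R (e i) (e j) = 0) (h0 : ∀ i, polar R (e i) (e i) ≠ 0)
    (hc : finrank F S ≤ Fintype.card ι) : Submodule.span F (Set.range e) = S := by
  refine Submodule.eq_of_le_of_finrank_le (Submodule.span_le.2 (Set.range_subset_iff.2 he)) ?_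
  rwa [finrank_span_eq_card (linearIndependent_of_orth ho h0)]

theorem map_eq_on_span {T T' : V →ₗ[F] V} {A : Set V} (h : ∀ x ∈ A, T x = T' x) :
    ∀ x ∈ Submodule.span F A, T x = T' x := fun x hx => by
  induction hx using Submodule.span_induction with
  | mem x hx => exact h x hx
  | zero => simp
  | add x y _ _ hx hy => simp [hx, hy]
  | smul c x _ hx => simp [hx]

/-- A reflection in an eigenvector commutes with an isometric involution. -/
theorem refl_comm {f : OQ R} (hf : ∀ v, f.1 (f.1 v) = v) {u : V} (hu : f.1 u = -u) (h0 : R u ≠ 0) (v : V) :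
    (reflQ R u h0).1 (f.1 v) = f.1 ((reflQ R u h0).1 v) := by
  have h : polar R u (f.1 v) = -polar R u v := by
    conv_lhs => rw [← OQ_polar f, hu, hf]
    rw [polar_neg_left]
  rw [reflQ_apply, reflQ_apply, map_sub, map_smul, hu, h, mul_neg, neg_smul, smul_neg]

/-- Involutions. -/
theorem sq_one (E : OrthField.Ext R K) (hB : BNondeg R) {d : ℕ} (hd : finrank F V = 2 * d) {f : OQ R}
    (hf : f ∈ commutator (OQ R)) (hff : ∀ v, f.1 (f.1 v) = v) (hf1 : ∃ v, f.1 v ≠ v) (hf2 : ∃ v, f.1 v ≠ -v) :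
    ∃ g ∈ commutator (OQ R), ∃ ε : F, (ε = 1 ∨ ε = -1) ∧
      ∀ v, g.1.symm (f.1 (g.1 (E.s • v))) = ε • (E.s • g.1.symm (f.1 (g.1 v))) := by
  classical
  have h2 := E.h2
  have hsym : LinearMap.BilinForm.IsSymm (R.polarBilin) := ⟨fun u v => polar_comm R u v⟩
  have hRQ : RQ R = ⊤ := RQ_eq_top hB (notExceptional_of_two_ne_zero h2)
  obtain ⟨α, hα⟩ := Forms25.exists_not_isSquare (F := F) h2
  set B : LinearMap.BilinForm F V := R.polarBilin with hBdef
  set f' : Module.End F V := f.1.toLinearMap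
  set Sn := LinearMap.ker (f' + 1) with hSn
  set Sp := LinearMap.ker (f' - 1) with hSp
  have hmn : ∀ {v}, v ∈ Sn ↔ f.1 v = -v := fun {v} => by
    rw [hSn, LinearMap.mem_ker, LinearMap.add_apply, Module.End.one_apply, add_eq_zero_iff_eq_neg]; rfl
  have hmp : ∀ {v}, v ∈ Sp ↔ f.1 v = v := fun {v} => by
    rw [hSp, LinearMap.mem_ker, LinearMap.sub_apply, Module.End.one_apply, sub_eq_zero]; rfl
  have horth : ∀ u ∈ Sn, ∀ v ∈ Sp, polar R u v = 0 := fun u hu v hv => by
    have h := OQ_polar f u v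
    rw [hmn.1 hu, hmp.1 hv, polar_neg_left] at h
    have : (2 : F) * polar R u v = 0 := by linear_combination -h
    exact (mul_eq_zero.1 this).resolve_left h2
  have hdec : ∀ v, ∃ a ∈ Sn, ∃ b ∈ Sp, a + b = v := fun v => by
    refine ⟨(2 : F)⁻¹ • (v - f.1 v), hmn.2 ?_, (2 : F)⁻¹ • (v + f.1 v), hmp.2 ?_, ?_⟩
    · rw [map_smul, map_sub, hff, ← smul_neg, neg_sub]
    · rw [map_smul, map_add, hff, add_comm]
    · rw [← smul_add, show v - f.1 v + (v + f.1 v) = (2 : F) • v by rw [two_smul]; abel, inv_smul_smul₀ h2]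
  have hNn : NonDegOn B Sn := fun u hu h => hB u fun v => by
    obtain ⟨a, ha, b, hb, rfl⟩ := hdec v
    rw [polar_add_right, horth u hu b hb, add_zero]; exact h a ha
  have hNp : NonDegOn B Sp := fun u hu h => hB u fun v => by
    obtain ⟨a, ha, b, hb, rfl⟩ := hdec v
    rw [polar_add_right, polar_comm R u a, horth a ha u hu, zero_add]; exact h b hb
  have hsum : finrank F Sn + finrank F Sp = 2 * d := by
    rw [← hd, ← Submodule.finrank_sup_add_finrank_inf_eq, show Sn ⊔ Sp = ⊤ from Submodule.eq_top_iff'.2 fun v => by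
        obtain ⟨a, ha, b, hb, rfl⟩ := hdec v; exact Submodule.add_mem_sup ha hb,
      show Sn ⊓ Sp = ⊥ from (Submodule.eq_bot_iff _).2 fun v hv => by
        have h := (hmn.1 hv.1).symm.trans (hmp.1 hv.2)
        have h' : (2 : F) • v = 0 := by rw [two_smul]; nth_rw 1 [← h]; exact neg_add_cancel v
        exact (smul_eq_zero.1 h').resolve_left h2, finrank_top, finrank_bot, add_zero]
  obtain ⟨k, hk⟩ : ∃ k, finrank F Sn = k + 1 := by
    refine Nat.exists_eq_add_one.2 (Nat.pos_of_ne_zero fun h0 => ?_)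
    obtain ⟨v, hv⟩ := hf1
    obtain ⟨a, ha, b, hb, rfl⟩ := hdec v
    rw [Submodule.finrank_eq_zero] at h0
    rw [h0, Submodule.mem_bot] at ha
    subst ha
    exact hv (by rw [zero_add]; exact hmp.1 hb)
  obtain ⟨l, hl⟩ : ∃ l, finrank F Sp = l + 1 := by
    refine Nat.exists_eq_add_one.2 (Nat.pos_of_ne_zero fun h0 => ?_)
    obtain ⟨v, hv⟩ := hf2
    obtain ⟨a, ha, b, hb, rfl⟩ := hdec v
    rw [Submodule.finrank_eq_zero] at h0
    rw [h0, Submodule.mem_bot] at hb
    subst hb
    exact hv (by rw [add_zero]; exact hmn.1 ha)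
  -- the negated space has an orthonormal basis
  obtain ⟨e, heS, heo, he1, he2⟩ := exists_normal_family h2 hNn hk hα
  have hα0 : α ≠ 0 := fun h => hα (h ▸ IsSquare.zero)
  have he0 : ∀ i, polar R (e i) (e i) ≠ 0 := fun i => by
    by_cases hi : i = Fin.last k
    · subst hi; rcases he2 with h | h <;> rw [h] <;> first | exact one_ne_zero | exact hα0
    · rw [he1 i hi]; exact one_ne_zero
  have heR : ∀ i, R (e i) ≠ 0 := fun i h => he0 i (by rw [polar_self_eq_two, h, mul_zero])
  obtain ⟨g, hg1, hg2, hg3⟩ := exists_neg_on h2 hB hRQ (k + 1) e heo heR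
  have hgf : g = f := Subtype.ext (LinearEquiv.toLinearMap_injective (LinearMap.ext fun v => by
    obtain ⟨a, ha, b, hb, rfl⟩ := hdec v
    have ha' : a ∈ Submodule.span F (Set.range e) := by
      rw [span_eq heS heo he0 (by rw [hk, Fintype.card_fin])]; exact ha
    rw [map_add, map_add, map_eq_on_span (T := g.1.toLinearMap) (T' := f.1.toLinearMap) (A := Set.range e) (by
      rintro _ ⟨i, rfl⟩
      show g.1 (e i) = f.1 (e i)
      rw [hg1, hmn.1 (heS i)]) a ha']
    show _ + g.1 b = _ + f.1 b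
    rw [hg2 b fun i => horth _ (heS i) b hb, hmp.1 hb]))
  have hn2 : 2 ≤ finrank F V := by omega
  rw [hgf] at hg3
  have hker : sgnHom hB hRQ f = 1 := by
    rwa [← MonoidHom.mem_ker, ← commutator_eq_ker_sgnHom h2 hB hn2 hRQ]
  rw [hker, Prod.ext_iff] at hg3
  have hkodd : Odd k := by
    rcases Nat.even_or_odd k with h | h
    · exfalso
      have h' := hg3.1
      rw [h.add_one.neg_one_pow] at h'
      simp only [Prod.fst_one] at h'
      exact absurd h' (by decide)
    · exact h
  have hlast : polar R (e (Fin.last k)) (e (Fin.last k)) = 1 := by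
    refine he2.resolve_right fun hL => ?_
    have h' := hg3.2
    have hi : ∀ i, i ≠ Fin.last k → (IsSquare (R (e i)) ↔ IsSquare ((2 : F)⁻¹)) := fun i hi => by
      rw [eq_half_mul h2, he1 i hi, mul_one]
    have hL' : IsSquare (R (e (Fin.last k))) ↔ ¬ IsSquare ((2 : F)⁻¹) := by
      rw [eq_half_mul h2, hL]
      constructor
      · intro h hh
        exact hα (Forms25.isSquare_of_isSquare_mul (inv_ne_zero h2) hh h)
      · intro hh
        exact Forms.isSquare_mul_of_not_isSquare hh hα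
    rw [Fin.prod_univ_castSucc, Finset.prod_congr rfl (g := fun _ => if IsSquare ((2 : F)⁻¹) then (-1 : ℤˣ) else 1)
      (fun i _ => if_congr (hi _ (Fin.castSucc_ne_last i)) rfl rfl), Finset.prod_const, Finset.card_univ, Fintype.card_fin] at h'
    by_cases hs : IsSquare ((2 : F)⁻¹)
    · rw [if_pos hs, if_neg (fun h => hL'.1 h hs), hkodd.neg_one_pow] at h'
      simp only [Prod.snd_one] at h'
      exact absurd h' (by decide)
    · rw [if_neg hs, if_pos (hL'.2 hs), one_pow] at h'
      simp only [Prod.snd_one] at h'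
      exact absurd h' (by decide)
  have hall : ∀ i, polar R (e i) (e i) = 1 := fun i => by
    by_cases hi : i = Fin.last k
    · exact hi ▸ hlast
    · exact he1 i hi
  obtain ⟨t, ht⟩ := hkodd.add_one
  -- the model subspace
  have hq : Fintype.card F % 2 = 1 := FiniteField.odd_card_of_char_ne_two fun h => h2 (by
    have := ringChar.charP F; rw [h] at this; exact CharTwo.two_eq_zero)
  obtain ⟨w, c, hwc⟩ : ∃ w c : F, w ^ 2 + c ^ 2 = E.δ := by
    obtain ⟨x, y, h⟩ := exists_sq_sub_mul_sq (c := (-1 : F)) hq (neg_ne_zero.2 one_ne_zero) E.δ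
    exact ⟨x, y, by linear_combination h⟩
  have hc0 : c ≠ 0 := fun h => E.hns ⟨w, by rw [← hwc, h]; ring⟩
  set c₀ : K := algebraMap F K 1 + algebraMap F K (E.δ⁻¹ * w) * E.s with hc₀
  have hc₀0 : c₀ ≠ 0 := fun h => by
    have := (E.coord_eq (x' := 0) (y' := 0) (h.trans (by simp))).1
    exact one_ne_zero this
  have : Module.Finite K V := Module.Finite.of_restrictScalars_finite F K V
  have hdK : finrank K V = d := by
    have h := finrank_mul_finrank F K V
    rw [E.finrank_eq, hd] at h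
    omega
  obtain ⟨αK, hαK⟩ := Forms25.exists_not_isSquare (F := K) E.two_ne
  obtain ⟨d', hd'⟩ : ∃ d', d = d' + 1 := ⟨d - 1, by omega⟩
  obtain ⟨bK, hbo, hb1, -⟩ := exists_orthogonal_basis_symm E.two_ne (B := c₀⁻¹ • E.bil)
    ⟨fun u v => by simp [E.bil_symm.eq u v]⟩
    (LinearMap.BilinForm.Nondegenerate.ofSeparatingLeft fun u hu => (E.bil_nondeg hB).1 u fun v =>
      (mul_eq_zero.1 (show c₀⁻¹ * E.bil u v = 0 from hu v)).resolve_left (inv_ne_zero hc₀0)) (hdK.trans hd') hαK
  have htd : t ≤ d' := by omega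
  set u : Fin t → V := fun j => bK ((Fin.castLE htd j).castSucc) with hudef
  have hubil : ∀ i j, E.bil (u i) (u j) = if i = j then c₀ else 0 := fun i j => by
    split_ifs with h
    · subst h
      have h' := hb1 ((Fin.castLE htd i).castSucc) (Fin.castSucc_ne_last _)
      exact ((inv_mul_eq_iff_eq_mul₀ hc₀0).1 h').trans (mul_one _)
    · have h' := hbo ((Fin.castLE htd i).castSucc) ((Fin.castLE htd j).castSucc) (by simp [h])
      exact (mul_eq_zero.1 (show c₀⁻¹ * E.bil (u i) (u j) = 0 from h')).resolve_left (inv_ne_zero hc₀0)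
  have hup : ∀ i j, polar R (u i) (u j) = (if i = j then 1 else 0) ∧
      polar R (E.s • u i) (u j) = if i = j then w else 0 := fun i j => by
    have h := hubil i j
    rw [E.bil_apply] at h
    split_ifs with hij
    · rw [if_pos hij, hc₀] at h
      obtain ⟨h1, h3⟩ := E.coord_eq h
      exact ⟨h1, mul_left_cancel₀ (inv_ne_zero E.δ_ne) h3⟩
    · rw [if_neg hij] at h
      obtain ⟨h1, h3⟩ := E.coord_eq (x' := 0) (y' := 0) (h.trans (by simp))
      exact ⟨h1, (mul_eq_zero.1 h3).resolve_left (inv_ne_zero E.δ_ne)⟩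
  set vv : Fin t → V := fun j => c⁻¹ • (E.s • u j - w • u j) with hvv
  set wf : Fin t ⊕ Fin t → V := Sum.elim u vv
  have hwf : ∀ i j, polar R (wf i) (wf j) = if i = j then 1 else 0 := by
    have huv : ∀ i j, polar R (vv i) (u j) = 0 := fun i j => by
      simp only [hvv, polar_smul_left, polar_sub_left, (hup i j).1, (hup i j).2, smul_eq_mul]
      split_ifs <;> ring
    rintro (i | i) (j | j)
    · simp [wf, (hup i j).1]
    · simp [wf, polar_comm R (u i), huv]
    · simp [wf, huv]
    · simp only [wf, Sum.elim_inr, Sum.inr.injEq, hvv, polar_smul_left, polar_smul_right, polar_sub_left,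
        polar_sub_right, E.polar_s_s, (hup i j).1, (hup i j).2, smul_eq_mul,
        polar_comm R (u i) (E.s • u j), (hup j i).2]
      by_cases hij : i = j
      · subst hij; simp only [if_true]; field_simp; linear_combination -hwc
      · simp only [if_neg hij, if_neg (Ne.symm hij)]; ring
  have hwfo : ∀ i j, i ≠ j → polar R (wf i) (wf j) = 0 := fun i j h => by rw [hwf, if_neg h]
  have hwf0 : ∀ i, polar R (wf i) (wf i) ≠ 0 := fun i => by rw [hwf, if_pos rfl]; exact one_ne_zero
  set W := Submodule.span F (Set.range wf) with hW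
  have hWs : ∀ v ∈ W, E.s • v ∈ W := by
    intro v hv
    induction hv using Submodule.span_induction with
    | mem x hx =>
      obtain ⟨(i | i), rfl⟩ := hx
      · have e1 : E.s • u i = c • vv i + w • u i := by simp [hvv, smul_inv_smul₀ hc0]
        show E.s • u i ∈ W
        rw [e1]
        exact add_mem (W.smul_mem c (Submodule.subset_span ⟨Sum.inr i, rfl⟩))
          (W.smul_mem w (Submodule.subset_span ⟨Sum.inl i, rfl⟩))
      · have e1 : E.s • u i = c • vv i + w • u i := by simp [hvv, smul_inv_smul₀ hc0]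
        have e2 : E.s • vv i = c⁻¹ • (E.δ • u i - w • (c • vv i + w • u i)) := by
          rw [← e1]
          simp only [hvv, smul_comm E.s (_ : F), smul_sub, E.smul_smul_s]
        show E.s • vv i ∈ W
        rw [e2]
        exact W.smul_mem _ (sub_mem (W.smul_mem _ (Submodule.subset_span ⟨Sum.inl i, rfl⟩))
          (W.smul_mem _ (add_mem (W.smul_mem c (Submodule.subset_span ⟨Sum.inr i, rfl⟩))
            (W.smul_mem w (Submodule.subset_span ⟨Sum.inl i, rfl⟩)))))
    | zero => simp
    | add x y _ _ hx hy => rw [smul_add]; exact add_mem hx hy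
    | smul a x _ hx => rw [smul_comm]; exact W.smul_mem a hx
  have hWN : NonDegOn B W := nonDegOn_span hwfo hwf0
  have hWd : finrank F W = 2 * t := by
    rw [hW, finrank_span_eq_card (linearIndependent_of_orth hwfo hwf0), Fintype.card_sum, Fintype.card_fin, two_mul]
  obtain ⟨hWsup, hWdis, hWpN⟩ := Orth.nonDegOn_split hsym (W := ⊤) le_top hWN
    (fun x _ h => hB x fun y => h y Submodule.mem_top)
  rw [top_inf_eq] at hWsup hWdis hWpN
  set Wp := B.orthogonal W
  have hWps : ∀ v ∈ Wp, E.s • v ∈ Wp := fun v hv x hx => by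
    show polar R x (E.s • v) = 0
    rw [← E.hsa]; exact hv _ (hWs x hx)
  have hWpd : finrank F Wp = l + 1 := by
    have := Submodule.finrank_sup_add_finrank_inf_eq W Wp
    rw [hWsup, hWdis.eq_bot, finrank_top, finrank_bot, hd, hWd] at this
    omega
  obtain ⟨p, hpS, hpo, hp1, hp2⟩ := exists_normal_family h2 hWpN hWpd hα
  obtain ⟨p', hp'S, hp'o, hp'1, hp'2⟩ := exists_normal_family h2 hNp hl hα
  have hne : ∀ x : F, x = 1 ∨ x = α → x ≠ 0 := fun x hx => by rcases hx with rfl | rfl <;> first | exact one_ne_zero | exact hα0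
  let σ : Fin t ⊕ Fin t ≃ Fin (k + 1) := finSumFinEquiv.trans (finCongr ht.symm)
  let e' : Fin t ⊕ Fin t → V := fun i => e (σ i)
  let fam : (Fin t ⊕ Fin t) ⊕ Fin (l + 1) → V := Sum.elim wf p
  let fam' : (Fin t ⊕ Fin t) ⊕ Fin (l + 1) → V := Sum.elim e' p'
  have hfo : ∀ i j, i ≠ j → polar R (fam i) (fam j) = 0 := by
    rintro (i | i) (j | j) h
    · exact hwfo i j fun h' => h (congrArg Sum.inl h')
    · exact hpS j _ (Submodule.subset_span ⟨i, rfl⟩)
    · show polar R (p i) (wf j) = 0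
      rw [polar_comm]; exact hpS i _ (Submodule.subset_span ⟨j, rfl⟩)
    · exact hpo i j fun h' => h (congrArg Sum.inr h')
  have hfo' : ∀ i j, i ≠ j → polar R (fam' i) (fam' j) = 0 := by
    rintro (i | i) (j | j) h
    · exact heo _ _ fun h' => h (congrArg Sum.inl (σ.injective h'))
    · exact horth _ (heS _) _ (hp'S _)
    · show polar R (p' i) (e (σ j)) = 0
      rw [polar_comm]; exact horth _ (heS _) _ (hp'S _)
    · exact hp'o i j fun h' => h (congrArg Sum.inr h')
  have hpne : ∀ i, polar R (p i) (p i) ≠ 0 := fun i => by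
    by_cases hi : i = Fin.last l
    · exact hi ▸ hne _ hp2
    · rw [hp1 i hi]; exact one_ne_zero
  have hp'ne : ∀ i, polar R (p' i) (p' i) ≠ 0 := fun i => by
    by_cases hi : i = Fin.last l
    · exact hi ▸ hne _ hp'2
    · rw [hp'1 i hi]; exact one_ne_zero
  have hf0 : ∀ i, polar R (fam i) (fam i) ≠ 0 := by rintro (i | i); exacts [hwf0 i, hpne i]
  have hf0' : ∀ i, polar R (fam' i) (fam' i) ≠ 0 := by rintro (i | i); exacts [he0 _, hp'ne i]
  have hcard : Fintype.card ((Fin t ⊕ Fin t) ⊕ Fin (l + 1)) = finrank F V := by simp [hd]; omega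
  let b := basisOfLinearIndependentOfCardEqFinrank (linearIndependent_of_orth hfo hf0) hcard
  let b' := basisOfLinearIndependentOfCardEqFinrank (linearIndependent_of_orth hfo' hf0') hcard
  have hbe : ∀ i, b i = fam i := fun i => by simp [b]
  have hbe' : ∀ i, b' i = fam' i := fun i => by simp [b']
  have hlasteq : polar R (p (Fin.last l)) (p (Fin.last l)) = polar R (p' (Fin.last l)) (p' (Fin.last l)) := by
    have h := isSquare_prod_mul b b' (fun i j h => by rw [hbe, hbe]; exact hfo i j h)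
      (fun i j h => by rw [hbe', hbe']; exact hfo' i j h)
    simp only [hbe, hbe', Fintype.prod_sum_type (fun i => polar R (fam i) (fam i)),
      Fintype.prod_sum_type (fun i => polar R (fam' i) (fam' i))] at h
    simp only [fam, fam', e', Sum.elim_inl, Sum.elim_inr, hwf, if_true, hall, Finset.prod_const_one, one_mul,
      prod_normal l _ hp1, prod_normal l _ hp'1] at h
    rcases hp2 with h1 | h1 <;> rcases hp'2 with h3 | h3 <;> rw [h1, h3] at h ⊢
    · exact absurd (by simpa using h) hα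
    · exact absurd (by simpa using h) hα
  obtain ⟨g₀, hg₀⟩ := exists_isometry h2 b b' fun i j => by
    rw [hbe, hbe, hbe', hbe']
    rcases eq_or_ne i j with rfl | hij
    · rcases i with i | i
      · show polar R (wf i) (wf i) = polar R (e (σ i)) (e (σ i))
        rw [hwf, if_pos rfl, hall]
      · show polar R (p i) (p i) = polar R (p' i) (p' i)
        by_cases hi : i = Fin.last l
        · exact hi ▸ hlasteq
        · rw [hp1 i hi, hp'1 i hi]
    · rw [hfo i j hij, hfo' i j hij]
  set y : V →ₗ[F] V := g₀.1.symm.toLinearMap ∘ₗ f.1.toLinearMap ∘ₗ g₀.1.toLinearMap with hy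
  have hyv : ∀ v, y v = g₀.1.symm (f.1 (g₀.1 v)) := fun v => rfl
  have hyW : ∀ v ∈ W, y v = -v := by
    refine map_eq_on_span (T := y) (T' := -1) ?_
    rintro _ ⟨i, rfl⟩
    show g₀.1.symm (f.1 (g₀.1 (wf i))) = -wf i
    have h1 : g₀.1 (wf i) = e (σ i) := by
      have := hg₀ (Sum.inl i)
      rwa [hbe, hbe'] at this
    rw [h1, hmn.1 (heS _), map_neg, ← h1, LinearEquiv.symm_apply_apply]
  have hyP : ∀ v ∈ Wp, y v = v := by
    rw [← span_eq hpS hpo hpne (by rw [hWpd, Fintype.card_fin])]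
    refine map_eq_on_span (T := y) (T' := 1) ?_
    rintro _ ⟨i, rfl⟩
    show g₀.1.symm (f.1 (g₀.1 (p i))) = p i
    have h1 : g₀.1 (p i) = p' i := by
      have := hg₀ (Sum.inr i)
      rwa [hbe, hbe'] at this
    rw [h1, hmp.1 (hp'S _), ← h1, LinearEquiv.symm_apply_apply]
  obtain ⟨ν, hν⟩ := Forms25.exists_not_isSquare (F := F) h2
  have hν0 : ν ≠ 0 := fun h => hν (h ▸ IsSquare.zero)
  obtain ⟨u₁, hu₁, hR₁⟩ := exists_value_on h2 hNn (by omega) 1
  obtain ⟨u₂, hu₂, hR₂⟩ := exists_value_on h2 hNn (by omega) ν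
  refine exists_commutator_conj (hB := hB) (hRQ := hRQ) h2 hn2 (fun v => E.s • v) f.1 (fun v => smul_neg _ _)
    (g₀ := g₀) (h₁ := reflQ R u₁ (by rw [hR₁]; exact one_ne_zero))
    (h₂ := reflQ R u₁ (by rw [hR₁]; exact one_ne_zero) * reflQ R u₂ (by rw [hR₂]; exact hν0))
    ⟨1, Or.inl rfl, fun v => ?_⟩ ⟨1, Or.inl rfl, fun v => by rw [one_smul, refl_comm hff (hmn.1 hu₁)]⟩
    (fun v => by
      rw [Subgroup.coe_mul, LinearEquiv.mul_apply, LinearEquiv.mul_apply, refl_comm hff (hmn.1 hu₂),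
        refl_comm hff (hmn.1 hu₁)]) ?_ ?_
  · rw [one_smul, ← hyv, ← hyv]
    obtain ⟨a, ha, b, hb, rfl⟩ := Submodule.mem_sup.1 (hWsup ▸ Submodule.mem_top : v ∈ W ⊔ Wp)
    rw [smul_add, map_add, map_add, smul_add, hyW a ha, hyP b hb, hyW _ (hWs a ha), hyP _ (hWps b hb), smul_neg]
  · rw [sgnHom_refl h2 hB hRQ]
  · rw [map_mul, sgnHom_refl h2 hB hRQ, sgnHom_refl h2 hB hRQ, if_pos (by rw [hR₁]; exact IsSquare.one),
      if_neg (by rw [hR₂]; exact hν)]
    rfl

/-- Orthonormal planes adapted to a map with square `-1`. -/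
theorem exists_skew_planes_symm (h2 : (2 : F) ≠ 0) (hq : Fintype.card F % 2 = 1) {f : OQ R}
    (hff : ∀ v, f.1 (f.1 v) = -v) :
    ∀ (k : ℕ) (S : Submodule F V), (∀ v ∈ S, f.1 v ∈ S) → NonDegOn R.polarBilin S → 2 * k ≤ finrank F S →
      ∃ u : Fin k → V, (∀ i, u i ∈ S) ∧ ∀ i j, polar R (u i) (u j) = (if i = j then 1 else 0) ∧ polar R (u i) (f.1 (u j)) = 0 := by
  have hskew : ∀ u v, polar R (f.1 u) v = -polar R u (f.1 v) := fun u v => by
    conv_lhs => rw [← OQ_polar f, hff]
    rw [polar_neg_left]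
  have hself : ∀ v, polar R v (f.1 v) = 0 := fun v => by
    have h := hskew v v
    rw [polar_comm] at h
    have : (2 : F) * polar R v (f.1 v) = 0 := by linear_combination h
    exact (mul_eq_zero.1 this).resolve_left h2
  intro k
  induction k with
  | zero => exact fun _ _ _ _ => ⟨fun i => i.elim0, fun i => i.elim0, fun i => i.elim0⟩
  | succ k ih =>
    intro S hS hN hk
    obtain ⟨v, hv, hv0⟩ : ∃ v ∈ S, polar R v v ≠ 0 := by
      by_contra hno
      push Not at hno
      obtain ⟨x, hx, hx0⟩ := Submodule.exists_mem_ne_zero_of_ne_bot (p := S)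
        (fun h => by rw [h, finrank_bot] at hk; omega)
      refine hx0 (hN x hx fun y hy => ?_)
      have h := hno (x + y) (add_mem hx hy)
      simp only [polar_add_left, polar_add_right, hno x hx, hno y hy, zero_add, add_zero, polar_comm R y x,
        ← two_mul] at h
      exact (mul_eq_zero.1 h).resolve_left h2
    obtain ⟨a, b, hab⟩ := exists_sq_sub_mul_sq (c := (-1 : F)) hq (neg_ne_zero.2 one_ne_zero) (polar R v v)⁻¹
    set u₀ := a • v + b • f.1 v with hu₀
    have hu₀S : u₀ ∈ S := add_mem (S.smul_mem a hv) (S.smul_mem b (hS v hv))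
    have hu₀u : polar R u₀ u₀ = 1 := by
      simp only [hu₀, polar_add_left, polar_add_right, polar_smul_left, polar_smul_right, smul_eq_mul, OQ_polar,
        hself, polar_comm R (f.1 v) v]
      rw [show a * (a * polar R v v + b * 0) + b * (a * 0 + b * polar R v v) =
        (a ^ 2 - -1 * b ^ 2) * polar R v v by ring, hab, inv_mul_cancel₀ hv0]
    let fam : Fin 2 → V := ![u₀, f.1 u₀]
    have hfam : ∀ i j, polar R (fam i) (fam j) = if i = j then 1 else 0 := by
      intro i j
      fin_cases i <;> fin_cases j <;> simp [fam, -QuadraticMap.polar_self, hu₀u, hself, OQ_polar, polar_comm R (f.1 u₀) u₀]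
    have hfo : ∀ i j, i ≠ j → polar R (fam i) (fam j) = 0 := fun i j h => by rw [hfam, if_neg h]
    have hf0 : ∀ i, polar R (fam i) (fam i) ≠ 0 := fun i => by rw [hfam, if_pos rfl]; exact one_ne_zero
    have hPS : Submodule.span F (Set.range fam) ≤ S := Submodule.span_le.2 (by
      rintro _ ⟨i, rfl⟩
      fin_cases i
      exacts [hu₀S, hS _ hu₀S])
    have hPf : ∀ x ∈ Submodule.span F (Set.range fam), f.1 x ∈ Submodule.span F (Set.range fam) := by
      intro x hx
      induction hx using Submodule.span_induction with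
      | mem x hx =>
        obtain ⟨i, rfl⟩ := hx
        fin_cases i
        · exact Submodule.subset_span ⟨1, rfl⟩
        · show f.1 (f.1 u₀) ∈ _
          rw [hff]
          exact neg_mem (Submodule.subset_span ⟨0, rfl⟩)
      | zero => simp
      | add x y _ _ hx hy => rw [map_add]; exact add_mem hx hy
      | smul c x _ hx => rw [map_smul]; exact Submodule.smul_mem _ c hx
    obtain ⟨hsup, hdis, hRN⟩ := Orth.nonDegOn_split (B := R.polarBilin) ⟨fun u v => polar_comm R u v⟩ hPS
      (nonDegOn_span hfo hf0) hN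
    set S' := S ⊓ LinearMap.BilinForm.orthogonal R.polarBilin (Submodule.span F (Set.range fam))
    have hS' : ∀ x ∈ S', f.1 x ∈ S' := fun x hx => ⟨hS x hx.1, fun z hz => by
      show polar R z (f.1 x) = 0
      have hzero : polar R (f.1 z) x = 0 := hx.2 _ (hPf z hz)
      rw [hskew] at hzero
      exact neg_eq_zero.1 hzero⟩
    have hdim : finrank F S = finrank F (Submodule.span F (Set.range fam)) + finrank F S' := by
      rw [← Submodule.finrank_sup_add_finrank_inf_eq, hsup, hdis.eq_bot, finrank_bot, add_zero]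
    rw [finrank_span_eq_card (linearIndependent_of_orth hfo hf0), Fintype.card_fin] at hdim
    obtain ⟨u, hu, hu'⟩ := ih S' hS' hRN (by omega)
    have h0 : ∀ j, polar R u₀ (u j) = 0 ∧ polar R (f.1 u₀) (u j) = 0 := fun j =>
      ⟨(hu j).2 _ (Submodule.subset_span ⟨0, rfl⟩), (hu j).2 _ (Submodule.subset_span ⟨1, rfl⟩)⟩
    refine ⟨Fin.cons u₀ u, fun i => ?_, fun i j => ?_⟩
    · obtain rfl | ⟨i, rfl⟩ := Fin.eq_zero_or_eq_succ i
      · simpa using hu₀S
      · simpa using (hu i).1
    · obtain rfl | ⟨i, rfl⟩ := Fin.eq_zero_or_eq_succ i <;> obtain rfl | ⟨j, rfl⟩ := Fin.eq_zero_or_eq_succ j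
      · simp [hu₀u, hself]
      · simp only [Fin.cons_zero, Fin.cons_succ, if_neg (Fin.succ_ne_zero j).symm]
        refine ⟨(h0 j).1, neg_eq_zero.1 ?_⟩
        rw [← hskew]; exact (h0 j).2
      · simp only [Fin.cons_zero, Fin.cons_succ, if_neg (Fin.succ_ne_zero i)]
        exact ⟨by rw [polar_comm]; exact (h0 i).1, by rw [polar_comm]; exact (h0 i).2⟩
      · simp only [Fin.cons_succ, Fin.succ_inj]; exact hu' i j

/-- Elements with square `-1`. -/
theorem sq_neg_one (E : OrthField.Ext R K) (hB : BNondeg R) {d : ℕ} (hd0 : 1 ≤ d) (hd : finrank F V = 2 * d)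
    (hmax : ∀ W : Submodule F V, (∀ w ∈ W, R w = 0) → finrank F W < d) {f : OQ R}
    (hff : ∀ v, f.1 (f.1 v) = -v) :
    ∃ g ∈ commutator (OQ R), ∃ ε : F, (ε = 1 ∨ ε = -1) ∧
      ∀ v, g.1.symm (f.1 (g.1 (E.s • v))) = ε • (E.s • g.1.symm (f.1 (g.1 v))) := by
  classical
  have h2 := E.h2
  have hRQ : RQ R = ⊤ := RQ_eq_top hB (notExceptional_of_two_ne_zero h2)
  have hq : Fintype.card F % 2 = 1 := FiniteField.odd_card_of_char_ne_two fun h => h2 (by
    have := ringChar.charP F; rw [h] at this; exact CharTwo.two_eq_zero)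
  have hskew : ∀ u v, polar R (f.1 u) v = -polar R u (f.1 v) := fun u v => by
    conv_lhs => rw [← OQ_polar f, hff]
    rw [polar_neg_left]
  -- `-1` is not a square
  have hns1 : ¬ IsSquare (-1 : F) := by
    rintro ⟨ι, hι⟩
    have hι0 : ι ≠ 0 := fun h => by rw [h, mul_zero, neg_eq_zero] at hι; exact one_ne_zero hι
    have hTS : ∀ a : F, a * a = -1 → finrank F (LinearMap.ker (f.1.toLinearMap - a • 1 : Module.End F V)) < d :=
      fun a ha => hmax _ fun v hv => by
        rw [LinearMap.mem_ker, LinearMap.sub_apply, LinearMap.smul_apply, Module.End.one_apply, sub_eq_zero] at hv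
        have h : R (a • v) = R v := by rw [← show f.1 v = a • v from hv, OQ_map_app]
        rw [QuadraticMap.map_smul, ha, smul_eq_mul, neg_one_mul, neg_eq_iff_add_eq_zero, ← two_mul] at h
        exact (mul_eq_zero.1 h).resolve_left h2
    have h1 := hTS ι hι.symm
    have h2' := hTS (-ι) (by rw [neg_mul_neg, ← hι])
    have hle : ⊤ ≤ LinearMap.ker (f.1.toLinearMap - ι • 1 : Module.End F V) ⊔
        LinearMap.ker (f.1.toLinearMap - (-ι) • 1 : Module.End F V) := by
      intro v _
      have h2ι : (2 : F) * ι ≠ 0 := mul_ne_zero h2 hι0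
      refine Submodule.mem_sup.2 ⟨(2 * ι)⁻¹ • (ι • v + f.1 v), ?_, (2 * ι)⁻¹ • (ι • v - f.1 v), ?_, ?_⟩
      · simp only [LinearMap.mem_ker, LinearMap.sub_apply, LinearMap.smul_apply, Module.End.one_apply,
          LinearEquiv.coe_coe, map_smul, map_add, hff]
        match_scalars <;> field_simp
        all_goals first | ring1 | linear_combination hι | linear_combination -hι
      · simp only [LinearMap.mem_ker, LinearMap.sub_apply, LinearMap.smul_apply, Module.End.one_apply,
          LinearEquiv.coe_coe, map_smul, map_sub, hff]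
        match_scalars <;> field_simp
        all_goals first | ring1 | linear_combination hι | linear_combination -hι
      · match_scalars <;> field_simp <;> ring
    have h3 := (Submodule.finrank_mono hle).trans (Submodule.finrank_add_le_finrank_add_finrank _ _)
    rw [finrank_top, hd] at h3
    omega
  obtain ⟨u, -, hu⟩ := exists_skew_planes_symm h2 hq hff d ⊤ (fun _ _ => trivial)
    (fun x _ h => hB x fun y => h y Submodule.mem_top) (by rw [finrank_top, hd])
  have hfu : ∀ i j, polar R (f.1 (u i)) (f.1 (u j)) = (if i = j then 1 else 0) := fun i j => by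
    rw [OQ_polar]; exact (hu i j).1
  have hfu' : ∀ i j, polar R (f.1 (u i)) (u j) = 0 := fun i j => by rw [hskew, (hu i j).2, neg_zero]
  -- `d` is odd
  have hdodd : Odd d := by
    by_contra heven
    obtain ⟨l, hl⟩ := Nat.not_odd_iff_even.1 heven
    obtain ⟨x, y, hxy⟩ := exists_sq_sub_mul_sq (c := (-1 : F)) hq (neg_ne_zero.2 one_ne_zero) (-1 : F)
    let p₁ : Fin l → Fin d := fun j => ⟨j, by omega⟩
    let p₂ : Fin l → Fin d := fun j => ⟨l + j, by omega⟩
    have hp : ∀ i j, p₁ i ≠ p₂ j := fun i j h => by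
      have := congrArg Fin.val h; simp only [p₁, p₂] at this; omega
    let z : Fin l → V := fun j => u (p₁ j) + x • u (p₂ j) + y • f.1 (u (p₂ j))
    let fam : Fin l ⊕ Fin l → V := Sum.elim z fun j => f.1 (z j)
    have hzz : ∀ i j, polar R (z i) (z j) = 0 ∧ polar R (z i) (f.1 (z j)) = 0 := by
      intro i j
      have e1 : (if p₁ i = p₁ j then (1 : F) else 0) = if i = j then 1 else 0 := by
        simp [p₁, Fin.ext_iff]
      have e2 : (if p₂ i = p₂ j then (1 : F) else 0) = if i = j then 1 else 0 := by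
        simp [p₂, Fin.ext_iff]
      simp only [z, map_add, map_smul, hff, polar_add_left, polar_add_right, polar_smul_left, polar_smul_right,
        polar_neg_right, smul_eq_mul, (hu _ _).1, (hu _ _).2, hfu, hfu', e1, e2, if_neg (hp _ _),
        if_neg (Ne.symm (hp _ _))]
      split_ifs
      · exact ⟨by linear_combination hxy, by ring⟩
      · exact ⟨by ring, by ring⟩
    have hall : ∀ i j, polar R (fam i) (fam j) = 0 := by
      rintro (i | i) (j | j) <;> simp only [fam, Sum.elim_inl, Sum.elim_inr]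
      · exact (hzz i j).1
      · exact (hzz i j).2
      · rw [polar_comm]; exact (hzz j i).2
      · rw [OQ_polar]; exact (hzz i j).1
    have hli : LinearIndependent F fam := by
      rw [Fintype.linearIndependent_iff]
      intro c hc
      rw [Fintype.sum_sum_type] at hc
      simp only [fam, Sum.elim_inl, Sum.elim_inr] at hc
      have e1 : ∀ a b, (if p₁ a = p₁ b then (1 : F) else 0) = if a = b then 1 else 0 := fun a b => by
        simp [p₁, Fin.ext_iff]
      rintro (j | j)
      · have h := congrArg (fun v => R.polarBilin (u (p₁ j)) v) hc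
        simp only [map_sum, map_add, map_smul, map_zero, z, smul_eq_mul, QuadraticMap.polarBilin_apply_apply,
          (hu _ _).1, (hu _ _).2, polar_neg_right, hff, if_neg (hp _ _), e1] at h
        simpa [polar_neg_right, (hu _ _).1, if_neg (hp _ _)] using h
      · have h := congrArg (fun v => R.polarBilin (f.1 (u (p₁ j))) v) hc
        simp only [map_sum, map_add, map_smul, map_zero, z, smul_eq_mul, QuadraticMap.polarBilin_apply_apply,
          hfu, hfu', polar_neg_right, hff, map_neg, if_neg (hp _ _), e1] at h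
        simpa [polar_neg_right, hfu', hfu, if_neg (hp _ _)] using h
    have hlt := hmax (Submodule.span F (Set.range fam)) fun w hw => by
      obtain ⟨c, rfl⟩ := Submodule.mem_span_range_iff_exists_fun F |>.1 hw
      have h0 : polar R (∑ i, c i • fam i) (∑ i, c i • fam i) = 0 := by
        rw [← QuadraticMap.polarBilin_apply_apply]
        simp only [map_sum, map_smul, LinearMap.sum_apply, LinearMap.smul_apply, QuadraticMap.polarBilin_apply_apply,
          hall, smul_zero, Finset.sum_const_zero]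
      rw [polar_self_eq_two, mul_eq_zero] at h0
      exact h0.resolve_left h2
    rw [finrank_span_eq_card hli, Fintype.card_sum, Fintype.card_fin] at hlt
    omega
  -- the rotation of the field
  obtain ⟨w, hw⟩ : IsSquare (-E.δ) := by
    rw [← neg_one_mul]; exact Forms.isSquare_mul_of_not_isSquare hns1 E.hns
  have hw0 : w ≠ 0 := fun h => E.δ_ne (by rw [h, mul_zero, neg_eq_zero] at hw; exact hw)
  obtain ⟨a, b, hab⟩ := exists_sq_sub_mul_sq (c := (-1 : F)) hq (neg_ne_zero.2 one_ne_zero) (-1 : F)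
  have hb0 : b ≠ 0 := fun h => hns1 ⟨a, by rw [← hab, h]; ring⟩
  set c₀ : K := algebraMap F K 1 + algebraMap F K (E.δ⁻¹ * (w * a)) * E.s with hc₀
  have hc₀0 : c₀ ≠ 0 := fun h => by
    exact one_ne_zero (E.coord_eq (x' := 0) (y' := 0) (h.trans (by simp))).1
  obtain ⟨ν, hν⟩ := Forms25.exists_not_isSquare (F := F) h2
  have hν0 : ν ≠ 0 := fun h => hν (h ▸ IsSquare.zero)
  obtain ⟨αx, αy, hαn⟩ := exists_sq_sub_mul_sq hq E.δ_ne ν
  set αK : K := algebraMap F K αx + algebraMap F K αy * E.s with hαKdef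
  have hαK : ¬ IsSquare αK := by
    rintro ⟨r, hr⟩
    obtain ⟨p, q, rfl⟩ := E.hgen r
    have hsq : (algebraMap F K p + algebraMap F K q * E.s) * (algebraMap F K p + algebraMap F K q * E.s) =
        algebraMap F K (p * p + q * q * E.δ) + algebraMap F K (2 * p * q) * E.s := by
      simp only [map_add, map_mul, map_ofNat]
      linear_combination (algebraMap F K q * algebraMap F K q) * E.hss
    rw [hαKdef, hsq] at hr
    obtain ⟨h1, h3⟩ := E.coord_eq hr
    exact hν ⟨p * p - q * q * E.δ, by rw [← hαn, h1, h3]; ring⟩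
  have : Module.Finite K V := Module.Finite.of_restrictScalars_finite F K V
  have hdK : finrank K V = d := by
    have h := finrank_mul_finrank F K V
    rw [E.finrank_eq, hd] at h
    omega
  obtain ⟨d', rfl⟩ : ∃ d', d = d' + 1 := ⟨d - 1, by omega⟩
  obtain ⟨bK, hbo, hb1, hb2⟩ := exists_orthogonal_basis_symm E.two_ne (B := c₀⁻¹ • E.bil)
    ⟨fun u v => by simp [E.bil_symm.eq u v]⟩
    (LinearMap.BilinForm.Nondegenerate.ofSeparatingLeft fun u hu => (E.bil_nondeg hB).1 u fun v =>
      (mul_eq_zero.1 (show c₀⁻¹ * E.bil u v = 0 from hu v)).resolve_left (inv_ne_zero hc₀0)) hdK hαK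
  have hbil0 : ∀ i j, i ≠ j → polar R (bK i) (bK j) = 0 ∧ polar R (E.s • bK i) (bK j) = 0 := fun i j h =>
    E.polar_eq_zero_of_bil
      ((mul_eq_zero.1 (show c₀⁻¹ * E.bil (bK i) (bK j) = 0 from hbo i j h)).resolve_left (inv_ne_zero hc₀0))
  have hval : ∀ i, ∀ x y : F, E.bil (bK i) (bK i) = algebraMap F K x + algebraMap F K y * E.s →
      polar R (bK i) (bK i) = x ∧ polar R (E.s • bK i) (bK i) = E.δ * y := fun i x y h => by
    rw [E.bil_apply] at h
    obtain ⟨h1, h3⟩ := E.coord_eq h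
    exact ⟨h1, by rw [← h3, mul_inv_cancel_left₀ E.δ_ne]⟩
  have hgood : ∀ i, E.bil (bK i) (bK i) = c₀ → polar R (bK i) (bK i) = 1 ∧ polar R (E.s • bK i) (bK i) = w * a :=
    fun i h => by
      obtain ⟨h1, h3⟩ := hval i _ _ (h.trans hc₀)
      exact ⟨h1, by rw [h3, mul_inv_cancel_left₀ E.δ_ne]⟩
  have hones : ∀ i, i ≠ Fin.last d' → E.bil (bK i) (bK i) = c₀ := fun i hi =>
    ((inv_mul_eq_iff_eq_mul₀ hc₀0).1 (show c₀⁻¹ * E.bil (bK i) (bK i) = 1 from hb1 i hi)).trans (mul_one _)
  have hliKs : LinearIndependent F ![(1 : K), E.s] := by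
    rw [LinearIndependent.pair_iff]
    intro x y h
    rw [Algebra.smul_def, Algebra.smul_def, mul_one] at h
    exact E.coord_eq (x' := 0) (y' := 0) (by rw [h]; simp)
  have : FiniteDimensional F K := FiniteDimensional.of_finrank_eq_succ (n := 1) E.finrank_eq
  let bKF := basisOfLinearIndependentOfCardEqFinrank hliKs (by rw [Fintype.card_fin, E.finrank_eq])
  let bV := bKF.smulTower bK
  let tgt : Fin 2 × Fin (d' + 1) → V := fun p => ![u p.2, (w * a) • u p.2 + (w * b) • f.1 (u p.2)] p.1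
  have hsrc : ∀ j, bV (0, j) = bK j ∧ bV (1, j) = E.s • bK j := fun j => by simp [bV, bKF]
  have hG : ∀ i j, polar R (E.s • bK i) (E.s • bK j) = E.δ * polar R (bK i) (bK j) := fun i j => E.polar_s_s _ _
  -- the last vector
  have hlast : E.bil (bK (Fin.last d')) (bK (Fin.last d')) = c₀ := by
    refine hb2.elim (fun h => ((inv_mul_eq_iff_eq_mul₀ hc₀0).1
      (show c₀⁻¹ * E.bil (bK (Fin.last d')) (bK (Fin.last d')) = 1 from h)).trans (mul_one _)) fun hL => ?_
    exfalso
    set xL := αx + αy * (E.δ⁻¹ * (w * a)) * E.δ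
    set yL := αy + αx * (E.δ⁻¹ * (w * a))
    have hL' : E.bil (bK (Fin.last d')) (bK (Fin.last d')) = algebraMap F K xL + algebraMap F K yL * E.s := by
      rw [(inv_mul_eq_iff_eq_mul₀ hc₀0).1 (show c₀⁻¹ * E.bil _ _ = αK from hL), hc₀, hαKdef]
      simp only [xL, yL, map_add, map_mul, map_one]
      linear_combination (algebraMap F K αy * (algebraMap F K E.δ⁻¹ * (algebraMap F K w * algebraMap F K a))) * E.hss
    obtain ⟨hL1, hL2⟩ := hval _ _ _ hL'
    let M : Fin (d' + 1) → Matrix (Fin 2) (Fin 2) F := fun j =>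
      !![polar R (bK j) (bK j), polar R (E.s • bK j) (bK j);
        polar R (E.s • bK j) (bK j), E.δ * polar R (bK j) (bK j)]
    have hmat : LinearMap.BilinForm.toMatrix bV R.polarBilin = Matrix.blockDiagonal M := by
      ext ⟨k₁, i⟩ ⟨k₂, j⟩
      rw [LinearMap.BilinForm.toMatrix_apply, Matrix.blockDiagonal_apply, QuadraticMap.polarBilin_apply_apply]
      rcases eq_or_ne i j with rfl | hij
      · rw [if_pos rfl]
        fin_cases k₁ <;> fin_cases k₂ <;> simp [hsrc, M, hG, polar_comm R (bK i) (E.s • bK i)]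
      · rw [if_neg hij]
        fin_cases k₁ <;> fin_cases k₂ <;>
          simp [hsrc, hG, (hbil0 i j hij).1, (hbil0 i j hij).2, polar_comm R (bK i) (E.s • bK j), (hbil0 j i hij.symm).2]
    have hdetM : ∀ j, j ≠ Fin.last d' → (M j).det = (w * b) ^ 2 := fun j hj => by
      obtain ⟨h1, h3⟩ := hgood j (hones j hj)
      simp only [M, Matrix.det_fin_two_of, h1, h3]
      linear_combination (-hw) - w ^ 2 * hab
    have hdetL : (M (Fin.last d')).det = ν * (w * b) ^ 2 := by
      simp only [M, Matrix.det_fin_two_of, hL1, hL2, xL, yL, ← hαn]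
      have hδ : E.δ = -(w * w) := by rw [← hw, neg_neg]
      have hw0' : -(w * w) ≠ 0 := neg_ne_zero.2 (mul_ne_zero hw0 hw0)
      rw [hδ]
      field_simp
      have hb2 : b ^ 2 = -1 - a ^ 2 := by linear_combination hab
      ring_nf
      simp only [hb2]
      ring
    let fam : Fin (d' + 1) ⊕ Fin (d' + 1) → V := Sum.elim u fun j => f.1 (u j)
    have hfo : ∀ i j, i ≠ j → polar R (fam i) (fam j) = 0 := by
      rintro (i | i) (j | j) h <;> simp only [fam, Sum.elim_inl, Sum.elim_inr]
      · rw [(hu i j).1, if_neg fun h' => h (congrArg _ h')]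
      · exact (hu i j).2
      · exact hfu' i j
      · rw [hfu, if_neg fun h' => h (congrArg _ h')]
    have hf1 : ∀ i, polar R (fam i) (fam i) = 1 := by
      rintro (i | i) <;> simp [fam, (hu i i).1, hfu]
    let bF := basisOfLinearIndependentOfCardEqFinrank
      (linearIndependent_of_orth hfo fun i => by rw [hf1]; exact one_ne_zero) (by simp [hd]; omega)
    have hbF : ∀ i, bF i = fam i := fun i => by simp [bF]
    have h := Forms25.isSquare_gram_det_change R.polarBilin bV bF
    rw [hmat, Matrix.det_blockDiagonal, det_toMatrix_orth bF (fun i j h => by rw [hbF, hbF]; exact hfo i j h),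
      show (∏ i, polar R (bF i) (bF i)) = 1 from Finset.prod_eq_one fun i _ => by rw [hbF, hf1], mul_one,
      Fin.prod_univ_castSucc, Finset.prod_congr rfl (g := fun _ => (w * b) ^ 2)
        (fun i _ => hdetM _ (Fin.castSucc_ne_last i)), Finset.prod_const, hdetL, mul_left_comm, ← pow_succ,
      ← pow_mul, mul_comm 2, pow_mul] at h
    refine hν (Forms25.isSquare_of_isSquare_mul (pow_ne_zero 2 (pow_ne_zero _ (mul_ne_zero hw0 hb0)))
      ⟨_, sq _⟩ (by rw [mul_comm]; exact h))
  have hc : ∀ j, polar R (bK j) (bK j) = 1 ∧ polar R (E.s • bK j) (bK j) = w * a := fun j => hgood j (by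
    by_cases hj : j = Fin.last d'
    · exact hj ▸ hlast
    · exact hones j hj)
  have htli : LinearIndependent F tgt := by
    rw [Fintype.linearIndependent_iff]
    intro c hcsum
    rw [Fintype.sum_prod_type, Fin.sum_univ_two] at hcsum
    simp only [tgt, Matrix.cons_val_zero, Matrix.cons_val_one] at hcsum
    have key : ∀ j, c (1, j) = 0 ∧ c (0, j) = 0 := fun j => by
      have h := congrArg (fun v => R.polarBilin (f.1 (u j)) v) hcsum
      have h' := congrArg (fun v => R.polarBilin (u j) v) hcsum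
      simp [map_sum, map_add, map_smul, QuadraticMap.polarBilin_apply_apply, hfu, hfu', (hu _ _).1, (hu _ _).2,
        hw0, hb0] at h h'
      exact ⟨h, by simpa [h] using h'⟩
    rintro ⟨k, j⟩
    fin_cases k
    exacts [(key j).2, (key j).1]
  let bT := basisOfLinearIndependentOfCardEqFinrank htli (by simp [hd])
  have hbT : ∀ p, bT p = tgt p := fun p => by simp [bT]
  obtain ⟨g₀, hg₀⟩ := exists_isometry (R := R) h2 bV bT (by
    rintro ⟨k₁, i⟩ ⟨k₂, j⟩
    rw [hbT, hbT]
    rcases eq_or_ne i j with rfl | hij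
    · fin_cases k₁ <;> fin_cases k₂ <;>
        simp [tgt, -QuadraticMap.polar_self, hsrc, hG, hc, polar_add_left, polar_add_right, polar_smul_left, polar_smul_right, hfu, hfu',
          (hu _ _).1, (hu _ _).2, polar_comm R (bK i) (E.s • bK i)]
      linear_combination (-hw) - w ^ 2 * hab
    · fin_cases k₁ <;> fin_cases k₂ <;>
        simp [tgt, hsrc, hG, hij, (hbil0 i j hij).1, (hbil0 i j hij).2, polar_add_left, polar_add_right,
          polar_smul_left, polar_smul_right, hfu, hfu', (hu _ _).1, (hu _ _).2,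
          polar_comm R (bK i) (E.s • bK j), (hbil0 j i hij.symm).2])
  -- the transported map
  set T : V →ₗ[F] V := g₀.1.toLinearMap ∘ₗ (LinearMap.lsmul K V E.s).restrictScalars F ∘ₗ g₀.1.symm.toLinearMap with hT
  have hTv : ∀ v, T v = g₀.1 (E.s • g₀.1.symm v) := fun v => rfl
  have hg0 : ∀ j, g₀.1 (bK j) = u j ∧ g₀.1 (E.s • bK j) = (w * a) • u j + (w * b) • f.1 (u j) := fun j => by
    constructor
    · have := hg₀ (0, j); rwa [(hsrc j).1, hbT] at this
    · have := hg₀ (1, j); rwa [(hsrc j).2, hbT] at this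
  have hTT : ∀ v, T (T v) = E.δ • v := fun v => by
    rw [hTv, hTv, LinearEquiv.symm_apply_apply, E.smul_smul_s, map_smul, LinearEquiv.apply_symm_apply]
  have hTu : ∀ j, T (u j) = (w * a) • u j + (w * b) • f.1 (u j) := fun j => by
    rw [hTv, ← (hg0 j).1, LinearEquiv.symm_apply_apply, (hg0 j).2, (hg0 j).1]
  have hTfu : ∀ j, T (f.1 (u j)) = (w * b) • u j - (w * a) • f.1 (u j) := fun j => by
    have h := hTT (u j)
    rw [hTu, map_add, map_smul, map_smul, hTu] at h
    have h' : (w * b) • T (f.1 (u j)) = (w * b) • ((w * b) • u j - (w * a) • f.1 (u j)) := by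
      rw [eq_sub_of_add_eq' h]
      have hδ : E.δ = -(w * w) := by rw [← hw, neg_neg]
      rw [hδ]
      match_scalars
      · linear_combination (-w ^ 2) * hab
      · ring
    exact smul_right_injective V (mul_ne_zero hw0 hb0) h'
  have hfT : ∀ v, f.1 (T v) = -T (f.1 v) := by
    suffices f.1.toLinearMap ∘ₗ T = -(T ∘ₗ f.1.toLinearMap) from fun v => LinearMap.congr_fun this v
    refine bT.ext ?_
    rintro ⟨k, j⟩
    rw [hbT]
    fin_cases k
    · show f.1 (T (u j)) = -T (f.1 (u j))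
      rw [hTu, hTfu, map_add, map_smul, map_smul, hff]
      module
    · show f.1 (T ((w * a) • u j + (w * b) • f.1 (u j))) = -T (f.1 ((w * a) • u j + (w * b) • f.1 (u j)))
      rw [map_add f.1, map_smul f.1, map_smul f.1, hff, map_add, map_smul, map_smul, map_add T, map_smul T, map_smul T,
        hTu, hTfu, map_neg, hTu]
      simp only [map_add, map_sub, map_smul, hff]
      module
  -- adjust
  obtain ⟨τ, hτ1, hτ2, hτs⟩ := exists_neg_on h2 hB hRQ (d' + 1) (fun j => f.1 (u j))
    (fun i j h => by rw [hfu, if_neg h]) (fun j h => by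
      have := polar_self_eq_two (R := R) (f.1 (u j))
      rw [hfu, if_pos rfl, h, mul_zero] at this
      exact one_ne_zero this)
  have hτu : ∀ j, τ.1 (u j) = u j := fun j => hτ2 _ fun i => hfu' i j
  let bF : Fin (d' + 1) ⊕ Fin (d' + 1) → V := Sum.elim u fun j => f.1 (u j)
  have hspan : ∀ v, v ∈ Submodule.span F (Set.range bF) := fun v => by
    have hv : v ∈ Submodule.span F (Set.range tgt) := by
      rw [htli.span_eq_top_of_card_eq_finrank (by simp [hd])]; trivial
    refine Submodule.span_le.2 ?_ hv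
    rintro _ ⟨⟨k, j⟩, rfl⟩
    fin_cases k
    · exact Submodule.subset_span ⟨Sum.inl j, rfl⟩
    · exact add_mem (Submodule.smul_mem _ _ (Submodule.subset_span ⟨Sum.inl j, rfl⟩))
        (Submodule.smul_mem _ _ (Submodule.subset_span ⟨Sum.inr j, rfl⟩))
  have hτf : ∀ v, τ.1 (f.1 v) = (-1 : F) • f.1 (τ.1 v) := fun v => by
    refine map_eq_on_span (T := τ.1.toLinearMap ∘ₗ f.1.toLinearMap) (T' := (-1 : F) • (f.1.toLinearMap ∘ₗ τ.1.toLinearMap))
      ?_ v (hspan v)
    rintro _ ⟨(j | j), rfl⟩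
    · show τ.1 (f.1 (u j)) = (-1 : F) • f.1 (τ.1 (u j))
      rw [hτ1, hτu, neg_one_smul]
    · show τ.1 (f.1 (f.1 (u j))) = (-1 : F) • f.1 (τ.1 (f.1 (u j)))
      rw [hff, map_neg, hτu, hτ1, map_neg, hff, neg_neg, neg_one_smul]
  set j₀ : Fin (d' + 1) := Fin.last d'
  obtain ⟨x, y, hxy⟩ := exists_sq_sub_mul_sq (c := (-1 : F)) hq (neg_ne_zero.2 one_ne_zero) ν
  set v₁ := u j₀
  set v₂ := x • u j₀ + y • f.1 (u j₀) with hv₂
  have hR1 : R v₁ = 2⁻¹ := by rw [eq_half_mul h2, (hu j₀ j₀).1, if_pos rfl, mul_one]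
  have hR2 : R v₂ = 2⁻¹ * ν := by
    rw [eq_half_mul h2]
    congr 1
    simp only [hv₂, polar_add_left, polar_add_right, polar_smul_left, polar_smul_right, smul_eq_mul, OQ_polar,
      (hu _ _).2, hfu', (hu _ _).1, if_true]
    linear_combination hxy
  have hR10 : R v₁ ≠ 0 := by rw [hR1]; exact inv_ne_zero h2
  have hR20 : R v₂ ≠ 0 := by rw [hR2]; exact mul_ne_zero (inv_ne_zero h2) hν0
  have hrot : ∀ v, (reflQ R v₁ hR10 * reflQ R v₂ hR20).1 (f.1 v) = f.1 ((reflQ R v₁ hR10 * reflQ R v₂ hR20).1 v) := by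
    intro v
    refine map_eq_on_span (T := (reflQ R v₁ hR10 * reflQ R v₂ hR20).1.toLinearMap ∘ₗ f.1.toLinearMap)
      (T' := f.1.toLinearMap ∘ₗ (reflQ R v₁ hR10 * reflQ R v₂ hR20).1.toLinearMap) ?_ v (hspan v)
    have hout : ∀ i, i ≠ j₀ → (reflQ R v₁ hR10 * reflQ R v₂ hR20).1 (u i) = u i ∧
        (reflQ R v₁ hR10 * reflQ R v₂ hR20).1 (f.1 (u i)) = f.1 (u i) := by
      intro i hi
      simp only [Subgroup.coe_mul, LinearEquiv.mul_apply]
      constructor
      · rw [reflQ_fix R hR20 (by simp [hv₂, polar_add_left, polar_smul_left, (hu _ _).1, hfu', hi.symm]),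
          reflQ_fix R hR10 (by simp [v₁, (hu _ _).1, hi.symm])]
      · rw [reflQ_fix R hR20 (by simp [hv₂, polar_add_left, polar_smul_left, (hu _ _).2, hfu, hi.symm]),
          reflQ_fix R hR10 (by simp [v₁, (hu _ _).2])]
    rintro _ ⟨(i | i), rfl⟩ <;> show (reflQ R v₁ hR10 * reflQ R v₂ hR20).1 (f.1 _) = f.1 ((reflQ R v₁ hR10 * reflQ R v₂ hR20).1 _) <;>
      rcases eq_or_ne i j₀ with rfl | hi
    · simp only [bF, Sum.elim_inl, Subgroup.coe_mul, LinearEquiv.mul_apply, reflQ_apply, map_sub, map_smul, map_add,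
        hv₂, v₁, hR1, hR2, eq_half_mul h2 (x • u j₀ + y • f.1 (u j₀)), polar_add_left, polar_add_right, polar_sub_right,
        polar_smul_left, polar_smul_right, polar_neg_right, smul_eq_mul, (hu _ _).1, (hu _ _).2, hfu, hfu', hff, if_true]
      have : x ^ 2 + y ^ 2 = ν := by linear_combination hxy
      have hne : (x * (x * 1) + x * (y * 0) + (y * (x * 0) + y * (y * 1))) ≠ 0 := by
        intro h0; exact hν0 (by linear_combination h0 - this)
      have hne2 : y ^ 2 + x ^ 2 ≠ 0 := by rw [add_comm, this]; exact hν0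
      have hne3 : x ^ 2 + y ^ 2 ≠ 0 := by rw [this]; exact hν0
      match_scalars <;> field_simp <;> first | ring1 | (ring_nf; field_simp; ring1)
    · rw [show bF (Sum.inl i) = u i from rfl, (hout i hi).2, (hout i hi).1]
    · simp only [bF, Sum.elim_inr, Subgroup.coe_mul, LinearEquiv.mul_apply, reflQ_apply, map_sub, map_smul, map_add,
        map_neg, hv₂, v₁, hR1, hR2, eq_half_mul h2 (x • u j₀ + y • f.1 (u j₀)), polar_add_left, polar_add_right,
        polar_sub_right, polar_smul_left, polar_smul_right, polar_neg_right, smul_eq_mul, (hu _ _).1, (hu _ _).2, hfu,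
        hfu', hff, if_true]
      have : x ^ 2 + y ^ 2 = ν := by linear_combination hxy
      have hne : (x * (x * 1) + x * (y * 0) + (y * (x * 0) + y * (y * 1))) ≠ 0 := by
        intro h0; exact hν0 (by linear_combination h0 - this)
      have hne2 : y ^ 2 + x ^ 2 ≠ 0 := by rw [add_comm, this]; exact hν0
      have hne3 : x ^ 2 + y ^ 2 ≠ 0 := by rw [this]; exact hν0
      match_scalars <;> field_simp <;> first | ring1 | (ring_nf; field_simp; ring1)
    · rw [show bF (Sum.inr i) = f.1 (u i) from rfl, (hout i hi).2, hff, map_neg, (hout i hi).1]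
  refine exists_commutator_conj (hB := hB) (hRQ := hRQ) h2 (by omega) (fun v => E.s • v) f.1 (fun v => smul_neg _ _)
    (g₀ := g₀) (h₁ := τ) (h₂ := reflQ R v₁ hR10 * reflQ R v₂ hR20) ⟨-1, Or.inr rfl, fun v => ?_⟩
    ⟨-1, Or.inr rfl, hτf⟩ hrot ?_ ?_
  · apply g₀.1.injective
    rw [LinearEquiv.apply_symm_apply, neg_one_smul, map_neg]
    have h := hfT (g₀.1 v)
    rw [hTv, hTv, LinearEquiv.symm_apply_apply] at h
    exact h
  · rw [hτs]; exact hdodd.neg_one_pow
  · have hiff : IsSquare ((2 : F)⁻¹ * ν) ↔ ¬ IsSquare ((2 : F)⁻¹) :=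
      ⟨fun h h' => hν (Forms25.isSquare_of_isSquare_mul (inv_ne_zero h2) h' h),
        fun h => Forms.isSquare_mul_of_not_isSquare h hν⟩
    rw [map_mul, sgnHom_refl h2 hB hRQ, sgnHom_refl h2 hB hRQ]
    by_cases hs : IsSquare ((2 : F)⁻¹)
    · rw [if_pos (by rwa [hR1]), if_neg (by rw [hR2]; exact fun h => hiff.1 h hs)]; rfl
    · rw [if_neg (by rwa [hR1]), if_pos (by rw [hR2]; exact hiff.2 hs)]; rfl

end field

end Cfsg.Agent.Elusive.OrthInvolField
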