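import Cfsg.Agent.Elusive.OrthInvolField
import Cfsg.Agent.Forms.FiniteQuadratic

/-!
Nondegenerate subspaces of quadratic spaces over finite fields of odd order: classification by dimension and
discriminant, transitivity of the orthogonal group, and members inside a prescribed invariant decomposition.
-/

set_option autoImplicit false
set_option linter.unusedSectionVars false

namespace Cfsg.Agent.Elusive.OrthSubspace

open Module QuadraticMap Cfsg.Agent.Classical Cfsg.Agent.Elusive

variable {F : Type*} [Field F] [Fintype F] {V : Type*} [AddCommGroup V] [Module F V] [FiniteDimensional F V] [Finite V] [Finite V]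
  {R : QuadraticForm F V}

theorem isSymm : LinearMap.BilinForm.IsSymm R.polarBilin := ⟨fun u v => polar_comm R u v⟩

theorem polar_restrict {W : Submodule F V} (x y : W) : polar (R.comp W.subtype) x y = polar R x y := by
  simp [polar, QuadraticMap.comp_apply]

theorem bNondeg_restrict {W : Submodule F V} (hW : NonDegOn R.polarBilin W) : BNondeg (R.comp W.subtype) :=
  fun x hx => Subtype.ext (hW x x.2 fun y hy => by
    rw [polarBilin_apply_apply, ← polar_restrict x ⟨y, hy⟩]; exact hx ⟨y, hy⟩)

/-- Orthogonal families with nonzero values. -/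
theorem exists_orth_family (h2 : (2 : F) ≠ 0) {S : Submodule F V} (hS : NonDegOn R.polarBilin S) :
    ∃ e : Fin (finrank F S) → V, (∀ i, e i ∈ S) ∧ (∀ i j, i ≠ j → polar R (e i) (e j) = 0) ∧
      ∀ i, polar R (e i) (e i) ≠ 0 := by
  rcases h : finrank F S with _ | n
  · exact ⟨fun i => i.elim0, fun i => i.elim0, fun i => i.elim0, fun i => i.elim0⟩
  · obtain ⟨α, hα⟩ := Forms25.exists_not_isSquare (F := F) h2
    obtain ⟨e, he, ho, h1, h2'⟩ := OrthInvolField.exists_normal_family h2 hS h hα
    refine ⟨e, he, ho, fun i => ?_⟩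
    by_cases hi : i = Fin.last n
    · subst hi
      rcases h2' with h | h <;> rw [h]
      · exact one_ne_zero
      · exact fun h0 => hα (h0 ▸ IsSquare.zero)
    · rw [h1 i hi]; exact one_ne_zero

/-- The basis of a subspace given by an orthogonal family. -/
theorem exists_basis_of_family {ι : Type*} [Fintype ι] {W : Submodule F V} {e : ι → V} (he : ∀ i, e i ∈ W)
    (ho : ∀ i j, i ≠ j → polar R (e i) (e j) = 0) (h0 : ∀ i, polar R (e i) (e i) ≠ 0)
    (hc : Fintype.card ι = finrank F W) :
    ∃ b : Basis ι F W, ∀ i, (b i : V) = e i := by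
  classical
  have hli : LinearIndependent F (fun i => (⟨e i, he i⟩ : W)) :=
    LinearIndependent.of_comp W.subtype (OrthInvolField.linearIndependent_of_orth ho h0)
  rcases isEmpty_or_nonempty ι with hι | hι
  · have : finrank F W = 0 := by rw [← hc, Fintype.card_eq_zero]
    have : Subsingleton W := Module.finrank_zero_iff.1 this
    exact ⟨Basis.empty W, fun i => hι.elim i⟩
  · exact ⟨basisOfLinearIndependentOfCardEqFinrank hli hc, fun i => by simp⟩

/-- Orthogonal families of the same subspace have discriminants differing by a square. -/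
theorem isSquare_prod_family {ι ι' : Type*} [Fintype ι] [Fintype ι'] {W : Submodule F V}
    {e : ι → V} {e' : ι' → V} (he : ∀ i, e i ∈ W) (he' : ∀ i, e' i ∈ W)
    (ho : ∀ i j, i ≠ j → polar R (e i) (e j) = 0) (ho' : ∀ i j, i ≠ j → polar R (e' i) (e' j) = 0)
    (h0 : ∀ i, polar R (e i) (e i) ≠ 0) (h0' : ∀ i, polar R (e' i) (e' i) ≠ 0)
    (hc : Fintype.card ι = finrank F W) (hc' : Fintype.card ι' = finrank F W) :
    IsSquare ((∏ i, polar R (e i) (e i)) * ∏ i, polar R (e' i) (e' i)) := by
  classical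
  obtain ⟨b, hb⟩ := exists_basis_of_family he ho h0 hc
  obtain ⟨b', hb'⟩ := exists_basis_of_family he' ho' h0' hc'
  have h := OrthInvolField.isSquare_prod_mul (R := R.comp W.subtype) b b'
    (fun i j hij => by rw [polar_restrict, hb, hb]; exact ho i j hij)
    (fun i j hij => by rw [polar_restrict, hb', hb']; exact ho' i j hij)
  simpa only [polar_restrict, hb, hb'] using h

/-- Nondegenerate subspaces with the same dimension and discriminant class are isometric. -/
theorem exists_iso_of_disc (h2 : (2 : F) ≠ 0) {ι ι' : Type*} [Fintype ι] [Fintype ι'] {W W' : Submodule F V}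
    (hW : NonDegOn R.polarBilin W) (hW' : NonDegOn R.polarBilin W')
    {e : ι → V} {e' : ι' → V} (he : ∀ i, e i ∈ W) (he' : ∀ i, e' i ∈ W')
    (ho : ∀ i j, i ≠ j → polar R (e i) (e j) = 0) (ho' : ∀ i j, i ≠ j → polar R (e' i) (e' j) = 0)
    (h0 : ∀ i, polar R (e i) (e i) ≠ 0) (h0' : ∀ i, polar R (e' i) (e' i) ≠ 0)
    (hc : Fintype.card ι = finrank F W) (hc' : Fintype.card ι' = finrank F W') (hd : finrank F W = finrank F W')
    (hdisc : IsSquare ((∏ i, polar R (e i) (e i)) * ∏ i, polar R (e' i) (e' i))) :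
    ∃ T : W ≃ₗ[F] W', ∀ w : W, R (T w : V) = R (w : V) := by
  rcases hn : finrank F W with _ | n
  · have hn' : finrank F W' = 0 := hd ▸ hn
    have : Subsingleton W := Module.finrank_zero_iff.1 hn
    have : Subsingleton W' := Module.finrank_zero_iff.1 hn'
    refine ⟨LinearEquiv.ofFinrankEq _ _ hd, fun w => ?_⟩
    rw [Subsingleton.elim w 0, map_zero]
    simp
  obtain ⟨α, hα⟩ := Forms25.exists_not_isSquare (F := F) h2
  have hα0 : α ≠ 0 := fun h => hα (h ▸ IsSquare.zero)
  obtain ⟨u, hu, huo, hu1, hu2⟩ := OrthInvolField.exists_normal_family h2 hW hn hα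
  obtain ⟨u', hu', huo', hu1', hu2'⟩ := OrthInvolField.exists_normal_family h2 hW' (hd ▸ hn) hα
  have hval : ∀ (w : Fin (n + 1) → V), (∀ i, i ≠ Fin.last n → polar R (w i) (w i) = 1) →
      (polar R (w (Fin.last n)) (w (Fin.last n)) = 1 ∨ polar R (w (Fin.last n)) (w (Fin.last n)) = α) →
      ∀ i, polar R (w i) (w i) ≠ 0 := fun w h1 h3 i => by
    by_cases hi : i = Fin.last n
    · subst hi; rcases h3 with h | h <;> rw [h]
      · exact one_ne_zero
      · exact hα0
    · rw [h1 i hi]; exact one_ne_zero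
  have s1 := isSquare_prod_family hu he huo ho (hval u hu1 hu2) h0 (by rw [hn, Fintype.card_fin]) hc
  have s2 := isSquare_prod_family he' hu' ho' huo' h0' (hval u' hu1' hu2') hc' (by rw [← hd, hn, Fintype.card_fin])
  rw [OrthInvolField.prod_normal n (fun i => polar R (u i) (u i)) hu1] at s1
  rw [OrthInvolField.prod_normal n (fun i => polar R (u' i) (u' i)) hu1'] at s2
  set P := ∏ i, polar R (e i) (e i)
  set P' := ∏ i, polar R (e' i) (e' i)
  have hP : P * P' ≠ 0 := mul_ne_zero (Finset.prod_ne_zero_iff.2 fun i _ => h0 i)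
    (Finset.prod_ne_zero_iff.2 fun i _ => h0' i)
  have key : IsSquare (polar R (u (Fin.last n)) (u (Fin.last n)) * polar R (u' (Fin.last n)) (u' (Fin.last n))) := by
    refine Forms25.isSquare_of_isSquare_mul hP hdisc ?_
    have := s1.mul s2
    rw [mul_mul_mul_comm] at this
    simpa only [mul_comm, mul_left_comm, mul_assoc] using this
  have hlast : polar R (u (Fin.last n)) (u (Fin.last n)) = polar R (u' (Fin.last n)) (u' (Fin.last n)) := by
    rcases hu2 with h | h <;> rcases hu2' with h' | h' <;> rw [h, h'] at key ⊢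
    · exact absurd (by simpa using key) hα
    · exact absurd (by simpa using key) hα
  obtain ⟨b, hb⟩ := exists_basis_of_family hu huo (hval u hu1 hu2) (by rw [hn, Fintype.card_fin])
  obtain ⟨b', hb'⟩ := exists_basis_of_family hu' huo' (hval u' hu1' hu2') (by rw [← hd, hn, Fintype.card_fin])
  let T := b.equiv b' (Equiv.refl _)
  refine ⟨T, fun w => mul_left_cancel₀ h2 ?_⟩
  have hcmp : (R.comp W'.subtype).polarBilin.compl₁₂ T.toLinearMap T.toLinearMap = (R.comp W.subtype).polarBilin :=
    LinearMap.BilinForm.ext_basis b fun i j => by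
      rw [LinearMap.compl₁₂_apply, LinearEquiv.coe_coe, polarBilin_apply_apply, polarBilin_apply_apply,
        polar_restrict, polar_restrict, Basis.equiv_apply, Basis.equiv_apply, hb, hb, hb', hb']
      rcases eq_or_ne i j with rfl | hij
      · by_cases hi : i = Fin.last n
        · subst hi; exact hlast.symm
        · rw [Equiv.refl_apply, hu1 i hi, hu1' i hi]
      · rw [Equiv.refl_apply, Equiv.refl_apply, huo i j hij, huo' i j hij]
  rw [← OrthInvolField.polar_self_eq_two, ← OrthInvolField.polar_self_eq_two]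
  have := LinearMap.congr_fun (LinearMap.congr_fun hcmp w) w
  simpa [polar_restrict, -QuadraticMap.polar_self] using this

/-- A member of any class inside `C ⊔ M`, with a proper nonzero part in `C`. -/
theorem exists_member (h2 : (2 : F) ≠ 0) {C M W₀ : Submodule F V}
    (hC : NonDegOn R.polarBilin C) (hM : NonDegOn R.polarBilin M) (ho : ∀ x ∈ C, ∀ y ∈ M, polar R x y = 0)
    (hW₀ : NonDegOn R.polarBilin W₀) {e : ℕ} (he0 : 0 < e) (he : e < finrank F C)
    (hd : finrank F W₀ = e + finrank F M) :
    ∃ C' ≤ C, finrank F ↥(C' ⊔ M) = finrank F W₀ ∧ NonDegOn R.polarBilin (C' ⊔ M) ∧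
      ∃ T : ↥(C' ⊔ M) ≃ₗ[F] W₀, ∀ w : ↥(C' ⊔ M), R (T w : V) = R (w : V) := by
  classical
  obtain ⟨n, rfl⟩ : ∃ n, e = n + 1 := ⟨e - 1, by omega⟩
  obtain ⟨N, hN⟩ : ∃ N, finrank F C = N + 1 := ⟨finrank F C - 1, by omega⟩
  obtain ⟨α, hα⟩ := Forms25.exists_not_isSquare (F := F) h2
  obtain ⟨u, hu, huo, hu1, hu2⟩ := OrthInvolField.exists_normal_family h2 hC hN hα
  obtain ⟨w, hw, hwo, hw0⟩ := exists_orth_family h2 hM
  obtain ⟨z, hz, hzo, hz0⟩ := exists_orth_family h2 hW₀
  set β := ∏ i, polar R (w i) (w i)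
  set δ := ∏ i, polar R (z i) (z i)
  have hβδ : β * δ ≠ 0 := mul_ne_zero (Finset.prod_ne_zero_iff.2 fun i _ => hw0 i)
    (Finset.prod_ne_zero_iff.2 fun i _ => hz0 i)
  have hu0 : ∀ i, polar R (u i) (u i) ≠ 0 := fun i => by
    by_cases hi : i = Fin.last N
    · subst hi; rcases hu2 with h | h <;> rw [h]
      · exact one_ne_zero
      · exact fun h0 => hα (h0 ▸ IsSquare.zero)
    · rw [hu1 i hi]; exact one_ne_zero
  let i₀ : Fin (N + 1) := ⟨n, by omega⟩
  let pr : Fin 2 → V := ![u i₀, u (Fin.last N)]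
  have hne : i₀ ≠ Fin.last N := fun h => by
    have := congrArg Fin.val h
    simp only [i₀, Fin.val_last] at this
    omega
  have hpro : ∀ i j, i ≠ j → polar R (pr i) (pr j) = 0 := by
    intro i j hij
    fin_cases i <;> fin_cases j <;> first | exact absurd rfl hij | skip
    · exact huo _ _ hne
    · exact huo _ _ hne.symm
  have hpr0 : ∀ i, polar R (pr i) (pr i) ≠ 0 := by intro i; fin_cases i <;> exact hu0 _
  obtain ⟨v, hv, hvR⟩ := OrthInvolField.exists_value_on h2 (OrthInvolField.nonDegOn_span hpro hpr0)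
    (by rw [finrank_span_eq_card (OrthInvolField.linearIndependent_of_orth hpro hpr0)]; simp)
    ((2 : F)⁻¹ * (β * δ))
  have hvv : polar R v v = β * δ := by
    rw [OrthInvolField.polar_self_eq_two, hvR, mul_inv_cancel_left₀ h2]
  have hvC : v ∈ C := (Submodule.span_le.2 (by rintro _ ⟨i, rfl⟩; fin_cases i <;> exact hu _) :
    Submodule.span F (Set.range pr) ≤ C) hv
  have hvu : ∀ i : Fin n, polar R (u ⟨i, by omega⟩) v = 0 := fun i => by
    have h1 : ∀ x ∈ Submodule.span F (Set.range pr), polar R (u ⟨i, by omega⟩) x = 0 := by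
      intro x hx
      induction hx using Submodule.span_induction with
      | mem x hx =>
        obtain ⟨j, rfl⟩ := hx
        fin_cases j <;> refine huo _ _ fun h => ?_ <;> have := congrArg Fin.val h <;>
          simp [i₀] at this <;> omega
      | zero => simp [polar]
      | add x y _ _ hx hy => rw [polar_add_right, hx, hy, add_zero]
      | smul c x _ hx => rw [polar_smul_right, hx, smul_zero]
    exact h1 v hv
  let fc : Fin n ⊕ Unit → V := Sum.elim (fun i => u ⟨i, by omega⟩) fun _ => v
  have hfco : ∀ i j, i ≠ j → polar R (fc i) (fc j) = 0 := by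
    rintro (i | i) (j | j) h
    · exact huo _ _ fun h' => h (congrArg Sum.inl (Fin.ext (congrArg Fin.val h' :)))
    · exact hvu i
    · show polar R v _ = 0
      rw [polar_comm]; exact hvu j
    · exact absurd rfl h
  have hfcv : ∏ i, polar R (fc i) (fc i) = β * δ := by
    rw [Fintype.prod_sum_type, Finset.prod_eq_one (fun i _ => ?_), one_mul]
    · simpa [fc, -QuadraticMap.polar_self] using hvv
    · exact hu1 _ fun h => by
        have := congrArg Fin.val h
        simp [Fin.val_last] at this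
        omega
  have hfc0 : ∀ i, polar R (fc i) (fc i) ≠ 0 := by
    rintro (i | i)
    · exact hu0 _
    · show polar R v v ≠ 0
      rw [hvv]; exact hβδ
  have hfcC : ∀ i, fc i ∈ C := by
    rintro (i | i)
    exacts [hu _, hvC]
  set C' := Submodule.span F (Set.range fc)
  have hC'C : C' ≤ C := Submodule.span_le.2 (Set.range_subset_iff.2 hfcC)
  have hC'N : NonDegOn R.polarBilin C' := OrthInvolField.nonDegOn_span hfco hfc0
  have hC'd : finrank F C' = n + 1 := by
    rw [finrank_span_eq_card (OrthInvolField.linearIndependent_of_orth hfco hfc0)]; simp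
  have hdis : Disjoint C' M := Submodule.disjoint_def.2 fun x hx hx' =>
    hM x hx' fun y hy => ho x (hC'C hx) y hy
  have hWd : finrank F ↥(C' ⊔ M) = finrank F W₀ := by
    have := Submodule.finrank_sup_add_finrank_inf_eq C' M
    rw [hdis.eq_bot, finrank_bot, add_zero, hC'd] at this
    omega
  have hWN : NonDegOn R.polarBilin (C' ⊔ M) := Orth.nonDegOn_sup isSymm hC'N hM fun x hx y hy => ho x (hC'C hx) y hy
  refine ⟨C', hC'C, hWd, hWN, ?_⟩
  let fw : (Fin n ⊕ Unit) ⊕ Fin (finrank F M) → V := Sum.elim fc w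
  refine exists_iso_of_disc h2 hWN hW₀ (e := fw) (e' := z) ?_ hz ?_ hzo ?_ hz0 ?_ (by simp) hWd ?_
  · rintro (i | i)
    · exact Submodule.mem_sup_left (Submodule.subset_span ⟨i, rfl⟩)
    · exact Submodule.mem_sup_right (hw i)
  · rintro (i | i) (j | j) h
    · exact hfco i j fun h' => h (congrArg Sum.inl h')
    · exact ho _ (hfcC i) _ (hw j)
    · show polar R (w i) (fc j) = 0
      rw [polar_comm]; exact ho _ (hfcC j) _ (hw i)
    · exact hwo i j fun h' => h (congrArg Sum.inr h')
  · rintro (i | i)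
    exacts [hfc0 i, hw0 i]
  · rw [hWd, hd]; simp
  · rw [Fintype.prod_sum_type (fun i => polar R (fw i) (fw i))]
    simp only [fw, Sum.elim_inl, Sum.elim_inr, hfcv]
    exact ⟨β * δ, by ring⟩

/-- Isometric nondegenerate subspaces are conjugate. -/
theorem exists_isometry_map (h2 : (2 : F) ≠ 0) (hB : BNondeg R) {W W' : Submodule F V}
    (hW : NonDegOn R.polarBilin W) (hW' : NonDegOn R.polarBilin W')
    (T : W ≃ₗ[F] W') (hT : ∀ w : W, R (T w : V) = R (w : V)) :
    ∃ g : OQ R, W.map g.1.toLinearMap = W' := by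
  classical
  have hc := LinearMap.BilinForm.isCompl_orthogonal_of_restrict_nondegenerate
    (fun _ _ h => Orth.symm_zero isSymm h) (Orth.nonDegOn_restrict (B := R.polarBilin) isSymm hW).2
  have hc' := LinearMap.BilinForm.isCompl_orthogonal_of_restrict_nondegenerate
    (fun _ _ h => Orth.symm_zero isSymm h) (Orth.nonDegOn_restrict (B := R.polarBilin) isSymm hW').2
  set P := LinearMap.BilinForm.orthogonal R.polarBilin W
  set P' := LinearMap.BilinForm.orthogonal R.polarBilin W'
  have hsplit : ∀ {X Y : Submodule F V}, IsCompl X Y → (∀ x ∈ X, ∀ y ∈ Y, polar R x y = 0) →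
      NonDegOn R.polarBilin Y := fun {X Y} h ho y hy hy0 => hB y fun v => by
    obtain ⟨x, hx, y', hy', rfl⟩ := Submodule.mem_sup.1 (h.sup_eq_top ▸ Submodule.mem_top : v ∈ X ⊔ Y)
    rw [polar_add_right, polar_comm R y x, ho x hx y hy, zero_add]
    exact hy0 y' hy'
  have ho : ∀ x ∈ W, ∀ y ∈ P, polar R x y = 0 := fun x hx y hy => hy x hx
  have ho' : ∀ x ∈ W', ∀ y ∈ P', polar R x y = 0 := fun x hx y hy => hy x hx
  have hP : NonDegOn R.polarBilin P := hsplit hc ho
  have hP' : NonDegOn R.polarBilin P' := hsplit hc' ho'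
  obtain ⟨e, he, heo, he0⟩ := exists_orth_family h2 hW
  obtain ⟨p, hp, hpo, hp0⟩ := exists_orth_family h2 hP
  obtain ⟨p', hp', hpo', hp0'⟩ := exists_orth_family h2 hP'
  have hTp : ∀ x y : W, polar R (T x : V) (T y : V) = polar R (x : V) (y : V) := fun x y => by
    simp only [polar, ← Submodule.coe_add, ← map_add, hT]
  let e' : Fin (finrank F W) → V := fun i => (T ⟨e i, he i⟩ : V)
  have hd : finrank F W = finrank F W' := T.finrank_eq
  have hPd : finrank F P = finrank F P' := by
    have h1 := Submodule.finrank_add_eq_of_isCompl hc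
    have h3 := Submodule.finrank_add_eq_of_isCompl hc'
    omega
  have hinj : ∀ {X Y : Submodule F V} {a b : ℕ} (f : Fin a → V) (g : Fin b → V), (∀ i, f i ∈ X) → (∀ i, g i ∈ Y) →
      (∀ i j, i ≠ j → polar R (f i) (f j) = 0) → (∀ i j, i ≠ j → polar R (g i) (g j) = 0) →
      (∀ x ∈ X, ∀ y ∈ Y, polar R x y = 0) →
      ∀ i j, i ≠ j → polar R (Sum.elim f g i) (Sum.elim f g j) = 0 := by
    intro X Y a b f g hf hg hfo hgo hxy
    rintro (i | i) (j | j) h
    · exact hfo i j fun h' => h (congrArg Sum.inl h')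
    · exact hxy _ (hf i) _ (hg j)
    · show polar R (g i) (f j) = 0
      rw [polar_comm]; exact hxy _ (hf j) _ (hg i)
    · exact hgo i j fun h' => h (congrArg Sum.inr h')
  have he'o : ∀ i j, i ≠ j → polar R (e' i) (e' j) = 0 := fun i j h => by rw [hTp]; exact heo i j h
  have he'0 : ∀ i, polar R (e' i) (e' i) ≠ 0 := fun i => by rw [hTp]; exact he0 i
  have hall := isSquare_prod_family (R := R) (W := (⊤ : Submodule F V))
    (e := Sum.elim e p) (e' := Sum.elim e' p') (fun _ => trivial) (fun _ => trivial)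
    (hinj e p he hp heo hpo ho) (hinj e' p' (fun i => (T _).2) hp' he'o hpo' ho')
    (by rintro (i | i); exacts [he0 i, hp0 i]) (by rintro (i | i); exacts [he'0 i, hp0' i])
    (by rw [finrank_top, Fintype.card_sum, Fintype.card_fin, Fintype.card_fin,
      Submodule.finrank_add_eq_of_isCompl hc])
    (by rw [finrank_top, Fintype.card_sum, Fintype.card_fin, Fintype.card_fin, hd,
      Submodule.finrank_add_eq_of_isCompl hc'])
  simp only [Fintype.prod_sum_type, Sum.elim_inl, Sum.elim_inr, e', hTp] at hall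
  set E := ∏ i, polar R (e i) (e i)
  have hE : E ≠ 0 := Finset.prod_ne_zero_iff.2 fun i _ => he0 i
  obtain ⟨U, hU⟩ := exists_iso_of_disc h2 hP hP' hp hp' hpo hpo' hp0 hp0' (by simp) (by simp) hPd
    (Forms25.isSquare_of_isSquare_mul (mul_ne_zero hE hE) ⟨E, rfl⟩ (by convert hall using 1; ring))
  let g := (Submodule.prodEquivOfIsCompl W P hc).symm ≪≫ₗ (T.prodCongr U) ≪≫ₗ
    Submodule.prodEquivOfIsCompl W' P' hc'
  have hg : ∀ (x : W) (y : P), g ((x : V) + (y : V)) = (T x : V) + (U y : V) := fun x y => by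
    simp only [g, LinearEquiv.trans_apply]
    rw [show (x : V) + (y : V) = Submodule.prodEquivOfIsCompl W P hc (x, y) by simp, LinearEquiv.symm_apply_apply]
    simp
  refine ⟨⟨g, fun v => ?_⟩, ?_⟩
  · obtain ⟨x, hx, y, hy, rfl⟩ := Submodule.mem_sup.1 (hc.sup_eq_top ▸ Submodule.mem_top : v ∈ W ⊔ P)
    rw [hg ⟨x, hx⟩ ⟨y, hy⟩, QuadraticMap.map_add R, QuadraticMap.map_add R x y, hT, hU, ho x hx y hy,
      ho' _ (T _).2 _ (U _).2]
  · refine Submodule.eq_of_le_of_finrank_eq ?_ ((LinearEquiv.finrank_map_eq g W).trans hd)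
    rintro _ ⟨x, hx, rfl⟩
    show g x ∈ W'
    have := hg ⟨x, hx⟩ 0
    simp only [ZeroMemClass.coe_zero, add_zero, map_zero] at this
    rw [this]; exact (T _).2

end Cfsg.Agent.Elusive.OrthSubspace
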