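import Cfsg.Agent.Elusive.OrthElliptic
import Cfsg.Agent.Elusive.OrthSubspace
import Cfsg.Agent.Elusive.OrthInvolField

/-!
Elliptic subspaces fixed by isometries of order two modulo scalars, in odd characteristic.
-/

set_option autoImplicit false
set_option linter.unusedSectionVars false

namespace Cfsg.Agent.Elusive.OrthElliptic

open Module QuadraticMap Cfsg.Agent.Classical Cfsg.Agent.Forms Cfsg.Agent.Elusive
open Cfsg.Geo (IsPlusTypeOn IsNondegenerateOn)

variable {F : Type*} [Field F] [Fintype F] {ι : Type} [Fintype ι] [DecidableEq ι] {R : QuadraticForm F (ι → F)}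

/-- Isometric subspaces have the same type. -/
theorem plus_of_iso {W W' : Submodule F (ι → F)} (T : W ≃ₗ[F] W') (hT : ∀ w : W, R (T w : ι → F) = R (w : ι → F))
    (h : IsPlusTypeOn ⇑R W) : IsPlusTypeOn ⇑R W' := by
  obtain ⟨U, hUW, hts, hUd⟩ := h
  refine ⟨(U.comap W.subtype).map (W'.subtype ∘ₗ T.toLinearMap), ?_, ?_, ?_⟩
  · rintro _ ⟨u, -, rfl⟩; exact (T u).2
  · rintro _ ⟨u, hu, rfl⟩
    exact (hT u).trans (hts _ hu)
  · rw [(Submodule.equivMapOfInjective (W'.subtype ∘ₗ T.toLinearMap) (W'.subtype_injective.comp T.injective)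
        (U.comap W.subtype)).finrank_eq.symm, (Submodule.comapSubtypeEquivOfLe hUW).finrank_eq, hUd, T.finrank_eq]

theorem skew {f : OQ R} (hff : ∀ v, f.1 (f.1 v) = -v) (u v : ι → F) : polar R (f.1 u) v = -polar R u (f.1 v) := by
  conv_lhs => rw [← OQ_polar f, hff]
  rw [polar_neg_left]

/-- When `-1` is a square, invariant subspaces of square roots of `-1` are hyperbolic. -/
theorem plus_of_sq_neg_one (h2 : (2 : F) ≠ 0) (hι : IsSquare (-1 : F)) {f : OQ R} (hff : ∀ v, f.1 (f.1 v) = -v)
    {W : Submodule F (ι → F)} (hW : ∀ v ∈ W, f.1 v ∈ W) (hN : NonDegOn R.polarBilin W) (he : Even (finrank F W)) :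
    IsPlusTypeOn ⇑R W := by
  obtain ⟨ι₀, hι⟩ := hι
  have hι0 : ι₀ ≠ 0 := fun h => by rw [h, mul_zero, neg_eq_zero] at hι; exact one_ne_zero hι
  set g : Module.End F (ι → F) := f.1.toLinearMap
  have hR0 : ∀ a : F, a * a = -1 → ∀ v ∈ W ⊓ LinearMap.ker (g - a • 1), R v = 0 := fun a ha v hv => by
    have hv' := hv.2
    rw [SetLike.mem_coe, LinearMap.mem_ker, LinearMap.sub_apply, LinearMap.smul_apply, Module.End.one_apply,
      sub_eq_zero] at hv'
    have h : R (a • v) = R v := by rw [← hv']; exact f.2 v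
    rw [QuadraticMap.map_smul, ha, smul_eq_mul, neg_one_mul, neg_eq_iff_add_eq_zero, ← two_mul] at h
    exact (mul_eq_zero.1 h).resolve_left h2
  have hTS : ∀ a : F, a * a = -1 → IsoOn R.polarBilin (W ⊓ LinearMap.ker (g - a • 1)) := fun a ha x hx y hy => by
    rw [polarBilin_apply_apply, polar, hR0 a ha _ (add_mem hx hy), hR0 a ha x hx, hR0 a ha y hy, sub_zero, sub_zero]
  have hneg : -ι₀ * -ι₀ = -1 := by rw [neg_mul_neg, ← hι]
  have h1 := two_mul_finrank_le inf_le_left hN (hTS ι₀ hι.symm)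
  have h3 := two_mul_finrank_le inf_le_left hN (hTS (-ι₀) hneg)
  have hle : W ≤ (W ⊓ LinearMap.ker (g - ι₀ • 1)) ⊔ (W ⊓ LinearMap.ker (g - (-ι₀) • 1)) := by
    intro v hv
    have h2ι : (2 : F) * ι₀ ≠ 0 := mul_ne_zero h2 hι0
    refine Submodule.mem_sup.2 ⟨(2 * ι₀)⁻¹ • (ι₀ • v + f.1 v), ⟨W.smul_mem _ (add_mem (W.smul_mem _ hv) (hW v hv)), ?_⟩,
      (2 * ι₀)⁻¹ • (ι₀ • v - f.1 v), ⟨W.smul_mem _ (sub_mem (W.smul_mem _ hv) (hW v hv)), ?_⟩, ?_⟩
    · simp only [g, SetLike.mem_coe, LinearMap.mem_ker, LinearMap.sub_apply, LinearMap.smul_apply,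
        Module.End.one_apply, LinearEquiv.coe_coe, map_smul, map_add, hff]
      match_scalars <;> field_simp
      all_goals first | ring1 | linear_combination hι | linear_combination -hι
    · simp only [g, SetLike.mem_coe, LinearMap.mem_ker, LinearMap.sub_apply, LinearMap.smul_apply,
        Module.End.one_apply, LinearEquiv.coe_coe, map_smul, map_sub, hff]
      match_scalars <;> field_simp
      all_goals first | ring1 | linear_combination hι | linear_combination -hι
    · match_scalars <;> field_simp <;> ring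
  have h4 := (Submodule.finrank_mono hle).trans (Submodule.finrank_add_le_finrank_add_finrank _ _)
  exact OrthMax.plus_of_ts inf_le_left (hR0 ι₀ hι.symm) he (by omega)

/-- When `-1` is not a square, the type of an invariant subspace of a square root of `-1`. -/
theorem plus_iff_of_sq_neg_one (h2 : (2 : F) ≠ 0) (hq : Fintype.card F % 2 = 1) (hns : ¬ IsSquare (-1 : F))
    (hB : BNondeg R) {f : OQ R} (hff : ∀ v, f.1 (f.1 v) = -v) :
    ∀ (k : ℕ) (W : Submodule F (ι → F)), (∀ v ∈ W, f.1 v ∈ W) → NonDegOn R.polarBilin W → finrank F W = 2 * k →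
      (IsPlusTypeOn ⇑R W ↔ Even k) := by
  intro k
  induction k with
  | zero => exact fun W _ _ hd => iff_of_true (OrthTypes.plus_of_finrank_zero hd) Even.zero
  | succ k ih =>
    intro W hW hN hd
    obtain ⟨u, hu, huv⟩ := OrthInvolField.exists_skew_planes_symm h2 hq hff 1 W hW hN (by omega)
    obtain ⟨hvv, hvfv⟩ := huv 0 0
    rw [if_pos rfl] at hvv
    have hvW := hu 0
    generalize u 0 = v at hvv hvfv hvW
    have hfvfv : polar R (f.1 v) (f.1 v) = 1 := by rw [OQ_polar]; exact hvv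
    have hfvv : polar R (f.1 v) v = 0 := by rw [polar_comm]; exact hvfv
    let fam : Fin 2 → (ι → F) := ![v, f.1 v]
    have hfo : ∀ a b, a ≠ b → polar R (fam a) (fam b) = 0 := by
      intro a b h
      fin_cases a <;> fin_cases b <;> first | exact absurd rfl h | exact hvfv | exact hfvv
    have hf0 : ∀ a, polar R (fam a) (fam a) ≠ 0 := by
      intro a
      fin_cases a
      · exact hvv.trans_ne one_ne_zero
      · exact hfvfv.trans_ne one_ne_zero
    set P := Submodule.span F (Set.range fam)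
    have hPW : P ≤ W := Submodule.span_le.2 (by
      rintro _ ⟨a, rfl⟩
      fin_cases a
      exacts [hvW, hW _ hvW])
    have hPd : finrank F P = 2 := by
      rw [finrank_span_eq_card (OrthInvolField.linearIndependent_of_orth hfo hf0), Fintype.card_fin]
    have hPN : NonDegOn R.polarBilin P := OrthInvolField.nonDegOn_span hfo hf0
    have hmem : ∀ x ∈ P, ∃ a b : F, x = a • v + b • f.1 v := fun x hx => by
      rw [show P = Submodule.span F {v, f.1 v} by
        rw [show ({v, f.1 v} : Set (ι → F)) = Set.range fam from (Matrix.range_cons_cons_empty v _ _).symm]] at hx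
      obtain ⟨a, b, h⟩ := Submodule.mem_span_pair.1 hx
      exact ⟨a, b, h.symm⟩
    have hPinv : ∀ x ∈ P, f.1 x ∈ P := fun x hx => by
      obtain ⟨a, b, rfl⟩ := hmem x hx
      rw [map_add, map_smul, map_smul, hff]
      exact add_mem (P.smul_mem a (Submodule.subset_span ⟨1, rfl⟩))
        (P.smul_mem b (neg_mem (Submodule.subset_span ⟨0, rfl⟩)))
    -- the plane is elliptic
    have hPm : ¬ IsPlusTypeOn ⇑R P := by
      rintro ⟨U, hUP, hts, hUd⟩
      rw [hPd] at hUd
      obtain ⟨x, hxU, hx0⟩ := Submodule.exists_mem_ne_zero_of_ne_bot (p := U) fun h => by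
        rw [h, finrank_bot] at hUd; omega
      obtain ⟨a, b, rfl⟩ := hmem x (hUP hxU)
      have h0 : polar R (a • v + b • f.1 v) (a • v + b • f.1 v) = 0 := by
        rw [OrthInvolField.polar_self_eq_two, show R (a • v + b • f.1 v) = 0 from hts _ hxU, mul_zero]
      simp only [polar_add_left, polar_add_right, polar_smul_left, polar_smul_right, smul_eq_mul, hvv, hvfv, hfvv,
        hfvfv, mul_zero, mul_one, add_zero, zero_add] at h0
      by_cases hb : b = 0
      · rw [hb, mul_zero, add_zero, mul_self_eq_zero] at h0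
        exact hx0 (by rw [h0, hb, zero_smul, zero_smul, add_zero])
      · exact hns ⟨a / b, by field_simp; linear_combination -h0⟩
    obtain ⟨hsup, hdis, hRN⟩ := Orth.nonDegOn_split (B := R.polarBilin) ⟨fun u v => polar_comm R u v⟩ hPW hPN hN
    set W' := W ⊓ LinearMap.BilinForm.orthogonal R.polarBilin P
    have ho : ∀ x ∈ P, ∀ y ∈ W', polar R x y = 0 := fun x hx y hy => hy.2 x hx
    have hW' : ∀ x ∈ W', f.1 x ∈ W' := fun x hx => ⟨hW x hx.1, fun z hz => by
      show polar R z (f.1 x) = 0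
      have h := ho _ (hPinv z hz) x hx
      rw [skew hff] at h
      exact neg_eq_zero.1 h⟩
    have hd' : finrank F W' = 2 * k := by
      have := OrthTypes.finrank_sup hPN ho
      rw [hsup, hd, hPd] at this
      omega
    rw [← hsup, OrthTypes.plus_sup_iff hB hPN hRN ho (hPd ▸ even_two) (hd' ▸ even_two_mul k), ih W' hW' hRN hd',
      iff_false_left hPm, Nat.even_add_one]

/-- An invariant elliptic subspace of a square root of `-1`. -/
theorem exists_fixed_sq_neg_one (h2 : (2 : F) ≠ 0) (hq : Fintype.card F % 2 = 1) (hns : ¬ IsSquare (-1 : F))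
    (hB : BNondeg R) {f : OQ R} (hff : ∀ v, f.1 (f.1 v) = -v) {k : ℕ} (hk : Odd k) (hkn : 2 * k ≤ Fintype.card ι) :
    ∃ W, IsEll R (2 * k) W ∧ ∀ v ∈ W, f.1 v ∈ W := by
  obtain ⟨u, -, huv⟩ := OrthInvolField.exists_skew_planes_symm h2 hq hff k ⊤ (fun _ _ => trivial) (nonDegOn_top hB)
    (by rw [finrank_top, finrank_fintype_fun_eq_card]; exact hkn)
  let fam : Fin k ⊕ Fin k → (ι → F) := Sum.elim u fun a => f.1 (u a)
  have hfo : ∀ a b, a ≠ b → polar R (fam a) (fam b) = 0 := by
    rintro (a | a) (b | b) h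
    · exact (huv a b).1.trans (if_neg fun e => h (congrArg Sum.inl e))
    · exact (huv a b).2
    · exact (polar_comm R _ _).trans (huv b a).2
    · exact (OQ_polar f _ _).trans ((huv a b).1.trans (if_neg fun e => h (congrArg Sum.inr e)))
  have hf0 : ∀ a, polar R (fam a) (fam a) ≠ 0 := by
    rintro (a | a)
    · exact ((huv a a).1.trans (if_pos rfl)).trans_ne one_ne_zero
    · exact ((OQ_polar f _ _).trans ((huv a a).1.trans (if_pos rfl))).trans_ne one_ne_zero
  have hd : finrank F (Submodule.span F (Set.range fam)) = 2 * k := by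
    rw [finrank_span_eq_card (OrthInvolField.linearIndependent_of_orth hfo hf0), Fintype.card_sum, Fintype.card_fin]
    omega
  have hinv : ∀ v ∈ Submodule.span F (Set.range fam), f.1 v ∈ Submodule.span F (Set.range fam) := by
    intro x hx
    induction hx using Submodule.span_induction with
    | mem x hx =>
      obtain ⟨a | a, rfl⟩ := hx
      · exact Submodule.subset_span ⟨.inr a, rfl⟩
      · show f.1 (f.1 (u a)) ∈ _
        rw [hff]
        exact neg_mem (Submodule.subset_span ⟨.inl a, rfl⟩)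
    | zero => simp
    | add x y _ _ hx hy => rw [map_add]; exact add_mem hx hy
    | smul c x _ hx => rw [map_smul]; exact Submodule.smul_mem _ c hx
  have hN := OrthInvolField.nonDegOn_span hfo hf0
  exact ⟨_, ⟨hd, OrthTypes.nondeg_iff.2 hN, fun h =>
    Nat.not_even_iff_odd.2 hk ((plus_iff_of_sq_neg_one h2 hq hns hB hff k _ hinv hN hd).1 h)⟩, hinv⟩

/-- Involutions fix elliptic subspaces. -/
theorem exists_fixed_involution (h2 : (2 : F) ≠ 0) (hB : BNondeg R) (hVe : Even (Fintype.card ι)) {m : ℕ} (hm : 2 ≤ m)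
    (hme : Even m) (hmn : m < Fintype.card ι) {g : OQ R} (hgg : ∀ v, g.1 (g.1 v) = v) (hg1 : ∃ v, g.1 v ≠ v)
    (hg2 : ∃ v, g.1 v ≠ -v) : ∃ W, IsEll R m W ∧ ∀ v ∈ W, g.1 v ∈ W := by
  set f : Module.End F (ι → F) := g.1.toLinearMap
  set Sn := LinearMap.ker (f - (-1 : F) • 1)
  set Sp := LinearMap.ker (f - (1 : F) • 1)
  have hmn' : ∀ {v}, v ∈ Sn ↔ g.1 v = -v := fun {v} => by
    rw [LinearMap.mem_ker, LinearMap.sub_apply, LinearMap.smul_apply, Module.End.one_apply, sub_eq_zero,
      neg_one_smul]; rfl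
  have hmp : ∀ {v}, v ∈ Sp ↔ g.1 v = v := fun {v} => by
    rw [LinearMap.mem_ker, LinearMap.sub_apply, LinearMap.smul_apply, Module.End.one_apply, sub_eq_zero,
      one_smul]; rfl
  have horth : ∀ u ∈ Sn, ∀ v ∈ Sp, polar R u v = 0 := fun u hu v hv => by
    have h := OQ_polar g u v
    rw [hmn'.1 hu, hmp.1 hv, polar_neg_left] at h
    have : (2 : F) * polar R u v = 0 := by linear_combination -h
    exact (mul_eq_zero.1 this).resolve_left h2
  have hdec : ∀ v, ∃ a ∈ Sn, ∃ b ∈ Sp, a + b = v := fun v => by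
    refine ⟨(2 : F)⁻¹ • (v - g.1 v), hmn'.2 ?_, (2 : F)⁻¹ • (v + g.1 v), hmp.2 ?_, ?_⟩
    · rw [map_smul, map_sub, hgg, ← smul_neg, neg_sub]
    · rw [map_smul, map_add, hgg, add_comm]
    · rw [← smul_add, show v - g.1 v + (v + g.1 v) = (2 : F) • v by rw [two_smul]; abel, inv_smul_smul₀ h2]
  have hNn : NonDegOn R.polarBilin Sn := fun u hu h => hB u fun v => by
    obtain ⟨a, ha, b, hb, rfl⟩ := hdec v
    rw [polar_add_right, horth u hu b hb, add_zero]; exact h a ha
  have hNp : NonDegOn R.polarBilin Sp := fun u hu h => hB u fun v => by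
    obtain ⟨a, ha, b, hb, rfl⟩ := hdec v
    rw [polar_add_right, polar_comm R u a, horth a ha u hu, zero_add]; exact h b hb
  have hsum : Fintype.card ι ≤ finrank F Sn + finrank F Sp := by
    have hle : (⊤ : Submodule F (ι → F)) ≤ Sn ⊔ Sp := fun v _ => by
      obtain ⟨a, ha, b, hb, rfl⟩ := hdec v; exact Submodule.add_mem_sup ha hb
    have := (Submodule.finrank_mono hle).trans (Submodule.finrank_add_le_finrank_add_finrank _ _)
    rwa [finrank_top, finrank_fintype_fun_eq_card] at this
  have hn0 : 0 < finrank F Sn := Nat.pos_of_ne_zero fun h0 => by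
    obtain ⟨v, hv⟩ := hg1
    obtain ⟨a, ha, b, hb, rfl⟩ := hdec v
    rw [Submodule.finrank_eq_zero] at h0
    rw [h0, Submodule.mem_bot] at ha
    subst ha
    exact hv (by rw [zero_add]; exact hmp.1 hb)
  have hp0 : 0 < finrank F Sp := Nat.pos_of_ne_zero fun h0 => by
    obtain ⟨v, hv⟩ := hg2
    obtain ⟨a, ha, b, hb, rfl⟩ := hdec v
    rw [Submodule.finrank_eq_zero] at h0
    rw [h0, Submodule.mem_bot] at hb
    subst hb
    exact hv (by rw [add_zero]; exact hmn'.1 ha)
  obtain ⟨W₀, hW₀d, hW₀n, hW₀m⟩ := exists_isEll hB hVe hm hme hmn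
  have key : ∀ {a a' : F} {S T : Submodule F (ι → F)}, (∀ v ∈ S, g.1 v = a • v) → (∀ v ∈ T, g.1 v = a' • v) →
      NonDegOn R.polarBilin S → NonDegOn R.polarBilin T → (∀ x ∈ S, ∀ y ∈ T, polar R x y = 0) →
      2 ≤ finrank F S → Fintype.card ι ≤ finrank F S + finrank F T →
      ∃ W, IsEll R m W ∧ ∀ v ∈ W, g.1 v ∈ W := by
    intro a a' S T hS hT hSN hTN ho hS2 hST
    obtain ⟨e, e', he0, he, he', hem⟩ : ∃ e e', 0 < e ∧ e < finrank F S ∧ e' ≤ finrank F T ∧ m = e + e' := by
      by_cases hlt : m < finrank F S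
      · exact ⟨m, 0, by omega, hlt, by omega, by omega⟩
      · exact ⟨finrank F S - 1, m - (finrank F S - 1), by omega, by omega, by omega, by omega⟩
    obtain ⟨w, hw, hwo, hw0⟩ := OrthSubspace.exists_orth_family h2 hTN
    let w' : Fin e' → (ι → F) := fun j => w (Fin.castLE he' j)
    have hw'o : ∀ i j, i ≠ j → polar R (w' i) (w' j) = 0 := fun i j h =>
      hwo _ _ fun h' => h (Fin.castLE_injective he' h')
    set M := Submodule.span F (Set.range w')
    have hle : M ≤ T := Submodule.span_le.2 (Set.range_subset_iff.2 fun j => hw _)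
    obtain ⟨C', hC', hd', hN', L, hL⟩ := OrthSubspace.exists_member h2 hSN
      (OrthInvolField.nonDegOn_span hw'o fun j => hw0 _) (fun x hx y hy => ho x hx y (hle hy))
      (OrthTypes.nondeg_iff.1 hW₀n) he0 he
      (by rw [hW₀d, finrank_span_eq_card (OrthInvolField.linearIndependent_of_orth hw'o fun j => hw0 _),
        Fintype.card_fin]; exact hem)
    refine ⟨C' ⊔ M, ⟨hd'.trans hW₀d, OrthTypes.nondeg_iff.2 hN', fun h => hW₀m (plus_of_iso L hL h)⟩, fun v hv => ?_⟩
    obtain ⟨x, hx, y, hy, rfl⟩ := Submodule.mem_sup.1 hv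
    rw [map_add, hS x (hC' hx), hT y (hle hy)]
    exact Submodule.add_mem_sup (C'.smul_mem a hx) (M.smul_mem a' hy)
  have hmeven := Nat.even_iff.1 hVe
  by_cases h : 2 ≤ finrank F Sp
  · exact key (a := 1) (a' := -1) (fun v hv => by rw [one_smul]; exact hmp.1 hv)
      (fun v hv => by rw [neg_one_smul]; exact hmn'.1 hv) hNp hNn
      (fun x hx y hy => by rw [polar_comm]; exact horth y hy x hx) h (by omega)
  · exact key (a := -1) (a' := 1) (fun v hv => by rw [neg_one_smul]; exact hmn'.1 hv)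
      (fun v hv => by rw [one_smul]; exact hmp.1 hv) hNn hNp horth (by omega) hsum

end Cfsg.Agent.Elusive.OrthElliptic
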