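import Cfsg.Agent.Elusive.OrthElliptic
import Cfsg.Agent.Forms.OmegaPlus

/-!
Unipotent elements with totally singular image of large rank in orthogonal groups of plus type, and the parity of
the rank of involutions with totally singular image in characteristic two.
-/

set_option autoImplicit false
set_option linter.unusedSectionVars false

namespace Cfsg.Agent.Elusive.OrthElliptic

open Module QuadraticMap Matrix Cfsg.Agent.Classical Cfsg.Agent.Forms Cfsg.Agent.Elusive

variable {F : Type*} [Field F] [Fintype F] {d : ℕ}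

local notation "Idx" => Fin d ⊕ Fin d

/-- A unipotent element whose image is totally singular of dimension `2 (d / 2)`. -/
theorem exists_unipotent {p : ℕ} [Fact p.Prime] [CharP F p] (hd : 3 ≤ d) :
    ∃ g ∈ commutator (OQ (plusQF d F)), g ^ p = 1 ∧
      (∀ v, plusQF d F (g.1 v - v) = 0) ∧
      2 * (d / 2) ≤ finrank F (LinearMap.range ((g.1.toLinearMap : Module.End F (Idx → F)) - 1)) := by
  classical
  set t := d / 2
  let N₀ : Matrix (Fin d) (Fin d) F := Matrix.of fun a b => if (a : ℕ) < t ∧ (b : ℕ) = (a : ℕ) + t then 1 else 0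
  have hNN : N₀ * N₀ = 0 := by
    ext a b
    rw [Matrix.mul_apply, Matrix.zero_apply]
    refine Finset.sum_eq_zero fun j _ => ?_
    simp only [N₀, Matrix.of_apply]
    split_ifs with h1 h2 <;> first | omega | simp
  let A : GL (Fin d) F := ⟨1 + N₀, 1 - N₀, by noncomm_ring [hNN], by noncomm_ring [hNN]⟩
  have hA : (A : Matrix (Fin d) (Fin d) F) = 1 + N₀ := rfl
  have hAi : ((A⁻¹ : GL (Fin d) F) : Matrix (Fin d) (Fin d) F) = 1 - N₀ := rfl
  have hdet : (A : Matrix (Fin d) (Fin d) F).det = 1 := by
    rw [hA, Matrix.det_of_isUpperTriangular (fun a b (hab : b < a) => ?_)]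
    · refine Finset.prod_eq_one fun a _ => ?_
      simp only [N₀, Matrix.add_apply, Matrix.one_apply_eq, Matrix.of_apply]
      rw [if_neg (by omega), add_zero]
    · simp only [N₀, Matrix.add_apply, Matrix.one_apply_ne (ne_of_gt hab), Matrix.of_apply]
      rw [if_neg (by rw [Fin.lt_def] at hab; omega), add_zero]
  have hAp : A ^ p = 1 := by
    have h : ∀ k : ℕ, (1 + N₀) ^ k = 1 + (k : F) • N₀ := by
      intro k
      induction k with
      | zero => simp
      | succ k ih =>
        rw [pow_succ, ih, add_mul, one_mul, mul_add, mul_one, smul_mul_assoc, hNN, smul_zero, add_zero,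
          Nat.cast_succ, add_smul, one_smul]
        abel
    refine Units.ext ?_
    rw [Units.val_pow_eq_pow_val, hA, h, CharP.cast_eq_zero, zero_smul, add_zero]
    rfl
  set R := plusQF d F
  set g : OQ R := levi A
  have hg : g ∈ commutator (OQ R) :=
    (isSquare_det_of_levi (Or.inr (by omega)) (by omega) A).2.2 (hdet ▸ IsSquare.one)
  set N : Module.End F (Idx → F) := (g.1.toLinearMap : Module.End F (Idx → F)) - 1
  have hN : ∀ v, N v = Sum.elim (N₀ *ᵥ (v ∘ Sum.inl)) (-(N₀ᵀ *ᵥ (v ∘ Sum.inr))) := fun v => by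
    show g.1 v - v = _
    rw [levi_apply, leviMat_mulVec, hA, hAi, Matrix.transpose_sub, Matrix.transpose_one, Matrix.add_mulVec,
      Matrix.sub_mulVec, Matrix.one_mulVec, Matrix.one_mulVec]
    ext (a | a) <;> simp
  have hRN : ∀ v, R (N v) = 0 := fun v => by
    rw [hN, plusQF_eq_dot, Sum.elim_comp_inl, Sum.elim_comp_inr, dotProduct_neg, Matrix.dotProduct_mulVec,
      Matrix.vecMul_transpose, Matrix.mulVec_mulVec, hNN, Matrix.zero_mulVec, zero_dotProduct, neg_zero]
  have hrank : 2 * t ≤ finrank F (LinearMap.range N) := by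
    let E : Fin t ⊕ Fin t → Idx :=
      Sum.map (fun a => ⟨(a : ℕ) + t, by omega⟩) fun a => ⟨a, by omega⟩
    let ψ := N ∘ₗ Function.ExtendByZero.linearMap F E
    have hE : Function.Injective E := Sum.map_injective.2
      ⟨fun a b h => Fin.ext (by simpa using congrArg Fin.val h), fun a b h => Fin.ext (congrArg Fin.val h :)⟩
    have hψ : Function.Injective ψ := by
      refine (injective_iff_map_eq_zero _).2 fun x hx => funext fun s => ?_
      have hx' : N (Function.extend E x 0) = 0 := hx
      rw [hN] at hx'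
      rcases s with a | a
      · have h := congrFun hx' (Sum.inl ⟨a, by omega⟩)
        rw [Sum.elim_inl, Matrix.mulVec, dotProduct, Finset.sum_eq_single (⟨(a : ℕ) + t, by omega⟩ : Fin d)
          (fun b _ hb => by
            simp only [N₀, Matrix.of_apply]
            rw [if_neg (fun h' => hb (Fin.ext h'.2)), zero_mul])
          (fun h' => absurd (Finset.mem_univ _) h')] at h
        simp only [N₀, Matrix.of_apply, Function.comp_apply, Fin.is_lt, and_self, if_true, one_mul, Pi.zero_apply] at h
        exact (hE.extend_apply x 0 (Sum.inl a)).symm.trans h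
      · have h := congrFun hx' (Sum.inr ⟨(a : ℕ) + t, by omega⟩)
        rw [Sum.elim_inr, Pi.neg_apply, Pi.zero_apply, neg_eq_zero, Matrix.mulVec, dotProduct,
          Finset.sum_eq_single (⟨a, by omega⟩ : Fin d) (fun b _ hb => by
            simp only [N₀, Matrix.of_apply, Matrix.transpose_apply]
            rw [if_neg (fun h' => hb (Fin.ext (by have := h'.2; simp only at this ⊢; omega))), zero_mul])
          (fun h' => absurd (Finset.mem_univ _) h')] at h
        simp only [N₀, Matrix.of_apply, Matrix.transpose_apply, Function.comp_apply, Fin.is_lt, and_self, if_true,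
          one_mul] at h
        exact (hE.extend_apply x 0 (Sum.inr a)).symm.trans h
    refine le_trans (le_of_eq ?_) (Submodule.finrank_mono (LinearMap.range_comp_le_range _ _ :
      LinearMap.range ψ ≤ LinearMap.range N))
    rw [LinearMap.finrank_range_of_inj hψ, finrank_fintype_fun_eq_card, Fintype.card_sum, Fintype.card_fin]
    omega
  exact ⟨g, hg, by rw [← map_pow, hAp, map_one], hRN, hrank⟩

/-- In characteristic two an involution with totally singular image has even rank on invariant subspaces. -/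
theorem even_finrank_map {ι : Type} [Fintype ι] [DecidableEq ι] {R : QuadraticForm F (ι → F)} (h2 : (2 : F) = 0)
    {g : OQ R} (hgg : ∀ v, g.1 (g.1 v) = v) (hts : ∀ v, R (g.1 v - v) = 0) {X : Submodule F (ι → F)}
    (hX : ∀ v ∈ X, g.1 v ∈ X) (hN : NonDegOn R.polarBilin X) :
    Even (finrank F (X.map ((g.1.toLinearMap : Module.End F (ι → F)) - 1))) := by
  set N : Module.End F (ι → F) := (g.1.toLinearMap : Module.End F (ι → F)) - 1
  have hself : ∀ v, polar R v v = 0 := fun v => by rw [polar_self, two_nsmul, ← two_mul, h2, zero_mul]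
  have hgadj : ∀ u v, polar R (g.1 u) v = polar R u (g.1 v) := fun u v => by
    conv_lhs => rw [← OQ_polar g, hgg]
  have hadj : ∀ u v, polar R (N u) v = polar R u (N v) := fun u v => by
    show polar R (g.1 u - u) v = polar R u (g.1 v - v)
    rw [polar_sub_left, polar_sub_right, hgadj]
  let B : LinearMap.BilinForm F (ι → F) := R.polarBilin.comp N
  have hA : B.IsAlt := fun v => by
    show polar R (g.1 v - v) v = 0
    have h := hts v
    rw [sub_eq_add_neg, QuadraticMap.map_add R, OQ_map_app, QuadraticMap.map_neg, ← two_mul, h2, zero_mul, zero_add,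
      polar_neg_right] at h
    rw [polar_sub_left, hself, sub_zero]
    exact neg_eq_zero.1 h
  obtain ⟨Z, hZ⟩ := Submodule.exists_isCompl ((LinearMap.ker N).comap X.subtype)
  set U := Z.map X.subtype
  have hUX : U ≤ X := Submodule.map_subtype_le X Z
  have hUK : ∀ u ∈ U, N u = 0 → u = 0 := by
    rintro _ ⟨z, hz, rfl⟩ h
    rw [Submodule.disjoint_def.1 hZ.disjoint z h hz, map_zero]
  have hdec : ∀ x ∈ X, ∃ k u, u ∈ U ∧ N k = 0 ∧ x = k + u := fun x hx => by
    obtain ⟨k, hk, z, hz, h⟩ := Submodule.mem_sup.1 (hZ.sup_eq_top ▸ Submodule.mem_top : (⟨x, hx⟩ : X) ∈ _)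
    exact ⟨k.1, z.1, ⟨z, hz, rfl⟩, hk, (congrArg Subtype.val h).symm⟩
  have hUN : NonDegOn B U := fun u hu hu0 => hUK u hu (hN _ (sub_mem (hX u (hUX hu)) (hUX hu)) fun x hx => by
    obtain ⟨k, u', hu', hk, rfl⟩ := hdec x hx
    show polar R (N u) (k + u') = 0
    rw [polar_add_right, hadj u k, hk, polar_zero_right, zero_add]
    exact hu0 u' hu')
  have hmap : X.map N = LinearMap.range (N ∘ₗ U.subtype) := by
    refine le_antisymm ?_ ?_
    · rintro _ ⟨x, hx, rfl⟩
      obtain ⟨k, u', hu', hk, rfl⟩ := hdec x hx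
      exact ⟨⟨u', hu'⟩, by rw [map_add, hk, zero_add]; rfl⟩
    · rintro _ ⟨u, rfl⟩
      exact ⟨u.1, hUX u.2, rfl⟩
  rw [hmap, LinearMap.finrank_range_of_inj ((injective_iff_map_eq_zero _).2 fun u hu => Subtype.ext (hUK u.1 u.2 hu))]
  exact even_finrank_of_nonDegOn hA hUN

end Cfsg.Agent.Elusive.OrthElliptic
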