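import Cfsg.Agent.Elusive.OrthOrder
import Cfsg.Agent.Classical.OrthEichler
import Cfsg.Agent.Forms.Orthogonal
import Cfsg.Prelude.Def_GeometricClasses

/-!
Self-adjoint quadratic field extensions of an orthogonal space: the symmetric form over the
extension, and the dimensions moved by isometries commuting with the extension.
-/

set_option autoImplicit false
set_option linter.unusedSectionVars false

namespace Cfsg.Agent.Elusive.OrthField

open Module QuadraticMap Cfsg.Agent.Classical
open scoped Matrix

section generator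

variable {F : Type*} [Field F] {ι : Type} [Fintype ι] [DecidableEq ι]

/-- A quadratic field subalgebra is generated by an element with nonsquare square. -/
theorem exists_generator (h2 : (2 : F) ≠ 0) {K : Subalgebra F (Matrix ι ι F)} (hK : Cfsg.Geo.IsFieldSubalgebra 2 K) :
    ∃ (s : Matrix ι ι F) (δ : F), s ∈ K ∧ ¬ IsSquare δ ∧ s * s = δ • 1 ∧ (∀ x : F, s ≠ x • 1) ∧
      ∀ k ∈ K, ∃ x y : F, k = x • 1 + y • s := by
  classical
  have hfin : FiniteDimensional F K := FiniteDimensional.of_finrank_eq_succ (n := 1) hK.finrank_eq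
  have h1K : (1 : K) ≠ 0 := by
    intro h
    have : Subsingleton K := subsingleton_of_zero_eq_one h.symm
    have := hK.finrank_eq
    rw [finrank_zero_of_subsingleton] at this
    omega
  obtain ⟨a, ha⟩ : ∃ a : K, a ∉ Submodule.span F {(1 : K)} := by
    by_contra h
    push Not at h
    have h' : Submodule.span F {(1 : K)} = ⊤ := Submodule.eq_top_iff'.2 h
    have := finrank_span_singleton (K := F) h1K
    rw [h', finrank_top, hK.finrank_eq] at this
    omega
  have hli : LinearIndependent F ![(1 : K), a] := by
    rw [LinearIndependent.pair_iff]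
    intro u v huv
    by_cases hv : v = 0
    · subst hv
      rw [zero_smul, add_zero, smul_eq_zero] at huv
      exact ⟨huv.resolve_right h1K, rfl⟩
    · refine absurd ?_ ha
      rw [Submodule.mem_span_singleton]
      refine ⟨-(v⁻¹ * u), ?_⟩
      rw [neg_smul, neg_eq_iff_add_eq_zero, mul_smul, ← inv_smul_smul₀ hv a, ← smul_add, huv, smul_zero]
  have htop := hli.span_eq_top_of_card_eq_finrank (by rw [Fintype.card_fin, hK.finrank_eq])
  have hgen : ∀ k : K, ∃ x y : F, k = x • 1 + y • a := fun k => by
    have hk : k ∈ Submodule.span F (Set.range ![(1 : K), a]) := htop ▸ Submodule.mem_top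
    rw [Matrix.range_cons_cons_empty, Submodule.mem_span_pair] at hk
    obtain ⟨x, y, h⟩ := hk
    exact ⟨x, y, h.symm⟩
  obtain ⟨v, u, huv⟩ := hgen (a * a)
  set A : Matrix ι ι F := (a : Matrix ι ι F)
  have hA : A * A = v • 1 + u • A := congrArg Subtype.val huv
  set s : Matrix ι ι F := A - (u / 2) • 1
  have hs : s ∈ K := sub_mem a.2 (Subalgebra.smul_mem _ (one_mem _) _)
  have hns : ∀ x : F, s ≠ x • 1 := by
    intro x hx
    refine ha (Submodule.mem_span_singleton.2 ⟨x + u / 2, Subtype.ext ?_⟩)
    show (x + u / 2) • (1 : Matrix ι ι F) = A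
    rw [add_smul, ← hx]
    exact sub_add_cancel _ _
  have hss : s * s = (v + u ^ 2 / 4) • 1 := by
    simp only [s, mul_sub, sub_mul, mul_smul_comm, smul_mul_assoc, one_mul, mul_one, hA, smul_smul]
    have h4' : (4 : F) ≠ 0 := by rw [show (4 : F) = 2 * 2 by norm_num]; exact mul_ne_zero h2 h2
    simp only [smul_sub, smul_smul]
    match_scalars <;> field_simp <;> ring
  refine ⟨s, _, hs, ?_, hss, hns, fun k hk => ?_⟩
  · rintro ⟨w, hw⟩
    have h0 : (s - w • 1) * (s + w • 1) = 0 := by
      simp only [sub_mul, mul_add, mul_smul_comm, smul_mul_assoc, one_mul, mul_one, hss, hw, smul_sub, smul_smul]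
      module
    obtain ⟨c, -, hc⟩ := hK.inv _ (sub_mem hs (Subalgebra.smul_mem _ (one_mem _) w))
      (sub_ne_zero.2 (hns w))
    have hc' := hK.comm _ (sub_mem hs (Subalgebra.smul_mem _ (one_mem _) w))
    by_cases hcs : s + w • 1 = 0
    · exact hns (-w) (by rw [neg_smul]; exact eq_neg_of_add_eq_zero_left hcs)
    · obtain ⟨e, -, he⟩ := hK.inv _ (add_mem hs (Subalgebra.smul_mem _ (one_mem _) w)) hcs
      refine hns w (sub_eq_zero.1 ?_)
      calc s - w • 1 = (s - w • 1) * ((s + w • 1) * e) := by rw [he, mul_one]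
        _ = 0 := by rw [← mul_assoc, h0, zero_mul]
  · obtain ⟨x, y, hxy⟩ := hgen ⟨k, hk⟩
    refine ⟨x + y * (u / 2), y, ?_⟩
    have h' : k = x • (1 : Matrix ι ι F) + y • A := congrArg Subtype.val hxy
    rw [h']
    simp only [s, smul_sub, smul_smul, add_smul]
    abel

/-- An element normalising the field maps the generator to itself or its negative. -/
theorem conj_generator (h2 : (2 : F) ≠ 0) {K : Subalgebra F (Matrix ι ι F)} {s : Matrix ι ι F} {δ : F}
    (hs : s ∈ K) (hδ : δ ≠ 0) (hss : s * s = δ • 1) (hns : ∀ x : F, s ≠ x • 1) (hgen : ∀ k ∈ K, ∃ x y : F, k = x • 1 + y • s)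
    {g : GL ι F} (hg : g ∈ Cfsg.Geo.subalgebraNormalizer K) :
    (g : Matrix ι ι F) * s = s * g ∨ (g : Matrix ι ι F) * s = -(s * g) := by
  obtain ⟨x, y, hxy⟩ := hgen _ ((hg s).1 hs)
  have hsq : (g : Matrix ι ι F) * s * ((g⁻¹ : GL ι F) : Matrix ι ι F) * ((g : Matrix ι ι F) * s * ((g⁻¹ : GL ι F) : Matrix ι ι F)) =
      δ • 1 := by
    simp only [mul_assoc]
    rw [← mul_assoc ((g⁻¹ : GL ι F) : Matrix ι ι F), ← Units.val_mul, inv_mul_cancel, Units.val_one, one_mul,
      ← mul_assoc s s, hss, smul_mul_assoc, one_mul, mul_smul_comm, ← Units.val_mul, mul_inv_cancel, Units.val_one]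
  have hgs : (g : Matrix ι ι F) * s = (x • 1 + y • s) * g := by
    rw [← hxy, mul_assoc _ _ (g : Matrix ι ι F), ← Units.val_mul, inv_mul_cancel, Units.val_one, mul_one]
  rw [hxy] at hsq
  simp only [add_mul, mul_add, smul_mul_assoc, mul_smul_comm, one_mul, mul_one, smul_smul, hss] at hsq
  have hne : (1 : Matrix ι ι F) ≠ 0 := fun h => hns 0 (by rw [zero_smul, ← mul_one s, h, mul_zero])
  have hrel : (2 * x * y) • s = (δ - x * x - y * y * δ) • (1 : Matrix ι ι F) := by
    rw [sub_smul, sub_smul, ← hsq]
    module
  have hxy0 : x * y = 0 := by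
    by_contra h
    have h' : 2 * x * y ≠ 0 := by rw [mul_assoc]; exact mul_ne_zero h2 h
    exact hns _ (eq_inv_smul_iff₀ h' |>.2 hrel |>.trans (smul_smul _ _ _))
  rw [show 2 * x * y = 0 by rw [mul_assoc, hxy0, mul_zero], zero_smul, eq_comm, smul_eq_zero] at hrel
  have hcoef := hrel.resolve_right hne
  rcases mul_eq_zero.1 hxy0 with hx | hy
  · subst hx
    have hy : (y * y - 1) * δ = 0 := by linear_combination -hcoef
    rw [zero_smul, zero_add] at hgs
    rcases mul_self_eq_one_iff.1 (sub_eq_zero.1 ((mul_eq_zero.1 hy).resolve_right hδ)) with rfl | rfl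
    · rw [one_smul] at hgs; exact Or.inl hgs
    · rw [neg_one_smul, neg_mul] at hgs; exact Or.inr hgs
  · subst hy
    exfalso
    refine hns x ((g.isUnit.mul_left_inj).1 ?_)
    rw [zero_smul, add_zero] at hgs
    have h3 : (g : Matrix ι ι F) * s = (g : Matrix ι ι F) * (x • 1) := by
      rw [hgs, smul_mul_assoc, one_mul, mul_smul_comm, mul_one]
    rw [g.isUnit.mul_left_cancel h3]

end generator

section form

variable {F : Type*} [Field F] {V : Type*} [AddCommGroup V] [Module F V] [FiniteDimensional F V]
  {K : Type*} [Field K] [Algebra F K] [Module K V] [IsScalarTower F K V]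

/-- The data of a quadratic extension `K = F + F s` acting by self-adjoint maps on the quadratic space. -/
structure Ext (R : QuadraticForm F V) (K : Type*) [Field K] [Algebra F K] [Module K V] where
  s : K
  δ : F
  h2 : (2 : F) ≠ 0
  hns : ¬ IsSquare δ
  hss : s * s = algebraMap F K δ
  hgen : ∀ k : K, ∃ x y : F, k = algebraMap F K x + algebraMap F K y * s
  hsa : ∀ u v : V, polar R (s • u) v = polar R u (s • v)

variable {R : QuadraticForm F V} (E : Ext R K)

namespace Ext

theorem δ_ne : E.δ ≠ 0 := fun h => E.hns (h ▸ IsSquare.zero)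

theorem coord_eq {x y x' y' : F} (h : algebraMap F K x + algebraMap F K y * E.s = algebraMap F K x' + algebraMap F K y' * E.s) :
    x = x' ∧ y = y' := by
  by_cases hy : y = y'
  · subst hy
    exact ⟨(algebraMap F K).injective (add_right_cancel h), rfl⟩
  · exfalso
    have h1 : algebraMap F K (y - y') * E.s = algebraMap F K (x' - x) := by
      rw [map_sub, map_sub]; linear_combination h
    refine E.hns ⟨(x' - x) / (y - y'), (algebraMap F K).injective ?_⟩
    have h0 : algebraMap F K (y - y') ≠ 0 := (map_ne_zero _).2 (sub_ne_zero.2 hy)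
    rw [map_mul, map_div₀, ← h1, mul_div_cancel_left₀ _ h0, E.hss]

include E in
theorem two_ne : (2 : K) ≠ 0 := by
  rw [← map_ofNat (algebraMap F K) 2]; exact (map_ne_zero _).2 E.h2

theorem smul_smul_s (v : V) : E.s • E.s • v = E.δ • v := by
  rw [smul_smul, E.hss, algebraMap_smul]

theorem smul_eq (x y : F) (v : V) : (algebraMap F K x + algebraMap F K y * E.s) • v = x • v + y • E.s • v := by
  rw [add_smul, mul_smul, algebraMap_smul, algebraMap_smul]

theorem polar_s_s (u v : V) : polar R (E.s • u) (E.s • v) = E.δ * polar R u v := by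
  rw [E.hsa, E.smul_smul_s, polar_smul_right, smul_eq_mul]

/-- The symmetric form over the extension. -/
noncomputable def bil : LinearMap.BilinForm K V :=
  LinearMap.mk₂ K
    (fun u v => algebraMap F K (polar R u v) + algebraMap F K (E.δ⁻¹ * polar R (E.s • u) v) * E.s)
    (fun u u' v => by
      simp only [smul_add, polar_add_left, map_add, mul_add, add_mul]; abel)
    (fun c u v => by
      obtain ⟨x, y, rfl⟩ := E.hgen c
      have h1 : E.δ⁻¹ * E.δ = 1 := inv_mul_cancel₀ E.δ_ne
      simp only [E.smul_eq, smul_add, smul_comm E.s (_ : F), E.smul_smul_s, polar_add_left, polar_smul_left,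
        smul_eq_mul, map_add, map_mul, mul_add]
      have h2 : algebraMap F K E.δ⁻¹ * algebraMap F K E.δ = 1 := by rw [← map_mul, h1, map_one]
      linear_combination
        (algebraMap F K y * E.s * algebraMap F K (polar R u v)) * h2 -
          (algebraMap F K E.δ⁻¹ * algebraMap F K y * algebraMap F K (polar R (E.s • u) v)) * E.hss -
          (algebraMap F K y * algebraMap F K (polar R (E.s • u) v)) * h2)
    (fun u v v' => by
      simp only [polar_add_right, map_add, mul_add, add_mul]; abel)
    (fun c u v => by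
      obtain ⟨x, y, rfl⟩ := E.hgen c
      have h2 : algebraMap F K E.δ⁻¹ * algebraMap F K E.δ = 1 := by
        rw [← map_mul, inv_mul_cancel₀ E.δ_ne, map_one]
      simp only [E.smul_eq, polar_add_right, polar_smul_right, E.polar_s_s, ← E.hsa u v, smul_eq_mul, map_add, map_mul,
        mul_add]
      linear_combination
        (algebraMap F K y * E.s * algebraMap F K (polar R u v)) * h2 -
          (algebraMap F K E.δ⁻¹ * algebraMap F K y * algebraMap F K (polar R (E.s • u) v)) * E.hss -
          (algebraMap F K y * algebraMap F K (polar R (E.s • u) v)) * h2)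

theorem bil_apply (u v : V) :
    E.bil u v = algebraMap F K (polar R u v) + algebraMap F K (E.δ⁻¹ * polar R (E.s • u) v) * E.s := rfl

theorem bil_eq_iff {u v u' v' : V} :
    E.bil u v = E.bil u' v' ↔ polar R u v = polar R u' v' ∧ polar R (E.s • u) v = polar R (E.s • u') v' := by
  rw [bil_apply, bil_apply]
  constructor
  · intro h
    obtain ⟨h1, h2⟩ := E.coord_eq h
    exact ⟨h1, mul_left_cancel₀ (inv_ne_zero E.δ_ne) h2⟩
  · rintro ⟨h1, h2⟩; rw [h1, h2]

theorem bil_symm : E.bil.IsSymm := ⟨fun u v => by
  show E.bil u v = E.bil v u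
  rw [E.bil_eq_iff, polar_comm R u v, E.hsa u v, polar_comm R u (E.s • v)]
  exact ⟨rfl, rfl⟩⟩

theorem polar_eq_zero_of_bil {u v : V} (h : E.bil u v = 0) : polar R u v = 0 ∧ polar R (E.s • u) v = 0 := by
  have := (E.bil_eq_iff (u' := 0) (v' := 0)).1 (by rw [h, map_zero])
  simpa using this

theorem bil_nondeg (hR : BNondeg R) : E.bil.Nondegenerate :=
  haveI : Module.Finite K V := Module.Finite.of_restrictScalars_finite F K V
  LinearMap.BilinForm.Nondegenerate.ofSeparatingLeft fun u hu =>
    hR u fun v => (E.polar_eq_zero_of_bil (hu v)).1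

/-- The quadratic form over the extension. -/
noncomputable def qform : QuadraticForm K V := (2 : K)⁻¹ • LinearMap.BilinMap.toQuadraticMap E.bil

theorem qform_apply (v : V) : E.qform v = (2 : K)⁻¹ * E.bil v v := rfl

theorem polar_qform (u v : V) : polar E.qform u v = E.bil u v := by
  rw [polar, qform_apply, qform_apply, qform_apply]
  have h : E.bil v u = E.bil u v := E.bil_symm.eq v u
  simp only [map_add, LinearMap.add_apply, h]
  field_simp [E.two_ne]
  ring

theorem qform_nondeg (hR : BNondeg R) : BNondeg E.qform := fun u hu =>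
  (E.bil_nondeg hR).1 u fun v => by rw [← polar_qform]; exact hu v

theorem qform_zero_iff {v : V} : E.qform v = 0 → R v = 0 := by
  intro h
  rw [qform_apply, mul_eq_zero] at h
  have := (E.polar_eq_zero_of_bil (h.resolve_left (inv_ne_zero E.two_ne))).1
  rw [polar_self, nsmul_eq_mul, Nat.cast_ofNat, mul_eq_zero] at this
  exact this.resolve_left E.h2

theorem restrict_apply {g : V ≃ₗ[K] V} (hg : g ∈ OQ E.qform) (v : V) : R (g v) = R v := by
  have h : E.bil (g v) (g v) = E.bil v v := mul_left_cancel₀ (inv_ne_zero E.two_ne) (hg v)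
  have h1 := (E.bil_eq_iff.1 h).1
  rw [polar_self, polar_self, nsmul_eq_mul, nsmul_eq_mul, Nat.cast_ofNat] at h1
  exact mul_left_cancel₀ E.h2 h1

include E in
theorem finrank_eq : finrank F K = 2 := by
  have hli : LinearIndependent F ![(1 : K), E.s] := by
    rw [LinearIndependent.pair_iff]
    intro x y h
    rw [Algebra.smul_def, Algebra.smul_def, mul_one] at h
    exact E.coord_eq (x' := 0) (y' := 0) (by rw [h]; simp)
  have hspan : Submodule.span F (Set.range ![(1 : K), E.s]) = ⊤ := by
    refine Submodule.eq_top_iff'.2 fun k => ?_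
    obtain ⟨x, y, rfl⟩ := E.hgen k
    rw [Matrix.range_cons_cons_empty, Submodule.mem_span_pair]
    exact ⟨x, y, by rw [Algebra.smul_def, Algebra.smul_def, mul_one]⟩
  have := finrank_span_eq_card hli
  rwa [hspan, finrank_top, Fintype.card_fin] at this

include E in
theorem finrank_restrict (W : Submodule K V) : finrank F (W.restrictScalars F) = 2 * finrank K W := by
  have := finrank_mul_finrank F K W
  rw [E.finrank_eq] at this
  exact this.symm

/-- An isometry commuting with the extension is linear over it. -/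
noncomputable def lift (f : Module.End F V) (hf : ∀ v, f (E.s • v) = E.s • f v) : Module.End K V where
  toFun := f
  map_add' := f.map_add
  map_smul' k v := by
    obtain ⟨x, y, rfl⟩ := E.hgen k
    simp only [E.smul_eq, map_add, map_smul, hf, RingHom.id_apply]

theorem bil_lift {f : Module.End F V} (hf : ∀ v, f (E.s • v) = E.s • f v)
    (hiso : ∀ u v, polar R (f u) (f v) = polar R u v) (u v : V) : E.bil (f u) (f v) = E.bil u v := by
  rw [E.bil_eq_iff, ← hf, hiso, hiso]
  exact ⟨rfl, rfl⟩

/-- An isometry commuting with the extension moves a space of dimension divisible by `4`, in odd prime order. -/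
theorem four_dvd_finrank (hR : BNondeg R) {r : ℕ} (hr : Odd r) (hrF : (r : F) ≠ 0) {f : Module.End F V}
    (hf : ∀ v, f (E.s • v) = E.s • f v) (hiso : ∀ u v, polar R (f u) (f v) = polar R u v) (hfr : f ^ r = 1) :
    4 ∣ finrank F (LinearMap.range (f - 1)) := by
  classical
  have : Module.Finite K V := Module.Finite.of_restrictScalars_finite F K V
  let b := finBasis K V
  set g := E.lift f hf
  have hgr : g ^ r = 1 := by
    refine LinearMap.ext fun v => ?_
    have h : ∀ k : ℕ, (g ^ k) v = (f ^ k) v := by
      intro k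
      induction k with
      | zero => rfl
      | succ k ih => rw [pow_succ', pow_succ', Module.End.mul_apply, Module.End.mul_apply, ih]; rfl
    rw [h, hfr]; rfl
  set S := LinearMap.toMatrixAlgEquiv b g with hS
  have hev := Tensor.even_rank_of_isometry E.two_ne hr
    (by rw [← map_natCast (algebraMap F K)]; exact (map_ne_zero _).2 hrF)
    (G := LinearMap.BilinForm.toMatrix b E.bil) (B := S)
    ((LinearMap.BilinForm.nondegenerate_iff_det_ne_zero b).1 (E.bil_nondeg hR))
    (by
      rw [hS]
      show (LinearMap.toMatrix b b g).transpose * _ * LinearMap.toMatrix b b g = _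
      rw [← LinearMap.BilinForm.toMatrix_comp]
      congr 1
      exact LinearMap.BilinForm.ext fun u v => E.bil_lift hf hiso u v)
    (by rw [hS, ← map_pow, hgr, map_one])
  have hrk : (S - 1).rank = finrank K (LinearMap.range (g - 1)) := by
    rw [hS, ← map_one (LinearMap.toMatrixAlgEquiv b), ← map_sub]
    exact (Matrix.rank_eq_finrank_range_toLin _ b b).trans (by
      rw [show Matrix.toLin b b (LinearMap.toMatrixAlgEquiv b (g - 1)) = g - 1 from Matrix.toLin_toMatrix b b _])
  rw [hrk] at hev
  have heq : LinearMap.range (f - 1) = (LinearMap.range (g - 1)).restrictScalars F := by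
    ext v; rfl
  rw [heq, E.finrank_restrict]
  obtain ⟨m, hm⟩ := hev
  exact ⟨m, by omega⟩

/-- No isometry commuting with the extension, other than the identity, of unipotent type moves two dimensions. -/
theorem not_two_of_unipotent {p : ℕ} [CharP F p] [Fact p.Prime] (hR : BNondeg R) {f : Module.End F V}
    (hf : ∀ v, f (E.s • v) = E.s • f v) (hiso : ∀ u v, polar R (f u) (f v) = polar R u v) (hfp : f ^ p = 1)
    (hne : f ≠ 1) : 2 < finrank F (LinearMap.range (f - 1)) := by
  classical
  have : Module.Finite K V := Module.Finite.of_restrictScalars_finite F K V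
  set g := E.lift f hf
  have heq : LinearMap.range (f - 1) = (LinearMap.range (g - 1)).restrictScalars F := by
    ext v; rfl
  rw [heq, E.finrank_restrict]
  by_contra hle
  have hle1 : finrank K (LinearMap.range (g - 1)) ≤ 1 := by omega
  obtain ⟨w, hw⟩ := finrank_le_one_iff.1 hle1
  have hφ : ∀ v, ∃ c : K, g v = v + c • (w : V) := fun v => by
    obtain ⟨c, hc⟩ := hw ⟨(g - 1) v, ⟨v, rfl⟩⟩
    refine ⟨c, ?_⟩
    have h' : c • (w : V) = g v - v := congrArg Subtype.val hc
    rw [h', add_sub_cancel]
  choose φ hφ using hφ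
  have hpow : ∀ k : ℕ, (f ^ k) (w : V) = (1 + φ w) ^ k • (w : V) := by
    intro k
    induction k with
    | zero => simp
    | succ k ih =>
      rw [pow_succ', Module.End.mul_apply, ih]
      show g ((1 + φ w) ^ k • (w : V)) = _
      rw [map_smul, hφ, smul_add, smul_smul, pow_succ, mul_add, mul_one, ← add_smul]

  have hne' : (w : V) ≠ 0 := by
    intro h0
    refine hne (LinearMap.ext fun v => ?_)
    have := hφ v
    rw [h0, smul_zero, add_zero] at this
    exact this
  have hφw : φ w = 0 := by
    have h := hpow p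
    rw [hfp, Module.End.one_apply] at h
    have h' : ((1 + φ w) ^ p - 1) • (w : V) = 0 := by rw [sub_smul, ← h, one_smul, sub_self]
    have : CharP K p := charP_of_injective_algebraMap (algebraMap F K).injective p
    rw [smul_eq_zero, add_pow_char, one_pow, add_sub_cancel_left] at h'
    exact eq_zero_of_pow_eq_zero (h'.resolve_right hne')
  have hb : ∀ u v, φ u * E.bil (w : V) v + φ v * E.bil u w + φ u * φ v * E.bil (w : V) w = 0 := fun u v => by
    have h := E.bil_lift hf hiso u v
    rw [show f u = u + φ u • (w : V) from hφ u, show f v = v + φ v • (w : V) from hφ v] at h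
    simp only [map_add, map_smul, LinearMap.add_apply, LinearMap.smul_apply, smul_eq_mul] at h
    linear_combination h
  obtain ⟨v₁, hv₁⟩ : ∃ v, φ v ≠ 0 := by
    by_contra! h
    exact hne (LinearMap.ext fun v => by have := hφ v; rwa [h v, zero_smul, add_zero] at this)
  have hww : E.bil (w : V) w = 0 := by
    have := hb w v₁
    simp only [hφw, zero_mul, add_zero, zero_add] at this
    exact (mul_eq_zero.1 this).resolve_left hv₁
  have h0 : ∀ u, φ u * E.bil u w = 0 := fun u => by
    have := hb u u
    rw [hww, mul_zero, add_zero, show E.bil (w : V) u = E.bil u w from E.bil_symm.eq _ _, ← two_mul] at this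
    exact (mul_eq_zero.1 this).resolve_left E.two_ne
  refine hne' ((E.bil_nondeg hR).2 _ fun u => ?_)
  by_contra hu
  have hu0 : φ u = 0 := (mul_eq_zero.1 (h0 u)).resolve_right hu
  have := hb v₁ u
  rw [hu0, hww, zero_mul, mul_zero, add_zero, add_zero, mul_eq_zero] at this
  exact hu (by rw [← E.bil_symm.eq]; exact this.resolve_left hv₁)

end Ext

end form

end Cfsg.Agent.Elusive.OrthField
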