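import Cfsg.Agent.Elusive.OrthPlus

/-!
Hyperbolic subspaces of quadratic spaces over finite fields: complements, sums, embeddings.
-/

set_option autoImplicit false

namespace Cfsg.Agent.Elusive.OrthTS

open QuadraticMap Submodule Module Cfsg.Agent.Classical

variable {F : Type*} [Field F] {V : Type*} [AddCommGroup V] [Module F V] {Q : QuadraticForm F V}

/-- `W` has a totally singular subspace of half its dimension. -/
def HalfOn (Q : QuadraticForm F V) (W : Submodule F V) : Prop :=
  ∃ U ≤ W, (∀ v ∈ U, Q v = 0) ∧ finrank F W ≤ 2 * finrank F U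

/-- A nondegenerate hyperbolic subspace of dimension `m`. -/
def Hyp (Q : QuadraticForm F V) (m : ℕ) (W : Submodule F V) : Prop :=
  finrank F W = m ∧ NonDegOn (polarBilin Q) W ∧ HalfOn Q W

theorem sub_nondeg {W : Submodule F V} (hW : NonDegOn (polarBilin Q) W) :
    (polarBilin (Q.comp W.subtype)).Nondegenerate := by
  have key : ∀ x : W, (∀ y : W, polarBilin (Q.comp W.subtype) x y = 0) → x = 0 := fun x hx =>
    Subtype.ext (hW x x.2 fun y hy => by simpa [polar] using hx ⟨y, hy⟩)
  exact ⟨key, fun y hy => key y fun x => (polar_symm y x).trans (hy x)⟩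

theorem halfOn_range {W' : Type*} [AddCommGroup W'] [Module F W'] {R : QuadraticForm F W'} {L : W' →ₗ[F] V}
    (hL : Function.Injective L) (h : ∀ x, Q (L x) = R x) : HalfOn Q (LinearMap.range L) ↔ HalfOn R ⊤ := by
  constructor
  · rintro ⟨U, hU, hS, hd⟩
    refine ⟨U.comap L, le_top, fun x hx => (h x).symm.trans (hS _ hx), ?_⟩
    rw [finrank_top, ← LinearMap.finrank_range_of_inj hL]
    refine hd.trans (le_of_eq ?_)
    rw [(Submodule.equivMapOfInjective L hL (U.comap L)).finrank_eq, Submodule.map_comap_eq, inf_eq_right.2 hU]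
  · rintro ⟨U, -, hS, hd⟩
    refine ⟨U.map L, LinearMap.map_le_range, ?_, ?_⟩
    · rintro _ ⟨x, hx, rfl⟩
      exact (h x).trans (hS x hx)
    · rw [← (Submodule.equivMapOfInjective L hL U).finrank_eq, LinearMap.finrank_range_of_inj hL]
      rwa [finrank_top] at hd

theorem halfOn_sub (W : Submodule F V) : HalfOn (Q.comp W.subtype) ⊤ ↔ HalfOn Q W := by
  rw [← halfOn_range (Q := Q) (R := Q.comp W.subtype) W.subtype_injective fun x => rfl, range_subtype]

theorem halfOn_bot : HalfOn Q (⊥ : Submodule F V) :=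
  ⟨⊥, le_rfl, fun v hv => by rw [(mem_bot F).1 hv, QuadraticMap.map_zero], by rw [finrank_bot]⟩

theorem halfOn_plus (l : ℕ) : HalfOn (plusQF l F) ⊤ := by
  obtain ⟨L, hL, hLd⟩ := exists_plus_half F l
  refine ⟨L, le_top, hL, ?_⟩
  rw [finrank_top, Module.finrank_pi, Fintype.card_sum, Fintype.card_fin, hLd, two_mul]

theorem not_halfOn_minus [Finite F] (l : ℕ) {a b : F} (hab : Forms.BinaryAniso a b) : ¬ HalfOn (minusQF l a b) ⊤ := by
  rintro ⟨U, -, hU, hd⟩
  have h := Forms.finrank_le_of_vanishes_quadFormMinus hab U fun u hu => (minusQF_apply l a b u).symm.trans (hU u hu)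
  rw [finrank_top, Module.finrank_pi, Fintype.card_sum, Fintype.card_sum, Fintype.card_fin, Fintype.card_fin] at hd
  omega

variable [FiniteDimensional F V]

theorem nonDegOn_sup_symm {E X : Submodule F V} (hE : NonDegOn (polarBilin Q) E) (hX : NonDegOn (polarBilin Q) X)
    (ho : ∀ x ∈ E, ∀ y ∈ X, polarBilin Q x y = 0) : NonDegOn (polarBilin Q) (E ⊔ X) := by
  intro z hz h
  obtain ⟨x, hx, y, hy, rfl⟩ := mem_sup.1 hz
  have h1 : x = 0 := hE x hx fun x' hx' => by
    have := h x' (mem_sup_left hx')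
    rwa [map_add, LinearMap.add_apply, polar_symm y x', ho x' hx' y hy, add_zero] at this
  subst h1
  rw [zero_add] at h ⊢
  exact hX y hy fun y' hy' => h y' (mem_sup_right hy')

theorem disjoint_of_orth {E X : Submodule F V} (hE : NonDegOn (polarBilin Q) E)
    (ho : ∀ x ∈ E, ∀ y ∈ X, polarBilin Q x y = 0) : Disjoint E X :=
  disjoint_def.2 fun v hv hv' => hE v hv fun y hy => (polar_symm v y).trans (ho y hy v hv')

theorem nonDegOn_of_sup {E X W : Submodule F V} (hW : NonDegOn (polarBilin Q) W) (hsup : E ⊔ X = W)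
    (ho : ∀ x ∈ E, ∀ y ∈ X, polarBilin Q x y = 0) :
    NonDegOn (polarBilin Q) E ∧ NonDegOn (polarBilin Q) X := by
  constructor
  · refine fun x hx h => hW x (hsup ▸ mem_sup_left hx) fun v hv => ?_
    obtain ⟨a, ha, b, hb, rfl⟩ := mem_sup.1 (hsup.symm ▸ hv : v ∈ E ⊔ X)
    rw [map_add, h a ha, ho x hx b hb, add_zero]
  · refine fun x hx h => hW x (hsup ▸ mem_sup_right hx) fun v hv => ?_
    obtain ⟨a, ha, b, hb, rfl⟩ := mem_sup.1 (hsup.symm ▸ hv : v ∈ E ⊔ X)
    rw [map_add, h b hb, polar_symm x a, ho a ha x hx, zero_add]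

theorem halfOn_sup {E X : Submodule F V} (hdis : Disjoint E X) (ho : ∀ x ∈ E, ∀ y ∈ X, polarBilin Q x y = 0)
    (hE : HalfOn Q E) (hX : HalfOn Q X) : HalfOn Q (E ⊔ X) := by
  obtain ⟨U, hU, hUS, hUd⟩ := hE
  obtain ⟨T, hT, hTS, hTd⟩ := hX
  refine ⟨U ⊔ T, sup_le_sup hU hT, singular_sup hUS hTS fun u hu t ht => ho u (hU hu) t (hT ht), ?_⟩
  rw [finrank_eq_add_of_disjoint rfl hdis, finrank_eq_add_of_disjoint rfl (hdis.mono hU hT)]
  omega

/-- In a hyperbolic subspace a summand is hyperbolic if its orthogonal summand is. -/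
theorem halfOn_compl {W C M : Submodule F V} (hW : NonDegOn (polarBilin Q) W) (hWh : HalfOn Q W)
    (hsup : C ⊔ M = W) (ho : ∀ x ∈ C, ∀ y ∈ M, polarBilin Q x y = 0) (hdis : Disjoint C M) (hM : HalfOn Q M) :
    HalfOn Q C := by
  obtain ⟨L, -, hL, hLd⟩ := (halfOn_sub W).2 hWh
  obtain ⟨U, hU, hUS, hUd⟩ := hM
  rw [finrank_top] at hLd
  have hCW : C ≤ W := hsup ▸ le_sup_left
  have hMW : M ≤ W := hsup ▸ le_sup_right
  obtain ⟨E, hE, hES, hEd⟩ := exists_half_compl (Q := Q.comp W.subtype) (sub_nondeg hW)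
    (C := C.comap W.subtype) (M := M.comap W.subtype) (U := U.comap W.subtype)
    (fun a ha b hb => by
      have h : polar Q (a : V) (b : V) = 0 := ho _ ha _ hb
      simpa [polar] using h)
    (eq_top_iff'.2 fun v => by
      obtain ⟨a, ha, b, hb, hab⟩ := mem_sup.1 (hsup.symm ▸ v.2 : (v : V) ∈ C ⊔ M)
      exact mem_sup.2 ⟨⟨a, hCW ha⟩, ha, ⟨b, hMW hb⟩, hb, Subtype.ext hab⟩)
    (disjoint_def.2 fun v hv hv' => Subtype.ext (disjoint_def.1 hdis _ hv hv'))
    hL hLd (comap_mono hU) (fun v hv => hUS _ hv)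
    (by rw [(comapSubtypeEquivOfLe hMW).finrank_eq, (comapSubtypeEquivOfLe (hU.trans hMW)).finrank_eq]; exact hUd)
  refine ⟨E.map W.subtype, ?_, ?_, ?_⟩
  · rintro _ ⟨x, hx, rfl⟩; exact hE hx
  · rintro _ ⟨x, hx, rfl⟩; exact hES x hx
  · rw [← (Submodule.equivMapOfInjective W.subtype W.subtype_injective E).finrank_eq,
      ← (comapSubtypeEquivOfLe hCW).finrank_eq]
    exact hEd

/-- A totally singular subspace paired with a second one spans a hyperbolic subspace. -/
theorem hyp_of_pair {U T : Submodule F V} {s : ℕ} (hUS : ∀ v ∈ U, Q v = 0) (hUd : finrank F U = s)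
    (hTd : finrank F T = s) (hp : ∀ t ∈ T, (∀ u ∈ U, polarBilin Q u t = 0) → t = 0) :
    Hyp Q (2 * s) (U ⊔ T) := by
  have hdis : Disjoint U T := disjoint_def.2 fun v hv hv' => hp v hv' fun u hu => isoOn_of_singular hUS u hu v hv
  have hd : finrank F ↥(U ⊔ T) = 2 * s := by rw [finrank_eq_add_of_disjoint rfl hdis, hUd, hTd, two_mul]
  refine ⟨hd, fun z hz h => ?_, U, le_sup_left, hUS, by rw [hd, hUd]⟩
  obtain ⟨u, hu, t, ht, rfl⟩ := mem_sup.1 hz
  have ht0 : t = 0 := hp t ht fun u' hu' => by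
    have := h u' (mem_sup_left hu')
    rwa [map_add, LinearMap.add_apply, isoOn_of_singular hUS u hu u' hu', zero_add, polar_symm] at this
  subst ht0
  rw [add_zero] at h ⊢
  -- the pairing is perfect
  let φ : T →ₗ[F] Module.Dual F U := ((LinearMap.lcomp F F U.subtype).comp (polarBilin Q).flip).comp T.subtype
  have hφ : Function.Injective φ := (injective_iff_map_eq_zero _).2 fun v hv =>
    Subtype.ext (hp v v.2 fun w hw => LinearMap.congr_fun hv ⟨w, hw⟩)
  have hs : Function.Surjective φ := (LinearMap.injective_iff_surjective_of_finrank_eq_finrank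
    (by rw [Subspace.dual_finrank_eq, hTd, hUd])).1 hφ
  by_contra hu0
  obtain ⟨g, hg⟩ : ∃ g : Module.Dual F U, g ⟨u, hu⟩ ≠ 0 :=
    not_forall.1 fun hall => hu0 (congrArg Subtype.val ((Module.forall_dual_apply_eq_zero_iff F (⟨u, hu⟩ : U)).1 hall))
  obtain ⟨t, rfl⟩ := hs g
  exact hg (h t (mem_sup_right t.2))

/-- A totally singular subspace pairs with a subspace of a nondegenerate one containing it. -/
theorem exists_pairing {W U : Submodule F V} (hW : NonDegOn (polarBilin Q) W) (hUW : U ≤ W) :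
    ∃ T ≤ W, finrank F T = finrank F U ∧ ∀ t ∈ T, (∀ u ∈ U, polarBilin Q u t = 0) → t = 0 := by
  let φ : W →ₗ[F] Module.Dual F U := ((LinearMap.lcomp F F U.subtype).comp (polarBilin Q).flip).comp W.subtype
  obtain ⟨T, hT⟩ := Submodule.exists_isCompl (LinearMap.ker φ)
  have hrange : LinearMap.range φ = ⊤ := by
    refine Submodule.eq_top_of_finrank_eq ?_
    refine le_antisymm (Submodule.finrank_le _) ?_
    by_contra hlt
    have hne : (LinearMap.range φ).dualCoannihilator ≠ ⊥ := fun h => hlt (by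
      have := Subspace.finrank_add_finrank_dualCoannihilator_eq (LinearMap.range φ)
      rw [h, finrank_bot] at this
      rw [Subspace.dual_finrank_eq]
      omega)
    obtain ⟨u, hu, hu0⟩ := exists_mem_ne_zero_of_ne_bot hne
    rw [Submodule.mem_dualCoannihilator] at hu
    exact hu0 (Subtype.ext (hW u (hUW u.2) fun w hw => hu _ ⟨⟨w, hw⟩, rfl⟩))
  refine ⟨T.map W.subtype, map_subtype_le _ _, ?_, ?_⟩
  · have h1 := LinearMap.finrank_range_add_finrank_ker φ
    rw [hrange, finrank_top, Subspace.dual_finrank_eq] at h1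
    have h2 := Submodule.finrank_add_eq_of_isCompl hT
    rw [← (Submodule.equivMapOfInjective W.subtype W.subtype_injective T).finrank_eq]
    omega
  · rintro _ ⟨w, hw, rfl⟩ h
    have : w ∈ LinearMap.ker φ := LinearMap.mem_ker.2 (LinearMap.ext fun u => h u u.2)
    rw [show w = 0 from disjoint_def.1 hT.disjoint w this hw, map_zero]

variable [Fintype F]

/-- Two summands that are not hyperbolic have a hyperbolic sum. -/
theorem halfOn_sup_of_not {E X : Submodule F V} (hE : NonDegOn (polarBilin Q) E) (hX : NonDegOn (polarBilin Q) X)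
    (ho : ∀ x ∈ E, ∀ y ∈ X, polarBilin Q x y = 0) (heE : Even (finrank F E)) (heX : Even (finrank F X))
    (hEh : ¬ HalfOn Q E) (hXh : ¬ HalfOn Q X) : HalfOn Q (E ⊔ X) := by
  have model : ∀ Y : Submodule F V, NonDegOn (polarBilin Q) Y → Even (finrank F Y) → ¬ HalfOn Q Y →
      ∃ (l : ℕ) (a b : F), Forms.BinaryAniso a b ∧
        ∃ e : Y ≃ₗ[F] ((Fin l ⊕ Fin l) ⊕ Fin 2 → F), ∀ v, Q.comp Y.subtype v = Cfsg.quadFormMinus l F a b (e v) := by
    intro Y hY heY hYh
    obtain ⟨l, h⟩ := Forms.exists_finite_witt_decomposition (Q.comp Y.subtype)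
      (Forms.nonsingOn_top_of_nondegenerate (sub_nondeg hY))
    rcases h with ⟨-, e, he⟩ | ⟨hl, -⟩ | ⟨-, a, b, hab, e, he⟩
    · refine absurd ?_ hYh
      rw [← halfOn_sub, ← LinearEquiv.range e.symm, halfOn_range (L := e.symm.toLinearMap) (R := plusQF l F) e.symm.injective]
      · exact halfOn_plus l
      · intro x
        rw [LinearEquiv.coe_coe, he, LinearEquiv.apply_symm_apply, plusQF_apply]
    · obtain ⟨w, hw⟩ := heY
      omega
    · exact ⟨l, a, b, hab, e, he⟩
  obtain ⟨k, a, b, hab, eE, heEq⟩ := model E hE heE hEh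
  obtain ⟨j, a', b', hab', eX, heXq⟩ := model X hX heX hXh
  obtain ⟨J, hJ⟩ := PrimeSO.exists_minus_minus (Q.comp E.subtype) (sub_nondeg hE) (j := j) hab hab' eE heEq
  let L : (Fin (k + j + 2) ⊕ Fin (k + j + 2) → F) →ₗ[F] V :=
    ((E.subtype.coprod X.subtype).comp ((LinearEquiv.refl F E).prodCongr eX.symm).toLinearMap).comp J.symm.toLinearMap
  have hr : LinearMap.range L = E ⊔ X := by
    rw [LinearMap.range_comp_of_range_eq_top _ (LinearEquiv.range _),
      LinearMap.range_comp_of_range_eq_top _ (LinearEquiv.range _), LinearMap.range_coprod, range_subtype, range_subtype]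
  have hinj : Function.Injective (E.subtype.coprod X.subtype) := (injective_iff_map_eq_zero _).2 fun x hx => by
    simp only [LinearMap.coprod_apply, Submodule.subtype_apply] at hx
    have h1 : (x.1 : V) = 0 := disjoint_def.1 (disjoint_of_orth hE ho) _ x.1.2 (by
      rw [eq_neg_of_add_eq_zero_left hx]; exact X.neg_mem x.2.2)
    rw [h1, zero_add] at hx
    exact Prod.ext (Subtype.ext h1) (Subtype.ext hx)
  rw [← hr, halfOn_range (R := plusQF (k + j + 2) F) (hinj.comp
    (((LinearEquiv.refl F E).prodCongr eX.symm).injective.comp J.symm.injective))]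
  · exact halfOn_plus _
  · intro v
    obtain ⟨⟨x, y⟩, rfl⟩ := J.surjective v
    have hp : polar Q (x : V) (eX.symm y : V) = 0 := ho _ x.2 _ (eX.symm y).2
    have hy := heXq (eX.symm y)
    rw [LinearEquiv.apply_symm_apply] at hy
    simp only [QuadraticMap.comp_apply, Submodule.subtype_apply] at hy
    rw [plusQF_apply, hJ]
    simp only [L, LinearMap.comp_apply, LinearEquiv.coe_coe, LinearEquiv.symm_apply_apply, LinearEquiv.prodCongr_apply,
      LinearEquiv.refl_apply, LinearMap.coprod_apply, Submodule.subtype_apply, QuadraticMap.comp_apply]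
    rw [QuadraticMap.map_add Q, hp, add_zero, hy]

/-- Nondegenerate subspaces of either type below the dimension. -/
theorem exists_sub_typed {C : Submodule F V} (hC : NonDegOn (polarBilin Q) C) (hCe : Even (finrank F C)) {e : ℕ}
    (he : Even e) (he0 : 0 < e) (heC : e < finrank F C) (P : Prop) :
    ∃ U ≤ C, NonDegOn (polarBilin Q) U ∧ finrank F U = e ∧ (HalfOn Q U ↔ P) := by
  classical
  obtain ⟨s, hs⟩ := he
  have embed : ∀ {W' : Type _} [AddCommGroup W'] [Module F W'] [FiniteDimensional F W'] (R : QuadraticForm F W'),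
      (polarBilin R).Nondegenerate → finrank F W' = e → (HalfOn R ⊤ ↔ P) →
      ∀ L : W' →ₗ[F] C, Function.Injective L → (∀ x, Q (L x) = R x) →
      ∃ U ≤ C, NonDegOn (polarBilin Q) U ∧ finrank F U = e ∧ (HalfOn Q U ↔ P) := by
    intro W' _ _ _ R hR hd hP L hL hLR
    have hinj : Function.Injective (C.subtype.comp L) := C.subtype_injective.comp hL
    refine ⟨LinearMap.range (C.subtype.comp L), ?_, ?_, by rw [LinearMap.finrank_range_of_inj hinj, hd], ?_⟩
    · rintro _ ⟨x, rfl⟩; exact (L x).2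
    · rintro _ ⟨x, rfl⟩ h
      rw [hR.1 x fun y => ?_, map_zero]
      have := h _ ⟨y, rfl⟩
      simpa [polar, ← hLR] using this
    · rw [halfOn_range (R := R) hinj fun x => hLR x, hP]
  obtain ⟨l, hdec⟩ := Forms.exists_finite_witt_decomposition (Q.comp C.subtype)
    (Forms.nonsingOn_top_of_nondegenerate (sub_nondeg hC))
  obtain ⟨w, hw⟩ := hCe
  rcases hdec with ⟨hl, E, hE⟩ | ⟨hl, -⟩ | ⟨hl, a, b, hab, E, hE⟩
  · have hQE : ∀ x, Q (E.symm x : V) = Cfsg.quadFormPlus l F x := fun x => by
      have := hE (E.symm x); rwa [LinearEquiv.apply_symm_apply] at this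
    by_cases hP : P
    · obtain ⟨t, rfl⟩ : ∃ t, l = s + t := ⟨l - s, by omega⟩
      refine embed (plusQF s F) (PrimeSO.plusQF_polar_nondegenerate s)
        (by rw [Module.finrank_pi, Fintype.card_sum, Fintype.card_fin]; omega) (iff_of_true (halfOn_plus s) hP)
        (E.symm.toLinearMap.comp ((PrimeSO.plusJoin s t).toLinearMap.comp (LinearMap.inl F _ _))) ?_ fun x => ?_
      · exact E.symm.injective.comp ((PrimeSO.plusJoin s t).injective.comp LinearMap.inl_injective)
      · change Q (E.symm (PrimeSO.plusJoin s t (x, 0)) : V) = plusQF s F x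
        rw [hQE, PrimeSO.plusJoin_spec, plusQF_apply]
        simp [Cfsg.quadFormPlus]
    · obtain ⟨s, rfl⟩ : ∃ u, s = u + 1 := ⟨s - 1, by omega⟩
      obtain ⟨t, rfl⟩ : ∃ t, l = s + t + 2 := ⟨l - s - 2, by omega⟩
      obtain ⟨a, b, hab⟩ := Forms.exists_binaryAniso (F := F)
      obtain ⟨J, hJ⟩ := PrimeSO.exists_minus_minus (minusQF s a b) (PrimeSO.minusQF_polar_nondegenerate s hab) (j := t)
        hab hab (LinearEquiv.refl F _) (minusQF_apply s a b)
      refine embed (minusQF s a b) (PrimeSO.minusQF_polar_nondegenerate s hab)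
        (by rw [Module.finrank_pi, Fintype.card_sum, Fintype.card_sum, Fintype.card_fin, Fintype.card_fin]; omega)
        (iff_of_false (not_halfOn_minus s hab) hP) (E.symm.toLinearMap.comp (J.toLinearMap.comp (LinearMap.inl F _ _))) ?_
        fun x => ?_
      · exact E.symm.injective.comp (J.injective.comp LinearMap.inl_injective)
      · simp [hQE, hJ, Cfsg.quadFormMinus]
  · omega
  · have hQE : ∀ x, Q (E.symm x : V) = Cfsg.quadFormMinus l F a b x := fun x => by
      have := hE (E.symm x); rwa [LinearEquiv.apply_symm_apply] at this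
    by_cases hP : P
    · obtain ⟨t, rfl⟩ : ∃ t, l = s + t := ⟨l - s, by omega⟩
      refine embed (plusQF s F) (PrimeSO.plusQF_polar_nondegenerate s)
        (by rw [Module.finrank_pi, Fintype.card_sum, Fintype.card_fin]; omega) (iff_of_true (halfOn_plus s) hP)
        (E.symm.toLinearMap.comp ((PrimeSO.minusJoin s t).toLinearMap.comp (LinearMap.inl F _ _))) ?_ fun x => ?_
      · exact E.symm.injective.comp ((PrimeSO.minusJoin s t).injective.comp LinearMap.inl_injective)
      · change Q (E.symm (PrimeSO.minusJoin s t (x, 0)) : V) = plusQF s F x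
        rw [hQE, PrimeSO.minusJoin_spec, plusQF_apply]
        simp [Cfsg.quadFormMinus]
    · obtain ⟨s, rfl⟩ : ∃ u, s = u + 1 := ⟨s - 1, by omega⟩
      obtain ⟨t, rfl⟩ : ∃ t, l = t + s := ⟨l - s, by omega⟩
      refine embed (minusQF s a b) (PrimeSO.minusQF_polar_nondegenerate s hab)
        (by rw [Module.finrank_pi, Fintype.card_sum, Fintype.card_sum, Fintype.card_fin, Fintype.card_fin]; omega)
        (iff_of_false (not_halfOn_minus s hab) hP)
        (E.symm.toLinearMap.comp ((PrimeSO.minusJoin t s).toLinearMap.comp (LinearMap.inr F _ _))) ?_ fun x => ?_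
      · exact E.symm.injective.comp ((PrimeSO.minusJoin t s).injective.comp LinearMap.inr_injective)
      · change Q (E.symm (PrimeSO.minusJoin t s (0, x)) : V) = minusQF s a b x
        rw [hQE, PrimeSO.minusJoin_spec, minusQF_apply]
        simp [Cfsg.quadFormPlus]

end Cfsg.Agent.Elusive.OrthTS
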