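import Cfsg.Agent.Elusive.OrthMoving
import Cfsg.Agent.Forms.Orthogonal
import Mathlib.NumberTheory.LegendreSymbol.QuadraticChar.Basic

/-!
Involutions in `Ω` and their invariant totally singular subspaces.
-/

set_option autoImplicit false

namespace Cfsg.Agent.Elusive.OrthTS

open QuadraticMap Submodule Module Cfsg.Agent.Classical

variable {F : Type*} [Field F] {V : Type*} [AddCommGroup V] [Module F V] [FiniteDimensional F V]
  {Q : QuadraticForm F V} {f : Module.End F V}

theorem mem_ker_add_one {v : V} : v ∈ LinearMap.ker (f + 1) ↔ f v = -v := by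
  rw [LinearMap.mem_ker, LinearMap.add_apply, Module.End.one_apply, add_eq_zero_iff_eq_neg]

/-- The eigenspaces of an isometric involution. -/
theorem invol_split (h2 : (2 : F) ≠ 0) (hQ : (polarBilin Q).Nondegenerate) (hfQ : ∀ v, Q (f v) = Q v)
    (hf : ∀ v, f (f v) = v) :
    (∀ u ∈ LinearMap.ker (f - 1), ∀ v ∈ LinearMap.ker (f + 1), polarBilin Q u v = 0) ∧
      NonDegOn (polarBilin Q) (LinearMap.ker (f - 1)) ∧ NonDegOn (polarBilin Q) (LinearMap.ker (f + 1)) ∧
      LinearMap.ker (f - 1) ⊔ LinearMap.ker (f + 1) = ⊤ ∧ Disjoint (LinearMap.ker (f - 1)) (LinearMap.ker (f + 1)) ∧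
      finrank F (LinearMap.ker (f - 1)) + finrank F (LinearMap.ker (f + 1)) = finrank F V := by
  set C := LinearMap.ker (f - 1)
  set C' := LinearMap.ker (f + 1)
  have ho : ∀ u ∈ C, ∀ v ∈ C', polarBilin Q u v = 0 := fun u hu v hv => by
    have h : (2 : F) * polarBilin Q u v = 0 := by
      rw [two_mul]
      nth_rewrite 1 [← polar_map hfQ]
      rw [mem_ker_sub_one.1 hu, mem_ker_add_one.1 hv, map_neg, neg_add_cancel]
    exact (mul_eq_zero.1 h).resolve_left h2
  have hsup : C ⊔ C' = ⊤ := eq_top_iff'.2 fun v => by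
    have h1 : v + f v ∈ C := mem_ker_sub_one.2 (by rw [map_add, hf, add_comm])
    have h1' : v - f v ∈ C' := mem_ker_add_one.2 (by rw [map_sub, hf, neg_sub])
    have : v = (2 : F)⁻¹ • (v + f v) + (2 : F)⁻¹ • (v - f v) := by
      rw [← smul_add, show v + f v + (v - f v) = (2 : F) • v by rw [two_smul]; abel, smul_smul, inv_mul_cancel₀ h2,
        one_smul]
    rw [this]
    exact add_mem (mem_sup_left (C.smul_mem _ h1)) (mem_sup_right (C'.smul_mem _ h1'))
  have hdis : Disjoint C C' := disjoint_def.2 fun v hv hv' => by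
    have h : (2 : F) • v = 0 := by
      rw [two_smul]; nth_rewrite 1 [← mem_ker_sub_one.1 hv]; rw [mem_ker_add_one.1 hv', neg_add_cancel]
    exact (smul_eq_zero.1 h).resolve_left h2
  refine ⟨ho, fun u hu h => hQ.1 u fun v => ?_, fun u hu h => hQ.1 u fun v => ?_, hsup, hdis, ?_⟩
  · obtain ⟨a, ha, b, hb, rfl⟩ := mem_sup.1 (hsup ▸ mem_top : v ∈ C ⊔ C')
    rw [map_add, h a ha, ho u hu b hb, add_zero]
  · obtain ⟨a, ha, b, hb, rfl⟩ := mem_sup.1 (hsup ▸ mem_top : v ∈ C ⊔ C')
    rw [map_add, h b hb, polar_symm u a, ho a ha u hu, zero_add]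
  · rw [← finrank_eq_add_of_disjoint hsup hdis, finrank_top]

/-- For an involution in the commutator subgroup the negated space is of even dimension and square discriminant. -/
theorem exists_neg_family [Fintype F] (h2 : (2 : F) ≠ 0) (hQ : (polarBilin Q).Nondegenerate)
    (hne : OrthGen.NotExceptional Q) (g : OQ Q) (hg : g ∈ commutator (OQ Q)) (hf : ∀ v, g.1 (g.1 v) = v) :
    ∃ n, finrank F (LinearMap.ker ((g.1 : V ≃ₗ[F] V).toLinearMap + 1)) = 2 * n ∧
      ∃ c : Fin (2 * n) → V, (∀ k, c k ∈ LinearMap.ker ((g.1 : V ≃ₗ[F] V).toLinearMap + 1)) ∧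
        (∀ k l, k ≠ l → polarBilin Q (c k) (c l) = 0) ∧ (∀ k, polarBilin Q (c k) (c k) = 1) := by
  classical
  have : Finite V := Module.finite_of_finite F
  set f : Module.End F V := (g.1 : V ≃ₗ[F] V).toLinearMap
  obtain ⟨ho, -, hN', hsup, -, -⟩ := invol_split (f := f) h2 hQ g.2 hf
  obtain ⟨b, hb⟩ : ∃ b, finrank F (LinearMap.ker (f + 1)) = b := ⟨_, rfl⟩
  rcases b with _ | n
  · exact ⟨0, by rw [hb], fun k => absurd k.2 (by omega), fun k => absurd k.2 (by omega),
      fun k => absurd k.2 (by omega), fun k => absurd k.2 (by omega)⟩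
  obtain ⟨α, hα⟩ := FiniteField.exists_nonsquare (F := F) (fun h => h2 (by
    have := ringChar.spec F 2; rw [h] at this; exact_mod_cast this.2 dvd_rfl))
  have hα0 : α ≠ 0 := fun h => hα (h ▸ IsSquare.zero)
  obtain ⟨c, hcmem, hco, hc1, hclast⟩ := Forms.exists_orthogonal_family_symm h2 (polarBilin Q)
    ⟨fun x y => polar_symm x y⟩ hα n (LinearMap.ker (f + 1)) hN' hb
  have hne0 : ∀ k, polarBilin Q (c k) (c k) ≠ 0 := fun k => by
    by_cases hk : k = Fin.last n
    · subst hk; rcases hclast with h | h <;> simp only [h, ne_eq, one_ne_zero, not_false_iff, hα0]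
    · simp only [hc1 k hk, ne_eq, one_ne_zero, not_false_iff]
  have hQc : ∀ k, polarBilin Q (c k) (c k) = 2 * Q (c k) := fun k => by
    simp [polar_self]
  have hQ0 : ∀ k, Q (c k) ≠ 0 := fun k h => hne0 k (by rw [hQc, h, mul_zero])
  obtain ⟨g', hg', hiff⟩ := Forms.exists_orthProd hQ.1 hne c hQ0 fun k l hkl => hco k l hkl
  have hspan : span F (Set.range c) = LinearMap.ker (f + 1) := by
    refine eq_of_le_of_finrank_le (span_le.2 ?_) ?_
    · rintro _ ⟨k, rfl⟩; exact hcmem k
    · rw [finrank_span_eq_card (Forms.linearIndependent_of_orthogonal _ hco hne0), Fintype.card_fin, hb]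
  have hgg : g' = g := by
    refine Subtype.ext (LinearEquiv.ext fun v => ?_)
    obtain ⟨x, hx, y, hy, rfl⟩ := mem_sup.1 (hsup ▸ mem_top : v ∈ LinearMap.ker (f - 1) ⊔ LinearMap.ker (f + 1))
    rw [map_add, map_add]
    congr 1
    · rw [hg', Finset.sum_eq_zero fun k _ => by
        rw [show polar Q (c k) x = 0 from (polar_comm _ _ _).trans (ho x hx (c k) (hcmem k)), mul_zero, zero_smul],
        sub_zero]
      exact (mem_ker_sub_one.1 hx).symm
    · have hy' : g.1 y = -y := mem_ker_add_one.1 hy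
      rw [hg', hy']
      rw [← hspan] at hy
      obtain ⟨a, rfl⟩ := (mem_span_range_iff_exists_fun F).1 hy
      have : ∀ k, (Q (c k))⁻¹ * polar Q (c k) (∑ l, a l • c l) = 2 * a k := fun k => by
        show _ * polarBilin Q (c k) _ = _
        rw [map_sum, Finset.sum_eq_single k (fun l _ hl => by rw [map_smul, hco k l (Ne.symm hl), smul_zero])
          (fun h => absurd (Finset.mem_univ _) h), map_smul, hQc, smul_eq_mul]
        field_simp [hQ0 k]
      simp only [this, mul_smul]
      rw [← Finset.smul_sum, two_smul]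
      abel
  obtain ⟨⟨w, hw⟩, hsq⟩ := hiff.1 (hgg ▸ hg)
  rw [Fintype.card_fin] at hw
  have hlast : polarBilin Q (c (Fin.last n)) (c (Fin.last n)) = 1 := by
    refine hclast.resolve_right fun h => hα ?_
    obtain ⟨s, hs⟩ := hsq
    have hP : ∏ k, polarBilin Q (c k) (c k) = α := by
      rw [Finset.prod_eq_single (Fin.last n) (fun k _ hk => hc1 k hk) (fun h' => absurd (Finset.mem_univ _) h'), h]
    rw [Finset.prod_congr rfl fun k _ => hQc k, Finset.prod_mul_distrib, Finset.prod_const, Finset.card_univ,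
      Fintype.card_fin, hs, hw] at hP
    exact ⟨2 ^ w * s, by rw [← hP]; ring⟩
  refine ⟨w, by rw [hb]; omega, fun k => c (Fin.cast (by omega) k), fun k => hcmem _,
    fun k l hkl => hco _ _ fun h => hkl (Fin.ext (by simpa [Fin.ext_iff] using h)), fun k => ?_⟩
  by_cases hk : Fin.cast (show 2 * w = n + 1 by omega) k = Fin.last n
  · show polarBilin Q (c _) (c _) = 1
    rw [hk]; exact hlast
  · exact hc1 _ hk

/-- An orthonormal family of even length spans a space with a totally singular half when `-1` is a square. -/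
theorem exists_half (h2 : (2 : F) ≠ 0) {ω : F} (hω : ω * ω = -1) {n : ℕ} (c : Fin (2 * n) → V)
    (hco : ∀ k l, k ≠ l → polarBilin Q (c k) (c l) = 0) (hc : ∀ k, polarBilin Q (c k) (c k) = 1) :
    ∃ X ≤ span F (Set.range c), (∀ x ∈ X, Q x = 0) ∧ finrank F X = n := by
  classical
  let e₀ : Fin n → Fin (2 * n) := fun k => ⟨2 * (k : ℕ), by omega⟩
  let e₁ : Fin n → Fin (2 * n) := fun k => ⟨2 * (k : ℕ) + 1, by omega⟩
  let w : Fin n → V := fun k => c (e₀ k) + ω • c (e₁ k)
  have hB : ∀ k l, polarBilin Q (c k) (c l) = if k = l then 1 else 0 := fun k l => by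
    split_ifs with h
    · subst h; exact hc k
    · exact hco k l h
  have hne : ∀ k k', e₀ k ≠ e₁ k' := fun k k' h => by
    have := congrArg Fin.val h; simp only [e₀, e₁] at this; omega
  have hei : ∀ k k', e₀ k = e₀ k' ↔ k = k' := fun k k' => by simp [e₀, Fin.ext_iff]
  have hei' : ∀ k k', e₁ k = e₁ k' ↔ k = k' := fun k k' => by simp [e₁, Fin.ext_iff]
  have hww : ∀ k l, polarBilin Q (w k) (w l) = 0 := fun k l => by
    simp only [w, map_add, map_smul, LinearMap.add_apply, LinearMap.smul_apply, hB, hei, hei', if_neg (hne _ _),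
      if_neg (Ne.symm (hne _ _)), smul_eq_mul]
    split_ifs <;> first | ring1 | linear_combination hω
  have hwQ : ∀ k, Q (w k) = 0 := fun k => by
    have h := hww k k
    simp [polar_self] at h
    exact h.resolve_left h2
  have hli : LinearIndependent F w := Fintype.linearIndependent_iff.2 fun a ha k => by
    have := congrArg (polarBilin Q (c (e₀ k))) ha
    simp only [w, map_sum, map_smul, map_add, hB, hei, if_neg (hne _ _), smul_eq_mul, mul_zero, add_zero, map_zero,
      mul_ite, mul_one, Finset.sum_ite_eq, Finset.mem_univ, if_true] at this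
    exact this
  refine ⟨span F (Set.range w), span_le.2 ?_, fun x hx => ?_, by rw [finrank_span_eq_card hli, Fintype.card_fin]⟩
  · rintro _ ⟨k, rfl⟩
    exact add_mem (subset_span ⟨_, rfl⟩) (Submodule.smul_mem _ _ (subset_span ⟨_, rfl⟩))
  · obtain ⟨a, rfl⟩ := (mem_span_range_iff_exists_fun F).1 hx
    have key : ∀ s : Finset (Fin n), Q (∑ k ∈ s, a k • w k) = 0 := fun s => by
      induction s using Finset.induction with
      | empty => simp
      | insert k s hk ih =>
        have h0 : polar Q (a k • w k) (∑ l ∈ s, a l • w l) = 0 := by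
          show polarBilin Q _ _ = 0
          rw [map_smul, LinearMap.smul_apply, map_sum, Finset.sum_eq_zero fun l _ => by rw [map_smul, hww, smul_zero],
            smul_zero]
        rw [Finset.sum_insert hk, QuadraticMap.map_add Q, QuadraticMap.map_smul, hwQ, ih, h0]
        simp
    exact key Finset.univ

end Cfsg.Agent.Elusive.OrthTS
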