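import Cfsg.Agent.Elusive.OrthPlus
import Cfsg.Agent.Elusive.OrthInvol

/-!
Elements of order two of `PΩ⁺` fixing totally singular subspaces.
-/

set_option autoImplicit false

namespace Cfsg.Agent.Elusive.OrthTS

open QuadraticMap Submodule Module Cfsg.Agent.Classical
open scoped Matrix MatrixGroups commutatorElement

variable {F : Type*} [Field F] {d m : ℕ}

/-- Square minus one: no invariant subspace of odd dimension when `-1` is not a square. -/
theorem even_finrank_of_sq_neg {V : Type*} [AddCommGroup V] [Module F V] (hsq : ¬ IsSquare (-1 : F))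
    {f : Module.End F V} (hf : ∀ v, f (f v) = -v) {W : Submodule F V} [FiniteDimensional F W]
    (hW : ∀ v ∈ W, f v ∈ W) : Even (Module.finrank F W) := by
  by_contra h
  refine hsq ⟨LinearMap.det (f.restrict hW), ?_⟩
  have h2 : (f.restrict hW).comp (f.restrict hW) = (-1 : F) • LinearMap.id := LinearMap.ext fun v => Subtype.ext (by
    simp [hf])
  rw [← LinearMap.det_comp, h2, LinearMap.det_smul, LinearMap.det_id, mul_one,
    (Nat.not_even_iff_odd.1 h).neg_one_pow]

section complex

variable {V : Type*} [AddCommGroup V] [Module F V] [FiniteDimensional F V] {Q : QuadraticForm F V}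
  {f : Module.End F V}

/-- An invariant totally singular subspace that is not maximal grows by a complex line. -/
theorem exists_grow (h2 : (2 : F) ≠ 0) (hsq : ¬ IsSquare (-1 : F)) (hQ : (polarBilin Q).Nondegenerate)
    (hfQ : ∀ v, Q (f v) = Q v) (hf : ∀ v, f (f v) = -v) {W L₀ : Submodule F V} (hW : ∀ v ∈ W, f v ∈ W)
    (hWS : ∀ v ∈ W, Q v = 0) (hL₀ : ∀ v ∈ L₀, Q v = 0) (hlt : finrank F W < finrank F L₀) :
    ∃ W' : Submodule F V, (∀ v ∈ W', f v ∈ W') ∧ (∀ v ∈ W', Q v = 0) ∧ finrank F W' = finrank F W + 2 := by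
  obtain ⟨L, hWL, hL, hLd⟩ := exists_singular_ge hQ hWS hL₀
  obtain ⟨v, hvL, hvW⟩ : ∃ v ∈ L, v ∉ W := by
    by_contra hcon
    push Not at hcon
    have := Submodule.finrank_mono (fun v hv => hcon v hv : L ≤ W)
    omega
  have hfv : v ∈ L → polarBilin Q v (f v) = 0 := fun _ => by
    have h : (2 : F) * polarBilin Q v (f v) = 0 := by
      rw [two_mul]
      nth_rewrite 1 [← polar_map hfQ]
      rw [hf, map_neg, polar_symm (f v) v, neg_add_cancel]
    exact (mul_eq_zero.1 h).resolve_left h2
  have hvo : ∀ w ∈ W, polarBilin Q w v = 0 ∧ polarBilin Q w (f v) = 0 := fun w hw => by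
    refine ⟨isoOn_of_singular hL w (hWL hw) v hvL, ?_⟩
    rw [← polar_map hfQ, hf, map_neg, isoOn_of_singular hL (f w) (hWL (hW w hw)) v hvL, neg_zero]
  have hne : ∀ a b : F, a • v + b • f v ∈ W → a = 0 ∧ b = 0 := by
    intro a b hab
    have h1 := hW _ hab
    rw [map_add, map_smul, map_smul, hf, smul_neg] at h1
    have h2' : (a * a + b * b) • v ∈ W := by
      have := sub_mem (W.smul_mem a hab) (W.smul_mem b h1)
      rwa [show a • (a • v + b • f v) - b • (a • f v + -(b • v)) = (a * a + b * b) • v by module] at this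
    have hab0 : a * a + b * b = 0 := by
      by_contra hne
      exact hvW (by simpa [smul_smul, inv_mul_cancel₀ hne] using W.smul_mem (a * a + b * b)⁻¹ h2')
    by_cases hb : b = 0
    · rw [hb, mul_zero, add_zero, mul_self_eq_zero] at hab0
      exact ⟨hab0, hb⟩
    · exact absurd ⟨a / b, by field_simp; linear_combination -hab0⟩ hsq
  have hli : LinearIndependent F ![v, f v] := LinearIndependent.pair_iff.2 fun a b h => hne a b (h ▸ W.zero_mem)
  refine ⟨W ⊔ span F {v, f v}, fun x hx => ?_, ?_, ?_⟩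
  · obtain ⟨w, hw, y, hy, rfl⟩ := mem_sup.1 hx
    obtain ⟨a, b, rfl⟩ := mem_span_pair.1 hy
    rw [map_add, map_add, map_smul, map_smul, hf]
    exact add_mem (mem_sup_left (hW w hw)) (mem_sup_right (mem_span_pair.2 ⟨-b, a, by module⟩))
  · refine singular_sup hWS (fun y hy => ?_) fun w hw y hy => ?_
    · obtain ⟨a, b, rfl⟩ := mem_span_pair.1 hy
      have hp : polar Q v (f v) = 0 := hfv hvL
      rw [QuadraticMap.map_add Q, QuadraticMap.map_smul, QuadraticMap.map_smul, polar_smul_left, polar_smul_right, hp,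
        hfQ, hL v hvL]
      simp
    · obtain ⟨a, b, rfl⟩ := mem_span_pair.1 hy
      rw [map_add, map_smul, map_smul, (hvo w hw).1, (hvo w hw).2, smul_zero, smul_zero, add_zero]
  · rw [finrank_eq_add_of_disjoint rfl (disjoint_def.2 fun x hx hx' => by
      obtain ⟨a, b, rfl⟩ := mem_span_pair.1 hx'
      obtain ⟨ha, hb⟩ := hne a b hx
      rw [ha, hb, zero_smul, zero_smul, add_zero])]
    have := finrank_span_eq_card hli
    rw [Matrix.range_cons_cons_empty, Fintype.card_fin] at this
    omega

/-- Invariant totally singular subspaces of every even dimension up to the Witt index. -/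
theorem exists_complex_singular (h2 : (2 : F) ≠ 0) (hsq : ¬ IsSquare (-1 : F)) (hQ : (polarBilin Q).Nondegenerate)
    (hfQ : ∀ v, Q (f v) = Q v) (hf : ∀ v, f (f v) = -v) {L₀ : Submodule F V} (hL₀ : ∀ v ∈ L₀, Q v = 0) :
    ∀ k, 2 * k ≤ finrank F L₀ + 1 →
      ∃ W : Submodule F V, (∀ v ∈ W, f v ∈ W) ∧ (∀ v ∈ W, Q v = 0) ∧ finrank F W = 2 * k := by
  intro k
  induction k with
  | zero => exact fun _ => ⟨⊥, fun v hv => by rw [(mem_bot F).1 hv, map_zero]; exact zero_mem _,
      fun v hv => by rw [(mem_bot F).1 hv, QuadraticMap.map_zero], finrank_bot F V⟩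
  | succ k ih =>
    intro hk
    obtain ⟨W, hW, hWS, hWd⟩ := ih (by omega)
    obtain ⟨W', h1, h2', h3⟩ := exists_grow h2 hsq hQ hfQ hf hW hWS hL₀ (by omega)
    exact ⟨W', h1, h2', by omega⟩

end complex

variable [Fintype F]

omit [Fintype F] in
/-- An element of `Ω⁺` squaring to `-1`, in rank `2 w`. -/
theorem exists_sq_neg_one (h2 : (2 : F) ≠ 0) (w : ℕ) :
    ∃ g : OQ (plusQF (w + w) F), g ∈ commutator (OQ (plusQF (w + w) F)) ∧ ∀ v, g.1 (g.1 v) = -v := by
  classical
  let D : Matrix (Fin 2) (Fin 2) F →+* Matrix (Fin (w + w)) (Fin (w + w)) F :=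
    ((Matrix.reindexAlgEquiv F F (finProdFinEquiv.trans (finCongr (two_mul w)))).toRingEquiv.toRingHom).comp
      ((Matrix.blockDiagonalRingHom (Fin 2) (Fin w) F).comp (RingHom.pi fun _ => RingHom.id _))
  have key : ∀ (a b : F), a * b = 1 → ∃ G : GL (Fin 2) F, (G : Matrix (Fin 2) (Fin 2) F) = !![a, 0; 1 / 2, 1] := fun a b hab =>
    ⟨⟨!![a, 0; 1 / 2, 1], !![b, 0; -(1 / 2) * b, 1], by
      rw [Matrix.mul_fin_two, Matrix.one_fin_two]; simp [hab], by
      rw [Matrix.mul_fin_two, Matrix.one_fin_two]; ext i j; fin_cases i <;> fin_cases j <;> simp [mul_comm b a, hab]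
      linear_combination -(1 / 2 : F) * hab⟩, rfl⟩
  obtain ⟨G, hG⟩ := key (-1 / 2) (-2) (by field_simp)
  let H : GL (Fin 2) F := ⟨!![1, 2; 0, 1], !![1, -2; 0, 1], by rw [Matrix.mul_fin_two, Matrix.one_fin_two]; simp,
    by rw [Matrix.mul_fin_two, Matrix.one_fin_two]; simp⟩
  let R : GL (Fin 2) F := ⟨!![0, -1; 1, 0], !![0, 1; -1, 0], by rw [Matrix.mul_fin_two, Matrix.one_fin_two]; simp,
    by rw [Matrix.mul_fin_two, Matrix.one_fin_two]; simp⟩
  have hR : R = ⁅G, H⁆ := by
    rw [commutatorElement_def, eq_mul_inv_iff_mul_eq, eq_mul_inv_iff_mul_eq]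
    refine Units.ext ?_
    rw [Units.val_mul, Units.val_mul, Units.val_mul, hG]
    show !![(0 : F), -1; 1, 0] * !![1, 2; 0, 1] * !![-1 / 2, 0; 1 / 2, 1] = !![-1 / 2, 0; 1 / 2, 1] * !![1, 2; 0, 1]
    rw [Matrix.mul_fin_two, Matrix.mul_fin_two, Matrix.mul_fin_two]
    ext i j
    fin_cases i <;> fin_cases j <;> simp <;> field_simp <;> ring
  let U := Units.map (D : Matrix (Fin 2) (Fin 2) F →* Matrix (Fin (w + w)) (Fin (w + w)) F)
  refine ⟨Forms.levi (U R), ?_, fun v => ?_⟩
  · rw [hR, map_commutatorElement, map_commutatorElement]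
    exact Subgroup.commutator_mem_commutator (Subgroup.mem_top _) (Subgroup.mem_top _)
  · have hneg : ∀ K : GL (Fin 2) F, (K : Matrix (Fin 2) (Fin 2) F) = -1 → (U K : Matrix (Fin (w + w)) (Fin (w + w)) F) = -1 :=
      fun K hK => by show D (K : Matrix (Fin 2) (Fin 2) F) = -1; rw [hK, map_neg, map_one]
    have h1 : ((R * R : GL (Fin 2) F) : Matrix (Fin 2) (Fin 2) F) = -1 := by
      show !![(0 : F), -1; 1, 0] * !![0, -1; 1, 0] = -1
      rw [Matrix.mul_fin_two, Matrix.one_fin_two]; simp
    have h1' : (((R * R)⁻¹ : GL (Fin 2) F) : Matrix (Fin 2) (Fin 2) F) = -1 := by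
      rw [_root_.mul_inv_rev]
      show !![(0 : F), 1; -1, 0] * !![0, 1; -1, 0] = -1
      rw [Matrix.mul_fin_two, Matrix.one_fin_two]; simp
    rw [← LinearEquiv.mul_apply, ← Subgroup.coe_mul, ← map_mul, ← map_mul, Forms.levi_apply, Forms.leviMat_mulVec,
      hneg _ h1, ← map_inv, hneg _ h1', Matrix.transpose_neg, Matrix.transpose_one, Matrix.neg_mulVec, Matrix.neg_mulVec,
      Matrix.one_mulVec, Matrix.one_mulVec]
    funext z
    rcases z with z | z <;> rfl

/-- The criterion for involutions of `PΩ⁺`. -/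
theorem two_iff_plus (hodd : Odd (Fintype.card F)) (hd : 4 ≤ d) (hmd : m < d) :
    (∀ x : GL (Fin d ⊕ Fin d) F, x ∈ Cfsg.Geo.omegaGL (Cfsg.quadFormPlus d F) →
      (∃ z : F, ((x ^ 2 : GL (Fin d ⊕ Fin d) F) : Matrix (Fin d ⊕ Fin d) (Fin d ⊕ Fin d) F) = z • (1 : Matrix (Fin d ⊕ Fin d) (Fin d ⊕ Fin d) F)) →
      (∀ z : F, (x : Matrix (Fin d ⊕ Fin d) (Fin d ⊕ Fin d) F) ≠ z • (1 : Matrix (Fin d ⊕ Fin d) (Fin d ⊕ Fin d) F)) →
      ∃ W : Submodule F (Fin d ⊕ Fin d → F), finrank F ↥W = m ∧ (∀ w ∈ W, Cfsg.quadFormPlus d F w = 0) ∧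
        W.map (Matrix.toLin' (x : Matrix (Fin d ⊕ Fin d) (Fin d ⊕ Fin d) F)) ≤ W) ↔
    (Fintype.card F % 4 = 1 ∨ (Fintype.card F % 4 = 3 ∧ m + 2 ≤ d ∧ (Even m ∨ Odd d))) := by
  classical
  have h2 : (2 : F) ≠ 0 := two_ne_zero_of_odd (by rw [Nat.card_eq_fintype_card]; exact hodd)
  have hQf : ⇑(plusQF d F) = Cfsg.quadFormPlus d F := funext (plusQF_apply d)
  have hQ := PrimeSO.plusQF_polar_nondegenerate (F := F) d
  have hV : finrank F (Fin d ⊕ Fin d → F) = 2 * d := by
    rw [Module.finrank_pi, Fintype.card_sum, Fintype.card_fin, two_mul]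
  have hne : OrthGen.NotExceptional (plusQF d F) := Forms.notExceptional_plusQF (Or.inr (by omega))
  obtain ⟨L₀, hL₀, hL₀d⟩ := exists_plus_half F d
  constructor
  · intro h
    refine or_iff_not_imp_left.2 fun hq => ?_
    obtain ⟨t, ht⟩ := hodd
    have hq3 : Fintype.card F % 4 = 3 := by omega
    have hsq : ¬ IsSquare (-1 : F) := by
      rw [FiniteField.isSquare_neg_one_iff]; omega
    have happly : ∀ g : OQ (plusQF d F), ∀ v,
        Matrix.toLin' (Elusive25.glOf (plusQF d F) g : Matrix (Fin d ⊕ Fin d) (Fin d ⊕ Fin d) F) v = g.1 v :=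
      fun g v => by rw [Matrix.toLin'_apply]; exact Elusive25.glOf_mulVec _ g v
    refine ⟨hq3, ?_, ?_⟩
    · -- a reflection pair with anisotropic plane
      by_contra hm2
      let c : Fin 2 → (Fin d ⊕ Fin d → F) := fun k =>
        Sum.elim (Pi.single (Fin.castLE (show 2 ≤ d by omega) k) 1) (Pi.single (Fin.castLE (by omega) k) 1)
      have hQc : ∀ k, plusQF d F (c k) = 1 := fun k => by
        rw [plusQF_apply]; simp [c, Cfsg.quadFormPlus, Pi.single_apply]
      have hco : ∀ k l, k ≠ l → polar (plusQF d F) (c k) (c l) = 0 := fun k l hkl => by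
        have hne' : Fin.castLE (show 2 ≤ d by omega) k ≠ Fin.castLE (by omega) l := fun h => hkl (Fin.castLE_injective _ h)
        simp [polar, plusQF_apply, c, Cfsg.quadFormPlus, mul_add, Finset.sum_add_distrib, Pi.single_apply, hne', Ne.symm hne']
      obtain ⟨g, hg, hiff⟩ := Forms.exists_orthProd hQ.1 hne c (fun k => by rw [hQc]; exact one_ne_zero) hco
      have hgc : ∀ k, g.1 (c k) = - c k := fun k => by
        rw [hg, Finset.sum_eq_single k (fun l _ hl => by rw [hco l k hl, mul_zero, zero_smul])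
          (fun h' => absurd (Finset.mem_univ _) h'), polar_self, hQc, inv_one, one_mul, two_nsmul, one_add_one_eq_two,
          two_smul]
        abel
      have hgg : ∀ v, g.1 (g.1 v) = v := fun v => by
        conv_lhs => arg 2; rw [hg v]
        rw [map_sub, map_sum, hg v]
        simp only [map_smul, hgc, smul_neg, Finset.sum_neg_distrib]
        abel
      have hdiff : ∀ v, plusQF d F (v - g.1 v) = 0 → g.1 v = v := fun v h0 => by
        set a := polar (plusQF d F) (c 0) v
        set b := polar (plusQF d F) (c 1) v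
        have hd' : v - g.1 v = a • c 0 + b • c 1 := by
          rw [hg, sub_sub_cancel, Fin.sum_univ_two, hQc, hQc, inv_one, one_mul, one_mul]
        have hp : polar (plusQF d F) (a • c 0) (b • c 1) = 0 := by
          rw [polar_smul_left, polar_smul_right, hco 0 1 (by decide), smul_zero, smul_zero]
        rw [hd', QuadraticMap.map_add (plusQF d F), QuadraticMap.map_smul, QuadraticMap.map_smul,
          hQc, hQc, hp, add_zero, smul_eq_mul, smul_eq_mul, mul_one, mul_one] at h0
        refine (sub_eq_zero.1 ?_).symm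
        rw [hd']
        by_cases hb : b = 0
        · rw [hb, mul_zero, add_zero] at h0
          rw [hb, mul_self_eq_zero.1 h0, zero_smul, zero_smul, add_zero]
        · exact absurd ⟨a / b, by field_simp; linear_combination -h0⟩ hsq
      set x := Elusive25.glOf (plusQF d F) g
      have hc0 : c 0 ≠ 0 := fun h' => one_ne_zero ((hQc 0).symm.trans (by rw [h', QuadraticMap.map_zero]))
      obtain ⟨W, hWd, hWQ, hW⟩ := h x (hQf ▸ Elusive25.glOf_mem_omegaGL _ (hiff.2 ⟨by simp, by simp [hQc]⟩))
        ⟨1, by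
          rw [one_smul, ← map_pow, show g ^ 2 = 1 from Subtype.ext (LinearEquiv.ext fun v => by rw [pow_two]; exact hgg v),
            map_one, Units.val_one]⟩
        fun z hz => by
          -- `g` is `-1` on `c 0` and `1` on a vector orthogonal to `c`
          let u : Fin d ⊕ Fin d → F := Pi.single (Sum.inl ⟨2, by omega⟩) 1
          have hu : g.1 u = u := by
            rw [hg, sub_eq_self]
            refine Finset.sum_eq_zero fun k _ => ?_
            have : polar (plusQF d F) (c k) u = 0 := by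
              have hk : Fin.castLE (show 2 ≤ d by omega) k ≠ ⟨2, by omega⟩ := fun e => by
                have := congrArg Fin.val e; simp at this; omega
              simp [polar, plusQF_apply, u, c, Cfsg.quadFormPlus, Pi.single_apply, hk]
            rw [this, mul_zero, zero_smul]
          have hz1 := happly g u
          have hz2 := happly g (c 0)
          rw [hz, hu, Matrix.toLin'_apply, Matrix.smul_mulVec, Matrix.one_mulVec] at hz1
          rw [hz, hgc, Matrix.toLin'_apply, Matrix.smul_mulVec, Matrix.one_mulVec] at hz2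
          have : z = 1 := by simpa [u] using congrFun hz1 (Sum.inl ⟨2, by omega⟩)
          rw [this, one_smul, eq_neg_iff_add_eq_zero, ← two_smul F] at hz2
          exact hc0 ((smul_eq_zero.1 hz2).resolve_left h2)
      set f : Module.End F (Fin d ⊕ Fin d → F) := Matrix.toLin' (x : Matrix (Fin d ⊕ Fin d) (Fin d ⊕ Fin d) F)
      obtain ⟨ho, -, -, hsup, hdis, hsum⟩ := invol_split (f := f) h2 hQ (fun v => by rw [happly]; exact g.2 v)
        (fun v => by rw [happly, happly, hgg])
      have hWQ' : ∀ v ∈ W, plusQF d F v = 0 := fun v hv => (plusQF_apply d v).trans (hWQ v hv)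
      have hfix : W ≤ LinearMap.ker (f - 1) := fun w hw => mem_ker_sub_one.2 ((happly g w).trans
        (hdiff w (hWQ' _ (sub_mem hw (happly g w ▸ hW ⟨w, hw, rfl⟩)))))
      have h2le : 2 ≤ finrank F (LinearMap.ker (f + 1)) := by
        have hli : LinearIndependent F c := Forms.linearIndependent_of_orthogonal (polarBilin (plusQF d F)) hco fun k => by
          rw [polarBilin_apply_apply, polar_self, hQc, two_nsmul, one_add_one_eq_two]; exact h2
        have := Submodule.finrank_mono (span_le.2 (Set.range_subset_iff.2 fun k => mem_ker_add_one.2 (by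
          rw [happly, hgc])) : span F (Set.range c) ≤ LinearMap.ker (f + 1))
        rwa [finrank_span_eq_card hli, Fintype.card_fin] at this
      rw [hV] at hsum
      obtain ⟨U, hU, hUS, hUd⟩ := exists_half_compl hQ (C := LinearMap.ker (f + 1)) (M := LinearMap.ker (f - 1))
        (fun a ha b hb => (polar_symm a b).trans (ho b hb a ha)) (by rw [sup_comm]; exact hsup) hdis.symm hL₀
        (by rw [hV, hL₀d]) hfix hWQ' (by omega)
      obtain ⟨u, hu, hu0⟩ := exists_mem_ne_zero_of_ne_bot (p := U) (fun h' => by rw [h', finrank_bot] at hUd; omega)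
      have hgu : g.1 u = -u := (happly g u).symm.trans (mem_ker_add_one.1 (hU hu))
      have := hdiff u (by rw [hgu, sub_neg_eq_add, ← two_smul F, QuadraticMap.map_smul, hUS u hu, smul_zero])
      rw [hgu, eq_comm, eq_neg_iff_add_eq_zero, ← two_smul F] at this
      exact hu0 ((smul_eq_zero.1 this).resolve_left h2)
    · by_contra hcon
      rw [not_or, Nat.not_odd_iff_even] at hcon
      obtain ⟨hm, w, rfl⟩ := hcon
      obtain ⟨g, hg, hgg⟩ := exists_sq_neg_one (F := F) h2 w
      obtain ⟨W, hWd, -, hW⟩ := h _ (hQf ▸ Elusive25.glOf_mem_omegaGL _ hg) ⟨-1, by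
        refine Matrix.toLin'.injective (LinearMap.ext fun v => ?_)
        rw [← map_pow, happly, pow_two]
        show g.1 (g.1 v) = _
        rw [hgg, Matrix.toLin'_apply, Matrix.smul_mulVec, Matrix.one_mulVec, neg_one_smul]⟩ fun z hz => hsq ⟨z, by
          have h1 := hgg (Pi.single (Sum.inl ⟨0, by omega⟩) 1)
          rw [← happly, ← happly, hz, Matrix.toLin'_apply, Matrix.toLin'_apply, Matrix.smul_mulVec, Matrix.one_mulVec,
            Matrix.smul_mulVec, Matrix.one_mulVec] at h1
          have := congrFun h1 (Sum.inl ⟨0, by omega⟩)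
          simpa using this.symm⟩
      exact hm (hWd ▸ even_finrank_of_sq_neg (f := Matrix.toLin' _) hsq (fun v => by rw [happly, happly, hgg])
        fun v hv => hW ⟨v, hv, rfl⟩)
  · intro hcond x hx ⟨z, hz⟩ hns
    set f : Module.End F (Fin d ⊕ Fin d → F) := Matrix.toLin' (x : Matrix (Fin d ⊕ Fin d) (Fin d ⊕ Fin d) F)
    have hfQ : ∀ v, plusQF d F (f v) = plusQF d F v := fun v => by
      rw [plusQF_apply, plusQF_apply, Matrix.toLin'_apply]; exact Elusive25.apply_of_mem_omegaGL hx v
    have hff : ∀ v, f (f v) = z • v := fun v => by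
      have h1 := congrArg (fun M => Matrix.toLin' M v) hz
      simp only [pow_two, Units.val_mul, Matrix.toLin'_mul, LinearMap.comp_apply, map_smul, Matrix.toLin'_one,
        LinearMap.smul_apply, LinearMap.id_apply] at h1
      exact h1
    let v₀ : Fin d ⊕ Fin d → F := Sum.elim (Pi.single ⟨0, by omega⟩ 1) (Pi.single ⟨0, by omega⟩ 1)
    have hv₀ : plusQF d F v₀ = 1 := by rw [plusQF_apply]; simp [v₀, Cfsg.quadFormPlus, Pi.single_apply]
    have hzz : z * z = 1 := by
      have h1 := (hfQ (f v₀)).trans (hfQ v₀)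
      rw [hff, QuadraticMap.map_smul, hv₀, smul_eq_mul, mul_one] at h1
      exact h1
    suffices ∃ W : Submodule F (Fin d ⊕ Fin d → F), finrank F W = m ∧ (∀ v ∈ W, plusQF d F v = 0) ∧ ∀ v ∈ W, f v ∈ W by
      obtain ⟨W, h1, h2', h3⟩ := this
      exact ⟨W, h1, fun w hw => (plusQF_apply d w).symm.trans (h2' w hw), map_le_self h3⟩
    rcases mul_self_eq_one_iff.1 hzz with rfl | rfl
    · have hf1 : ∀ v, f (f v) = v := fun v => by rw [hff, one_smul]
      obtain ⟨ho, hN, hN', hsup, hdis, hsum⟩ := invol_split h2 hQ hfQ hf1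
      let g : OQ (plusQF d F) := ⟨LinearEquiv.ofLinearMap f f (LinearMap.ext hf1) (LinearMap.ext hf1), hfQ⟩
      have hgc : g ∈ commutator (OQ (plusQF d F)) := by
        rw [← hQf] at hx
        obtain ⟨y, hy, rfl⟩ := hx
        exact (Forms.exists_mem_Omega_iff (plusQF d F) fun v => Matrix.toLin'_apply _ v).1 ⟨y, hy, rfl⟩
      obtain ⟨n, hn', c, hcm, hco, hc1⟩ := exists_neg_family h2 hQ hne g hgc hf1
      have hn : finrank F (LinearMap.ker (f + 1)) = 2 * n := hn'
      rw [hV, hn] at hsum
      obtain ⟨E, hE, hEQ, X, hX, hXQ, hdim⟩ : ∃ E ≤ LinearMap.ker (f - 1), (∀ v ∈ E, plusQF d F v = 0) ∧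
          ∃ X ≤ LinearMap.ker (f + 1), (∀ v ∈ X, plusQF d F v = 0) ∧ finrank F E + finrank F X = m := by
        rcases hcond with hq | ⟨-, hm2, -⟩
        · obtain ⟨ω, hω⟩ := FiniteField.isSquare_neg_one_iff.2 (show Fintype.card F % 4 ≠ 3 by omega)
          obtain ⟨X, hXc, hXQ, hXd⟩ := exists_half h2 hω.symm c hco hc1
          have hX : X ≤ LinearMap.ker (f + 1) := hXc.trans (span_le.2 (Set.range_subset_iff.2 hcm))
          obtain ⟨E, hE, hEQ, hEd⟩ := exists_half_compl hQ ho hsup hdis hL₀ (by rw [hV, hL₀d]) hX hXQ (by omega)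
          obtain ⟨X', hX', hX'd⟩ := exists_le_finrank X (e := min m n) (by omega)
          obtain ⟨E', hE', hE'd⟩ := exists_le_finrank E (e := m - min m n) (by omega)
          exact ⟨E', hE'.trans hE, fun v hv => hEQ v (hE' hv), X', hX'.trans hX, fun v hv => hXQ v (hX' hv), by omega⟩
        · obtain ⟨X, hX, hXQ, hXd⟩ := exists_singular hN' (e := min m (n - 1)) (by rw [hn]; omega)
          obtain ⟨E, hE, hEQ, hEd⟩ := exists_singular hN (e := m - min m (n - 1)) (by omega)
          exact ⟨E, hE, hEQ, X, hX, hXQ, by omega⟩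
      refine ⟨E ⊔ X, by rw [finrank_eq_add_of_disjoint rfl (hdis.mono hE hX), hdim],
        singular_sup hEQ hXQ (fun u hu v hv => ho u (hE hu) v (hX hv)), fun v hv => ?_⟩
      obtain ⟨a, ha, b, hb, rfl⟩ := mem_sup.1 hv
      rw [map_add, mem_ker_sub_one.1 (hE ha), mem_ker_add_one.1 (hX hb)]
      exact add_mem (mem_sup_left ha) (mem_sup_right (X.neg_mem hb))
    · have hf1 : ∀ v, f (f v) = -v := fun v => by rw [hff, neg_one_smul]
      rcases hcond with hq | ⟨hq, hm2, hor⟩
      · obtain ⟨ω, hω⟩ := FiniteField.isSquare_neg_one_iff.2 (show Fintype.card F % 4 ≠ 3 by omega)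
        have hω0 : ω ≠ 0 := fun h => by simp [h] at hω
        have hTS : ∀ ν : F, ν * ν = -1 → ∀ v ∈ LinearMap.ker (f - ν • 1), plusQF d F v = 0 := fun ν hν v hv => by
          rw [LinearMap.mem_ker, LinearMap.sub_apply, LinearMap.smul_apply, Module.End.one_apply, sub_eq_zero] at hv
          have h1 := hfQ v
          rw [hv, QuadraticMap.map_smul, hν, smul_eq_mul, neg_one_mul, neg_eq_iff_add_eq_zero, ← two_mul] at h1
          exact (mul_eq_zero.1 h1).resolve_left h2
        have hsup : LinearMap.ker (f - ω • 1) ⊔ LinearMap.ker (f - (-ω) • 1) = ⊤ := eq_top_iff'.2 fun v => by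
          have h1 : f v + ω • v ∈ LinearMap.ker (f - ω • 1) := by
            simp only [LinearMap.mem_ker, LinearMap.sub_apply, LinearMap.smul_apply, Module.End.one_apply, map_add, map_smul, hf1]
            match_scalars <;> first | ring1 | linear_combination hω | linear_combination -hω
          have h2' : f v - ω • v ∈ LinearMap.ker (f - (-ω) • 1) := by
            simp only [LinearMap.mem_ker, LinearMap.sub_apply, LinearMap.smul_apply, Module.End.one_apply, map_sub, map_smul, hf1]
            match_scalars <;> first | ring1 | linear_combination hω | linear_combination -hω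
          have h3 : (2 * ω)⁻¹ • ((f v + ω • v) - (f v - ω • v)) = v := by
            rw [show (f v + ω • v) - (f v - ω • v) = (2 * ω) • v by rw [mul_smul, two_smul]; abel, smul_smul,
              inv_mul_cancel₀ (mul_ne_zero h2 hω0), one_smul]
          rw [← h3]
          exact Submodule.smul_mem _ _ (sub_mem (mem_sup_left h1) (mem_sup_right h2'))
        have hsum := finrank_sup_add_finrank_inf_eq (LinearMap.ker (f - ω • 1)) (LinearMap.ker (f - (-ω) • 1))
        rw [hsup, finrank_top, hV] at hsum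
        have h1 := Forms.two_mul_finrank_le_of_totallySingular hQ (hTS (-ω) (by rw [neg_mul_neg, ← hω]))
        rw [hV] at h1
        obtain ⟨W, hW, hWd⟩ := exists_le_finrank (LinearMap.ker (f - ω • 1)) (e := m) (by omega)
        refine ⟨W, hWd, fun v hv => hTS ω hω.symm v (hW hv), fun v hv => ?_⟩
        have h2' := hW hv
        rw [LinearMap.mem_ker, LinearMap.sub_apply, LinearMap.smul_apply, Module.End.one_apply, sub_eq_zero] at h2'
        rw [h2']
        exact Submodule.smul_mem _ _ hv
      · have hsq : ¬ IsSquare (-1 : F) := by rw [FiniteField.isSquare_neg_one_iff]; omega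
        have hcx := exists_complex_singular h2 hsq hQ hfQ hf1 hL₀
        rcases hor with ⟨k, hk⟩ | ⟨u, hu⟩
        · obtain ⟨W, hW, hWS, hWd⟩ := hcx k (by omega)
          exact ⟨W, by omega, hWS, hW⟩
        · exfalso
          obtain ⟨W, -, hWS, hWd⟩ := hcx (u + 1) (by omega)
          have := Forms.two_mul_finrank_le_of_totallySingular hQ hWS
          rw [hV] at this
          omega

end Cfsg.Agent.Elusive.OrthTS
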