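import Cfsg.Agent.Elusive.OrthHypOdd
import Cfsg.Agent.Elusive.OrthPlusTwo
import Cfsg.Agent.OrthGen.CharTwo

/-!
Involutions fixing hyperbolic subspaces.
-/

set_option autoImplicit false

namespace Cfsg.Agent.Elusive.OrthTS

open QuadraticMap Submodule Module Cfsg.Agent.Classical

variable {F : Type*} [Field F] {V : Type*} [AddCommGroup V] [Module F V] {Q : QuadraticForm F V}
  [FiniteDimensional F V] {f : Module.End F V}

omit [FiniteDimensional F V] in
theorem polar_isRefl : LinearMap.IsRefl (polarBilin Q) := fun x y h => (polar_symm y x).trans h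

omit [FiniteDimensional F V] in
theorem add_self_vec [CharP F 2] (v : V) : v + v = 0 := by
  rw [← two_smul F v, CharTwo.two_eq_zero, zero_smul]

omit [FiniteDimensional F V] in
theorem sub_vec [CharP F 2] (u v : V) : u - v = u + v := by
  rw [sub_eq_add_neg, neg_eq_of_add_eq_zero_left (add_self_vec (F := F) v)]

theorem finrank_orth (hQ : (polarBilin Q).Nondegenerate) (W : Submodule F V) :
    finrank F (LinearMap.BilinForm.orthogonal (polarBilin Q) W) = finrank F V - finrank F W :=
  LinearMap.BilinForm.finrank_orthogonal hQ W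

/-- The orthogonal complement of an invariant hyperbolic subspace. -/
theorem hyp_compl (hQ : (polarBilin Q).Nondegenerate) (hV : HalfOn Q ⊤) (hfQ : ∀ v, Q (f v) = Q v)
    (hinj : Function.Injective f) {W : Submodule F V} {m : ℕ} (hW : Hyp Q m W) (hWf : ∀ v ∈ W, f v ∈ W) :
    ∃ W' : Submodule F V, Hyp Q (finrank F V - m) W' ∧ (∀ v ∈ W', f v ∈ W') ∧
      (∀ x ∈ W, ∀ y ∈ W', polarBilin Q x y = 0) ∧ W ⊔ W' = ⊤ := by
  obtain ⟨hWd, hWN, hWh⟩ := hW
  set W' := LinearMap.BilinForm.orthogonal (polarBilin Q) W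
  have ho : ∀ x ∈ W, ∀ y ∈ W', polarBilin Q x y = 0 := fun x hx y hy => hy x hx
  have hd := disjoint_of_orth hWN ho
  have hsup : W ⊔ W' = ⊤ := by
    refine eq_top_of_finrank_eq ?_
    rw [finrank_eq_add_of_disjoint rfl hd, finrank_orth hQ]
    have := Submodule.finrank_le W
    omega
  obtain ⟨-, hN'⟩ := nonDegOn_of_sup (nonDegOn_top hQ) hsup ho
  refine ⟨W', ⟨by rw [finrank_orth hQ, hWd], hN', ?_⟩, orthogonal_invariant (polar_map hfQ) hinj hWf, ho, hsup⟩
  exact halfOn_compl (nonDegOn_top hQ) hV ((sup_comm _ _).trans hsup)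
    (fun x hx y hy => (polar_symm x y).trans (ho y hy x hx)) hd.symm hWh

theorem hyp_sup {W W' : Submodule F V} {a b : ℕ} (hW : Hyp Q a W) (hW' : Hyp Q b W')
    (ho : ∀ x ∈ W, ∀ y ∈ W', polarBilin Q x y = 0) : Hyp Q (a + b) (W ⊔ W') :=
  ⟨by rw [finrank_eq_add_of_disjoint rfl (disjoint_of_orth hW.2.1 ho), hW.1, hW'.1],
    nonDegOn_sup_symm hW.2.1 hW'.2.1 ho, halfOn_sup (disjoint_of_orth hW.2.1 ho) ho hW.2.2 hW'.2.2⟩

section odd

variable {d : ℕ}

/-- An invariant totally singular subspace extends to an invariant hyperbolic one. -/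
theorem exists_hyp_of_singular (h2 : (2 : F) ≠ 0) (hQ : (polarBilin Q).Nondegenerate) (hfQ : ∀ v, Q (f v) = Q v)
    {z : F} (hz : z ≠ 0) (hff : ∀ v, f (f v) = z • v) {U : Submodule F V} {s : ℕ} (hU : ∀ v ∈ U, f v ∈ U)
    (hUS : ∀ v ∈ U, Q v = 0) (hUd : finrank F U = s) :
    ∃ W : Submodule F V, Hyp Q (2 * s) W ∧ ∀ v ∈ W, f v ∈ W := by
  have hinj : Function.Injective f := fun u v h => by
    have := congrArg f h
    rw [hff, hff] at this
    exact smul_right_injective V hz this
  set O := LinearMap.BilinForm.orthogonal (polarBilin Q) U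
  have hO : ∀ v ∈ O, f v ∈ O := orthogonal_invariant (polar_map hfQ) hinj hU
  obtain ⟨T₀, hT₀⟩ := Submodule.exists_isCompl O
  let P : Module.End F V := T₀.subtype.comp (Submodule.projectionOnto T₀ O hT₀.symm)
  have hP0 : ∀ v ∈ O, P v = 0 := fun v hv => by
    simp [P, Submodule.projectionOnto_apply_of_mem_right hT₀.symm hv]
  have hP1 : ∀ v, P v - v ∈ O := fun v => by
    obtain ⟨a, ha, b, hb, rfl⟩ := mem_sup.1 (hT₀.sup_eq_top ▸ mem_top : v ∈ O ⊔ T₀)
    rw [map_add, hP0 a ha, zero_add,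
      show P b = b by simp [P, Submodule.projectionOnto_apply_left hT₀.symm ⟨b, hb⟩], show b - (a + b) = -a by abel]
    exact O.neg_mem ha
  let P' : Module.End F V := (2 : F)⁻¹ • (P + z⁻¹ • (f * P * f))
  have hP' : ∀ v, P' v = (2 : F)⁻¹ • (P v + z⁻¹ • f (P (f v))) := fun v => rfl
  have hP'0 : ∀ v ∈ O, P' v = 0 := fun v hv => by
    rw [hP', hP0 v hv, hP0 _ (hO v hv), map_zero, smul_zero, add_zero, smul_zero]
  have hP'1 : ∀ v, P' v - v ∈ O := fun v => by
    have e : P' v - v = (2 : F)⁻¹ • ((P v - v) + z⁻¹ • f (P (f v) - f v)) := by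
      rw [hP', map_sub, hff, smul_sub z⁻¹, smul_smul, inv_mul_cancel₀ hz, one_smul,
        show P v - v + (z⁻¹ • f (P (f v)) - v) = P v + z⁻¹ • f (P (f v)) - (2 : F) • v by rw [two_smul]; abel,
        smul_sub (2 : F)⁻¹, smul_smul, inv_mul_cancel₀ h2, one_smul]
    rw [e]
    exact O.smul_mem _ (add_mem (hP1 v) (O.smul_mem _ (hO _ (hP1 _))))
  have hcomm : ∀ v, P' (f v) = f (P' v) := fun v => by
    rw [hP', hP', hff, map_smul, map_smul, map_smul, smul_smul, inv_mul_cancel₀ hz, one_smul, map_add, map_smul, hff,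
      smul_smul, inv_mul_cancel₀ hz, one_smul, add_comm]
  have hkerle : LinearMap.ker P' = O := le_antisymm (fun v hv => by
    have := hP'1 v
    rwa [LinearMap.mem_ker.1 hv, zero_sub, neg_mem_iff] at this) fun v hv => LinearMap.mem_ker.2 (hP'0 v hv)
  have hTd : finrank F (LinearMap.range P') = s := by
    have h1 := LinearMap.finrank_range_add_finrank_ker P'
    rw [hkerle, finrank_orth hQ, hUd] at h1
    have := Submodule.finrank_le U
    omega
  have hp : ∀ t ∈ LinearMap.range P', (∀ u ∈ U, polarBilin Q u t = 0) → t = 0 := by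
    rintro _ ⟨v, rfl⟩ h
    have h1 : P' v ∈ O := h
    have h2 : v ∈ O := by
      have := sub_mem h1 (hP'1 v)
      rwa [sub_sub_cancel] at this
    exact hP'0 v h2
  refine ⟨U ⊔ LinearMap.range P', hyp_of_pair hUS hUd hTd hp, fun v hv => ?_⟩
  obtain ⟨a, ha, _, ⟨w, rfl⟩, rfl⟩ := mem_sup.1 hv
  rw [map_add, ← hcomm]
  exact add_mem_sup (hU a ha) ⟨f w, rfl⟩

variable [Fintype F]

/-- The criterion for involutions, `q` odd. -/
theorem two_iff_hyp_odd (hodd : Odd (Fintype.card F)) (hd : 4 ≤ d) {s : ℕ} (hs : 1 ≤ s) (hsd : 2 * s < d) :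
    (∀ x : GL (Fin d ⊕ Fin d) F, x ∈ Cfsg.Geo.omegaGL (Cfsg.quadFormPlus d F) →
      (∃ z : F, ((x ^ 2 : GL (Fin d ⊕ Fin d) F) : Matrix (Fin d ⊕ Fin d) (Fin d ⊕ Fin d) F) = z • (1 : Matrix (Fin d ⊕ Fin d) (Fin d ⊕ Fin d) F)) →
      (∀ z : F, (x : Matrix (Fin d ⊕ Fin d) (Fin d ⊕ Fin d) F) ≠ z • (1 : Matrix (Fin d ⊕ Fin d) (Fin d ⊕ Fin d) F)) →
      ∃ W : Submodule F (Fin d ⊕ Fin d → F), Hyp (plusQF d F) (2 * s) W ∧
        W.map (Matrix.toLin' (x : Matrix (Fin d ⊕ Fin d) (Fin d ⊕ Fin d) F)) ≤ W) ↔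
    (Fintype.card F % 4 = 1 ∨ Even s ∨ Odd d) := by
  classical
  have h2 : (2 : F) ≠ 0 := two_ne_zero_of_odd (by rw [Nat.card_eq_fintype_card]; exact hodd)
  have hQ := PrimeSO.plusQF_polar_nondegenerate (F := F) d
  have hQf : ⇑(plusQF d F) = Cfsg.quadFormPlus d F := funext (plusQF_apply d)
  constructor
  · intro h
    by_contra hcon
    simp only [not_or, Nat.not_odd_iff_even, Nat.not_even_iff_odd] at hcon
    obtain ⟨hq, hso, w, rfl⟩ := hcon
    obtain ⟨t, ht⟩ := hodd
    have hsq : ¬ IsSquare (-1 : F) := by rw [FiniteField.isSquare_neg_one_iff]; omega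
    obtain ⟨g, hg, hgg⟩ := exists_sq_neg_one (F := F) h2 w
    have happly : ∀ v, Matrix.toLin' (Elusive25.glOf (plusQF (w + w) F) g : Matrix (Fin (w + w) ⊕ Fin (w + w)) (Fin (w + w) ⊕ Fin (w + w)) F) v = g.1 v :=
      fun v => by rw [Matrix.toLin'_apply]; exact Elusive25.glOf_mulVec _ g v
    obtain ⟨W, ⟨hWd, hWN, hWh⟩, hW⟩ := h _ (hQf ▸ Elusive25.glOf_mem_omegaGL _ hg) ⟨-1, by
        refine Matrix.toLin'.injective (LinearMap.ext fun v => ?_)
        rw [← map_pow, pow_two, Matrix.toLin'_apply, Elusive25.glOf_mulVec, Matrix.toLin'_apply, Matrix.smul_mulVec,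
          Matrix.one_mulVec, neg_one_smul]
        exact hgg v⟩ fun z hz => hsq ⟨z, by
          have h1 := hgg (Pi.single (Sum.inl ⟨0, by omega⟩) 1)
          rw [← happly, ← happly, hz, Matrix.toLin'_apply, Matrix.toLin'_apply, Matrix.smul_mulVec, Matrix.one_mulVec,
            Matrix.smul_mulVec, Matrix.one_mulVec] at h1
          have := congrFun h1 (Sum.inl ⟨0, by omega⟩)
          simpa using this.symm⟩
    let T : Module.End F W := (Matrix.toLin' (Elusive25.glOf (plusQF (w + w) F) g : Matrix (Fin (w + w) ⊕ Fin (w + w)) (Fin (w + w) ⊕ Fin (w + w)) F)).restrict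
      fun v hv => hW ⟨v, hv, rfl⟩
    obtain ⟨L₀, -, hL₀, hL₀d⟩ := (halfOn_sub W).2 hWh
    rw [finrank_top, hWd] at hL₀d
    obtain ⟨u, hu⟩ := hso
    obtain ⟨Y, -, hYS, hYd⟩ := exists_complex_singular h2 hsq (sub_nondeg hWN) (f := T)
      (fun v => by
        show plusQF (w + w) F (Matrix.toLin' (Elusive25.glOf (plusQF (w + w) F) g : Matrix (Fin (w + w) ⊕ Fin (w + w)) (Fin (w + w) ⊕ Fin (w + w)) F)
          (v : Fin (w + w) ⊕ Fin (w + w) → F)) = _
        rw [happly]; exact g.2 _)
      (fun v => Subtype.ext (by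
        show Matrix.toLin' (Elusive25.glOf (plusQF (w + w) F) g : Matrix (Fin (w + w) ⊕ Fin (w + w)) (Fin (w + w) ⊕ Fin (w + w)) F)
          (Matrix.toLin' (Elusive25.glOf (plusQF (w + w) F) g : Matrix (Fin (w + w) ⊕ Fin (w + w)) (Fin (w + w) ⊕ Fin (w + w)) F) (v : Fin (w + w) ⊕ Fin (w + w) → F)) = _
        rw [happly, happly, hgg]; rfl)) hL₀ (u + 1) (by omega)
    have := two_mul_finrank_le (W := ⊤) le_top (nonDegOn_top (sub_nondeg hWN)) (isoOn_of_singular hYS)
    rw [finrank_top, hWd] at this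
    omega
  · intro hc x hx hz hns
    obtain ⟨t, ht⟩ := hodd
    obtain ⟨U, hUd, hUS, hUf⟩ := (two_iff_plus (m := s) (F := F) ⟨t, ht⟩ hd (by omega)).2 (by
      rcases hc with h | h | h
      · exact Or.inl h
      · rcases (show Fintype.card F % 4 = 1 ∨ Fintype.card F % 4 = 3 by omega) with h' | h'
        · exact Or.inl h'
        · exact Or.inr ⟨h', by omega, Or.inl h⟩
      · rcases (show Fintype.card F % 4 = 1 ∨ Fintype.card F % 4 = 3 by omega) with h' | h'
        · exact Or.inl h'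
        · exact Or.inr ⟨h', by omega, Or.inr h⟩) x hx hz hns
    obtain ⟨z, hz⟩ := hz
    set f : Module.End F (Fin d ⊕ Fin d → F) := Matrix.toLin' (x : Matrix (Fin d ⊕ Fin d) (Fin d ⊕ Fin d) F)
    have hfQ : ∀ v, plusQF d F (f v) = plusQF d F v := fun v => by
      rw [plusQF_apply, plusQF_apply, Matrix.toLin'_apply]; exact Elusive25.apply_of_mem_omegaGL hx v
    have hff : ∀ v, f (f v) = z • v := fun v => by
      have h1 := congrArg (fun M => Matrix.toLin' M v) hz
      simp only [pow_two, Units.val_mul, Matrix.toLin'_mul, LinearMap.comp_apply, map_smul, Matrix.toLin'_one,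
        LinearMap.smul_apply, LinearMap.id_apply] at h1
      exact h1
    have hz0 : z ≠ 0 := by
      rintro rfl
      rw [zero_smul] at hz
      have : Nonempty (Fin d ⊕ Fin d) := ⟨Sum.inl ⟨0, by omega⟩⟩
      exact (x ^ 2).ne_zero hz
    obtain ⟨W, hW, hWf⟩ := exists_hyp_of_singular h2 hQ hfQ hz0 hff (fun v hv => hUf ⟨v, hv, rfl⟩)
      (fun v hv => (plusQF_apply d v).trans (hUS v hv)) hUd
    exact ⟨W, hW, map_le_self hWf⟩

end odd

section even

variable [Fintype F] [CharP F 2]

/-- A fixed hyperbolic plane of an involution in characteristic two. -/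
theorem exists_fixed_plane (hQ : (polarBilin Q).Nondegenerate) (hfQ : ∀ v, Q (f v) = Q v) (hf : ∀ v, f (f v) = v)
    {g : ℕ} (hV : finrank F V = 2 * g) (hg : 2 ≤ g) (hR : finrank F (LinearMap.range (f - 1)) < g)
    (he : LinearMap.range (f - 1) = ⊥ ∨ ∃ e ∈ LinearMap.range (f - 1), Q e ≠ 0) :
    ∃ P : Submodule F V, Hyp Q 2 P ∧ ∀ v ∈ P, f v = v := by
  rcases he with h | ⟨e, he, heQ⟩
  · obtain ⟨U, -, hUN, hUd, hUh⟩ := exists_sub_typed (nonDegOn_top hQ) (by rw [finrank_top, hV]; exact even_two_mul g)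
      even_two two_pos (by rw [finrank_top, hV]; omega) True
    exact ⟨U, ⟨hUd, hUN, hUh.2 trivial⟩, fun v _ => by
      have := LinearMap.congr_fun (LinearMap.range_eq_bot.1 h) v
      exact sub_eq_zero.1 this⟩
  have h2 : (2 : F) = 0 := CharTwo.two_eq_zero
  set R := LinearMap.range (f - 1)
  set K := LinearMap.ker (f - 1)
  have hKR : finrank F K + finrank F R = 2 * g := hV ▸ finrank_ker_add_range
  have hRK : R ≤ K := by
    rintro _ ⟨v, rfl⟩
    refine mem_ker_sub_one.2 ?_
    rw [LinearMap.sub_apply, Module.End.one_apply, map_sub, hf, sub_vec (F := F), sub_vec (F := F), add_comm]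
  have ho : ∀ x ∈ K, ∀ y ∈ R, polarBilin Q x y = 0 := ker_orth_range hfQ
  -- a complement of `R` in the fixed space is nondegenerate
  obtain ⟨Z₀, hZ₀⟩ := Submodule.exists_isCompl R
  set Z := Z₀ ⊓ K
  have hsup : R ⊔ Z = K := by rw [← sup_inf_assoc_of_le _ hRK, hZ₀.sup_eq_top, top_inf_eq]
  have hdim : finrank F K = finrank F R + finrank F Z :=
    finrank_eq_add_of_disjoint hsup (hZ₀.disjoint.mono_right inf_le_left)
  have hperp : LinearMap.BilinForm.orthogonal (polarBilin Q) K = R := by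
    refine (Submodule.eq_of_le_of_finrank_le
      (show R ≤ LinearMap.BilinForm.orthogonal (polarBilin Q) K from fun y hy x hx => ho x hx y hy) ?_).symm
    rw [finrank_orth hQ, hV]
    omega
  have hZN : NonDegOn (polarBilin Q) Z := fun x hx h => by
    have hxR : x ∈ R := hperp ▸ fun k hk => by
      obtain ⟨a, ha, b, hb, rfl⟩ := mem_sup.1 (hsup.symm ▸ hk : k ∈ R ⊔ Z)
      show polarBilin Q (a + b) x = 0
      rw [map_add, LinearMap.add_apply, polar_symm a x, ho x hx.2 a ha, polar_symm b x, h b hb, add_zero]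
    exact Submodule.disjoint_def.1 hZ₀.disjoint x hxR hx.1
  obtain ⟨u, hu, hu0⟩ := exists_mem_ne_zero_of_ne_bot (p := Z) (fun h => by rw [h, finrank_bot] at hdim; omega)
  obtain ⟨v, hv, huv⟩ : ∃ v ∈ Z, polarBilin Q u v ≠ 0 := by
    by_contra hcon
    push Not at hcon
    exact hu0 (hZN u hu hcon)
  obtain ⟨a, ha⟩ := FiniteField.isSquare_of_char_two (ringChar.eq F 2) (Q u / Q e)
  set u' := u + a • e
  have hu'K : u' ∈ K := add_mem hu.2 (K.smul_mem a (hRK he))
  have hu'Q : Q u' = 0 := by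
    have h0 : polar Q u (a • e) = 0 := ho u hu.2 _ (R.smul_mem a he)
    rw [QuadraticMap.map_add Q, h0, add_zero, QuadraticMap.map_smul, ← ha, smul_eq_mul, div_mul_cancel₀ _ heQ,
      ← two_mul, h2, zero_mul]
  have hu'v : polarBilin Q u' v ≠ 0 := by
    rwa [map_add, LinearMap.add_apply, polar_symm (a • e) v, ho v hv.2 _ (R.smul_mem a he), add_zero]
  have hu'0 : u' ≠ 0 := fun h => hu'v (by rw [h, map_zero, LinearMap.zero_apply])
  have hv0 : v ≠ 0 := fun h => hu'v (by rw [h, map_zero])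
  refine ⟨span F {u'} ⊔ span F {v}, hyp_of_pair (s := 1) ?_ (finrank_span_singleton hu'0) (finrank_span_singleton hv0) ?_,
    fun w hw => ?_⟩
  · intro w hw
    obtain ⟨b, rfl⟩ := mem_span_singleton.1 hw
    rw [QuadraticMap.map_smul, hu'Q, smul_zero]
  · intro t ht h
    obtain ⟨b, rfl⟩ := mem_span_singleton.1 ht
    have := h u' (mem_span_singleton_self u')
    rw [map_smul, smul_eq_mul, mul_eq_zero] at this
    rw [this.resolve_right hu'v, zero_smul]
  · have : span F {u'} ⊔ span F {v} ≤ K := sup_le ((span_singleton_le_iff_mem _ _).2 hu'K)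
      ((span_singleton_le_iff_mem _ _).2 hv.2)
    exact mem_ker_sub_one.1 (this hw)

/-- An involution of a hyperbolic space of dimension at least six fixes a hyperbolic four-space. -/
theorem exists_hyp_four (hQ : (polarBilin Q).Nondegenerate) (hH : HalfOn Q ⊤) (hfQ : ∀ v, Q (f v) = Q v)
    (hf : ∀ v, f (f v) = v) {g : ℕ} (hV : finrank F V = 2 * g) (hg : 3 ≤ g) :
    ∃ W : Submodule F V, Hyp Q 4 W ∧ ∀ v ∈ W, f v ∈ W := by
  have h2 : (2 : F) = 0 := CharTwo.two_eq_zero
  have hinj : Function.Injective f := fun a b h => by rw [← hf a, h, hf b]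
  set N : Module.End F V := f - 1
  have hN : ∀ v, N v = f v + v := fun v => by
    show f v - v = _
    rw [sub_vec (F := F)]
  have hfN : ∀ v, f v = v + N v := fun v => by
    rw [hN, add_comm (f v), ← add_assoc, add_self_vec (F := F), zero_add]
  have hfN' : ∀ v, f (N v) = N v := fun v => by rw [hN, map_add, hf, add_comm]
  have hsym : ∀ u v, polarBilin Q u (N v) = polarBilin Q v (N u) := fun u v => by
    rw [hN, hN, map_add, map_add, polar_symm v (f u)]
    congr 1
    · rw [← polar_map hfQ u (f v), hf]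
    · exact polar_symm u v
  have hQN : ∀ v, Q (N v) = polarBilin Q v (N v) := fun v => by
    rw [hN, map_add (polarBilin Q v), QuadraticMap.map_add Q, hfQ, ← two_mul, h2, zero_mul, zero_add,
      polarBilin_apply_apply, polarBilin_apply_apply, polar_self, two_nsmul, CharTwo.add_self_eq_zero, add_zero,
      polar_comm]
  by_cases hI : ∃ v w, polarBilin Q v (N v) = 0 ∧ polarBilin Q w (N w) = 0 ∧ polarBilin Q v (N w) ≠ 0
  · obtain ⟨v, w, hv, hw, hvw⟩ := hI
    let U := LinearMap.range ((LinearMap.toSpanSingleton F V (N v)).coprod (LinearMap.toSpanSingleton F V (N w)))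
    let Lt := (LinearMap.toSpanSingleton F V v).coprod (LinearMap.toSpanSingleton F V w)
    let Lu := (LinearMap.toSpanSingleton F V (N v)).coprod (LinearMap.toSpanSingleton F V (N w))
    have hb : ∀ a b : F × F, polarBilin Q (Lu a) (Lt b) = (a.1 * b.2 + a.2 * b.1) * polarBilin Q v (N w) := fun a b => by
      have e1 : polarBilin Q (N v) v = 0 := (polar_symm _ _).trans hv
      have e2 : polarBilin Q (N w) w = 0 := (polar_symm _ _).trans hw
      have e3 : polarBilin Q (N v) w = polarBilin Q v (N w) := (polar_symm _ _).trans (hsym w v)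
      have e4 : polarBilin Q (N w) v = polarBilin Q v (N w) := polar_symm _ _
      simp only [Lu, Lt, LinearMap.coprod_apply, LinearMap.toSpanSingleton_apply, map_add, map_smul,
        LinearMap.add_apply, LinearMap.smul_apply, smul_eq_mul, e1, e2, e3, e4]
      ring
    have hLt : ∀ b : F × F, (∀ a : F × F, polarBilin Q (Lu a) (Lt b) = 0) → b = 0 := fun b h => by
      have h1 := h (1, 0)
      have h2' := h (0, 1)
      rw [hb] at h1 h2'
      simp at h1 h2'
      exact Prod.ext (h2'.resolve_right hvw) (h1.resolve_right hvw)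
    have hLu : ∀ a : F × F, (∀ b : F × F, polarBilin Q (Lu a) (Lt b) = 0) → a = 0 := fun a h => by
      have h1 := h (1, 0)
      have h2' := h (0, 1)
      rw [hb] at h1 h2'
      simp at h1 h2'
      exact Prod.ext (h2'.resolve_right hvw) (h1.resolve_right hvw)
    have hLti : Function.Injective Lt := (injective_iff_map_eq_zero _).2 fun b hb' => hLt b fun a => by rw [hb', map_zero]
    have hLui : Function.Injective Lu := (injective_iff_map_eq_zero _).2 fun a ha => hLu a fun b => by
      rw [ha, map_zero, LinearMap.zero_apply]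
    refine ⟨LinearMap.range Lu ⊔ LinearMap.range Lt, hyp_of_pair (s := 2) ?_
      (by rw [LinearMap.finrank_range_of_inj hLui, Module.finrank_prod, Module.finrank_self])
      (by rw [LinearMap.finrank_range_of_inj hLti, Module.finrank_prod, Module.finrank_self]) ?_, fun y hy => ?_⟩
    · rintro _ ⟨a, rfl⟩
      have h0 : ∀ x y, polarBilin Q (N x) (N y) = 0 := fun x y => by
        rw [hsym (N x) y]
        show polarBilin Q y (N (N x)) = 0
        rw [hN (N x), hfN', add_self_vec (F := F), map_zero]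
      simp only [Lu, LinearMap.coprod_apply, LinearMap.toSpanSingleton_apply]
      rw [QuadraticMap.map_add Q, QuadraticMap.map_smul, QuadraticMap.map_smul, hQN, hQN, hv, hw, smul_zero, smul_zero,
        zero_add, zero_add, ← polarBilin_apply_apply]
      simp only [map_smul, LinearMap.smul_apply, h0, smul_zero]
    · rintro _ ⟨b, rfl⟩ h
      rw [hLt b fun a => h _ ⟨a, rfl⟩, map_zero]
    · obtain ⟨_, ⟨a, rfl⟩, _, ⟨b, rfl⟩, rfl⟩ := mem_sup.1 hy
      have hfa : f (Lu a) = Lu a := by
        simp only [Lu, LinearMap.coprod_apply, LinearMap.toSpanSingleton_apply, map_add, map_smul, hfN']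
      have hfb : f (Lt b) = Lu b + Lt b := by
        simp only [Lu, Lt, LinearMap.coprod_apply, LinearMap.toSpanSingleton_apply, map_add, map_smul, hfN]
        module
      rw [map_add, hfa, hfb, ← add_assoc]
      exact add_mem (mem_sup_left (add_mem ⟨a, rfl⟩ ⟨b, rfl⟩)) (mem_sup_right ⟨b, rfl⟩)
  push Not at hI
  let H : Submodule F V :=
    { carrier := {v | polarBilin Q v (N v) = 0}
      zero_mem' := by simp
      add_mem' := fun {a b} ha hb => by
        show polarBilin Q (a + b) (N (a + b)) = 0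
        rw [map_add, map_add, map_add, LinearMap.add_apply, LinearMap.add_apply, ha, hb, hsym a b, zero_add, add_zero,
          ← two_mul, h2, zero_mul]
      smul_mem' := fun c a ha => by
        show polarBilin Q (c • a) (N (c • a)) = 0
        rw [map_smul, map_smul, map_smul, LinearMap.smul_apply, ha, smul_zero, smul_zero] }
  have hNH : ∀ v ∈ H, ∀ w ∈ H, polarBilin Q v (N w) = 0 := fun v hv w hw => hI v w hv hw
  -- few moving vectors
  obtain ⟨hR, he⟩ : finrank F (LinearMap.range N) ≤ 2 ∧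
      (LinearMap.range N = ⊥ ∨ ∃ e ∈ LinearMap.range N, Q e ≠ 0) := by
    by_cases hall : ∀ v, v ∈ H
    · have : LinearMap.range N = ⊥ := LinearMap.range_eq_bot.2 (LinearMap.ext fun w =>
        hQ.1 (N w) fun y => (polar_symm _ _).trans (hNH y (hall y) w (hall w)))
      exact ⟨by rw [this, finrank_bot]; omega, Or.inl this⟩
    obtain ⟨e, he⟩ := not_forall.1 hall
    have he' : polarBilin Q e (N e) ≠ 0 := he
    have hHe : H ⊔ span F {e} = ⊤ := eq_top_iff'.2 fun v => by
      obtain ⟨a, ha⟩ := FiniteField.isSquare_of_char_two (ringChar.eq F 2) (polarBilin Q v (N v) / polarBilin Q e (N e))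
      refine mem_sup.2 ⟨v + a • e, ?_, a • e, (span F {e}).smul_mem a (mem_span_singleton_self e),
        by rw [add_assoc, add_self_vec (F := F), add_zero]⟩
      show polarBilin Q (v + a • e) (N (v + a • e)) = 0
      simp only [map_add, map_smul, LinearMap.add_apply, LinearMap.smul_apply, smul_eq_mul, hsym e v]
      rw [div_eq_iff he'] at ha
      linear_combination ha + (a * a * polarBilin Q e (N e) + a * polarBilin Q v (N e)) * h2
    refine ⟨?_, Or.inr ⟨N e, ⟨e, rfl⟩, by rwa [hQN]⟩⟩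
    have h1 : LinearMap.range N ≤ H.map N ⊔ span F {N e} := by
      rw [LinearMap.range_eq_map, ← hHe, Submodule.map_sup, map_span, Set.image_singleton]
    have h2' : H.map N ≤ LinearMap.BilinForm.orthogonal (polarBilin Q) H := by
      rintro _ ⟨w, hw, rfl⟩ v hv
      exact hNH v hv w hw
    have h3 := (Submodule.finrank_mono h1).trans (Submodule.finrank_add_le_finrank_add_finrank _ _)
    have h4 := Submodule.finrank_mono h2'
    rw [finrank_orth hQ] at h4
    have h5 := Submodule.finrank_add_le_finrank_add_finrank H (span F {e})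
    rw [hHe, finrank_top] at h5
    have h6 : finrank F (span F {e}) ≤ 1 := (finrank_span_le_card {e}).trans (by simp)
    have h7 : finrank F (span F {N e}) ≤ 1 := (finrank_span_le_card {N e}).trans (by simp)
    omega
  obtain ⟨P, hP, hPf⟩ := exists_fixed_plane hQ hfQ hf hV (by omega) (show finrank F (LinearMap.range N) < g by omega) he
  have hPf' : ∀ v ∈ P, f v ∈ P := fun v hv => by rw [hPf v hv]; exact hv
  obtain ⟨W, hW, hWf, ho, hsup⟩ := hyp_compl hQ hH hfQ hinj hP hPf'
  rcases eq_or_lt_of_le hg with rfl | hlt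
  · exact ⟨W, by rwa [show finrank F V - 2 = 4 by omega] at hW, hWf⟩
  -- a second plane inside the complement
  let T : Module.End F W := f.restrict hWf
  have hrange : (LinearMap.range (T - 1)).map W.subtype = LinearMap.range N := by
    apply le_antisymm
    · rintro _ ⟨_, ⟨x, rfl⟩, rfl⟩
      exact ⟨x, rfl⟩
    · rintro _ ⟨x, rfl⟩
      obtain ⟨a, ha, b, hb, rfl⟩ := mem_sup.1 (hsup.symm ▸ mem_top : x ∈ P ⊔ W)
      refine ⟨(T - 1) ⟨b, hb⟩, ⟨_, rfl⟩, ?_⟩
      rw [map_add, show N a = 0 from sub_eq_zero.2 (hPf a ha), zero_add]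
      rfl
  obtain ⟨P₂, hP₂, hP₂f⟩ := exists_fixed_plane (Q := Q.comp W.subtype) (f := T) (g := g - 1) (sub_nondeg hW.2.1)
    (fun v => hfQ v) (fun v => Subtype.ext (hf v)) (by rw [hW.1]; omega) (by omega)
    (by rw [(Submodule.equivMapOfInjective W.subtype W.subtype_injective _).finrank_eq, hrange]; omega)
    (he.imp (fun h => Submodule.map_injective_of_injective W.subtype_injective (hrange.trans (h.trans (Submodule.map_bot _).symm))) fun ⟨e, he, heQ⟩ => by
      obtain ⟨y, hy, rfl⟩ := (hrange ▸ he : e ∈ (LinearMap.range (T - 1)).map W.subtype)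
      exact ⟨y, hy, heQ⟩)
  refine ⟨P ⊔ P₂.map W.subtype, hyp_sup hP ((hyp_map W.subtype_injective (fun x => rfl) _ _).1 hP₂) ?_, fun v hv => ?_⟩
  · rintro x hx _ ⟨y, hy, rfl⟩
    exact ho x hx y y.2
  · obtain ⟨a, ha, _, ⟨y, hy, rfl⟩, rfl⟩ := mem_sup.1 hv
    rw [map_add, hPf a ha, show f (W.subtype y) = W.subtype y from congrArg Subtype.val (hP₂f y hy)]
    exact add_mem_sup ha ⟨y, hy, rfl⟩

/-- Involutions fix hyperbolic subspaces of every dimension divisible by four, short of the whole space. -/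
theorem exists_hyp_four_mul (hQ : (polarBilin Q).Nondegenerate) (hH : HalfOn Q ⊤) (hfQ : ∀ v, Q (f v) = Q v)
    (hf : ∀ v, f (f v) = v) {g : ℕ} (hV : finrank F V = 2 * g) :
    ∀ w, 4 * w + 2 ≤ 2 * g → ∃ W : Submodule F V, Hyp Q (4 * w) W ∧ ∀ v ∈ W, f v ∈ W := by
  intro w
  induction w with
  | zero =>
    exact fun _ => ⟨⊥, ⟨finrank_bot F V, nonDegOn_bot _, halfOn_bot⟩, fun v hv => by
      rw [(mem_bot F).1 hv, map_zero]; exact zero_mem _⟩
  | succ w ih =>
    intro hw
    obtain ⟨W, hW, hWf⟩ := ih (by omega)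
    obtain ⟨W', hW', hW'f, ho, -⟩ := hyp_compl hQ hH hfQ (fun a b h => by rw [← hf a, h, hf b]) hW hWf
    obtain ⟨P, hP, hPf⟩ := exists_hyp_four (Q := Q.comp W'.subtype) (f := f.restrict hW'f) (g := g - 2 * w)
      (sub_nondeg hW'.2.1) ((halfOn_sub W').2 hW'.2.2) (fun v => hfQ v) (fun v => Subtype.ext (hf v))
      (by rw [hW'.1, hV]; omega) (by omega)
    refine ⟨W ⊔ P.map W'.subtype, by
      rw [Nat.mul_succ]
      exact hyp_sup hW ((hyp_map W'.subtype_injective (fun x => rfl) _ _).1 hP)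
        (by rintro x hx _ ⟨y, hy, rfl⟩; exact ho x hx y y.2), fun v hv => ?_⟩
    obtain ⟨a, ha, _, ⟨y, hy, rfl⟩, rfl⟩ := mem_sup.1 hv
    rw [map_add]
    exact add_mem_sup (hWf a ha) ⟨_, hPf y hy, rfl⟩

/-- An involution with no invariant hyperbolic subspace of dimension twice an odd number. -/
theorem not_hyp_of_alternating {d s : ℕ} (hd : Even d) (hd4 : 4 ≤ d) (hs : Odd s) :
    ∃ x : GL (Fin d ⊕ Fin d) F, x ∈ Cfsg.Geo.omegaGL (Cfsg.quadFormPlus d F) ∧
      ((x ^ 2 : GL (Fin d ⊕ Fin d) F) : Matrix (Fin d ⊕ Fin d) (Fin d ⊕ Fin d) F) = 1 ∧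
      (∀ z : F, (x : Matrix (Fin d ⊕ Fin d) (Fin d ⊕ Fin d) F) ≠ z • (1 : Matrix (Fin d ⊕ Fin d) (Fin d ⊕ Fin d) F)) ∧
      ∀ W : Submodule F (Fin d ⊕ Fin d → F), Hyp (plusQF d F) (2 * s) W →
        ¬ W.map (Matrix.toLin' (x : Matrix (Fin d ⊕ Fin d) (Fin d ⊕ Fin d) F)) ≤ W := by
  classical
  have h2 : (2 : F) = 0 := CharTwo.two_eq_zero
  have hQ := PrimeSO.plusQF_polar_nondegenerate (F := F) d
  have hQf : ⇑(plusQF d F) = Cfsg.quadFormPlus d F := funext (plusQF_apply d)
  obtain ⟨n, hn⟩ := hd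
  let e : Fin n ⊕ Fin n ≃ Fin d := finSumFinEquiv.trans (finCongr hn.symm)
  let π : Fin d ≃ Fin d := e.symm.trans ((Equiv.sumComm _ _).trans e)
  have hπe : ∀ y, π (e y) = e y.swap := fun y => by
    show e (Equiv.sumComm _ _ (e.symm (e y))) = _
    rw [Equiv.symm_apply_apply]; rfl
  have hππ : ∀ a, π (π a) = a := fun a => by
    obtain ⟨y, rfl⟩ := e.surjective a
    rw [hπe, hπe, Sum.swap_swap]
  have hπne : ∀ a, π a ≠ a := fun a => by
    obtain ⟨y, rfl⟩ := e.surjective a
    rw [hπe]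
    intro h
    have := e.injective h
    cases y <;> simp at this
  have hzero : ∀ w : Fin d → F, ∑ a, w (π a) * w a = 0 := fun w =>
    Finset.sum_involution (fun a _ => π a) (fun a _ => by rw [hππ, mul_comm (w a), CharTwo.add_self_eq_zero])
      (fun a _ _ => hπne a) (fun a _ => Finset.mem_univ _) (fun a _ => hππ a)
  let N : Module.End F (Fin d ⊕ Fin d → F) :=
    { toFun := fun v => Sum.elim (fun a => v (.inr (π a))) 0
      map_add' := fun u v => funext fun a => by cases a <;> simp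
      map_smul' := fun c v => funext fun a => by cases a <;> simp }
  have hNl : ∀ v a, N v (.inl a) = v (.inr (π a)) := fun v a => rfl
  have hNr : ∀ v a, N v (.inr a) = 0 := fun v a => rfl
  have hNN : ∀ v, N (N v) = 0 := fun v => funext fun a => by cases a <;> simp [hNl, hNr]
  let f : Module.End F (Fin d ⊕ Fin d → F) := 1 + N
  have hff : ∀ v, f (f v) = v := fun v => by
    show (v + N v) + N (v + N v) = v
    rw [map_add, hNN, add_zero, add_assoc, add_self_vec (F := F), add_zero]
  have hfQ : ∀ v, plusQF d F (f v) = plusQF d F v := fun v => by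
    show plusQF d F (v + N v) = _
    rw [plusQF_apply, plusQF_apply]
    simp only [Cfsg.quadFormPlus, Pi.add_apply, hNl, hNr, add_zero, add_mul, Finset.sum_add_distrib]
    rw [hzero fun a => v (.inr a), add_zero]
  let g : OQ (plusQF d F) := ⟨LinearEquiv.ofLinearMap f f (LinearMap.ext hff) (LinearMap.ext hff), hfQ⟩
  have hne : OrthGen.NotExceptional (plusQF d F) := Forms.notExceptional_plusQF (Or.inr (by omega))
  have hV := finrank_plus F d
  -- the fixed space has dimension `d`
  have hker : finrank F (LinearMap.ker N) = d := by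
    have h1 := LinearMap.finrank_range_add_finrank_ker N
    rw [hV] at h1
    let G : (Fin d → F) →ₗ[F] (Fin d ⊕ Fin d → F) :=
      (LinearEquiv.sumArrowLequivProdArrow _ _ F F).symm.toLinearMap.comp (LinearMap.id.prod 0)
    have hr : LinearMap.range N = LinearMap.range G := by
      apply le_antisymm
      · rintro _ ⟨v, rfl⟩
        exact ⟨fun a => v (.inr (π a)), funext fun a => by cases a <;> simp [G, hNl, hNr]⟩
      · rintro _ ⟨c, rfl⟩
        exact ⟨Sum.elim 0 (fun a => c (π a)), funext fun a => by cases a <;> simp [G, hNl, hNr, hππ]⟩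
    have hG : Function.Injective G := fun a b h => funext fun k => by simpa [G] using congrFun h (.inl k)
    rw [hr, LinearMap.finrank_range_of_inj hG, Module.finrank_fin_fun] at h1
    omega
  have hgc : g ∈ commutator (OQ (plusQF d F)) := by
    rw [OrthGen.commutator_eq_ker_dickson hQ.1 hne, MonoidHom.mem_ker]
    show dickson g = 1
    have hfix : fixSpace g = LinearMap.ker N := by
      ext v
      rw [mem_fixSpace, LinearMap.mem_ker]
      exact add_eq_left
    rw [dickson, hfix, hker, hV]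
    exact Even.neg_one_pow (Even.add ⟨n, hn⟩ (even_two_mul d))
  have happly : ∀ v, Matrix.toLin' (Elusive25.glOf (plusQF d F) g : Matrix (Fin d ⊕ Fin d) (Fin d ⊕ Fin d) F) v = f v :=
    fun v => by rw [Matrix.toLin'_apply]; exact Elusive25.glOf_mulVec _ g v
  refine ⟨Elusive25.glOf (plusQF d F) g, hQf ▸ Elusive25.glOf_mem_omegaGL _ hgc, ?_, fun z hz => ?_, ?_⟩
  · rw [← map_pow, show g ^ 2 = 1 from Subtype.ext (LinearEquiv.ext fun v => by rw [pow_two]; exact hff v), map_one,
      Units.val_one]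
  · have h1 := happly (Pi.single (Sum.inr ⟨0, by omega⟩) 1)
    rw [hz, Matrix.toLin'_apply, Matrix.smul_mulVec, Matrix.one_mulVec] at h1
    have h3 := congrFun h1 (Sum.inl (π ⟨0, by omega⟩))
    simp [f, hNl, hππ, Pi.single_apply] at h3
  · rintro W ⟨hWd, hWN, -⟩ hW
    have hNW : ∀ v ∈ W, N v ∈ W := fun v hv => by
      have := sub_mem (happly v ▸ hW ⟨v, hv, rfl⟩) hv
      rwa [show f v = v + N v from rfl, add_sub_cancel_left] at this
    let β : LinearMap.BilinForm F (Fin d ⊕ Fin d → F) := (polarBilin (plusQF d F)).compl₂ N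
    have hβ : ∀ u v, β u v = polar (plusQF d F) u (N v) := fun u v => rfl
    have hA : β.IsAlt := fun v => by
      rw [hβ, QuadraticMap.polar, plusQF_apply, plusQF_apply, plusQF_apply]
      simp only [Cfsg.quadFormPlus, Pi.add_apply, hNl, hNr, add_zero, add_mul, mul_zero, Finset.sum_add_distrib,
        Finset.sum_const_zero]
      rw [hzero fun a => v (.inr a)]
      ring
    let T : Module.End F W := N.restrict hNW
    obtain ⟨X, hX⟩ := Submodule.exists_isCompl (LinearMap.ker T)
    have hXN : NonDegOn β (X.map W.subtype) := by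
      rintro _ ⟨x, hx, rfl⟩ hall
      have : x ∈ LinearMap.ker T := by
        refine LinearMap.mem_ker.2 (Subtype.ext (hWN _ (T x).2 fun y hy => ?_))
        obtain ⟨a, ha, b, hb, hab⟩ := mem_sup.1 (hX.sup_eq_top ▸ mem_top : (⟨y, hy⟩ : W) ∈ LinearMap.ker T ⊔ X)
        have hya : y = (a : Fin d ⊕ Fin d → F) + b := (congrArg Subtype.val hab).symm
        have h0 : N (a : Fin d ⊕ Fin d → F) = 0 := congrArg Subtype.val (LinearMap.mem_ker.1 ha)
        have h1 : ∀ u, polarBilin (plusQF d F) (N x) u = β u x := fun u => polar_symm _ _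
        show polarBilin (plusQF d F) (N x) y = 0
        rw [hya, map_add, h1, h1, ← LinearMap.IsAlt.neg hA (x : Fin d ⊕ Fin d → F) (a : Fin d ⊕ Fin d → F), hβ, h0,
          polar_zero_right, neg_zero, zero_add, ← LinearMap.IsAlt.neg hA (x : Fin d ⊕ Fin d → F) (b : Fin d ⊕ Fin d → F)]
        exact neg_eq_zero.2 (hall _ ⟨b, hb, rfl⟩)
      exact congrArg Subtype.val (Submodule.disjoint_def.1 hX.disjoint x this hx)
    obtain ⟨k, hk⟩ := even_finrank_of_nonDegOn hA hXN
    rw [← (Submodule.equivMapOfInjective W.subtype W.subtype_injective X).finrank_eq] at hk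
    have hsum := Submodule.finrank_add_eq_of_isCompl hX
    rw [hWd] at hsum
    -- both kernel and image are totally singular
    have hS : ∀ v ∈ LinearMap.ker N, plusQF d F v = 0 := fun v hv => by
      rw [plusQF_apply]
      refine Finset.sum_eq_zero fun a _ => ?_
      have := congrFun (LinearMap.mem_ker.1 hv) (.inl (π a))
      rw [hNl, hππ] at this
      rw [this, Pi.zero_apply, mul_zero]
    have hbound := two_mul_finrank_le (X := W ⊓ LinearMap.ker N) inf_le_left hWN
      (isoOn_of_singular fun v hv => hS v hv.2)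
    have hk1 : finrank F (LinearMap.ker T) ≤ finrank F ↥(W ⊓ LinearMap.ker N) := by
      rw [(Submodule.equivMapOfInjective W.subtype W.subtype_injective _).finrank_eq]
      refine Submodule.finrank_mono ?_
      rintro _ ⟨a, ha, rfl⟩
      exact ⟨a.2, LinearMap.mem_ker.2 (congrArg Subtype.val (LinearMap.mem_ker.1 ha))⟩
    have hk2 : finrank F (LinearMap.range T) ≤ finrank F ↥(W ⊓ LinearMap.ker N) := by
      rw [(Submodule.equivMapOfInjective W.subtype W.subtype_injective _).finrank_eq]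
      refine Submodule.finrank_mono ?_
      rintro _ ⟨_, ⟨a, rfl⟩, rfl⟩
      exact ⟨(T a).2, LinearMap.mem_ker.2 (hNN a)⟩
    have hsum2 := LinearMap.finrank_range_add_finrank_ker T
    rw [hWd] at hsum2 hbound
    obtain ⟨u, hu⟩ := hs
    omega

/-- The criterion for involutions, `q` even. -/
theorem two_iff_hyp_even {d s : ℕ} (hd : 4 ≤ d) (hs : 1 ≤ s) (hsd : 2 * s < d) :
    (∀ x : GL (Fin d ⊕ Fin d) F, x ∈ Cfsg.Geo.omegaGL (Cfsg.quadFormPlus d F) →
      (∃ z : F, ((x ^ 2 : GL (Fin d ⊕ Fin d) F) : Matrix (Fin d ⊕ Fin d) (Fin d ⊕ Fin d) F) = z • (1 : Matrix (Fin d ⊕ Fin d) (Fin d ⊕ Fin d) F)) →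
      (∀ z : F, (x : Matrix (Fin d ⊕ Fin d) (Fin d ⊕ Fin d) F) ≠ z • (1 : Matrix (Fin d ⊕ Fin d) (Fin d ⊕ Fin d) F)) →
      ∃ W : Submodule F (Fin d ⊕ Fin d → F), Hyp (plusQF d F) (2 * s) W ∧
        W.map (Matrix.toLin' (x : Matrix (Fin d ⊕ Fin d) (Fin d ⊕ Fin d) F)) ≤ W) ↔
    (Even s ∨ Odd d) := by
  classical
  constructor
  · intro h
    by_contra hcon
    simp only [not_or, Nat.not_odd_iff_even, Nat.not_even_iff_odd] at hcon
    obtain ⟨x, hx, hx2, hns, hno⟩ := not_hyp_of_alternating (F := F) hcon.2 hd hcon.1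
    obtain ⟨W, hW, hWf⟩ := h x hx ⟨1, by rw [hx2, one_smul]⟩ hns
    exact hno W hW hWf
  · intro hc x hx ⟨z, hz⟩ _
    set f : Module.End F (Fin d ⊕ Fin d → F) := Matrix.toLin' (x : Matrix (Fin d ⊕ Fin d) (Fin d ⊕ Fin d) F)
    have hfQ : ∀ v, plusQF d F (f v) = plusQF d F v := fun v => by
      rw [plusQF_apply, plusQF_apply, Matrix.toLin'_apply]; exact Elusive25.apply_of_mem_omegaGL hx v
    have hff : ∀ v, f (f v) = z • v := fun v => by
      have h1 := congrArg (fun M => Matrix.toLin' M v) hz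
      simp only [pow_two, Units.val_mul, Matrix.toLin'_mul, LinearMap.comp_apply, map_smul, Matrix.toLin'_one,
        LinearMap.smul_apply, LinearMap.id_apply] at h1
      exact h1
    let v₀ : Fin d ⊕ Fin d → F := Sum.elim (Pi.single ⟨0, by omega⟩ 1) (Pi.single ⟨0, by omega⟩ 1)
    have hv₀ : plusQF d F v₀ = 1 := by rw [plusQF_apply]; simp [v₀, Cfsg.quadFormPlus, Pi.single_apply]
    have hz1 : z = 1 := by
      have h1 := (hfQ (f v₀)).trans (hfQ v₀)
      rw [hff, QuadraticMap.map_smul, hv₀, smul_eq_mul, mul_one] at h1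
      rcases mul_self_eq_one_iff.1 h1 with h | h
      · exact h
      · rw [h, CharTwo.neg_eq]
    subst hz1
    have hf1 : ∀ v, f (f v) = v := fun v => by rw [hff, one_smul]
    have hQ := PrimeSO.plusQF_polar_nondegenerate (F := F) d
    have hV := finrank_plus F d
    by_cases hse : Even s
    · obtain ⟨w, rfl⟩ := hse
      obtain ⟨W, hW, hWf⟩ := exists_hyp_four_mul hQ (halfOn_plus d) hfQ hf1 hV w (by omega)
      exact ⟨W, by rwa [show 2 * (w + w) = 4 * w by ring], map_le_self hWf⟩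
    · obtain ⟨u, hu⟩ := Nat.not_even_iff_odd.1 hse
      obtain ⟨t, rfl⟩ := hc.resolve_left hse
      obtain ⟨W, hW, hWf⟩ := exists_hyp_four_mul hQ (halfOn_plus _) hfQ hf1 hV (t - u) (by omega)
      obtain ⟨W', hW', hW'f, -, -⟩ := hyp_compl hQ (halfOn_plus _) hfQ (fun a b h => by rw [← hf1 a, h, hf1 b]) hW hWf
      exact ⟨W', by rwa [show 2 * s = finrank F (Fin (2 * t + 1) ⊕ Fin (2 * t + 1) → F) - 4 * (t - u) by rw [hV]; omega],
        map_le_self hW'f⟩

end even

end Cfsg.Agent.Elusive.OrthTS
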