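import Cfsg.Agent.Elusive.SympIsotropic
import Cfsg.Agent.Elusive25.Even
import Cfsg.Agent.PrimeSO.Glue

/-!
Invariant totally singular subspaces for isometries of odd prime order of a quadratic space, in any
characteristic.
-/

set_option autoImplicit false

namespace Cfsg.Agent.Elusive.OrthTS

open QuadraticMap Submodule Polynomial Module

variable {F : Type*} [Field F] {V : Type*} [AddCommGroup V] [Module F V] {Q : QuadraticForm F V}
  {f : Module.End F V} {r i : ℕ}

theorem polar_map (hfQ : ∀ v, Q (f v) = Q v) (u v : V) : polarBilin Q (f u) (f v) = polarBilin Q u v := by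
  simp [polar, ← map_add, hfQ]

theorem polar_symm (u v : V) : polarBilin Q u v = polarBilin Q v u := polar_comm _ _ _

theorem map_le_self {W : Submodule F V} (h : ∀ v ∈ W, f v ∈ W) : W.map f ≤ W := by
  rintro _ ⟨v, hv, rfl⟩; exact h v hv

theorem isoOn_of_singular {X : Submodule F V} (h : ∀ x ∈ X, Q x = 0) : IsoOn (polarBilin Q) X :=
  fun x hx y hy => by simp [polar, h x hx, h y hy, h _ (add_mem hx hy)]

theorem singular_sup {X Y : Submodule F V} (hX : ∀ x ∈ X, Q x = 0) (hY : ∀ y ∈ Y, Q y = 0)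
    (ho : ∀ x ∈ X, ∀ y ∈ Y, polarBilin Q x y = 0) : ∀ v ∈ X ⊔ Y, Q v = 0 := by
  intro v hv
  obtain ⟨x, hx, y, hy, rfl⟩ := mem_sup.1 hv
  have h : polar Q x y = 0 := ho x hx y hy
  rw [QuadraticMap.map_add Q, hX x hx, hY y hy, h]
  simp

variable [FiniteDimensional F V]

/-- A nondegenerate subspace has totally singular subspaces of every dimension below one half. -/
theorem exists_singular [Finite F] {W : Submodule F V} (hW : NonDegOn (polarBilin Q) W) {e : ℕ}
    (he : e = 0 ∨ 2 * e + 1 ≤ finrank F W) :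
    ∃ X ≤ W, (∀ x ∈ X, Q x = 0) ∧ finrank F X = e := by
  rcases he with rfl | he
  · exact ⟨⊥, bot_le, fun x hx => by rw [(mem_bot F).1 hx, QuadraticMap.map_zero], finrank_bot F V⟩
  have hQW : (polarBilin (Q.comp W.subtype)).Nondegenerate := by
    have key : ∀ x : W, (∀ y : W, polarBilin (Q.comp W.subtype) x y = 0) → x = 0 := fun x hx =>
      Subtype.ext (hW x x.2 fun y hy => by simpa [polar] using hx ⟨y, hy⟩)
    exact ⟨key, fun y hy => key y fun x => (polar_symm y x).trans (hy x)⟩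
  obtain ⟨L, hL, hL0⟩ : ∃ L : (Fin e → F) →ₗ[F] W, Function.Injective L ∧ ∀ c, Q (L c) = 0 := by
    obtain ⟨l, h⟩ := Forms.exists_finite_witt_decomposition (Q.comp W.subtype)
      (Forms.nonsingOn_top_of_nondegenerate hQW)
    let ext : ∀ l, (Fin e → F) →ₗ[F] (Fin l → F) := fun l =>
      LinearMap.pi fun k => if h : (k : ℕ) < e then LinearMap.proj (⟨k, h⟩ : Fin e) else 0
    have hext : ∀ l, e ≤ l → Function.Injective (ext l) := fun l hl c c' h => funext fun k => by
      simpa [ext] using congrFun h (Fin.castLE hl k)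
    rcases h with ⟨hl, E, hE⟩ | ⟨hl, a, -, E, hE⟩ | ⟨hl, a, b, -, E, hE⟩
    · let G : (Fin e → F) →ₗ[F] (Fin l ⊕ Fin l → F) :=
        (LinearEquiv.sumArrowLequivProdArrow _ _ F F).symm.toLinearMap.comp ((ext l).prod 0)
      refine ⟨E.symm.toLinearMap.comp G, fun c c' h => hext l (by omega) ?_, fun c => ?_⟩
      · have h' := E.symm.injective h
        exact funext fun k => congrFun h' (.inl k)
      · show Q.comp W.subtype _ = 0
        rw [hE]; simp [G, Cfsg.quadFormPlus]
    · let G : (Fin e → F) →ₗ[F] (Unit ⊕ (Fin l ⊕ Fin l) → F) :=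
        (LinearEquiv.sumArrowLequivProdArrow _ _ F F).symm.toLinearMap.comp
          ((0 : (Fin e → F) →ₗ[F] (Unit → F)).prod
            ((LinearEquiv.sumArrowLequivProdArrow _ _ F F).symm.toLinearMap.comp ((ext l).prod 0)))
      refine ⟨E.symm.toLinearMap.comp G, fun c c' h => hext l (by omega) ?_, fun c => ?_⟩
      · have h' := E.symm.injective h
        exact funext fun k => congrFun h' (.inr (.inl k))
      · show Q.comp W.subtype _ = 0
        rw [hE]; simp [G, Cfsg.quadFormOdd]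
    · let G : (Fin e → F) →ₗ[F] ((Fin l ⊕ Fin l) ⊕ Fin 2 → F) :=
        (LinearEquiv.sumArrowLequivProdArrow _ _ F F).symm.toLinearMap.comp
          (((LinearEquiv.sumArrowLequivProdArrow _ _ F F).symm.toLinearMap.comp ((ext l).prod 0)).prod 0)
      refine ⟨E.symm.toLinearMap.comp G, fun c c' h => hext l (by omega) ?_, fun c => ?_⟩
      · have h' := E.symm.injective h
        exact funext fun k => congrFun h' (.inl (.inl k))
      · show Q.comp W.subtype _ = 0
        rw [hE]; simp [G, Cfsg.quadFormMinus]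
  refine ⟨LinearMap.range (W.subtype.comp L), ?_, ?_, ?_⟩
  · rintro _ ⟨c, rfl⟩; exact (L c).2
  · rintro _ ⟨c, rfl⟩; exact hL0 c
  · rw [LinearMap.finrank_range_of_inj (f := W.subtype.comp L) (W.subtype_injective.comp hL), Module.finrank_fin_fun]

variable [Fintype F] [Fact r.Prime]

omit [FiniteDimensional F V] [Fintype F] [Fact r.Prime] in
/-- Fixed vectors are orthogonal to the moving part. -/
theorem ker_orth_range (hfQ : ∀ v, Q (f v) = Q v) :
    ∀ x ∈ LinearMap.ker (f - 1), ∀ y ∈ LinearMap.range (f - 1), polarBilin Q x y = 0 := by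
  rintro x hx _ ⟨w, rfl⟩
  rw [LinearMap.sub_apply, Module.End.one_apply, map_sub]
  conv_lhs => arg 1; rw [← mem_ker_sub_one.1 hx]
  rw [polar_map hfQ, sub_self]

omit [FiniteDimensional F V] [Fact r.Prime] [Fintype F] in
theorem range_invariant : ∀ v ∈ LinearMap.range (f - 1), f v ∈ LinearMap.range (f - 1) := by
  rintro _ ⟨w, rfl⟩
  exact ⟨f w, by simp⟩

omit [FiniteDimensional F V] [Fintype F] in
theorem natCast_r_ne_zero [Fintype F] (hr : ¬ r ∣ Fintype.card F) : ((r : ℕ) : F) ≠ 0 := fun h => by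
  obtain ⟨e, hp, he⟩ := FiniteField.card F (ringChar F)
  rw [ringChar.spec, Nat.dvd_prime (Fact.out : r.Prime)] at h
  rcases h with h | h
  · exact hp.ne_one h
  · exact hr (by rw [he, h]; exact dvd_pow_self r e.pos.ne')

omit [FiniteDimensional F V] in
theorem disjoint_ker_range (hf : f ^ r = 1) (hr : ¬ r ∣ Fintype.card F) :
    Disjoint (LinearMap.ker (f - 1)) (LinearMap.range (f - 1)) := by
  refine Submodule.disjoint_def.2 ?_
  rintro v hv ⟨w, rfl⟩
  have hv' := mem_ker_sub_one.1 hv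
  set v := (f - 1) w with hvdef
  have hw : f w = w + v := by rw [hvdef]; simp
  have h : ∀ k : ℕ, (f ^ k) w = w + (k : F) • v := by
    intro k
    induction k with
    | zero => simp
    | succ k ih =>
      rw [pow_succ', Module.End.mul_apply, ih, map_add, map_smul, hw, hv', Nat.cast_succ, add_smul, one_smul]
      abel
  have h1 := h r
  rw [hf, Module.End.one_apply, left_eq_add] at h1
  exact (smul_eq_zero.1 h1).resolve_left (natCast_r_ne_zero hr)

omit [Fintype F] [Fact r.Prime] in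
theorem finrank_ker_add_range : finrank F (LinearMap.ker (f - 1)) + finrank F (LinearMap.range (f - 1)) = finrank F V := by
  rw [add_comm]; exact LinearMap.finrank_range_add_finrank_ker _

theorem ker_sup_range (hf : f ^ r = 1) (hr : ¬ r ∣ Fintype.card F) :
    LinearMap.ker (f - 1) ⊔ LinearMap.range (f - 1) = ⊤ := by
  refine Submodule.eq_top_of_finrank_eq ?_
  rw [finrank_eq_add_of_disjoint rfl (disjoint_ker_range hf hr), finrank_ker_add_range]

theorem nonDegOn_ker (hQ : (polarBilin Q).Nondegenerate) (hfQ : ∀ v, Q (f v) = Q v) (hf : f ^ r = 1)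
    (hr : ¬ r ∣ Fintype.card F) : NonDegOn (polarBilin Q) (LinearMap.ker (f - 1)) := fun x hx h => hQ.1 x fun y => by
  obtain ⟨a, ha, b, hb, rfl⟩ := mem_sup.1 (ker_sup_range hf hr ▸ mem_top : y ∈ _)
  rw [map_add, h a ha, ker_orth_range hfQ x hx b hb, add_zero]

/-- On the moving part the polar form becomes alternating after twisting. -/
theorem exists_twist (hQ : (polarBilin Q).Nondegenerate) (hfQ : ∀ v, Q (f v) = Q v) (hf : f ^ r = 1)
    (hr : ¬ r ∣ Fintype.card F) (hr2 : r ≠ 2) :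
    ∃ B : LinearMap.BilinForm F V, B.IsAlt ∧ (∀ u v, B (f u) (f v) = B u v) ∧
      NonDegOn B (LinearMap.range (f - 1)) ∧
      ∀ X ≤ LinearMap.range (f - 1), (∀ v ∈ X, f v ∈ X) → IsoOn B X → ∀ x ∈ X, Q x = 0 := by
  set M := LinearMap.range (f - 1)
  set g := f ^ (r - 1)
  have hfg : ∀ v, f (g v) = v := fun v => by
    rw [← Module.End.mul_apply, ← pow_succ', Nat.sub_add_cancel (Fact.out : r.Prime).one_le, hf, Module.End.one_apply]
  have hgf : ∀ v, g (f v) = v := fun v => by
    rw [← Module.End.mul_apply, ← pow_succ, Nat.sub_add_cancel (Fact.out : r.Prime).one_le, hf, Module.End.one_apply]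
  let B : LinearMap.BilinForm F V := (polarBilin Q).compl₂ (f - g)
  have hBa : ∀ u v, B u v = polarBilin Q u (f v) - polarBilin Q u (g v) := fun u v => by
    simp [B]
  -- injectivity of the twist on invariant subspaces without fixed vectors
  have hsurj : ∀ X ≤ M, (∀ v ∈ X, f v ∈ X) → ∀ y ∈ X, ∃ z ∈ X, f z - g z = y := by
    intro X hXM hX y hy
    have hXp : ∀ k, ∀ v ∈ X, (f ^ k) v ∈ X := fun k => by
      induction k with
      | zero => intro v hv; exact hv
      | succ k ih => intro v hv; rw [pow_succ', Module.End.mul_apply]; exact hX _ (ih v hv)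
    let D : X →ₗ[F] X := LinearMap.restrict (f - g) fun v hv => sub_mem (hX v hv) (hXp _ v hv)
    have hD : Function.Injective D := (injective_iff_map_eq_zero _).2 fun z hz => Subtype.ext <| by
      have h1 : f z.1 = g z.1 := sub_eq_zero.1 (congrArg Subtype.val hz)
      have h2 : (f ^ 2) z.1 = z.1 := by rw [pow_two, Module.End.mul_apply, h1, hfg]
      have h3 : ∀ k, (f ^ (2 * k)) z.1 = z.1 := fun k => by
        induction k with
        | zero => simp
        | succ k ih => rw [Nat.mul_succ, pow_add, Module.End.mul_apply, h2, ih]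
      obtain ⟨k, hk⟩ := (Fact.out : r.Prime).odd_of_ne_two hr2
      have h4 := LinearMap.congr_fun hf z.1
      rw [hk, pow_succ', Module.End.mul_apply, h3, Module.End.one_apply] at h4
      exact Submodule.disjoint_def.1 (disjoint_ker_range hf hr) _ (mem_ker_sub_one.2 h4) (hXM z.2)
    obtain ⟨z, hz⟩ := LinearMap.injective_iff_surjective.1 hD ⟨y, hy⟩
    exact ⟨z, z.2, congrArg Subtype.val hz⟩
  refine ⟨B, fun u => ?_, fun u v => ?_, fun x hx h => ?_, fun X hXM hX hI x hx => ?_⟩
  · rw [hBa, sub_eq_zero]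
    conv_rhs => rw [← polar_map hfQ u (g u), hfg, polar_symm]
  · rw [hBa, hBa]
    congr 1
    · exact polar_map hfQ _ _
    · rw [hgf]
      conv_rhs => rw [← polar_map hfQ u (g v), hfg]
  · refine hQ.1 x fun y => ?_
    obtain ⟨a, ha, b, hb, rfl⟩ := mem_sup.1 (ker_sup_range hf hr ▸ mem_top : y ∈ _)
    obtain ⟨z, hz, rfl⟩ := hsurj M le_rfl range_invariant b hb
    rw [map_add, polar_symm x a, ker_orth_range hfQ a ha x hx, zero_add, map_sub, ← hBa]
    exact h z hz
  · have hpol : ∀ a ∈ X, ∀ b ∈ X, polarBilin Q a b = 0 := fun a ha b hb => by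
      obtain ⟨z, hz, rfl⟩ := hsurj X hXM hX b hb
      rw [map_sub, ← hBa]
      exact hI a ha z hz
    let D : X →ₗ[F] X := f.restrict hX - LinearMap.id
    have hD : Function.Injective D := (injective_iff_map_eq_zero _).2 fun z hz => Subtype.ext
      (Submodule.disjoint_def.1 (disjoint_ker_range hf hr) _
        (mem_ker_sub_one.2 (sub_eq_zero.1 (congrArg Subtype.val hz))) (hXM z.2))
    obtain ⟨w, hw⟩ := LinearMap.injective_iff_surjective.1 hD ⟨x, hx⟩
    have hw' : f w.1 - w.1 = x := congrArg Subtype.val hw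
    have h2 : Q w.1 + Q w.1 = 0 := by
      have h := hpol _ w.2 _ w.2
      simpa [polar_self, two_mul] using h
    have hp : polar Q (f w.1) w.1 = 0 := hpol _ (hX _ w.2) _ w.2
    rw [← hw', sub_eq_add_neg, QuadraticMap.map_add Q, QuadraticMap.map_neg, hfQ, h2, polar_neg_right, hp]
    simp

/-- An invariant totally singular subspace splits. -/
theorem exists_split (hQ : (polarBilin Q).Nondegenerate) (hfQ : ∀ v, Q (f v) = Q v) (hf : f ^ r = 1)
    (hr : ¬ r ∣ Fintype.card F) (hi : i = orderOf ((Fintype.card F : ℕ) : ZMod r))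
    {W : Submodule F V} (hW : ∀ v ∈ W, f v ∈ W) (hWS : ∀ v ∈ W, Q v = 0) :
    ∃ Y : Submodule F V, (∀ v ∈ Y, f v ∈ Y) ∧ (∀ v ∈ Y, Q v = 0) ∧ Y ≤ LinearMap.range (f - 1) ∧ i ∣ finrank F Y ∧
      finrank F W = finrank F ↥(W ⊓ LinearMap.ker (f - 1)) + finrank F Y ∧
      2 * finrank F ↥(W ⊓ LinearMap.ker (f - 1)) ≤ finrank F (LinearMap.ker (f - 1)) := by
  obtain ⟨Y, hYW, hY, hd, hYM, hsum⟩ := exists_fixed_moving hf hr hW
  exact ⟨Y, hY, fun v hv => hWS v (hYW hv), hYM, hi ▸ dvd_finrank_moving hf hr hY hd, hsum,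
    two_mul_finrank_le inf_le_right (nonDegOn_ker hQ hfQ hf hr) (isoOn_of_singular fun v hv => hWS v hv.1)⟩

/-- The moving part has dimension a multiple of `i`, of `2 i` when `i` is odd. -/
theorem exists_moving_dim (hQ : (polarBilin Q).Nondegenerate) (hfQ : ∀ v, Q (f v) = Q v) (hf : f ^ r = 1)
    (hr : ¬ r ∣ Fintype.card F) (hr2 : r ≠ 2) {c : ℕ} (hi : i = orderOf ((Fintype.card F : ℕ) : ZMod r))
    (hc : c = if Even i then i else 2 * i) : ∃ j, finrank F (LinearMap.range (f - 1)) = j * c := by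
  obtain ⟨B, hA, -, hN, -⟩ := exists_twist hQ hfQ hf hr hr2
  obtain ⟨j, hj⟩ := hi ▸ dvd_finrank_moving hf hr range_invariant (disjoint_ker_range hf hr)
  rw [hc]
  split_ifs with he
  · exact ⟨j, by rw [hj, mul_comm]⟩
  · obtain ⟨h, hh⟩ := (Nat.even_mul.1 (hj ▸ even_finrank_of_nonDegOn hA hN)).resolve_left he
    exact ⟨h, by rw [hj, hh]; ring⟩

/-- Invariant totally singular subspaces of the moving part. -/
theorem exists_moving_singular (hQ : (polarBilin Q).Nondegenerate) (hfQ : ∀ v, Q (f v) = Q v) (hf : f ^ r = 1)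
    (hr : ¬ r ∣ Fintype.card F) (hr2 : r ≠ 2) (hi : i = orderOf ((Fintype.card F : ℕ) : ZMod r)) {b : ℕ}
    (hb : (Odd i ∧ 2 * (b * i) ≤ finrank F (LinearMap.range (f - 1))) ∨
      (Even i ∧ ∃ j, finrank F (LinearMap.range (f - 1)) = j * i ∧ (b = 0 ∨ 2 * b + (r - 1) / i ≤ j + 1))) :
    ∃ X ≤ LinearMap.range (f - 1), (∀ v ∈ X, f v ∈ X) ∧ (∀ v ∈ X, Q v = 0) ∧ finrank F X = b * i := by
  obtain ⟨B, hA, hB, hN, hS⟩ := exists_twist hQ hfQ hf hr hr2
  obtain ⟨X, hXM, hX, hI, hd⟩ : ∃ X ≤ LinearMap.range (f - 1), (∀ v ∈ X, f v ∈ X) ∧ IsoOn B X ∧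
      finrank F X = b * i := by
    rcases hb with ⟨ho, h⟩ | ⟨he, j, hj, h⟩
    · exact exists_isoOn_odd hA hB hf hr hr2 hi (Nat.not_even_iff_odd.2 ho) b _ range_invariant hN
        (disjoint_ker_range hf hr) h
    · exact exists_isoOn_even hA hB hf hr hr2 hi he b j _ range_invariant hN (disjoint_ker_range hf hr) hj h
  exact ⟨X, hXM, hX, hS X hXM hX hI, hd⟩

/-- Gluing fixed and moving singular parts. -/
theorem exists_glued (hfQ : ∀ v, Q (f v) = Q v) (hf : f ^ r = 1) (hr : ¬ r ∣ Fintype.card F)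
    {E X : Submodule F V} (hE : E ≤ LinearMap.ker (f - 1)) (hES : ∀ v ∈ E, Q v = 0)
    (hX : X ≤ LinearMap.range (f - 1)) (hXf : ∀ v ∈ X, f v ∈ X) (hXS : ∀ v ∈ X, Q v = 0) :
    ∃ W : Submodule F V, finrank F W = finrank F E + finrank F X ∧ (∀ v ∈ W, Q v = 0) ∧ W.map f ≤ W := by
  refine ⟨E ⊔ X, finrank_eq_add_of_disjoint rfl ((disjoint_ker_range hf hr).mono hE hX),
    singular_sup hES hXS fun x hx y hy => ker_orth_range hfQ x (hE hx) y (hX hy), map_le_self fun v hv => ?_⟩
  obtain ⟨a, ha, b, hb, rfl⟩ := mem_sup.1 hv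
  rw [map_add, mem_ker_sub_one.1 (hE ha)]
  exact add_mem_sup ha (hXf b hb)

/-- A factor fixed by inversion that occurs once meets no invariant totally singular subspace. -/
theorem inf_ker_eq_bot (Φ : PrimeSO.Fac F r i) (hQ : (polarBilin Q).Nondegenerate) (hfQ : ∀ v, Q (f v) = Q v)
    (hf : f ^ r = 1) (j : Φ.s) (hj : Φ.tau j = j) (hd : PrimeSO.kd f (j : F[X]) ≤ i)
    {Y : Submodule F V} (hY : ∀ v ∈ Y, f v ∈ Y) (hYS : ∀ v ∈ Y, Q v = 0) :
    Y ⊓ LinearMap.ker (aeval f (j : F[X])) = ⊥ := by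
  classical
  set K := LinearMap.ker (aeval f (j : F[X]))
  by_contra hne
  obtain ⟨a, ha⟩ := PrimeSO.dvd_kd Φ (f.restrict hY) j
  let L : LinearMap.ker (aeval (f.restrict hY) (j : F[X])) →ₗ[F] V := Y.subtype.comp (Submodule.subtype _)
  have hres : ∀ (P : F[X]) (y : Y), (aeval (f.restrict hY) P y : V) = aeval f P (y : V) := fun P y =>
    ClassConj.aeval_intertwine Y.subtype (y := f.restrict hY) (y' := f) (fun _ => rfl) P y
  have hLr : LinearMap.range L = Y ⊓ K := by
    ext v
    constructor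
    · rintro ⟨⟨y, hy⟩, rfl⟩
      refine ⟨y.2, ?_⟩
      show aeval f (j : F[X]) (y : V) = 0
      rw [← hres, LinearMap.mem_ker.1 hy, ZeroMemClass.coe_zero]
    · rintro ⟨h1, h2⟩
      exact ⟨⟨⟨v, h1⟩, Subtype.ext (by rw [hres]; exact h2)⟩, rfl⟩
  have h1 : finrank F ↥(Y ⊓ K) = a * i := by
    rw [← hLr, LinearMap.finrank_range_of_inj (f := L) (Y.subtype_injective.comp (Submodule.subtype_injective _)), ← ha]
    rfl
  have ha0 : 0 < a * i := h1 ▸ (Nat.pos_of_ne_zero fun h => hne (Submodule.finrank_eq_zero.1 h))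
  have hKY : K ≤ Y := by
    have hle : finrank F K ≤ finrank F ↥(Y ⊓ K) := by
      rw [h1]
      exact hd.trans (Nat.le_mul_of_pos_left i (Nat.pos_of_mul_pos_right ha0))
    rw [← eq_of_le_of_finrank_le inf_le_right hle]
    exact inf_le_left
  have hR : ∏ k ∈ insert (Polynomial.X - 1 : F[X]) Φ.s, k = Polynomial.X ^ r - 1 := Φ.prod_eq
  set R : F[X] := ∏ k ∈ (insert (Polynomial.X - 1 : F[X]) Φ.s).erase (j : F[X]), k
  have hPR : (j : F[X]) * R = Polynomial.X ^ r - 1 := by
    rw [← hR]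
    exact Finset.mul_prod_erase _ (fun k : F[X] => k) (Finset.mem_insert_of_mem j.2)
  have hcop : IsCoprime (j : F[X]) R := IsCoprime.prod_right fun k hk =>
    Φ.cop _ (Finset.mem_insert_of_mem j.2) k (Finset.mem_of_mem_erase hk) (Finset.ne_of_mem_erase hk).symm
  obtain ⟨u, w, huw⟩ := hcop
  obtain ⟨x, hx, hx0⟩ := exists_mem_ne_zero_of_ne_bot hne
  refine hx0 (hQ.1 x fun v => ?_)
  have hker : aeval (f ^ (r - 1)) (j : F[X]) x = 0 := by
    have : x ∈ LinearMap.ker (aeval (f ^ (r - 1)) (j : F[X])) := by rw [PrimeSO.ker_comp_pow Φ hf j, hj]; exact hx.2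
    exact this
  have hv : v = aeval f ((j : F[X]) * u) v + aeval f (R * w) v := by
    rw [← LinearMap.add_apply, ← map_add, show (j : F[X]) * u + R * w = u * (j : F[X]) + w * R by ring, huw]
    simp
  have hpol : polarBilin Q x (aeval f ((j : F[X]) * u) v) = 0 := by
    rw [map_mul, Module.End.mul_apply, polar_symm,
      PrimeSO.aeval_adjoint _ (PrimeSO.adjoint_pow _ (Fact.out : r.Prime).pos (polar_map hfQ) hf), hker, map_zero]
  have hmem : aeval f (R * w) v ∈ K := by
    rw [LinearMap.mem_ker, ← Module.End.mul_apply, ← map_mul, ← mul_assoc, hPR, map_mul]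
    simp [hf]
  rw [hv, map_add, hpol, zero_add]
  exact isoOn_of_singular hYS x hx.1 _ (hKY hmem)

/-- An invariant subspace of the moving part meeting no kernel is zero. -/
theorem eq_bot_of_inf_ker (Φ : PrimeSO.Fac F r i) (hf : f ^ r = 1) (hr : ¬ r ∣ Fintype.card F)
    {Y : Submodule F V} (hY : ∀ v ∈ Y, f v ∈ Y) (hYM : Y ≤ LinearMap.range (f - 1))
    (h : ∀ j : Φ.s, Y ⊓ LinearMap.ker (aeval f (j : F[X])) = ⊥) : Y = ⊥ := by
  classical
  have hres : ∀ (P : F[X]) (y : Y), (aeval (f.restrict hY) P y : V) = aeval f P (y : V) := fun P y =>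
    ClassConj.aeval_intertwine Y.subtype (y := f.restrict hY) (y' := f) (fun _ => rfl) P y
  have hfr : (f.restrict hY) ^ r = 1 := LinearMap.ext fun y => Subtype.ext (by
    have := hres (Polynomial.X ^ r) y
    simpa [hf] using this)
  have hkd := PrimeSO.kd_dims Φ hfr
  have h0 : ∀ j : Φ.s, PrimeSO.kd (f.restrict hY) (j : F[X]) = 0 := fun j => by
    rw [PrimeSO.kd, Submodule.finrank_eq_zero, eq_bot_iff]
    intro y hy
    refine (mem_bot F).2 (Subtype.ext ((mem_bot F).1 ?_))
    rw [← h j]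
    exact ⟨y.2, show aeval f (j : F[X]) (y : V) = 0 by rw [← hres, LinearMap.mem_ker.1 hy, ZeroMemClass.coe_zero]⟩
  have h1 : PrimeSO.kd (f.restrict hY) (Polynomial.X - 1 : F[X]) = 0 := by
    rw [PrimeSO.kd, Submodule.finrank_eq_zero, eq_bot_iff]
    intro y hy
    refine (mem_bot F).2 (Subtype.ext (Submodule.disjoint_def.1 (disjoint_ker_range hf hr) _ ?_ (hYM y.2)))
    have := hres (Polynomial.X - 1) y
    rw [LinearMap.mem_ker.1 hy] at this
    simpa using this.symm
  rw [h1, Finset.sum_congr rfl (fun j _ => h0 j), Finset.sum_const_zero, add_zero] at hkd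
  exact Submodule.finrank_eq_zero.1 hkd.symm

section elements

variable {ι : Type} [Fintype ι] [DecidableEq ι]

omit [Fintype F] [Fact r.Prime] in
theorem end_pow_of_pow {x : Matrix.GeneralLinearGroup ι F} (hx : x ^ r = 1) :
    (Matrix.toLin' (x : Matrix ι ι F) : Module.End F (ι → F)) ^ r = 1 := by
  rw [← Matrix.toLin'_pow, ← Units.val_pow_eq_pow_val, hx, Units.val_one, Matrix.toLin'_one]
  rfl

/-- An isometry of odd prime order gives an element of `Ω`. -/
theorem exists_omega_of_isometry {R : QuadraticForm F (ι → F)} (hB : Classical.BNondeg R)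
    (hx : OrthGen.NotExceptional R) (hr2 : r ≠ 2) {S : Module.End F (ι → F)} (hS : S ^ r = 1) (hS1 : S ≠ 1)
    (hSQ : ∀ v, R (S v) = R v) :
    ∃ x : Matrix.GeneralLinearGroup ι F, x ∈ Cfsg.Geo.omegaGL ⇑R ∧ orderOf x = r ∧
      Matrix.toLin' (x : Matrix ι ι F) = S := by
  have hr := (Fact.out : r.Prime)
  let g : Classical.OQ R := ⟨PrimeSO.toEquivOfPow S hr.pos hS, hSQ⟩
  have hgk : ∀ k v, (g ^ k).1 v = (S ^ k) v := fun k => by
    induction k with
    | zero => intro v; rfl
    | succ k ih => intro v; rw [pow_succ', pow_succ', Module.End.mul_apply, ← ih]; rfl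
  have hg : g ^ r = 1 := Subtype.ext (LinearEquiv.ext fun v => by rw [hgk, hS]; rfl)
  have hlin : Matrix.toLin' (Elusive25.glOf R g : Matrix ι ι F) = S := LinearMap.ext fun v => by
    rw [Matrix.toLin'_apply, Elusive25.glOf_mulVec]; rfl
  refine ⟨_, Elusive25.glOf_mem_omegaGL R (Elusive25.mem_commutator_of_pow hB hx (hr.odd_of_ne_two hr2) hg), ?_, hlin⟩
  refine orderOf_eq_prime (by rw [← map_pow, hg, map_one]) fun h => hS1 ?_
  rw [← hlin, h, Units.val_one, Matrix.toLin'_one]
  rfl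

end elements

end Cfsg.Agent.Elusive.OrthTS
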