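import Cfsg.Agent.Elusive.OrthMoving
import Cfsg.Agent.Elusive.OrthCount
import Cfsg.Agent.PrimeSO.Classes

/-!
Elements of odd prime order of the odd-dimensional orthogonal group fixing a totally singular subspace.
-/

set_option autoImplicit false

namespace Cfsg.Agent.Elusive.OrthTS

open QuadraticMap Submodule Polynomial Module Cfsg.Agent.Classical

variable {F : Type*} [Field F] [Fintype F] {r i d m : ℕ}

/-- An isometry of the odd form with prescribed kernel dimensions. -/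
theorem exists_element_odd (h2 : (2 : F) ≠ 0) (hr : r.Prime) (hr2 : r ≠ 2) (Φ : PrimeSO.Fac F r i)
    (a : Φ.s → ℕ) (hinv : ∀ j, a (Φ.tau j) = a j) (hle : (∑ j, a j) * i ≤ 2 * d + 1) :
    ∃ S : Module.End F (Unit ⊕ (Fin d ⊕ Fin d) → F), S ^ r = 1 ∧ (∀ v, oddQF d F (S v) = oddQF d F v) ∧
      ∀ j : Φ.s, PrimeSO.kd S (j : F[X]) = a j * i := by
  obtain ⟨T, R, H, hT, hfix, hkd, hRT, hR, hHa, hH, -⟩ :=
    PrimeSO.exists_model (F := F) (K := (∑ j, a j) * i) hr hr2 Φ a hinv rfl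
  obtain ⟨k, b, -⟩ := Forms.exists_symplectic_basis hHa hH
  have hk := Module.finrank_eq_card_basis b
  rw [Module.finrank_fin_fun, Fintype.card_sum, Fintype.card_fin] at hk
  let P : QuadraticForm F ((Fin ((∑ j, a j) * i) → F) × (Unit ⊕ (Fin (d - k) ⊕ Fin (d - k)) → F)) :=
    R.prod (oddQF (d - k) F)
  have hP : (polarBilin P).Nondegenerate :=
    PrimeSO.polar_prod_nondegenerate hR (PrimeSO.oddQF_polar_nondegenerate h2 _)
  have hd : finrank F ((Fin ((∑ j, a j) * i) → F) × (Unit ⊕ (Fin (d - k) ⊕ Fin (d - k)) → F)) = 2 * d + 1 := by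
    rw [Module.finrank_prod, Module.finrank_fin_fun, Module.finrank_pi, Fintype.card_sum, Fintype.card_unit,
      Fintype.card_sum, Fintype.card_fin]
    omega
  obtain ⟨l, h⟩ := Forms.exists_finite_witt_decomposition P (Forms.nonsingOn_top_of_nondegenerate hP)
  rcases h with ⟨hl, -⟩ | ⟨hl, c, hc, E, hE⟩ | ⟨hl, -⟩
  · omega
  · obtain rfl : l = d := by omega
    obtain ⟨S, hS, hSE, hSd⟩ := PrimeSO.exists_glue Φ hT E
    refine ⟨S, hS, fun v => ?_, fun j => by rw [hSd, hkd]⟩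
    obtain ⟨⟨v1, v2⟩, rfl⟩ := E.surjective v
    have h1 := hE (T v1, v2)
    have h2' := hE (v1, v2)
    simp only [P, QuadraticMap.prod_apply, hRT] at h1 h2'
    rw [hSE, oddQF_apply, oddQF_apply]
    exact mul_left_cancel₀ hc (h1.symm.trans h2')
  · omega

omit [Fintype F] in
/-- The dimension of the fixed space from the kernel dimensions. -/
theorem finrank_ker_sub_one {V : Type*} [AddCommGroup V] [Module F V] [FiniteDimensional F V]
    (Φ : PrimeSO.Fac F r i) {S : Module.End F V} (hS : S ^ r = 1) (a : Φ.s → ℕ)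
    (ha : ∀ j : Φ.s, PrimeSO.kd S (j : F[X]) = a j * i) :
    finrank F (LinearMap.ker (S - 1)) + (∑ j, a j) * i = finrank F V := by
  classical
  have h := PrimeSO.kd_dims Φ hS
  rw [Finset.sum_congr rfl fun j _ => ha j, ← Finset.sum_mul] at h
  rwa [PrimeSO.kd, show aeval S (Polynomial.X - 1 : F[X]) = S - 1 by simp] at h

variable [Fact r.Prime]

/-- The criterion for odd primes. -/
theorem odd_prime_iff {p : ℕ} [Fact p.Prime] [CharP F p] (h2 : (2 : F) ≠ 0) (hmd : m ≤ d)
    (hr2 : r ≠ 2) (hrp : r ≠ p) (hrq : ¬ r ∣ Fintype.card F) {c : ℕ}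
    (hi : i = orderOf ((Fintype.card F : ℕ) : ZMod r)) (hc : c = if Even i then i else 2 * i)
    {j₀ : ℕ} (hj₁ : d < j₀ + m) (hj₂ : j₀ ≤ d) (hj₃ : r ∣ Fintype.card F ^ (2 * j₀) - 1) :
    (∀ x : GL (Unit ⊕ (Fin d ⊕ Fin d)) F, x ∈ Cfsg.Geo.omegaGL (Cfsg.quadFormOdd d F) → orderOf x = r →
      ∃ W : Submodule F (Unit ⊕ (Fin d ⊕ Fin d) → F), finrank F ↥W = m ∧ (∀ w ∈ W, Cfsg.quadFormOdd d F w = 0) ∧
        W.map (Matrix.toLin' (x : Matrix (Unit ⊕ (Fin d ⊕ Fin d)) (Unit ⊕ (Fin d ⊕ Fin d)) F)) ≤ W) ↔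
    (i ≤ m ∧ 2 * (m % i) < (2 * d + 1) % c ∧ (Odd i ∨ (r - 1) / i + 2 * (m / i) ≤ (2 * d + 1) / i)) := by
  classical
  have hr := (Fact.out : r.Prime)
  obtain ⟨hi0, ⟨Φ⟩⟩ := PrimeSO.exists_fac (F := F) hr hr2 hrp hi
  have hQf : ∀ v, oddQF d F v = Cfsg.quadFormOdd d F v := oddQF_apply d
  have hQ : (polarBilin (oddQF d F)).Nondegenerate := PrimeSO.oddQF_polar_nondegenerate h2 d
  have hV : finrank F (Unit ⊕ (Fin d ⊕ Fin d) → F) = 2 * d + 1 := by
    rw [Module.finrank_pi]; simp; omega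
  have hne : OrthGen.NotExceptional (oddQF d F) := Forms.notExceptional_of (Or.inr (by omega))
  have hcard : Fintype.card Φ.s = (r - 1) / i := by
    rw [Fintype.card_coe, ← Φ.card_s, Nat.mul_div_cancel _ hi0]
  have ht0 : 0 < (r - 1) / i := by
    have h3 : 0 < r - 1 := by have := hr.two_le; omega
    rw [← hcard]
    refine Nat.pos_of_ne_zero fun h0 => ?_
    have := Φ.card_s
    rw [← Fintype.card_coe, h0, Nat.zero_mul] at this
    omega
  have hc0 : 0 < c := by rw [hc]; split_ifs <;> omega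
  have hce : Even c := by rw [hc]; split_ifs with h; exacts [h, even_two_mul i]
  have hcj : c ∣ 2 * j₀ := by
    have h := hj₃
    rw [← ZMod.natCast_eq_zero_iff, Nat.cast_sub (Nat.one_le_pow _ _ Fintype.card_pos), Nat.cast_pow, Nat.cast_one,
      sub_eq_zero, ← orderOf_dvd_iff_pow_eq_one, ← hi] at h
    rw [hc]
    split_ifs with he
    · exact h
    · exact mul_dvd_mul_left 2 ((Nat.coprime_two_right.2 (Nat.not_even_iff_odd.1 he)).dvd_of_dvd_mul_left h)
  have hkm : (2 * d + 1) % c < 2 * m := by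
    obtain ⟨w, hw⟩ := hcj
    rw [show 2 * d + 1 = 2 * (d - j₀) + 1 + c * w by omega, Nat.add_mul_mod_self_left]
    have := Nat.mod_le (2 * (d - j₀) + 1) c
    omega
  have hkodd : (2 * d + 1) % c % 2 = 1 := by
    obtain ⟨w, hw⟩ := hce
    rw [Nat.mod_mod_of_dvd _ ⟨w, by omega⟩]
    omega
  have hndiv := Nat.div_add_mod' (2 * d + 1) c
  -- what an element with prescribed kernels shows
  have key : ∀ a : Φ.s → ℕ, (∀ j, a (Φ.tau j) = a j) → (∑ j, a j) * i ≤ 2 * d + 1 → 0 < (∑ j, a j) * i →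
      (∀ x : GL (Unit ⊕ (Fin d ⊕ Fin d)) F, x ∈ Cfsg.Geo.omegaGL (Cfsg.quadFormOdd d F) → orderOf x = r →
        ∃ W : Submodule F (Unit ⊕ (Fin d ⊕ Fin d) → F), finrank F ↥W = m ∧ (∀ w ∈ W, Cfsg.quadFormOdd d F w = 0) ∧
          W.map (Matrix.toLin' (x : Matrix (Unit ⊕ (Fin d ⊕ Fin d)) (Unit ⊕ (Fin d ⊕ Fin d)) F)) ≤ W) →
      ∃ e y, m = e + y ∧ i ∣ y ∧ 2 * e + (∑ j, a j) * i ≤ 2 * d + 1 ∧
        (Even i → (∀ j, a j ≤ 1) → y = 0) := by
    intro a hinv hle hpos h
    obtain ⟨S, hS, hSQ, hSd⟩ := exists_element_odd h2 hr hr2 Φ a hinv hle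
    have hC := finrank_ker_sub_one Φ hS a hSd
    rw [hV] at hC
    have hS1 : S ≠ 1 := by
      rintro rfl
      rw [sub_self, LinearMap.ker_zero, finrank_top, hV] at hC
      omega
    obtain ⟨x, hx, hxo, hxS⟩ := exists_omega_of_isometry hQ.1 hne hr2 hS hS1 hSQ
    rw [show ⇑(oddQF d F) = Cfsg.quadFormOdd d F from funext hQf] at hx
    obtain ⟨W, hWd, hWQ, hW⟩ := h x hx hxo
    rw [hxS] at hW
    obtain ⟨Y, hY, hYQ, hYM, hYi, hsum, hle'⟩ := exists_split hQ hSQ hS hrq hi
      (W := W) (fun v hv => hW ⟨v, hv, rfl⟩) (fun v hv => (hQf v).trans (hWQ v hv))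
    refine ⟨_, _, hWd ▸ hsum, hYi, by omega, fun he h1 => ?_⟩
    rw [eq_bot_of_inf_ker Φ hS hrq hY hYM fun j => inf_ker_eq_bot Φ hQ hSQ hS j (Φ.tau_even he j)
      (by rw [hSd]; exact (Nat.mul_le_mul_right i (h1 j)).trans (one_mul i).le) hY hYQ, finrank_bot]
  constructor
  · intro h
    -- an element moving as much as possible
    set J := (2 * d + 1) / c with hJ
    obtain ⟨f₀⟩ : Nonempty Φ.s := Fintype.card_pos_iff.1 (hcard ▸ ht0)
    let a : Φ.s → ℕ := fun j => (if j = f₀ then J else 0) + (if Odd i ∧ j = Φ.tau f₀ then J else 0)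
    have hinv : ∀ j, a (Φ.tau j) = a j := by
      intro j
      simp only [a]
      rcases Nat.even_or_odd i with he | ho
      · simp [Φ.tau_even he]
      · simp only [ho, true_and, show Φ.tau j = f₀ ↔ j = Φ.tau f₀ from
          ⟨fun e => by rw [← e, Φ.tau_tau], fun e => by rw [e, Φ.tau_tau]⟩,
          show Φ.tau j = Φ.tau f₀ ↔ j = f₀ from ⟨fun e => by simpa [Φ.tau_tau] using congrArg Φ.tau e, fun e => by rw [e]⟩]
        exact add_comm _ _
    have hsum : (∑ j, a j) * i = J * c := by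
      simp only [a, Finset.sum_add_distrib]
      rcases Nat.even_or_odd i with he | ho
      · simp [Nat.not_odd_iff_even.2 he, hc, he]
      · simp [ho, hc, Nat.not_even_iff_odd.2 ho]
        ring
    have hcd : c ≤ 2 * d := by
      rcases Nat.eq_zero_or_pos j₀ with h0 | h0
      · omega
      · exact (Nat.le_of_dvd (by omega) hcj).trans (by omega)
    have hJ0 : 0 < J * c := Nat.mul_pos (Nat.div_pos (by omega) hc0) hc0
    obtain ⟨e, y, hey, hiy, hle, -⟩ := key a hinv (by rw [hsum]; omega) (by rw [hsum]; exact hJ0) h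
    rw [hsum] at hle
    have him : i ≤ m := by
      rcases Nat.eq_zero_or_pos y with rfl | hy0
      · omega
      · have := Nat.le_of_dvd hy0 hiy; omega
    have hl : 2 * (m % i) < (2 * d + 1) % c := by
      obtain ⟨w, rfl⟩ := hiy
      rw [hey, Nat.add_mul_mod_self_left]
      have := Nat.mod_le e i
      omega
    refine ⟨him, hl, (Nat.even_or_odd i).symm.imp_right fun hev => ?_⟩
    by_contra hcon
    have hci : c = i := by rw [hc, if_pos hev]
    rw [hci] at hkm
    obtain ⟨S₀, -, hS₀⟩ := Finset.exists_subset_card_eq (s := (Finset.univ : Finset Φ.s))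
      (n := min ((r - 1) / i) ((2 * d + 1) / i)) (by rw [Finset.card_univ, hcard]; exact min_le_left _ _)
    let a' : Φ.s → ℕ := fun j => if j ∈ S₀ then 1 else 0
    have hs' : ∑ j, a' j = min ((r - 1) / i) ((2 * d + 1) / i) := by
      simp only [a']
      rw [Finset.sum_ite_mem, Finset.univ_inter, Finset.sum_const, hS₀, smul_eq_mul, mul_one]
    have hs0 : 0 < min ((r - 1) / i) ((2 * d + 1) / i) := lt_min ht0 (Nat.div_pos (by omega) hi0)
    obtain ⟨e', y', hey', -, hle', hy'⟩ := key a' (fun j => by rw [Φ.tau_even hev])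
      (by rw [hs']; exact (Nat.mul_le_mul_right i (min_le_right _ _)).trans (Nat.div_mul_le_self _ _))
      (by rw [hs']; exact Nat.mul_pos hs0 hi0) h
    rw [hy' hev fun j => by simp only [a']; split_ifs <;> omega] at hey'
    rw [hs'] at hle'
    have hdm := Nat.div_add_mod' (2 * d + 1) i
    have hdl := Nat.mod_lt (2 * d + 1) hi0
    have hmm := Nat.div_add_mod' m i
    rcases le_total ((r - 1) / i) ((2 * d + 1) / i) with htj | htj
    · rw [min_eq_left htj] at hle'
      have := Nat.mul_le_mul_right i (Nat.lt_of_not_le hcon)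
      rw [Nat.succ_mul, Nat.add_mul, Nat.mul_assoc] at this
      omega
    · rw [min_eq_right htj] at hle'
      omega
  · rintro ⟨him, hl, hor⟩ x hx hxo
    set f : Module.End F (Unit ⊕ (Fin d ⊕ Fin d) → F) :=
      Matrix.toLin' (x : Matrix (Unit ⊕ (Fin d ⊕ Fin d)) (Unit ⊕ (Fin d ⊕ Fin d)) F)
    have hf : f ^ r = 1 := end_pow_of_pow (hxo ▸ pow_orderOf_eq_one x)
    have hfQ : ∀ v, oddQF d F (f v) = oddQF d F v := fun v => by
      rw [hQf, hQf, Matrix.toLin'_apply]; exact Elusive25.apply_of_mem_omegaGL hx v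
    obtain ⟨j, hj⟩ := exists_moving_dim hQ hfQ hf hrq hr2 hi hc
    have hsum := finrank_ker_add_range (f := f)
    rw [hV, hj] at hsum
    set e₀ := finrank F (LinearMap.ker (f - 1))
    have hk : (2 * d + 1) % c ≤ e₀ := by
      rw [← hsum, Nat.add_mul_mod_self_right]; exact Nat.mod_le _ _
    have hmm := Nat.div_add_mod' m i
    obtain ⟨b, hbm, hbe, hb⟩ : ∃ b, b ≤ m / i ∧ (m - b * i = 0 ∨ 2 * (m - b * i) + 1 ≤ e₀) ∧
        ((Odd i ∧ 2 * (b * i) ≤ finrank F (LinearMap.range (f - 1))) ∨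
          (Even i ∧ ∃ j', finrank F (LinearMap.range (f - 1)) = j' * i ∧ (b = 0 ∨ 2 * b + (r - 1) / i ≤ j' + 1))) := by
      rcases Nat.even_or_odd i with hev | ho
      · have hci : c = i := by rw [hc, if_pos hev]
        subst hci
        have hcon := hor.resolve_left (Nat.not_odd_iff_even.2 hev)
        refine ⟨min (m / c) ((j + 1 - (r - 1) / c) / 2), min_le_left _ _, Or.inr ?_, Or.inr ⟨hev, j, hj, by omega⟩⟩
        rcases le_total (m / c) ((j + 1 - (r - 1) / c) / 2) with hle | hle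
        · rw [min_eq_left hle]; omega
        · rw [min_eq_right hle]
          have h1 : j ≤ 2 * ((j + 1 - (r - 1) / c) / 2) + (r - 1) / c := by omega
          have h3 := Nat.mul_le_mul_right c h1
          have h4 := Nat.mul_le_mul_right c hcon
          have h5 := Nat.mul_le_mul_right c hle
          rw [Nat.add_mul, Nat.mul_assoc] at h3 h4
          omega
      · have hci : c = 2 * i := by rw [hc, if_neg (Nat.not_even_iff_odd.2 ho)]
        subst hci
        have e2 : j * (2 * i) = 2 * (j * i) := Nat.mul_left_comm _ _ _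
        refine ⟨min (m / i) j, min_le_left _ _, Or.inr ?_, Or.inl ⟨ho, ?_⟩⟩
        · rcases le_total (m / i) j with hle | hle
          · rw [min_eq_left hle]; omega
          · rw [min_eq_right hle]
            have h5 := Nat.mul_le_mul_right i hle
            omega
        · rw [hj, e2]
          exact Nat.mul_le_mul_left 2 (Nat.mul_le_mul_right i (min_le_right _ _))
    have hbi : b * i ≤ m := (Nat.mul_le_mul_right i hbm).trans (by omega)
    obtain ⟨X, hXM, hX, hXQ, hXd⟩ := exists_moving_singular hQ hfQ hf hrq hr2 hi hb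
    obtain ⟨E, hE, hEQ, hEd⟩ := exists_singular (nonDegOn_ker hQ hfQ hf hrq) hbe
    obtain ⟨W, hWd, hWQ, hW⟩ := exists_glued hfQ hf hrq hE hEQ hXM hX hXQ
    exact ⟨W, by omega, fun w hw => (hQf w).symm.trans (hWQ w hw), hW⟩

end Cfsg.Agent.Elusive.OrthTS
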