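import Cfsg.Agent.Elusive.OrthOdd
import Cfsg.Agent.Forms.OmegaPlus

/-!
Elements of odd prime order of the hyperbolic orthogonal group fixing a totally singular subspace.
-/

set_option autoImplicit false

namespace Cfsg.Agent.Elusive.OrthTS

open QuadraticMap Submodule Polynomial Module Cfsg.Agent.Classical

variable {F : Type*} [Field F] {r i d m : ℕ}

section halves

variable {V : Type*} [AddCommGroup V] [Module F V] [FiniteDimensional F V] {Q : QuadraticForm F V}

/-- A subspace of prescribed smaller dimension. -/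
theorem exists_le_finrank (X : Submodule F V) {e : ℕ} (he : e ≤ finrank F X) :
    ∃ Y ≤ X, finrank F Y = e := by
  let b := Module.finBasis F X
  refine ⟨span F (Set.range fun l : Fin e => (b (Fin.castLE he l) : V)), span_le.2 ?_, ?_⟩
  · rintro _ ⟨l, rfl⟩; exact (b _).2
  · exact (finrank_span_eq_card ((b.linearIndependent.map' X.subtype X.ker_subtype).comp _
      (Fin.castLE_injective he))).trans (Fintype.card_fin _)

/-- Totally singular subspaces lie in ones of the largest dimension. -/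
theorem exists_singular_ge (hQ : (polarBilin Q).Nondegenerate) {W W' : Submodule F V} (hW : ∀ v ∈ W, Q v = 0)
    (hW' : ∀ v ∈ W', Q v = 0) : ∃ L, W ≤ L ∧ (∀ v ∈ L, Q v = 0) ∧ finrank F W' ≤ finrank F L := by
  obtain ⟨L, ⟨hWL, hL⟩, hmax⟩ := (wellFounded_gt (α := Submodule F V)).has_min
    {L | W ≤ L ∧ ∀ v ∈ L, Q v = 0} ⟨W, le_rfl, hW⟩
  exact ⟨L, hWL, hL, Forms.finrank_le_of_maximal_totallySingular (Forms.nonsingOn_top_of_nondegenerate hQ) hW' hL
    fun T hLT hT => by
      rcases eq_or_lt_of_le hLT with h | h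
      · exact h.symm
      · exact absurd h (hmax T ⟨hWL.trans hLT, hT⟩)⟩

/-- In a hyperbolic space a summand is hyperbolic if its orthogonal summand is. -/
theorem exists_half_compl (hQ : (polarBilin Q).Nondegenerate) {C M U L₀ : Submodule F V}
    (ho : ∀ a ∈ C, ∀ b ∈ M, polarBilin Q a b = 0) (hsup : C ⊔ M = ⊤) (hdis : Disjoint C M)
    (hL₀ : ∀ v ∈ L₀, Q v = 0) (hV : finrank F V ≤ 2 * finrank F L₀) (hU : U ≤ M) (hUS : ∀ v ∈ U, Q v = 0)
    (hUd : finrank F M ≤ 2 * finrank F U) :
    ∃ E ≤ C, (∀ v ∈ E, Q v = 0) ∧ finrank F C ≤ 2 * finrank F E := by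
  have hN : NonDegOn (polarBilin Q) M := fun x hx h => hQ.1 x fun v => by
    obtain ⟨a, ha, b, hb, rfl⟩ := mem_sup.1 (hsup ▸ mem_top : v ∈ C ⊔ M)
    rw [map_add, h b hb, polar_symm, ho a ha x hx, zero_add]
  have hU2 := two_mul_finrank_le hU hN (isoOn_of_singular hUS)
  have hCM := finrank_eq_add_of_disjoint hsup hdis
  rw [finrank_top] at hCM
  have horth : LinearMap.BilinForm.orthogonal (polarBilin Q) U = C ⊔ U := by
    refine (eq_of_le_of_finrank_le (sup_le (fun a ha u hu => ?_) fun v hv u hu => ?_) ?_).symm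
    · show polarBilin Q u a = 0
      rw [polar_symm]; exact ho a ha u (hU hu)
    · exact isoOn_of_singular hUS u hu v hv
    · rw [LinearMap.BilinForm.finrank_orthogonal hQ, finrank_eq_add_of_disjoint rfl (hdis.mono_right hU)]
      omega
  obtain ⟨L, hUL, hL, hLd⟩ := exists_singular_ge hQ hUS hL₀
  have hLe : L ≤ C ⊔ U := horth ▸ fun v hv u hu => isoOn_of_singular hL u (hUL hu) v hv
  have hdec : U ⊔ L ⊓ C = L := by
    rw [inf_comm, ← sup_inf_assoc_of_le _ hUL, sup_comm, inf_eq_right.2 hLe]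
  refine ⟨L ⊓ C, inf_le_right, fun v hv => hL v hv.1, ?_⟩
  have := finrank_eq_add_of_disjoint hdec (hdis.symm.mono hU inf_le_right)
  omega

variable [Fintype F] [Fact r.Prime] {f : Module.End F V}

/-- The moving part as a quadratic space. -/
theorem moving_facts (hQ : (polarBilin Q).Nondegenerate) (hfQ : ∀ v, Q (f v) = Q v) (hf : f ^ r = 1)
    (hr : ¬ r ∣ Fintype.card F) :
    (polarBilin (Q.comp (LinearMap.range (f - 1)).subtype)).Nondegenerate ∧
      (f.restrict range_invariant : Module.End F (LinearMap.range (f - 1))) ^ r = 1 ∧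
      ∀ v, (f.restrict range_invariant : Module.End F (LinearMap.range (f - 1))) v = v → v = 0 := by
  set M := LinearMap.range (f - 1)
  refine ⟨?_, LinearMap.ext fun y => Subtype.ext ?_, fun v hv => Subtype.ext
    (disjoint_def.1 (disjoint_ker_range hf hr) _ (mem_ker_sub_one.2 (congrArg Subtype.val hv)) v.2)⟩
  · have key : ∀ x : M, (∀ y : M, polarBilin (Q.comp M.subtype) x y = 0) → x = 0 := fun x hx =>
      Subtype.ext (hQ.1 x fun v => by
        obtain ⟨a, ha, b, hb, rfl⟩ := mem_sup.1 (ker_sup_range hf hr ▸ mem_top : v ∈ LinearMap.ker (f - 1) ⊔ M)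
        rw [map_add, polar_symm, ker_orth_range hfQ a ha x x.2, zero_add]
        simpa [polar] using hx ⟨b, hb⟩)
    exact ⟨key, fun y hy => key y fun x => (polar_symm y x).trans (hy x)⟩
  · have := ClassConj.aeval_intertwine M.subtype (y := f.restrict range_invariant) (y' := f) (fun _ => rfl)
      (Polynomial.X ^ r) y
    simpa [hf] using this

/-- The moving part is hyperbolic unless it consists of an odd number of blocks of even degree. -/
theorem exists_half_moving (Φ : PrimeSO.Fac F r i) (hQ : (polarBilin Q).Nondegenerate) (hfQ : ∀ v, Q (f v) = Q v)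
    (hf : f ^ r = 1) (hr : ¬ r ∣ Fintype.card F) (hr2 : r ≠ 2)
    (hi : i = orderOf ((Fintype.card F : ℕ) : ZMod r)) {A : ℕ}
    (hA : finrank F (LinearMap.range (f - 1)) = A * i) (hpar : Odd i ∨ Even A) :
    ∃ U ≤ LinearMap.range (f - 1), (∀ v ∈ U, Q v = 0) ∧ finrank F (LinearMap.range (f - 1)) ≤ 2 * finrank F U := by
  obtain ⟨hR, hT, hfix⟩ := moving_facts hQ hfQ hf hr
  obtain ⟨B, hBA, -, hN, -⟩ := exists_twist hQ hfQ hf hr hr2
  obtain ⟨s, hs⟩ := even_finrank_of_nonDegOn hBA hN
  set M := LinearMap.range (f - 1)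
  obtain ⟨l, h⟩ := Forms.exists_finite_witt_decomposition (Q.comp M.subtype) (Forms.nonsingOn_top_of_nondegenerate hR)
  rcases h with ⟨hl, e, he⟩ | ⟨hl, -⟩ | ⟨hl, a, b, hab, e, he⟩
  · let G : (Fin l → F) →ₗ[F] M := e.symm.toLinearMap.comp
      ((LinearEquiv.sumArrowLequivProdArrow _ _ F F).symm.toLinearMap.comp (LinearMap.id.prod 0))
    have hG : Function.Injective (M.subtype.comp G) := M.subtype_injective.comp fun c c' h => by
      funext k
      exact congrFun (e.symm.injective h) (.inl k)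
    refine ⟨LinearMap.range (M.subtype.comp G), ?_, ?_, ?_⟩
    · rintro _ ⟨c, rfl⟩; exact (G c).2
    · rintro _ ⟨c, rfl⟩
      show Q.comp M.subtype (G c) = 0
      rw [he]; simp [G, Cfsg.quadFormPlus]
    · rw [LinearMap.finrank_range_of_inj hG, Module.finrank_fin_fun, hl]
  · omega
  · exfalso
    obtain ⟨hev, hodd⟩ := PrimeSO.odd_of_minus (Fact.out : r.Prime) hr2 Φ rfl hi (hi ▸ orderOf_pos_of_not_dvd hr) _ hR hT
      (fun v => hfQ v) hfix (k := l) (A := A) (by omega) hab e he
    rcases hpar with h | h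
    · exact Nat.not_even_iff_odd.2 h hev
    · exact Nat.not_even_iff_odd.2 hodd h

/-- A hyperbolic moving part has an even number of blocks when their degree is even. -/
theorem even_of_half_moving (hQ : (polarBilin Q).Nondegenerate) (hfQ : ∀ v, Q (f v) = Q v) (hf : f ^ r = 1)
    (hr : ¬ r ∣ Fintype.card F) (hr2 : r ≠ 2) (hi : i = orderOf ((Fintype.card F : ℕ) : ZMod r)) (hev : Even i) {A : ℕ}
    (hA : finrank F (LinearMap.range (f - 1)) = A * i) {U : Submodule F V} (hU : U ≤ LinearMap.range (f - 1))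
    (hUS : ∀ v ∈ U, Q v = 0) (hUd : finrank F (LinearMap.range (f - 1)) ≤ 2 * finrank F U) : Even A := by
  obtain ⟨hR, hT, hfix⟩ := moving_facts hQ hfQ hf hr
  set M := LinearMap.range (f - 1)
  obtain ⟨l, h⟩ := Forms.exists_finite_witt_decomposition (Q.comp M.subtype) (Forms.nonsingOn_top_of_nondegenerate hR)
  rcases h with ⟨hl, e, he⟩ | ⟨hl, -⟩ | ⟨hl, a, b, hab, e, he⟩
  · exact PrimeSO.even_of_plus (Fact.out : r.Prime) hr2 rfl hi hev (hi ▸ orderOf_pos_of_not_dvd hr) _ hT
      (fun v => hfQ v) hfix (by omega) e he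
  · exfalso
    obtain ⟨w, hw⟩ := hev.mul_left A
    omega
  · exfalso
    have h1 := Forms.finrank_le_of_vanishes_quadFormMinus hab ((U.comap M.subtype).map e.toLinearMap) (by
      rintro _ ⟨u, hu, rfl⟩
      exact (he u).symm.trans (hUS u hu))
    rw [LinearEquiv.finrank_map_eq, (Submodule.comapSubtypeEquivOfLe hU).finrank_eq] at h1
    omega

/-- An isometry of a hyperbolic space: parity forced by a hyperbolic fixed space. -/
theorem even_of_half_fixed (hQ : (polarBilin Q).Nondegenerate) (hfQ : ∀ v, Q (f v) = Q v) (hf : f ^ r = 1)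
    (hr : ¬ r ∣ Fintype.card F) (hr2 : r ≠ 2) (hi : i = orderOf ((Fintype.card F : ℕ) : ZMod r)) (hev : Even i) {A : ℕ}
    (hA : finrank F (LinearMap.range (f - 1)) = A * i) {L₀ E : Submodule F V} (hL₀ : ∀ v ∈ L₀, Q v = 0)
    (hV : finrank F V ≤ 2 * finrank F L₀) (hE : E ≤ LinearMap.ker (f - 1)) (hES : ∀ v ∈ E, Q v = 0)
    (hEd : finrank F (LinearMap.ker (f - 1)) ≤ 2 * finrank F E) : Even A := by
  obtain ⟨U, hU, hUS, hUd⟩ := exists_half_compl hQ (C := LinearMap.range (f - 1)) (M := LinearMap.ker (f - 1))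
    (fun a ha b hb => (polar_symm a b).trans (ker_orth_range hfQ b hb a ha))
    (by rw [sup_comm]; exact ker_sup_range hf hr) (disjoint_ker_range hf hr).symm hL₀ hV hE hES hEd
  exact even_of_half_moving hQ hfQ hf hr hr2 hi hev hA hU hUS hUd

end halves

/-- The standard totally singular half of the hyperbolic space. -/
theorem exists_plus_half (F : Type*) [Field F] (d : ℕ) :
    ∃ L : Submodule F (Fin d ⊕ Fin d → F), (∀ v ∈ L, plusQF d F v = 0) ∧ finrank F L = d := by
  let G : (Fin d → F) →ₗ[F] (Fin d ⊕ Fin d → F) :=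
    (LinearEquiv.sumArrowLequivProdArrow _ _ F F).symm.toLinearMap.comp (LinearMap.id.prod 0)
  refine ⟨LinearMap.range G, ?_, ?_⟩
  · rintro _ ⟨c, rfl⟩
    rw [plusQF_apply]; simp [G, Cfsg.quadFormPlus]
  · rw [LinearMap.finrank_range_of_inj fun c c' h => _root_.funext fun k => congrFun h (Sum.inl k), Module.finrank_fin_fun]

variable [Fintype F]

/-- A prime dividing the number of totally singular subspaces of `quadFormPlus d`. -/
theorem dvd_card_plus [Fact r.Prime] (hmd : m < d)
    (h : r ∣ Nat.card {W : Submodule F (Fin d ⊕ Fin d → F) //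
      Module.finrank F W = m ∧ ∀ w ∈ W, Cfsg.quadFormPlus d F w = 0}) :
    ¬ r ∣ Fintype.card F ∧ ∃ j, d < j + m ∧ j ≤ d ∧
      (r ∣ Fintype.card F ^ j - 1 ∨ r ∣ Fintype.card F ^ (j - 1) + 1) := by
  have hr := (Fact.out : r.Prime)
  have key := card_spaces_hypExt (plusQF d F) qNondeg_zero_fin0 hmd.le (plusEquiv d) (plusEquiv_spec d)
  simp only [plusQF_apply] at key
  have h' := (h.mul_right _).trans (dvd_of_eq key)
  obtain ⟨k, hk, hk'⟩ := (Prime.dvd_finsetProd_iff hr.prime _).1 h'
  rw [Finset.mem_range] at hk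
  obtain ⟨j, hj⟩ : ∃ j, d - k = j + 1 := ⟨d - k - 1, by omega⟩
  have hz : Nat.card {x // hypExt (d - k) (0 : QuadraticForm F (Fin 0 → F)) x = 0} - 1 =
      (Fintype.card F ^ (j + 1) - 1) * (Fintype.card F ^ j + 1) := by
    rw [hj, Nat.sub_mul, Nat.mul_add, ← pow_add, show j + 1 + j = 2 * j + 1 by ring]
    have := card_zeros_hypExt_plus (F := F) j
    rw [Nat.card_eq_fintype_card (α := F)] at this
    omega
  rw [hz] at hk'
  refine ⟨fun hq => ?_, j + 1, by omega, by omega, by rw [Nat.add_sub_cancel]; exact hr.dvd_mul.1 hk'⟩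
  rcases hr.dvd_mul.1 hk' with h1 | h1
  · have h2 := Nat.dvd_sub (dvd_pow hq (Nat.succ_ne_zero j)) h1
    rw [Nat.sub_sub_self (Nat.one_le_pow _ _ Fintype.card_pos)] at h2
    exact hr.ne_one (Nat.dvd_one.1 h2)
  · exact hr.ne_one (Nat.dvd_one.1 ((Nat.dvd_add_right (dvd_pow hq (by omega))).1 h1))

/-- The consequences of the divisibility for `k = n mod c`. -/
theorem plus_count_facts [Fact r.Prime] (hr2 : r ≠ 2) {c : ℕ} (hi0 : 0 < i)
    (hi : i = orderOf ((Fintype.card F : ℕ) : ZMod r)) (hc : c = if Even i then i else 2 * i)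
    {j : ℕ} (hj₁ : d < j + m) (hj₂ : j ≤ d) (hmd : m < d)
    (hj₃ : r ∣ Fintype.card F ^ j - 1 ∨ r ∣ Fintype.card F ^ (j - 1) + 1) :
    c ≤ 2 * d ∧ 2 * d % c ≤ 2 * m ∧ (2 * d % c = 2 * m → Even i ∧ Odd (2 * d / c)) ∧
      (Even i → 2 * d % c = 0 → Odd (2 * d / c) → i < 2 * m ∧ i < 2 * d) := by
  have hcase : i ∣ j ∨ (Even i ∧ ∃ w, 2 * (j - 1) = (2 * w + 1) * i) := by
    rcases hj₃ with h | h
    · left
      rwa [← ZMod.natCast_eq_zero_iff, Nat.cast_sub (Nat.one_le_pow _ _ Fintype.card_pos), Nat.cast_pow,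
        Nat.cast_one, sub_eq_zero, ← orderOf_dvd_iff_pow_eq_one, ← hi] at h
    · rw [← ZMod.natCast_eq_zero_iff, Nat.cast_add, Nat.cast_pow, Nat.cast_one, add_eq_zero_iff_eq_neg] at h
      have hne : ((Fintype.card F : ZMod r)) ^ (j - 1) ≠ 1 := by
        rw [h]
        intro h1
        have h2 : ((2 : ℕ) : ZMod r) = 0 := by push_cast; linear_combination -h1
        rw [ZMod.natCast_eq_zero_iff] at h2
        exact hr2 ((Nat.prime_dvd_prime_iff_eq Fact.out Nat.prime_two).1 h2)
      have hd2 : i ∣ 2 * (j - 1) := by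
        rw [hi, orderOf_dvd_iff_pow_eq_one, mul_comm, pow_mul, h]; simp
      have hnd : ¬ i ∣ j - 1 := fun h1 => hne (by rw [← orderOf_dvd_iff_pow_eq_one, ← hi]; exact h1)
      have he : Even i := Nat.not_odd_iff_even.1 fun ho =>
        hnd ((Nat.coprime_two_right.2 ho).dvd_of_dvd_mul_left hd2)
      obtain ⟨w, hw⟩ := hd2
      obtain ⟨v, rfl⟩ | ⟨v, rfl⟩ := Nat.even_or_odd w
      · exact absurd ⟨v, by rw [Nat.mul_add] at hw; omega⟩ hnd
      · exact Or.inr ⟨he, v, by rw [hw, mul_comm]⟩
  have hc0 : 0 < c := by rw [hc]; split_ifs <;> omega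
  rcases hcase with hij | ⟨he, w, hw⟩
  · obtain ⟨v, rfl⟩ := hij
    have hcj : c ∣ 2 * (i * v) := by
      rw [hc]; split_ifs with he
      · exact Dvd.intro (2 * v) (by ring)
      · exact Dvd.intro v (by ring)
    have hk : 2 * d % c ≤ 2 * (d - i * v) := by
      obtain ⟨u, hu⟩ := hcj
      rw [show 2 * d = 2 * (d - i * v) + c * u by omega, Nat.add_mul_mod_self_left]
      exact Nat.mod_le _ _
    refine ⟨(Nat.le_of_dvd (by omega) hcj).trans (by omega), by omega, fun h => absurd h (by omega), fun he h0 hodd => ?_⟩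
    rw [if_pos he] at hc; subst c
    have hle : i ≤ i * v := Nat.le_mul_of_pos_right i (Nat.pos_of_ne_zero fun h => by subst h; omega)
    refine ⟨?_, by omega⟩
    obtain ⟨u, hu⟩ := hodd
    have h2 := Nat.div_add_mod (2 * d) i
    rw [h0, hu, add_zero] at h2
    have h3 : i * (2 * v) < i * (2 * u + 1) ∨ i * (2 * u + 1) ≤ i * (2 * v) := Nat.lt_or_ge _ _
    have h4 : i * (2 * v) = 2 * (i * v) := Nat.mul_left_comm _ _ _
    have h5 : 2 * v + 1 ≤ 2 * u + 1 := by
      by_contra hcon
      have : i * (2 * u + 1 + 1) ≤ i * (2 * v) := Nat.mul_le_mul_left i (by omega)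
      rw [Nat.mul_add, mul_one] at this
      omega
    obtain ⟨z, hz⟩ : ∃ z, u = v + z := ⟨u - v, by omega⟩
    subst hz
    rcases Nat.eq_zero_or_pos z with rfl | hz
    · have : i * (2 * (v + 0) + 1) = 2 * (i * v) + i := by ring
      omega
    · have : i * (2 * (v + z) + 1) = 2 * (i * v) + 2 * (i * z) + i := by ring
      have := Nat.le_mul_of_pos_right i hz
      omega
  · rw [if_pos he] at hc; subst c
    have hle : i ≤ (2 * w + 1) * i := Nat.le_mul_of_pos_left i (by omega)
    have hk : 2 * d % i = (2 * (d - (j - 1))) % i := by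
      rw [show 2 * d = 2 * (d - (j - 1)) + (2 * w + 1) * i by omega, Nat.add_mul_mod_self_right]
    have hdiv : 2 * d / i = 2 * (d - (j - 1)) / i + (2 * w + 1) := by
      rw [show 2 * d = 2 * (d - (j - 1)) + (2 * w + 1) * i by omega, Nat.add_mul_div_right _ _ hi0]
    have hle' := Nat.mod_le (2 * (d - (j - 1))) i
    have hlt := Nat.mod_lt (2 * (d - (j - 1))) hi0
    refine ⟨by omega, by omega, fun h => ⟨he, ?_⟩, fun _ h0 hodd => ⟨?_, by omega⟩⟩
    · rw [hdiv, Nat.div_eq_of_lt (by omega)]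
      exact ⟨w, by omega⟩
    · obtain ⟨u, hu⟩ := hodd
      have h2 := Nat.div_add_mod' (2 * (d - (j - 1))) i
      rw [← hk, h0] at h2
      obtain ⟨Q', hQ'⟩ : ∃ Q', 2 * (d - (j - 1)) / i = Q' := ⟨_, rfl⟩
      rw [hQ'] at h2 hdiv
      rcases (show Q' = 0 ∨ 2 ≤ Q' by omega) with rfl | hQ2
      · omega
      · have := Nat.mul_le_mul_right i hQ2
        omega

/-- An isometry of the hyperbolic form with prescribed kernel dimensions. -/
theorem exists_element_plus (hr : r.Prime) (hr2 : r ≠ 2) (Φ : PrimeSO.Fac F r i) (hi0 : 0 < i)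
    (hi : i = orderOf ((Fintype.card F : ℕ) : ZMod r))
    (a : Φ.s → ℕ) (hinv : ∀ j, a (Φ.tau j) = a j) (hle : (∑ j, a j) * i ≤ 2 * d)
    (hpar : Odd i ∨ Even (∑ j, a j) ∨ (∑ j, a j) * i < 2 * d) :
    ∃ S : Module.End F (Fin d ⊕ Fin d → F), S ^ r = 1 ∧ (∀ v, plusQF d F (S v) = plusQF d F v) ∧
      ∀ j : Φ.s, PrimeSO.kd S (j : F[X]) = a j * i := by
  obtain ⟨T, R, H, hT, hfix, hkd, hRT, hR, hHa, hH, -⟩ :=
    PrimeSO.exists_model (F := F) (K := (∑ j, a j) * i) hr hr2 Φ a hinv rfl
  obtain ⟨k, b, -⟩ := Forms.exists_symplectic_basis hHa hH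
  have hk := Module.finrank_eq_card_basis b
  rw [Module.finrank_fin_fun, Fintype.card_sum, Fintype.card_fin] at hk
  obtain ⟨l, h⟩ := Forms.exists_finite_witt_decomposition R (Forms.nonsingOn_top_of_nondegenerate hR)
  rw [Module.finrank_fin_fun] at h
  rcases h with ⟨hl, e, he⟩ | ⟨hl, -⟩ | ⟨hl, x, y, hxy, e, he⟩
  · obtain ⟨j, rfl⟩ : ∃ j, d = l + j := ⟨d - l, by omega⟩
    obtain ⟨S, hS, hSE, hSd⟩ := PrimeSO.exists_glue Φ hT ((e.prodCongr (LinearEquiv.refl F _)).trans (PrimeSO.plusJoin l j))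
    refine ⟨S, hS, fun v => ?_, fun z => by rw [hSd, hkd]⟩
    obtain ⟨⟨v1, v2⟩, rfl⟩ := ((e.prodCongr (LinearEquiv.refl F _)).trans (PrimeSO.plusJoin l j)).surjective v
    rw [hSE, plusQF_apply, plusQF_apply, LinearEquiv.trans_apply, LinearEquiv.trans_apply, PrimeSO.plusJoin_spec,
      PrimeSO.plusJoin_spec]
    show quadFormPlus l F (e (T v1)) + _ = quadFormPlus l F (e v1) + _
    rw [← he, ← he, hRT]
    rfl
  · omega
  · obtain ⟨hev, hAo⟩ := PrimeSO.odd_of_minus hr hr2 Φ rfl hi hi0 R hR hT hRT hfix (k := l) (A := ∑ j, a j) (by omega)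
      hxy e he
    have hlt := (hpar.resolve_left (Nat.not_odd_iff_even.2 hev)).resolve_left (Nat.not_even_iff_odd.2 hAo)
    obtain ⟨j, rfl⟩ : ∃ j, d = l + j + 2 := ⟨d - l - 2, by omega⟩
    obtain ⟨x', y', hxy'⟩ := Forms.exists_binaryAniso (F := F)
    obtain ⟨E, hE⟩ := PrimeSO.exists_minus_minus R hR (j := j) hxy hxy' e he
    obtain ⟨S, hS, hSE, hSd⟩ := PrimeSO.exists_glue Φ hT E
    refine ⟨S, hS, fun v => ?_, fun z => by rw [hSd, hkd]⟩
    obtain ⟨⟨v1, v2⟩, rfl⟩ := E.surjective v
    rw [hSE, plusQF_apply, plusQF_apply, hE, hE, hRT]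

variable [Fact r.Prime]

/-- The criterion for odd primes, stated for maps of order dividing `r`. -/
theorem odd_prime_iff_plus {p : ℕ} [Fact p.Prime] [CharP F p] (hmd : m < d)
    (hr2 : r ≠ 2) (hrp : r ≠ p) (hrq : ¬ r ∣ Fintype.card F) {c : ℕ}
    (hi : i = orderOf ((Fintype.card F : ℕ) : ZMod r)) (hc : c = if Even i then i else 2 * i)
    {j₀ : ℕ} (hj₁ : d < j₀ + m) (hj₂ : j₀ ≤ d)
    (hj₃ : r ∣ Fintype.card F ^ j₀ - 1 ∨ r ∣ Fintype.card F ^ (j₀ - 1) + 1) :
    (∀ f : Module.End F (Fin d ⊕ Fin d → F), f ^ r = 1 → f ≠ 1 → (∀ v, plusQF d F (f v) = plusQF d F v) →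
      ∃ W : Submodule F (Fin d ⊕ Fin d → F), finrank F ↥W = m ∧ (∀ w ∈ W, plusQF d F w = 0) ∧ W.map f ≤ W) ↔
    ((Odd i ∧ i ≤ m ∧ 2 * (m % i) ≤ (2 * d) % c) ∨
     (Even i ∧ i ≤ m ∧ (r - 1) / i + 2 * (m / i) ≤ (2 * d) / i ∧
       ((2 * (m % i) ≤ i ∧ (2 * d) % c = 0 ∧ Odd ((2 * d) / i) ∧ (r - 1) / i + 2 * (m / i) < (2 * d) / i) ∨
        (2 * (m % i) ≤ (2 * d) % c ∧ Even ((2 * d) / i)) ∨
        (2 * (m % i) < (2 * d) % c ∧ Odd ((2 * d) / i))))) := by
  classical
  have hr := (Fact.out : r.Prime)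
  obtain ⟨hi0, ⟨Φ⟩⟩ := PrimeSO.exists_fac (F := F) hr hr2 hrp hi
  obtain ⟨hcd, hkm, hkeq, hexc⟩ := plus_count_facts hr2 hi0 hi hc hj₁ hj₂ hmd hj₃
  have hQ := PrimeSO.plusQF_polar_nondegenerate (F := F) d
  obtain ⟨L₀, hL₀, hL₀d⟩ := exists_plus_half F d
  have hV : finrank F (Fin d ⊕ Fin d → F) = 2 * d := by
    rw [Module.finrank_pi, Fintype.card_sum, Fintype.card_fin, two_mul]
  have hcard : Fintype.card Φ.s = (r - 1) / i := by
    rw [Fintype.card_coe, ← Φ.card_s, Nat.mul_div_cancel _ hi0]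
  have ht0 : 0 < (r - 1) / i := by
    have h3 : 0 < r - 1 := by have := hr.two_le; omega
    rw [← hcard]
    refine Nat.pos_of_ne_zero fun h0 => ?_
    have := Φ.card_s
    rw [← Fintype.card_coe, h0, Nat.zero_mul] at this
    omega
  have hc0 : 0 < c := by rw [hc]; split_ifs <;> omega
  have hndiv := Nat.div_add_mod' (2 * d) c
  have hmm := Nat.div_add_mod' m i
  have hml := Nat.mod_lt m hi0
  -- what an element with prescribed kernels shows
  have key : ∀ a : Φ.s → ℕ, (∀ j, a (Φ.tau j) = a j) → (∑ j, a j) * i ≤ 2 * d → 0 < (∑ j, a j) * i →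
      (Odd i ∨ Even (∑ j, a j) ∨ (∑ j, a j) * i < 2 * d) →
      (∀ f : Module.End F (Fin d ⊕ Fin d → F), f ^ r = 1 → f ≠ 1 → (∀ v, plusQF d F (f v) = plusQF d F v) →
        ∃ W : Submodule F (Fin d ⊕ Fin d → F), finrank F ↥W = m ∧ (∀ w ∈ W, plusQF d F w = 0) ∧ W.map f ≤ W) →
      ∃ e y, m = e + y ∧ i ∣ y ∧ 2 * e + (∑ j, a j) * i ≤ 2 * d ∧
        (Even i → Odd (∑ j, a j) → 2 * e + 2 + (∑ j, a j) * i ≤ 2 * d) ∧
        (Even i → (∀ j, a j ≤ 1) → y = 0) := by
    intro a hinv hle hpos hpar h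
    obtain ⟨S, hS, hSQ, hSd⟩ := exists_element_plus hr hr2 Φ hi0 hi a hinv hle hpar
    have hC := finrank_ker_sub_one Φ hS a hSd
    rw [hV] at hC
    have hS1 : S ≠ 1 := by
      rintro rfl
      rw [sub_self, LinearMap.ker_zero, finrank_top, hV] at hC
      omega
    obtain ⟨W, hWd, hWQ, hW⟩ := h S hS hS1 hSQ
    obtain ⟨Y, hY, hYQ, hYM, hYi, hsum, hle'⟩ := exists_split hQ hSQ hS hrq hi
      (W := W) (fun v hv => hW ⟨v, hv, rfl⟩) hWQ
    refine ⟨_, _, hWd ▸ hsum, hYi, by omega, fun he ho => ?_, fun he h1 => ?_⟩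
    · have hM := finrank_ker_add_range (f := S)
      rw [hV] at hM
      by_contra hcon
      have hei : Even ((∑ j, a j) * i) := he.mul_left _
      obtain ⟨w, hw⟩ := hei
      refine Nat.not_even_iff_odd.2 ho (even_of_half_fixed hQ hSQ hS hrq hr2 hi he (by omega) hL₀
        (by rw [hV, hL₀d]) (inf_le_right : W ⊓ LinearMap.ker (S - 1) ≤ _) (fun v hv => hWQ v hv.1) ?_)
      omega
    · rw [eq_bot_of_inf_ker Φ hS hrq hY hYM fun j => inf_ker_eq_bot Φ hQ hSQ hS j (Φ.tau_even he j)
        (by rw [hSd]; exact (Nat.mul_le_mul_right i (h1 j)).trans (one_mul i).le) hY hYQ, finrank_bot]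
  obtain ⟨f₀⟩ : Nonempty Φ.s := Fintype.card_pos_iff.1 (hcard ▸ ht0)
  rcases Nat.even_or_odd i with hev | ho
  · -- blocks of even degree
    have hci : c = i := by rw [hc, if_pos hev]
    subst hci
    obtain ⟨l2, hl2⟩ := hev
    have hev : Even c := ⟨l2, hl2⟩
    simp only [hev, Nat.not_odd_iff_even.2 hev, true_and, false_and, false_or]
    have hkeven : 2 * d % c % 2 = 0 := by
      rw [Nat.mod_mod_of_dvd _ ⟨l2, by omega⟩]; omega
    have hexc' : 2 * d % c = 0 → Odd (2 * d / c) → 3 ≤ 2 * d / c ∧ c < 2 * m := fun h0 ho => by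
      obtain ⟨h1, h2⟩ := hexc hev h0 ho
      obtain ⟨u, hu⟩ := ho
      refine ⟨?_, h1⟩
      rcases Nat.eq_zero_or_pos u with rfl | hu0
      · rw [hu] at hndiv; omega
      · omega
    constructor
    · intro h
      set N := 2 * d / c
      have hN0 : 0 < N := Nat.div_pos hcd hc0
      -- one class
      let single : ℕ → Φ.s → ℕ := fun A j => if j = f₀ then A else 0
      have hsingle : ∀ A, (∑ j, single A j) = A := fun A => by simp [single]
      have hinv : ∀ (a : Φ.s → ℕ) j, a (Φ.tau j) = a j := fun a j => by rw [Φ.tau_even hev]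
      -- several classes
      have hmulti : ∀ s ≤ (r - 1) / c, ∃ a : Φ.s → ℕ, ∑ j, a j = s ∧ ∀ j, a j ≤ 1 := fun s hs => by
        obtain ⟨S₀, -, hS₀⟩ := Finset.exists_subset_card_eq (s := (Finset.univ : Finset Φ.s)) (n := s)
          (by rw [Finset.card_univ, hcard]; exact hs)
        refine ⟨fun j => if j ∈ S₀ then 1 else 0, ?_, fun j => by dsimp only; split_ifs <;> omega⟩
        rw [Finset.sum_ite_mem, Finset.univ_inter, Finset.sum_const, hS₀, smul_eq_mul, mul_one]
      have hNc : N * c ≤ 2 * d := Nat.div_mul_le_self _ _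
      by_cases hE : 2 * d % c = 0 ∧ Odd N
      · obtain ⟨h0, hodd⟩ := hE
        obtain ⟨hN3, him2⟩ := hexc' h0 hodd
        have hpred : (N - 1) * c + c = N * c := by
          rw [← Nat.succ_mul, Nat.succ_eq_add_one, Nat.sub_add_cancel (by omega)]
        have hpe : Even (N - 1) := by obtain ⟨u, hu⟩ := hodd; exact ⟨u, by omega⟩
        obtain ⟨e, y, hey, ⟨w, hw⟩, hle, -, -⟩ := key (single (N - 1)) (hinv _) (by rw [hsingle]; omega)
          (by rw [hsingle]; exact Nat.mul_pos (by omega) hc0) (Or.inr (Or.inl (by rw [hsingle]; exact hpe))) h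
        rw [hsingle] at hle
        have him : c ≤ m := by
          rcases Nat.eq_zero_or_pos w with rfl | hw0
          · rw [Nat.mul_zero] at hw
            omega
          · have := Nat.le_mul_of_pos_right c hw0
            omega
        have hl : 2 * (m % c) ≤ c := by
          rw [hey, hw, Nat.add_mul_mod_self_left]
          have := Nat.mod_le e c
          omega
        have ht : (r - 1) / c + 2 * (m / c) < N := by
          by_contra hcon
          obtain ⟨a, hasum, ha1⟩ := hmulti (min ((r - 1) / c) (N - 1)) (min_le_left _ _)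
          have hs0 : 0 < min ((r - 1) / c) (N - 1) := lt_min ht0 (by omega)
          obtain ⟨e', y', hey', -, hle', hodd', hy'⟩ := key a (hinv _)
            (by rw [hasum]; exact (Nat.mul_le_mul_right c (min_le_right _ _)).trans (by omega))
            (by rw [hasum]; exact Nat.mul_pos hs0 hc0)
            (Or.inr (Or.inr (by
              rw [hasum]
              exact lt_of_le_of_lt (Nat.mul_le_mul_right c (min_le_right _ _)) (by omega)))) h
          rw [hy' hev ha1] at hey'
          rw [hasum] at hle' hodd'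
          rcases le_total ((r - 1) / c) (N - 1) with htN | htN
          · rw [min_eq_left htN] at hle' hodd'
            have h1 := Nat.mul_le_mul_right c (Nat.not_lt.1 hcon)
            rw [Nat.add_mul, Nat.mul_assoc] at h1
            rcases eq_or_lt_of_le (Nat.not_lt.1 hcon) with heq | hlt
            · have : Odd ((r - 1) / c) := by
                obtain ⟨u, hu⟩ := hodd
                exact ⟨u - m / c, by omega⟩
              have := hodd' hev this
              omega
            · have h2 := Nat.mul_le_mul_right c (Nat.succ_le_of_lt hlt)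
              rw [Nat.succ_mul, Nat.add_mul, Nat.mul_assoc] at h2
              omega
          · rw [min_eq_right htN] at hle'
            omega
        exact ⟨him, ht.le, Or.inl ⟨hl, h0, hodd, ht⟩⟩
      · have hpar : Odd c ∨ Even N ∨ N * c < 2 * d := by
          rcases Nat.even_or_odd N with h' | h'
          · exact Or.inr (Or.inl h')
          · have hne : 2 * d % c ≠ 0 := fun h0 => hE ⟨h0, h'⟩
            exact Or.inr (Or.inr (by omega))
        obtain ⟨e, y, hey, ⟨w, hw⟩, hle, hodd', -⟩ := key (single N) (hinv _) (by rw [hsingle]; omega)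
          (by rw [hsingle]; exact Nat.mul_pos hN0 hc0) (by rw [hsingle]; exact hpar) h
        rw [hsingle] at hle hodd'
        have him : c ≤ m := by
          rcases Nat.eq_zero_or_pos w with rfl | hw0
          · exfalso
            rw [Nat.mul_zero] at hw
            rcases eq_or_lt_of_le hkm with h' | h'
            · have := hodd' hev (hkeq h').2
              omega
            · omega
          · have := Nat.le_mul_of_pos_right c hw0
            omega
        have hl : e % c = m % c := by rw [hey, hw, Nat.add_mul_mod_self_left]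
        have hel := Nat.mod_le e c
        have ht : (r - 1) / c + 2 * (m / c) ≤ N := by
          by_contra hcon
          obtain ⟨a, hasum, ha1⟩ := hmulti (min ((r - 1) / c) N) (min_le_left _ _)
          have hs0 : 0 < min ((r - 1) / c) N := lt_min ht0 hN0
          have hsN := Nat.mul_le_mul_right c (min_le_right ((r - 1) / c) N)
          obtain ⟨e', y', hey', -, hle', hodd'', hy'⟩ := key a (hinv _)
            (by rw [hasum]; omega)
            (by rw [hasum]; exact Nat.mul_pos hs0 hc0)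
            (by
              rw [hasum]
              rcases le_or_gt N ((r - 1) / c) with h' | h'
              · rw [min_eq_right h']; exact hpar
              · refine Or.inr (Or.inr (lt_of_lt_of_le ?_ hNc))
                rw [min_eq_left h'.le]
                exact Nat.mul_lt_mul_of_pos_right h' hc0) h
          rw [hy' hev ha1] at hey'
          rw [hasum] at hle' hodd''
          rcases le_total ((r - 1) / c) N with htN | htN
          · rw [min_eq_left htN] at hle'
            have h1 := Nat.mul_le_mul_right c (Nat.lt_of_not_le hcon)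
            rw [Nat.succ_mul, Nat.add_mul, Nat.mul_assoc] at h1
            have := Nat.mod_lt (2 * d) hc0
            omega
          · rw [min_eq_right htN] at hle' hodd''
            rcases eq_or_lt_of_le hkm with h' | h'
            · have := hodd'' hev (hkeq h').2
              omega
            · omega
        refine ⟨him, ht, Or.inr ?_⟩
        rcases Nat.even_or_odd N with h' | h'
        · exact Or.inl ⟨by omega, h'⟩
        · exact Or.inr ⟨by have := hodd' hev h'; omega, h'⟩
    · rintro ⟨him, ht, hcases⟩ f hf - hfQ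
      obtain ⟨A, hA⟩ := exists_moving_dim hQ hfQ hf hrq hr2 hi (c := c) (by rw [if_pos hev])
      have hsum := finrank_ker_add_range (f := f)
      rw [hV, hA] at hsum
      set e₀ := finrank F (LinearMap.ker (f - 1))
      set N := 2 * d / c
      have hAN : A ≤ N := (Nat.le_div_iff_mul_le hc0).2 (by omega)
      set b := min (m / c) ((A + 1 - (r - 1) / c) / 2)
      have hbm : b * c ≤ m / c * c := Nat.mul_le_mul_right c (min_le_left _ _)
      obtain ⟨X, hXM, hX, hXQ, hXd⟩ := exists_moving_singular hQ hfQ hf hrq hr2 hi (b := b)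
        (Or.inr ⟨hev, A, hA, by omega⟩)
      -- the room left for the fixed part
      obtain ⟨D, hD⟩ : ∃ D, N = A + D := ⟨N - A, by omega⟩
      have hslack : 2 * (m - b * c) ≤ e₀ ∧ (Odd A → 2 * (m - b * c) + 2 ≤ e₀) := by
        have hk0 : e₀ = 2 * d % c + D * c := by rw [hD, Nat.add_mul] at hndiv; omega
        rcases le_total (m / c) ((A + 1 - (r - 1) / c) / 2) with hle | hle
        · have hb : b = m / c := min_eq_left hle
          rw [hb]
          rcases hcases with ⟨hl, h0, hoddN, -⟩ | ⟨hl, hevN⟩ | ⟨hl, hoddN⟩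
          · -- all blocks cannot be used
            have hD0 : 0 < D := by
              rcases Nat.eq_zero_or_pos D with rfl | h' <;> [skip; exact h']
              exfalso
              have hAe := even_of_half_fixed hQ hfQ hf hrq hr2 hi hev hA hL₀ (by rw [hV, hL₀d])
                (bot_le : (⊥ : Submodule F (Fin d ⊕ Fin d → F)) ≤ _)
                (fun v hv => by rw [(mem_bot F).1 hv, QuadraticMap.map_zero]) (by omega)
              exact Nat.not_even_iff_odd.2 hoddN (by rwa [hD, add_zero])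
            refine ⟨by have := Nat.le_mul_of_pos_left c hD0; omega, fun hoA => ?_⟩
            have hD2 : 2 ≤ D := by
              obtain ⟨u, hu⟩ := hoddN; obtain ⟨v, hv⟩ := hoA; omega
            have := Nat.mul_le_mul_right c hD2
            omega
          · refine ⟨by omega, fun hoA => ?_⟩
            have hD1 : 0 < D := by
              obtain ⟨u, hu⟩ := hevN; obtain ⟨v, hv⟩ := hoA; omega
            have := Nat.le_mul_of_pos_left c hD1
            omega
          · exact ⟨by omega, fun _ => by omega⟩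
        · have hb : b = (A + 1 - (r - 1) / c) / 2 := min_eq_right hle
          rw [← hb] at hle
          have hAb : A ≤ 2 * b + (r - 1) / c := by omega
          obtain ⟨z, hz⟩ : ∃ z, m / c = b + z := ⟨m / c - b, by omega⟩
          -- `2 z ≤ D`
          have hzc : m - b * c = m % c + z * c := by rw [hz, Nat.add_mul] at hmm; omega
          rw [hzc]
          have h2z : 2 * z ≤ D := by omega
          have h2zc := Nat.mul_le_mul_right c h2z
          rw [Nat.mul_assoc] at h2zc
          rcases hcases with ⟨hl, h0, hoddN, hlt⟩ | ⟨hl, hevN⟩ | ⟨hl, hoddN⟩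
          · have h2z1 := Nat.mul_le_mul_right c (show 2 * z + 1 ≤ D by omega)
            rw [Nat.succ_mul, Nat.mul_assoc] at h2z1
            refine ⟨by omega, fun hoA => ?_⟩
            have h2z2 := Nat.mul_le_mul_right c (show 2 * z + 2 ≤ D by
              obtain ⟨u, hu⟩ := hoddN; obtain ⟨v, hv⟩ := hoA; omega)
            rw [Nat.add_mul, Nat.mul_assoc] at h2z2
            omega
          · refine ⟨by omega, fun hoA => ?_⟩
            have h2z1 := Nat.mul_le_mul_right c (show 2 * z + 1 ≤ D by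
              obtain ⟨u, hu⟩ := hevN; obtain ⟨v, hv⟩ := hoA; omega)
            rw [Nat.succ_mul, Nat.mul_assoc] at h2z1
            omega
          · exact ⟨by omega, fun _ => by omega⟩
      obtain ⟨E, hE, hEQ, hEd⟩ : ∃ E ≤ LinearMap.ker (f - 1), (∀ v ∈ E, plusQF d F v = 0) ∧
          finrank F E = m - b * c := by
        rcases Nat.even_or_odd A with hAe | hAo
        · obtain ⟨U, hU, hUS, hUd⟩ := exists_half_moving Φ hQ hfQ hf hrq hr2 hi hA (Or.inr hAe)
          obtain ⟨E, hE, hES, hEd⟩ := exists_half_compl hQ (ker_orth_range hfQ) (ker_sup_range hf hrq)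
            (disjoint_ker_range hf hrq) hL₀ (by rw [hV, hL₀d]) hU hUS hUd
          obtain ⟨E', hE', hE'd⟩ := exists_le_finrank E (e := m - b * c) (by omega)
          exact ⟨E', hE'.trans hE, fun v hv => hES v (hE' hv), hE'd⟩
        · exact exists_singular (nonDegOn_ker hQ hfQ hf hrq) (Or.inr (by have := hslack.2 hAo; omega))
      obtain ⟨W, hWd, hWQ, hW⟩ := exists_glued hfQ hf hrq hE hEQ hXM hX hXQ
      exact ⟨W, by omega, hWQ, hW⟩
  · -- blocks of odd degree
    have hci : c = 2 * i := by rw [hc, if_neg (Nat.not_even_iff_odd.2 ho)]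
    subst hci
    simp only [ho, Nat.not_even_iff_odd.2 ho, true_and, false_and, or_false]
    have hklt : 2 * d % (2 * i) < 2 * m := lt_of_le_of_ne hkm fun h => Nat.not_even_iff_odd.2 ho (hkeq h).1
    constructor
    · intro h
      set J := 2 * d / (2 * i)
      let a : Φ.s → ℕ := fun j => (if j = f₀ then J else 0) + (if j = Φ.tau f₀ then J else 0)
      have hinv : ∀ j, a (Φ.tau j) = a j := fun j => by
        simp only [a, show Φ.tau j = f₀ ↔ j = Φ.tau f₀ from
          ⟨fun e => by rw [← e, Φ.tau_tau], fun e => by rw [e, Φ.tau_tau]⟩,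
          show Φ.tau j = Φ.tau f₀ ↔ j = f₀ from ⟨fun e => by simpa [Φ.tau_tau] using congrArg Φ.tau e, fun e => by rw [e]⟩]
        exact add_comm _ _
      have hsum : (∑ j, a j) * i = J * (2 * i) := by
        simp [a, Finset.sum_add_distrib]
        ring
      obtain ⟨e, y, hey, ⟨w, hw⟩, hle, -, -⟩ := key a hinv (by rw [hsum]; omega)
        (by rw [hsum]; exact Nat.mul_pos (Nat.div_pos hcd hc0) hc0) (Or.inl ho) h
      rw [hsum] at hle
      rcases Nat.eq_zero_or_pos w with rfl | hw0
      · exfalso; rw [Nat.mul_zero] at hw; omega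
      · have hl : e % i = m % i := by rw [hey, hw, Nat.add_mul_mod_self_left]
        have := Nat.mod_le e i
        have := Nat.le_mul_of_pos_right i hw0
        exact ⟨by omega, by omega⟩
    · rintro ⟨him, hl⟩ f hf - hfQ
      obtain ⟨j, hj⟩ := exists_moving_dim hQ hfQ hf hrq hr2 hi hc
      have hsum := finrank_ker_add_range (f := f)
      rw [hV, hj] at hsum
      set e₀ := finrank F (LinearMap.ker (f - 1))
      have hk : 2 * d % (2 * i) ≤ e₀ := by
        rw [← hsum, Nat.add_mul_mod_self_right]; exact Nat.mod_le _ _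
      have e2 : j * (2 * i) = 2 * (j * i) := Nat.mul_left_comm _ _ _
      set b := min (m / i) j
      have hbm : b * i ≤ m / i * i := Nat.mul_le_mul_right i (min_le_left _ _)
      have hbj : b * i ≤ j * i := Nat.mul_le_mul_right i (min_le_right _ _)
      obtain ⟨X, hXM, hX, hXQ, hXd⟩ := exists_moving_singular hQ hfQ hf hrq hr2 hi (b := b)
        (Or.inl ⟨ho, by omega⟩)
      obtain ⟨U, hU, hUS, hUd⟩ := exists_half_moving Φ hQ hfQ hf hrq hr2 hi (A := 2 * j) (by rw [hj]; ring) (Or.inl ho)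
      obtain ⟨E, hE, hES, hEd⟩ := exists_half_compl hQ (ker_orth_range hfQ) (ker_sup_range hf hrq)
        (disjoint_ker_range hf hrq) hL₀ (by rw [hV, hL₀d]) hU hUS hUd
      obtain ⟨E', hE', hE'd⟩ := exists_le_finrank E (e := m - b * i) (by
        rcases le_total (m / i) j with hle | hle
        · rw [show b = m / i from min_eq_left hle]; omega
        · rw [show b = j from min_eq_right hle]; omega)
      obtain ⟨W, hWd, hWQ, hW⟩ := exists_glued hfQ hf hrq (hE'.trans hE) (fun v hv => hES v (hE' hv)) hXM hX hXQ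
      exact ⟨W, by omega, hWQ, hW⟩

end Cfsg.Agent.Elusive.OrthTS
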