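import Cfsg.Agent.OrthMax.Types
import Cfsg.Agent.Forms.FiniteQuadratic
import Cfsg.Agent.Forms.Similarity
import Cfsg.Agent.Elusive.SympIsotropic
import Cfsg.Agent.Elusive25.Models
import Cfsg.Agent.Elusive25.Even
import Cfsg.Agent.Elusive.FieldExtOrthMinus
import Cfsg.Agent.Elusive.OrthSubspace

/-!
Plus and minus type of nondegenerate subspaces of a quadratic space over a finite field of any characteristic.
-/

set_option autoImplicit false
set_option linter.unusedSectionVars false

namespace Cfsg.Agent.Elusive.OrthTypes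

open Module QuadraticMap Cfsg.Agent.Classical Cfsg.Agent.Forms Cfsg.Agent.Elusive
open Cfsg.Geo (IsPlusTypeOn IsNondegenerateOn AreOrthogonalFor)

variable {F : Type*} [Field F] [Fintype F]

theorem bNondeg_plus (m : ℕ) : BNondeg (plusQF m F) := bNondeg_plusQF

theorem bNondeg_minus (m : ℕ) {a b : F} (hab : BinaryAniso a b) : BNondeg (minusQF m a b) := by
  by_cases h2 : (2 : F) = 0
  · have : CharP F 2 := CharTwo.of_one_ne_zero_of_two_eq_zero one_ne_zero h2
    exact Elusive25.bNondeg_minusQF hab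
  · exact FieldExtOrth.minus_nondeg h2 hab

variable {ι : Type} [Fintype ι] [DecidableEq ι] {R : QuadraticForm F (ι → F)}

theorem polar_symm : ∀ u v, R.polarBilin u v = R.polarBilin v u := fun u v => polar_comm R u v

theorem nondeg_iff {W : Submodule F (ι → F)} : IsNondegenerateOn (polar ⇑R) W ↔ NonDegOn R.polarBilin W := by
  constructor
  · intro h w hw h0
    by_contra hne
    obtain ⟨-, x, hx, hx0⟩ := h w hw hne
    exact hx0 (h0 x hx)
  · intro h w hw hne
    obtain ⟨x, hx, hx0⟩ : ∃ x ∈ W, polar R w x ≠ 0 := by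
      by_contra hno
      push Not at hno
      exact hne (h w hw hno)
    exact ⟨⟨x, hx, by rwa [polar_comm]⟩, x, hx, hx0⟩

/-- Non-degenerate subspaces are complemented by their orthogonals. -/
theorem isCompl_orth {W : Submodule F (ι → F)} (hW : NonDegOn R.polarBilin W) :
    IsCompl W (LinearMap.BilinForm.orthogonal R.polarBilin W) :=
  LinearMap.BilinForm.isCompl_orthogonal_of_restrict_nondegenerate (fun _ _ h => (polar_symm _ _).trans h)
    (Orth.nonDegOn_restrict (B := R.polarBilin) ⟨fun u v => polar_comm R u v⟩ hW).2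

theorem nonDegOn_orth (hB : BNondeg R) {W : Submodule F (ι → F)} (hW : NonDegOn R.polarBilin W) :
    NonDegOn R.polarBilin (LinearMap.BilinForm.orthogonal R.polarBilin W) := fun y hy hy0 => hB y fun v => by
  obtain ⟨x, hx, y', hy', rfl⟩ :=
    Submodule.mem_sup.1 ((isCompl_orth hW).sup_eq_top ▸ Submodule.mem_top : v ∈ W ⊔ LinearMap.BilinForm.orthogonal R.polarBilin W)
  rw [polar_add_right, polar_comm R y x, show polar R x y = 0 from hy x hx, zero_add]
  exact hy0 y' hy'

theorem disjoint_of_orth {X Y : Submodule F (ι → F)} (hX : NonDegOn R.polarBilin X)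
    (ho : ∀ x ∈ X, ∀ y ∈ Y, polar R x y = 0) : Disjoint X Y :=
  Submodule.disjoint_def.2 fun x hx hxY => hX x hx fun y hy =>
    (polar_symm x y).trans (ho y hy x hxY)

theorem finrank_sup {X Y : Submodule F (ι → F)} (hX : NonDegOn R.polarBilin X)
    (ho : ∀ x ∈ X, ∀ y ∈ Y, polar R x y = 0) : finrank F ↥(X ⊔ Y) = finrank F X + finrank F Y := by
  have h := Submodule.finrank_sup_add_finrank_inf_eq X Y
  rw [(disjoint_of_orth hX ho).eq_bot, finrank_bot, add_zero] at h
  exact h

theorem nonDegOn_sup {X Y : Submodule F (ι → F)} (hX : NonDegOn R.polarBilin X) (hY : NonDegOn R.polarBilin Y)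
    (ho : ∀ x ∈ X, ∀ y ∈ Y, polar R x y = 0) : NonDegOn R.polarBilin (X ⊔ Y) :=
  Orth.nonDegOn_sup ⟨fun u v => polar_comm R u v⟩ hX hY ho

theorem plus_bot : IsPlusTypeOn ⇑R ⊥ :=
  ⟨⊥, le_rfl, fun w hw => by rw [(Submodule.mem_bot F).1 hw, map_zero], by simp⟩

theorem plus_of_finrank_zero {W : Submodule F (ι → F)} (h : finrank F W = 0) : IsPlusTypeOn ⇑R W := by
  rw [Submodule.finrank_eq_zero.1 h]; exact plus_bot

/-- The image of a plus space. -/
theorem range_plus {n : ℕ} (L : (Fin n ⊕ Fin n → F) →ₗ[F] (ι → F)) (hL : ∀ x, R (L x) = plusQF n F x) :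
    NonDegOn R.polarBilin (LinearMap.range L) ∧ finrank F (LinearMap.range L) = 2 * n ∧
      IsPlusTypeOn ⇑R (LinearMap.range L) := by
  have hpol : ∀ x y, polar R (L x) (L y) = polar (plusQF n F) x y := fun x y => by
    simp only [polar, ← map_add, hL]
  have hinj : Function.Injective L := (injective_iff_map_eq_zero _).2 fun x hx =>
    bNondeg_plus n x fun y => by rw [← hpol, hx, polar_zero_left]
  have hd : finrank F (LinearMap.range L) = 2 * n := by
    rw [LinearMap.finrank_range_of_inj hinj, finrank_fintype_fun_eq_card, Fintype.card_sum, Fintype.card_fin]; omega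
  refine ⟨?_, hd, (LinearMap.ker (LinearMap.funLeft F F (Sum.inr : Fin n → Fin n ⊕ Fin n))).map L, ?_, ?_, ?_⟩
  · rintro _ ⟨x, rfl⟩ h
    rw [bNondeg_plus n x fun y => (hpol x y).symm.trans (h _ ⟨y, rfl⟩), map_zero]
  · exact LinearMap.map_le_range
  · rintro _ ⟨x, hx, rfl⟩
    rw [hL]; exact totallySingular_ker_inr.1 x hx
  · rw [← (Submodule.equivMapOfInjective L hinj _).finrank_eq, totallySingular_ker_inr.2.1, hd]

/-- The image of a minus space. -/
theorem range_minus {n : ℕ} {a b : F} (hab : BinaryAniso a b) (L : ((Fin n ⊕ Fin n) ⊕ Fin 2 → F) →ₗ[F] (ι → F))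
    (hL : ∀ x, R (L x) = minusQF n a b x) :
    NonDegOn R.polarBilin (LinearMap.range L) ∧ finrank F (LinearMap.range L) = 2 * (n + 1) ∧
      ¬ IsPlusTypeOn ⇑R (LinearMap.range L) := by
  have hpol : ∀ x y, polar R (L x) (L y) = polar (minusQF n a b) x y := fun x y => by
    simp only [polar, ← map_add, hL]
  have hinj : Function.Injective L := (injective_iff_map_eq_zero _).2 fun x hx =>
    bNondeg_minus n hab x fun y => by rw [← hpol, hx, polar_zero_left]
  have hd : finrank F (LinearMap.range L) = 2 * (n + 1) := by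
    rw [LinearMap.finrank_range_of_inj hinj, finrank_fintype_fun_eq_card, Fintype.card_sum, Fintype.card_sum,
      Fintype.card_fin, Fintype.card_fin]; omega
  refine ⟨?_, hd, ?_⟩
  · rintro _ ⟨x, rfl⟩ h
    rw [bNondeg_minus n hab x fun y => (hpol x y).symm.trans (h _ ⟨y, rfl⟩), map_zero]
  · rintro ⟨U, hU, hts, hUd⟩
    have hle := finrank_le_of_vanishes_quadFormMinus hab (U.comap L) fun x hx => by
      rw [← minusQF_apply, ← hL]; exact hts _ hx
    have h1 : finrank F U ≤ finrank F (U.comap L) := by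
      conv_lhs => rw [← Submodule.map_comap_eq_of_le hU]
      exact Submodule.finrank_map_le _ _
    rw [hd] at hUd
    omega

/-- Normal forms of non-degenerate subspaces of even dimension. -/
theorem exists_model {W : Submodule F (ι → F)} (hW : NonDegOn R.polarBilin W) {n : ℕ}
    (hd : finrank F W = 2 * (n + 1)) :
    (IsPlusTypeOn ⇑R W ∧ ∃ e : W ≃ₗ[F] (Fin (n + 1) ⊕ Fin (n + 1) → F), ∀ w : W, R (w : ι → F) = plusQF (n + 1) F (e w)) ∨
      (¬ IsPlusTypeOn ⇑R W ∧ ∃ a b : F, BinaryAniso a b ∧ ∃ e : W ≃ₗ[F] ((Fin n ⊕ Fin n) ⊕ Fin 2 → F),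
        ∀ w : W, R (w : ι → F) = minusQF n a b (e w)) := by
  obtain ⟨m, h⟩ := exists_finite_witt_decomposition (R.comp W.subtype)
    (OrthMax.nonsingOn_comp (nondeg_iff.2 hW))
  rcases h with ⟨hd', e, he⟩ | ⟨hd', -⟩ | ⟨hd', a, b, hab, e, he⟩
  · obtain rfl : m = n + 1 := by omega
    refine Or.inl ⟨?_, e, fun w => by rw [Cfsg.Agent.Classical.plusQF_apply]; exact he w⟩
    have := (range_plus (R := R) (W.subtype ∘ₗ e.symm.toLinearMap) fun x => by
      rw [Cfsg.Agent.Classical.plusQF_apply, LinearMap.comp_apply]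
      have := he (e.symm x)
      rwa [LinearEquiv.apply_symm_apply] at this).2.2
    rwa [LinearEquiv.range_comp, Submodule.range_subtype] at this
  · omega
  · obtain rfl : m = n := by omega
    refine Or.inr ⟨?_, a, b, hab, e, fun w => by rw [minusQF_apply]; exact he w⟩
    have := (range_minus (R := R) hab (W.subtype ∘ₗ e.symm.toLinearMap) fun x => by
      rw [minusQF_apply, LinearMap.comp_apply]
      have := he (e.symm x)
      rwa [LinearEquiv.apply_symm_apply] at this).2.2
    rwa [LinearEquiv.range_comp, Submodule.range_subtype] at this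

/-- Subspaces of equal dimension and type are isometric. -/
theorem exists_iso {W W' : Submodule F (ι → F)} (hW : NonDegOn R.polarBilin W) (hW' : NonDegOn R.polarBilin W')
    (he : Even (finrank F W)) (hd : finrank F W = finrank F W') (hs : IsPlusTypeOn ⇑R W ↔ IsPlusTypeOn ⇑R W') :
    ∃ T : W ≃ₗ[F] W', ∀ w : W, R (T w : ι → F) = R (w : ι → F) := by
  obtain ⟨k, hk⟩ := he
  rcases k with _ | n
  · have h0 : finrank F W = 0 := hk
    have : Subsingleton W := Module.finrank_zero_iff.1 h0
    refine ⟨LinearEquiv.ofFinrankEq _ _ hd, fun w => ?_⟩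
    rw [Subsingleton.elim w 0, map_zero]
    simp
  rcases exists_model hW (n := n) (by omega) with ⟨hp, e, he⟩ | ⟨hp, a, b, hab, e, he⟩ <;>
    rcases exists_model hW' (n := n) (by omega) with ⟨hp', e', he'⟩ | ⟨hp', a', b', hab', e', he'⟩
  · exact ⟨e.trans e'.symm, fun w => by rw [LinearEquiv.trans_apply, he', LinearEquiv.apply_symm_apply, he]⟩
  · exact absurd (hs.1 hp) hp'
  · exact absurd (hs.2 hp') hp
  · obtain ⟨T, hT⟩ := exists_quadFormMinus_equiv hab hab' n
    exact ⟨(e.trans T).trans e'.symm, fun w => by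
      rw [LinearEquiv.trans_apply, he', LinearEquiv.apply_symm_apply, he, LinearEquiv.trans_apply, minusQF_apply,
        minusQF_apply, hT]⟩

/-- The orthogonal sum of two minus spaces is plus. -/
theorem plus_of_minus_minus {X Y : Submodule F (ι → F)} (hX : NonDegOn R.polarBilin X)
    (hY : NonDegOn R.polarBilin Y) (ho : ∀ x ∈ X, ∀ y ∈ Y, polar R x y = 0) (hXe : Even (finrank F X))
    (hYe : Even (finrank F Y)) (hXm : ¬ IsPlusTypeOn ⇑R X) (hYm : ¬ IsPlusTypeOn ⇑R Y) :
    IsPlusTypeOn ⇑R (X ⊔ Y) := by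
  obtain ⟨k, hk⟩ := hXe
  obtain ⟨l, hl⟩ := hYe
  obtain ⟨n, rfl⟩ : ∃ n, k = n + 1 := Nat.exists_eq_add_one.2 (Nat.pos_of_ne_zero fun h =>
    hXm (plus_of_finrank_zero (by omega)))
  obtain ⟨n', rfl⟩ : ∃ n', l = n' + 1 := Nat.exists_eq_add_one.2 (Nat.pos_of_ne_zero fun h =>
    hYm (plus_of_finrank_zero (by omega)))
  obtain ⟨-, a, b, hab, e, he⟩ := (exists_model hX (n := n) (by omega)).resolve_left fun h => hXm h.1
  obtain ⟨-, a', b', hab', e', he'⟩ := (exists_model hY (n := n') (by omega)).resolve_left fun h => hYm h.1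
  obtain ⟨T, hT⟩ := exists_binary_aniso_equiv hab hab'
  obtain ⟨y, hy⟩ : ∃ y, binQF a b y = -1 := by
    obtain ⟨z, hz | ⟨hz, hz0⟩⟩ := exists_binQF_eq a b (-1 : F)
    · exact ⟨z, hz⟩
    · exact absurd (anisotropic_binQF hab z hz) hz0
  let c : (((Fin n → F) × (Fin n' → F)) × (Fin 2 → F)) →ₗ[F] ((Fin n ⊕ Fin n) ⊕ Fin 2 → F) :=
    { toFun := fun v => Sum.elim (Sum.elim v.1.1 0) v.2
      map_add' := fun u v => funext fun i => by rcases i with (i | i) | i <;> simp
      map_smul' := fun t v => funext fun i => by rcases i with (i | i) | i <;> simp }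
  let c' : (((Fin n → F) × (Fin n' → F)) × (Fin 2 → F)) →ₗ[F] ((Fin n' ⊕ Fin n') ⊕ Fin 2 → F) :=
    { toFun := fun v => Sum.elim (Sum.elim v.1.2 0) (T (binMul a b y v.2))
      map_add' := fun u v => funext fun i => by rcases i with (i | i) | i <;> simp
      map_smul' := fun t v => funext fun i => by rcases i with (i | i) | i <;> simp }
  let φ : (((Fin n → F) × (Fin n' → F)) × (Fin 2 → F)) →ₗ[F] (ι → F) := X.subtype ∘ₗ e.symm.toLinearMap ∘ₗ c + Y.subtype ∘ₗ e'.symm.toLinearMap ∘ₗ c'
  have hφ : ∀ v, φ v = (e.symm (c v) : ι → F) + (e'.symm (c' v) : ι → F) := fun v => rfl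
  have hz : ∀ v, R (φ v) = 0 := fun v => by
    rw [hφ, QuadraticMap.map_add R, he, he', e.apply_symm_apply, e'.apply_symm_apply,
      ho _ (e.symm (c v)).2 _ (e'.symm (c' v)).2, add_zero, minusQF_apply, minusQF_apply]
    have h1 := binQF_binMul a b y v.2
    rw [hy, binQF_apply, binQF_apply] at h1
    simp only [Cfsg.quadFormMinus, c, c', LinearMap.coe_mk, AddHom.coe_mk, Sum.elim_inl, Sum.elim_inr, Pi.zero_apply,
      mul_zero, Finset.sum_const_zero, zero_add, hT]
    linear_combination h1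
  have hinj : Function.Injective φ := (injective_iff_map_eq_zero _).2 fun v hv => by
    rw [hφ] at hv
    have hX0 : (e.symm (c v) : ι → F) = 0 := Submodule.disjoint_def.1 (disjoint_of_orth hX ho) _ (e.symm (c v)).2
      (by rw [eq_neg_of_add_eq_zero_left hv]; exact Y.neg_mem (e'.symm (c' v)).2)
    have hY0 : (e'.symm (c' v) : ι → F) = 0 := by rwa [hX0, zero_add] at hv
    have hc : c v = 0 := by
      have := congrArg e (show e.symm (c v) = 0 from Subtype.ext hX0)
      rwa [e.apply_symm_apply, map_zero] at this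
    have hc' : c' v = 0 := by
      have := congrArg e' (show e'.symm (c' v) = 0 from Subtype.ext hY0)
      rwa [e'.apply_symm_apply, map_zero] at this
    refine Prod.ext (Prod.ext (funext fun i => ?_) (funext fun i => ?_)) (funext fun i => ?_)
    · exact congrFun hc (.inl (.inl i))
    · exact congrFun hc' (.inl (.inl i))
    · exact congrFun hc (.inr i)
  refine OrthMax.plus_of_ts (U := LinearMap.range φ) ?_ ?_ ?_ ?_
  · rintro _ ⟨v, rfl⟩
    exact Submodule.add_mem_sup (e.symm (c v)).2 (e'.symm (c' v)).2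
  · rintro _ ⟨v, rfl⟩; exact hz v
  · rw [finrank_sup hX ho, hk, hl]; exact ⟨n + 1 + (n' + 1), by omega⟩
  · rw [finrank_sup hX ho, LinearMap.finrank_range_of_inj hinj, Module.finrank_prod, Module.finrank_prod,
      finrank_fin_fun, finrank_fin_fun, finrank_fin_fun]
    omega

/-- The type of an orthogonal sum. -/
theorem plus_sup_iff (hB : BNondeg R) {X Y : Submodule F (ι → F)} (hX : NonDegOn R.polarBilin X)
    (hY : NonDegOn R.polarBilin Y) (ho : ∀ x ∈ X, ∀ y ∈ Y, polar R x y = 0) (hXe : Even (finrank F X))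
    (hYe : Even (finrank F Y)) :
    IsPlusTypeOn ⇑R (X ⊔ Y) ↔ (IsPlusTypeOn ⇑R X ↔ IsPlusTypeOn ⇑R Y) := by
  have ho' : AreOrthogonalFor (polar ⇑R) Y X := fun y hy x hx => (polar_comm R y x).trans (ho x hx y hy)
  constructor
  · intro h
    exact ⟨fun hp => OrthMax.plus_cancel hB (nondeg_iff.2 hX) ho hp h,
      fun hp => OrthMax.plus_cancel hB (nondeg_iff.2 hY) ho' hp (by rwa [sup_comm])⟩
  · intro h
    by_cases hp : IsPlusTypeOn ⇑R X
    · exact OrthMax.plus_sup (nondeg_iff.2 hX) ho hp (h.1 hp)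
    · exact plus_of_minus_minus hX hY ho hXe hYe hp fun hq => hp (h.2 hq)

/-- Subspaces of given dimension and type. -/
theorem exists_sub {C : Submodule F (ι → F)} (hC : NonDegOn R.polarBilin C) (hCe : Even (finrank F C)) {n : ℕ}
    (hn : 2 * (n + 1) < finrank F C) (s : Prop) :
    ∃ U ≤ C, NonDegOn R.polarBilin U ∧ finrank F U = 2 * (n + 1) ∧ (IsPlusTypeOn ⇑R U ↔ s) := by
  obtain ⟨k, hk⟩ := hCe
  obtain ⟨N, rfl⟩ : ∃ N, k = N + 1 := ⟨k - 1, by omega⟩
  have hnN : n + 1 ≤ N := by omega
  rcases exists_model hC (n := N) (by omega) with ⟨-, e, he⟩ | ⟨-, a, b, hab, e, he⟩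
  · by_cases hs : s
    · let L : (Fin (n + 1) ⊕ Fin (n + 1) → F) →ₗ[F] (Fin (N + 1) ⊕ Fin (N + 1) → F) :=
        Function.ExtendByZero.linearMap F (Sum.map (Fin.castLE (by omega : n + 1 ≤ N + 1)) (Fin.castLE (by omega)))
      have hL : ∀ x, R (C.subtype (e.symm (L x))) = plusQF (n + 1) F x := fun x => by
        rw [Submodule.subtype_apply, he, e.apply_symm_apply, Cfsg.Agent.Classical.plusQF_apply,
          Cfsg.Agent.Classical.plusQF_apply, Cfsg.quadFormPlus, Cfsg.quadFormPlus]
        have hinj : Function.Injective (Sum.map (Fin.castLE (by omega : n + 1 ≤ N + 1)) (Fin.castLE (by omega : n + 1 ≤ N + 1))) :=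
          Sum.map_injective.2 ⟨Fin.castLE_injective _, Fin.castLE_injective _⟩
        refine (Finset.sum_of_injOn (Fin.castLE (by omega : n + 1 ≤ N + 1)) (Fin.castLE_injective _).injOn
          (fun _ _ => Finset.mem_univ _) (fun i _ hi => ?_) (fun i _ => ?_)).symm
        · have : L x (Sum.inl i) = 0 := Function.extend_apply' _ _ _ (by
            rintro ⟨(j | j), hj⟩
            · exact hi ⟨j, Finset.mem_coe.2 (Finset.mem_univ _), Sum.inl_injective hj⟩
            · exact Sum.inr_ne_inl hj)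
          rw [this, zero_mul]
        · exact congrArg₂ (· * ·) (hinj.extend_apply x 0 (Sum.inl i)).symm (hinj.extend_apply x 0 (Sum.inr i)).symm
      obtain ⟨h1, h2, h3⟩ := range_plus (R := R) (C.subtype ∘ₗ e.symm.toLinearMap ∘ₗ L) hL
      exact ⟨_, by rintro _ ⟨x, rfl⟩; exact (e.symm (L x)).2, h1, h2, iff_of_true h3 hs⟩
    · obtain ⟨a, b, hab⟩ := exists_binaryAniso (F := F)
      let i₀ : Fin (N + 1) := ⟨n, by omega⟩
      let i₁ : Fin (N + 1) := ⟨n + 1, by omega⟩
      let ι₀ : Fin n → Fin (N + 1) := fun i => ⟨i, by omega⟩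
      let L : ((Fin n ⊕ Fin n) ⊕ Fin 2 → F) →ₗ[F] (Fin (N + 1) ⊕ Fin (N + 1) → F) :=
        (Fintype.linearCombination F (Sum.elim (Sum.elim
            (fun i => (Pi.single (Sum.inl (ι₀ i)) 1 : Fin (N + 1) ⊕ Fin (N + 1) → F))
            fun i => Pi.single (Sum.inr (ι₀ i)) 1)
          ![Pi.single (Sum.inl i₀) 1 + Pi.single (Sum.inr i₀) 1,
            a • Pi.single (Sum.inr i₀) 1 + Pi.single (Sum.inl i₁) 1 + b • Pi.single (Sum.inr i₁) 1]))
      have hne : i₀ ≠ i₁ := by simp [i₀, i₁]
      have hne₀ : ∀ i, ι₀ i ≠ i₀ ∧ ι₀ i ≠ i₁ := fun i => by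
        simp only [ι₀, i₀, i₁, ne_eq, Fin.ext_iff]; omega
      have hι₀ : Function.Injective ι₀ := fun i j h => Fin.ext (congrArg Fin.val h :)
      have hcoord : ∀ x, (∀ i, L x (Sum.inl (ι₀ i)) = x (.inl (.inl i)) ∧ L x (Sum.inr (ι₀ i)) = x (.inl (.inr i))) ∧
          L x (Sum.inl i₀) = x (.inr 0) ∧ L x (Sum.inr i₀) = x (.inr 0) + a * x (.inr 1) ∧
          L x (Sum.inl i₁) = x (.inr 1) ∧ L x (Sum.inr i₁) = b * x (.inr 1) := fun x => by
        simp only [L, Fintype.linearCombination_apply, Fintype.sum_sum_type, Fin.sum_univ_two, Sum.elim_inl,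
          Sum.elim_inr, Matrix.cons_val_zero, Matrix.cons_val_one, Pi.add_apply, Finset.sum_apply, Pi.smul_apply,
          smul_eq_mul, Pi.single_apply, Sum.inl.injEq, Sum.inr.injEq, reduceCtorEq, if_false, if_true]
        refine ⟨fun i => ?_, ?_, ?_, ?_, ?_⟩ <;>
          simp [hne, hne.symm, fun j => (hne₀ j).1, fun j => (hne₀ j).2, fun j => (hne₀ j).1.symm,
            fun j => (hne₀ j).2.symm, hι₀.eq_iff, Finset.sum_ite_eq] <;> ring
      have hL : ∀ x, R (C.subtype (e.symm (L x))) = minusQF n a b x := fun x => by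
        obtain ⟨h1, h2, h3, h4, h5⟩ := hcoord x
        rw [Submodule.subtype_apply, he, e.apply_symm_apply, Cfsg.Agent.Classical.plusQF_apply, minusQF_apply,
          Cfsg.quadFormPlus, Cfsg.quadFormMinus]
        have hz : ∀ j, (∀ i, ι₀ i ≠ j) → j ≠ i₀ → j ≠ i₁ → L x (Sum.inl j) = 0 := fun j h hj0 hj1 => by
          simp only [L, Fintype.linearCombination_apply, Fintype.sum_sum_type, Fin.sum_univ_two, Sum.elim_inl,
            Sum.elim_inr, Matrix.cons_val_zero, Matrix.cons_val_one, Pi.add_apply, Finset.sum_apply, Pi.smul_apply,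
            smul_eq_mul, Pi.single_apply, Sum.inl.injEq, reduceCtorEq, if_false]
          simp [hj0, hj1, fun i => (h i).symm]
        rw [← Finset.sum_subset (Finset.subset_univ (insert i₀ (insert i₁ (Finset.univ.image ι₀)))) fun j _ hj => ?_]
        · rw [Finset.sum_insert (by simp [hne, fun i => (hne₀ i).1]),
            Finset.sum_insert (by simp [fun i => (hne₀ i).2]), Finset.sum_image hι₀.injOn,
            Finset.sum_congr rfl fun i _ => by rw [(h1 i).1, (h1 i).2], h2, h3, h4, h5]
          ring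
        · simp only [Finset.mem_insert, Finset.mem_image, Finset.mem_univ, true_and, not_or, not_exists] at hj
          rw [hz j hj.2.2 hj.1 hj.2.1, zero_mul]
      obtain ⟨h1, h2, h3⟩ := range_minus (R := R) hab (C.subtype ∘ₗ e.symm.toLinearMap ∘ₗ L) hL
      exact ⟨_, by rintro _ ⟨x, rfl⟩; exact (e.symm (L x)).2, h1, h2, iff_of_false h3 hs⟩
  · by_cases hs : s
    · let j : Fin (n + 1) → Fin N := Fin.castLE hnN
      let L : (Fin (n + 1) ⊕ Fin (n + 1) → F) →ₗ[F] ((Fin N ⊕ Fin N) ⊕ Fin 2 → F) :=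
        Function.ExtendByZero.linearMap F (Sum.inl ∘ Sum.map j j)
      have hinj : Function.Injective (Sum.inl ∘ Sum.map j j : Fin (n + 1) ⊕ Fin (n + 1) → (Fin N ⊕ Fin N) ⊕ Fin 2) :=
        Sum.inl_injective.comp (Sum.map_injective.2 ⟨Fin.castLE_injective _, Fin.castLE_injective _⟩)
      have hL : ∀ x, R (C.subtype (e.symm (L x))) = plusQF (n + 1) F x := fun x => by
        rw [Submodule.subtype_apply, he, e.apply_symm_apply, minusQF_apply,
          Cfsg.Agent.Classical.plusQF_apply, Cfsg.quadFormMinus, Cfsg.quadFormPlus]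
        have hr : ∀ t, L x (Sum.inr t) = 0 := fun t => Function.extend_apply' _ _ _ (by rintro ⟨s', hs'⟩; exact Sum.inl_ne_inr hs')
        simp only [hr, mul_zero, zero_pow two_ne_zero, add_zero]
        refine (Finset.sum_of_injOn j (Fin.castLE_injective _).injOn
          (fun _ _ => Finset.mem_univ _) (fun i _ hi => ?_) (fun i _ => ?_)).symm
        · have : L x (Sum.inl (Sum.inl i)) = 0 := Function.extend_apply' _ _ _ (by
            rintro ⟨(t | t), ht⟩
            · exact hi ⟨t, Finset.mem_coe.2 (Finset.mem_univ _), Sum.inl_injective (Sum.inl_injective ht)⟩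
            · exact Sum.inr_ne_inl (Sum.inl_injective ht))
          rw [this, zero_mul]
        · exact congrArg₂ (· * ·) (hinj.extend_apply x 0 (Sum.inl i)).symm (hinj.extend_apply x 0 (Sum.inr i)).symm
      obtain ⟨h1, h2, h3⟩ := range_plus (R := R) (C.subtype ∘ₗ e.symm.toLinearMap ∘ₗ L) hL
      exact ⟨_, by rintro _ ⟨x, rfl⟩; exact (e.symm (L x)).2, h1, h2, iff_of_true h3 hs⟩
    · let j : Fin n → Fin N := Fin.castLE (by omega)
      let g : (Fin n ⊕ Fin n) ⊕ Fin 2 → (Fin N ⊕ Fin N) ⊕ Fin 2 := Sum.map (Sum.map j j) id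
      let L : ((Fin n ⊕ Fin n) ⊕ Fin 2 → F) →ₗ[F] ((Fin N ⊕ Fin N) ⊕ Fin 2 → F) :=
        Function.ExtendByZero.linearMap F g
      have hinj : Function.Injective g :=
        Sum.map_injective.2 ⟨Sum.map_injective.2 ⟨Fin.castLE_injective _, Fin.castLE_injective _⟩, Function.injective_id⟩
      have hL : ∀ x, R (C.subtype (e.symm (L x))) = minusQF n a b x := fun x => by
        rw [Submodule.subtype_apply, he, e.apply_symm_apply, minusQF_apply, minusQF_apply, Cfsg.quadFormMinus,
          Cfsg.quadFormMinus]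
        have hr : ∀ t, L x (Sum.inr t) = x (Sum.inr t) := fun t => hinj.extend_apply x 0 (Sum.inr t)
        simp only [hr]
        refine congrArg (· + _) (Finset.sum_of_injOn j (Fin.castLE_injective _).injOn
          (fun _ _ => Finset.mem_univ _) (fun i _ hi => ?_) (fun i _ => ?_)).symm
        · have : L x (Sum.inl (Sum.inl i)) = 0 := Function.extend_apply' _ _ _ (by
            rintro ⟨((t | t) | t), ht⟩
            · exact hi ⟨t, Finset.mem_coe.2 (Finset.mem_univ _), Sum.inl_injective (Sum.inl_injective ht)⟩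
            · exact Sum.inr_ne_inl (Sum.inl_injective ht)
            · exact Sum.inr_ne_inl ht)
          rw [this, zero_mul]
        · exact congrArg₂ (· * ·) (hinj.extend_apply x 0 (Sum.inl (Sum.inl i))).symm
            (hinj.extend_apply x 0 (Sum.inl (Sum.inr i))).symm
      obtain ⟨h1, h2, h3⟩ := range_minus (R := R) hab (C.subtype ∘ₗ e.symm.toLinearMap ∘ₗ L) hL
      exact ⟨_, by rintro _ ⟨x, rfl⟩; exact (e.symm (L x)).2, h1, h2, iff_of_false h3 hs⟩

/-- The type of a complement. -/
theorem plus_orth_iff (hB : BNondeg R) {W : Submodule F (ι → F)} (hW : NonDegOn R.polarBilin W)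
    (hWe : Even (finrank F W)) (hVe : Even (Fintype.card ι)) :
    IsPlusTypeOn ⇑R (LinearMap.BilinForm.orthogonal R.polarBilin W) ↔ (IsPlusTypeOn ⇑R ⊤ ↔ IsPlusTypeOn ⇑R W) := by
  have hc := isCompl_orth hW
  have hPe : Even (finrank F ↥(LinearMap.BilinForm.orthogonal R.polarBilin W)) := by
    have := Submodule.finrank_add_eq_of_isCompl hc
    rw [finrank_fintype_fun_eq_card] at this
    rw [Nat.even_iff] at hWe hVe ⊢
    omega
  have h := plus_sup_iff hB hW (nonDegOn_orth hB hW) (fun x hx y hy => hy x hx) hWe hPe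
  rw [hc.sup_eq_top] at h
  tauto

/-- Subspaces of equal dimension and type are conjugate. -/
theorem exists_isometry_map (hB : BNondeg R) (hVe : Even (Fintype.card ι)) {W W' : Submodule F (ι → F)}
    (hW : NonDegOn R.polarBilin W) (hW' : NonDegOn R.polarBilin W')
    (he : Even (finrank F W)) (hd : finrank F W = finrank F W') (hs : IsPlusTypeOn ⇑R W ↔ IsPlusTypeOn ⇑R W') :
    ∃ g : OQ R, W.map g.1.toLinearMap = W' := by
  set P := LinearMap.BilinForm.orthogonal R.polarBilin W
  set P' := LinearMap.BilinForm.orthogonal R.polarBilin W'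
  have hc : IsCompl W P := isCompl_orth hW
  have hc' : IsCompl W' P' := isCompl_orth hW'
  have h1 : finrank F W + finrank F P = Fintype.card ι := by
    rw [Submodule.finrank_add_eq_of_isCompl hc, finrank_fintype_fun_eq_card]
  have h3 : finrank F W' + finrank F P' = Fintype.card ι := by
    rw [Submodule.finrank_add_eq_of_isCompl hc', finrank_fintype_fun_eq_card]
  obtain ⟨T, hT⟩ := exists_iso hW hW' he hd hs
  obtain ⟨U, hU⟩ := exists_iso (nonDegOn_orth hB hW) (nonDegOn_orth hB hW')
    (show Even (finrank F P) by rw [Nat.even_iff] at he hVe ⊢; omega) (show finrank F P = finrank F P' by omega)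
    (by rw [plus_orth_iff hB hW he hVe, plus_orth_iff hB hW' (hd ▸ he) hVe, hs])
  let g := (Submodule.prodEquivOfIsCompl W P hc).symm ≪≫ₗ (T.prodCongr U) ≪≫ₗ
    Submodule.prodEquivOfIsCompl W' P' hc'
  have hg : ∀ (x : W) (y : P), g ((x : ι → F) + (y : ι → F)) = (T x : ι → F) + (U y : ι → F) := fun x y => by
    simp only [g, LinearEquiv.trans_apply]
    rw [show (x : ι → F) + (y : ι → F) = Submodule.prodEquivOfIsCompl W P hc (x, y) by simp,
      LinearEquiv.symm_apply_apply]
    simp
  refine ⟨⟨g, fun v => ?_⟩, ?_⟩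
  · obtain ⟨x, hx, y, hy, rfl⟩ := Submodule.mem_sup.1 (hc.sup_eq_top ▸ Submodule.mem_top : v ∈ W ⊔ P)
    rw [hg ⟨x, hx⟩ ⟨y, hy⟩, QuadraticMap.map_add R, QuadraticMap.map_add R x y, hT, hU,
      show polar R x y = 0 from hy x hx,
      show polar R (T ⟨x, hx⟩ : ι → F) (U ⟨y, hy⟩ : ι → F) = 0 from (U ⟨y, hy⟩).2 _ (T _).2]
  · refine Submodule.eq_of_le_of_finrank_eq ?_ ((LinearEquiv.finrank_map_eq g W).trans hd)
    rintro _ ⟨x, hx, rfl⟩
    show g x ∈ W'
    have := hg ⟨x, hx⟩ 0
    simp only [ZeroMemClass.coe_zero, add_zero, map_zero] at this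
    rw [this]; exact (T _).2

/-- The number of vectors of value one. -/
theorem card_value_one {W : Submodule F (ι → F)} (hW : NonDegOn R.polarBilin W) {n : ℕ}
    (hd : finrank F W = 2 * (n + 1)) :
    (IsPlusTypeOn ⇑R W → Nat.card {w : W // R (w : ι → F) = 1} + Fintype.card F ^ n = Fintype.card F ^ (2 * n + 1)) ∧
      (¬ IsPlusTypeOn ⇑R W → Nat.card {w : W // R (w : ι → F) = 1} = Fintype.card F ^ (2 * n + 1) + Fintype.card F ^ n) := by
  classical
  set q := Fintype.card F with hq
  set S := R.comp W.subtype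
  have hSv : ∀ w, S w = R (w : ι → F) := fun w => rfl
  have hsame : ∀ c : F, c ≠ 0 → Nat.card {w : W // S w = c} = Nat.card {w : W // S w = 1} := fun c hc => by
    obtain ⟨g, hg⟩ := Forms.exists_similarity S (OrthMax.nonsingOn_comp (nondeg_iff.2 hW))
      ⟨n + 1, by omega⟩ hc
    exact (Nat.card_congr (g.toEquiv.subtypeEquiv fun w => by simp [hg, hc])).symm
  set N := Nat.card {w : W // S w = 1}
  set Z := Nat.card {w : W // S w = 0}
  have htot : Z + (q - 1) * N = q ^ (2 * (n + 1)) := by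
    have h : Nat.card W = ∑ c : F, Nat.card {w : W // S w = c} := by
      rw [← Nat.card_sigma]; exact Nat.card_congr (Equiv.sigmaFiberEquiv _).symm
    rw [Module.natCard_eq_pow_finrank (K := F), hd, Nat.card_eq_fintype_card,
      ← Finset.add_sum_erase _ _ (Finset.mem_univ (0 : F)),
      Finset.sum_congr rfl (g := fun _ => N) (fun c hc => hsame c (Finset.ne_of_mem_erase hc)), Finset.sum_const,
      Finset.card_erase_of_mem (Finset.mem_univ _), Finset.card_univ, smul_eq_mul] at h
    exact h.symm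
  have hq1 : 1 < q := Fintype.one_lt_card
  have hqn : 0 < q ^ n := pow_pos (by omega) _
  obtain ⟨k, hk⟩ : ∃ k, q = k + 2 := ⟨q - 2, by omega⟩
  rw [show q - 1 = k + 1 by omega] at htot
  have e1 : q ^ (2 * (n + 1)) = q * q ^ (2 * n + 1) := by rw [← pow_succ']; ring_nf
  have e2 : q ^ (n + 1) = q * q ^ n := by rw [pow_succ']
  rw [e1] at htot
  rcases exists_model hW hd with ⟨hp, e, he⟩ | ⟨hp, a, b, hab, e, he⟩
  · refine ⟨fun _ => ?_, fun h => absurd hp h⟩
    have hZ : Z + q ^ n = q ^ (2 * n + 1) + q ^ (n + 1) := by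
      show Nat.card {w : W // S w = 0} + _ = _
      rw [card_zeros_congr (Q := S) (e.trans (plusEquiv (n + 1)))
        (fun w => by rw [LinearEquiv.trans_apply, plusEquiv_spec, hSv, he]),
        show q = Nat.card F from Nat.card_eq_fintype_card.symm]
      exact card_zeros_hypExt_plus n
    rw [e2] at hZ
    show N + _ = _
    refine Nat.eq_of_mul_eq_mul_left (show 0 < k + 1 by omega) ?_
    clear_value q
    subst hk
    nlinarith [htot, hZ]
  · refine ⟨fun h => absurd h hp, fun _ => ?_⟩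
    have hZ : Z + q ^ (n + 1) = q ^ (2 * n + 1) + q ^ n := by
      show Nat.card {w : W // S w = 0} + _ = _
      rw [card_zeros_congr (Q := S) (e.trans (minusEquiv n))
        (fun w => by rw [LinearEquiv.trans_apply, minusEquiv_spec, hSv, he]),
        show q = Nat.card F from Nat.card_eq_fintype_card.symm]
      exact card_zeros_hypExt_minus n (anisotropic_binQF hab)
    rw [e2] at hZ
    show N = _
    refine Nat.eq_of_mul_eq_mul_left (show 0 < k + 1 by omega) ?_
    clear_value q
    subst hk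
    nlinarith [htot, hZ]

end Cfsg.Agent.Elusive.OrthTypes
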