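import Cfsg.Agent.SympSub.Count

/-!
Pairs of complementary totally isotropic subspaces of a symplectic space.
-/

namespace Cfsg.Agent.Elusive

open Cfsg.Agent.Forms Matrix Submodule

variable {F : Type*} [Field F] {d : ℕ}

/-- The vectors supported on the left coordinates. -/
def leftSpace (F : Type*) [Field F] (d : ℕ) : Submodule F (Fin d ⊕ Fin d → F) :=
  LinearMap.ker (LinearMap.funLeft F F (Sum.inr : Fin d → Fin d ⊕ Fin d))

/-- The vectors supported on the right coordinates. -/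
def rightSpace (F : Type*) [Field F] (d : ℕ) : Submodule F (Fin d ⊕ Fin d → F) :=
  LinearMap.ker (LinearMap.funLeft F F (Sum.inl : Fin d → Fin d ⊕ Fin d))

theorem mem_leftSpace {v : Fin d ⊕ Fin d → F} : v ∈ leftSpace F d ↔ ∀ i, v (Sum.inr i) = 0 := by
  simp [leftSpace, funext_iff, LinearMap.funLeft]

theorem mem_rightSpace {v : Fin d ⊕ Fin d → F} : v ∈ rightSpace F d ↔ ∀ i, v (Sum.inl i) = 0 := by
  simp [rightSpace, funext_iff, LinearMap.funLeft]

theorem isCompl_left_right : IsCompl (rightSpace F d) (leftSpace F d) := by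
  constructor
  · rw [disjoint_def]
    intro v h1 h2
    funext x
    cases x
    exacts [mem_rightSpace.1 h1 _, mem_leftSpace.1 h2 _]
  · rw [codisjoint_iff, eq_top_iff]
    intro v _
    refine mem_sup.2 ⟨Sum.elim 0 (v ∘ Sum.inr), mem_rightSpace.2 fun i => rfl,
      Sum.elim (v ∘ Sum.inl) 0, mem_leftSpace.2 fun i => rfl, ?_⟩
    funext x
    cases x <;> simp

/-- The Levi subgroup. -/
noncomputable def levi (F : Type*) [Field F] (d : ℕ) : GL (Fin d) F →* Matrix.symplecticGroup (Fin d) F where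
  toFun A := ⟨fromBlocks (A : Matrix (Fin d) (Fin d) F) 0 0 ((A⁻¹ : GL (Fin d) F) : Matrix (Fin d) (Fin d) F)ᵀ,
    SymplecticGroup.fromBlocks_mem_iff.mpr (by
      simp [← Matrix.transpose_mul, ← Units.val_mul])⟩
  map_one' := Subtype.ext (by simp [fromBlocks_one])
  map_mul' A B := Subtype.ext (by simp [fromBlocks_multiply, Matrix.transpose_mul])

theorem levi_injective : Function.Injective (levi F d) := fun _ _ h =>
  Units.ext (fromBlocks_inj.1 (congrArg Subtype.val h)).1

theorem toLin_injective (g : Matrix.symplecticGroup (Fin d) F) :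
    Function.Injective (toLin' (g : Matrix (Fin d ⊕ Fin d) (Fin d ⊕ Fin d) F)) :=
  (SympSub.spLin g).injective

theorem map_eq_of_isCompl {V : Type*} [AddCommGroup V] [Module F V] {U W U' W' : Submodule F V}
    (h : IsCompl U W) (hU : U' ≤ U) (hW : W' ≤ W) (htop : U' ⊔ W' = ⊤) : U' = U ∧ W' = W := by
  constructor
  · refine le_antisymm hU ?_
    calc U = (U' ⊔ W') ⊓ U := by rw [htop, top_inf_eq]
      _ = U' ⊔ W' ⊓ U := sup_inf_assoc_of_le W' hU
      _ ≤ U' ⊔ W ⊓ U := sup_le_sup_left (inf_le_inf_right _ hW) _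
      _ = U' := by rw [inf_comm, h.inf_eq_bot, sup_bot_eq]
  · refine le_antisymm hW ?_
    calc W = (W' ⊔ U') ⊓ W := by rw [sup_comm, htop, top_inf_eq]
      _ = W' ⊔ U' ⊓ W := sup_inf_assoc_of_le U' hW
      _ ≤ W' ⊔ U ⊓ W := sup_le_sup_left (inf_le_inf_right _ hU) _
      _ = W' := by rw [h.inf_eq_bot, sup_bot_eq]

theorem mem_levi_range (g : Matrix.symplecticGroup (Fin d) F)
    (hR : (rightSpace F d).map (toLin' (g : Matrix (Fin d ⊕ Fin d) (Fin d ⊕ Fin d) F)) = rightSpace F d)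
    (hL : (leftSpace F d).map (toLin' (g : Matrix (Fin d ⊕ Fin d) (Fin d ⊕ Fin d) F)) = leftSpace F d) :
    g ∈ (levi F d).range := by
  have hblock : ∀ g : Matrix.symplecticGroup (Fin d) F,
      (rightSpace F d).map (toLin' (g : Matrix (Fin d ⊕ Fin d) (Fin d ⊕ Fin d) F)) = rightSpace F d →
      (leftSpace F d).map (toLin' (g : Matrix (Fin d ⊕ Fin d) (Fin d ⊕ Fin d) F)) = leftSpace F d →
      (g : Matrix (Fin d ⊕ Fin d) (Fin d ⊕ Fin d) F).toBlocks₁₂ = 0 ∧
      (g : Matrix (Fin d ⊕ Fin d) (Fin d ⊕ Fin d) F).toBlocks₂₁ = 0 := by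
    intro g hR hL
    constructor
    · ext i j
      have h : toLin' (g : Matrix (Fin d ⊕ Fin d) (Fin d ⊕ Fin d) F) (Pi.single (Sum.inr j) 1) ∈ rightSpace F d :=
        hR.le ⟨_, mem_rightSpace.2 (fun i => by simp), rfl⟩
      simpa [toBlocks₁₂, mulVec_single] using mem_rightSpace.1 h i
    · ext i j
      have h : toLin' (g : Matrix (Fin d ⊕ Fin d) (Fin d ⊕ Fin d) F) (Pi.single (Sum.inl j) 1) ∈ leftSpace F d :=
        hL.le ⟨_, mem_leftSpace.2 (fun i => by simp), rfl⟩
      simpa [toBlocks₂₁, mulVec_single] using mem_leftSpace.1 h i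
  have hinv : ∀ S : Submodule F (Fin d ⊕ Fin d → F),
      S.map (toLin' (g : Matrix (Fin d ⊕ Fin d) (Fin d ⊕ Fin d) F)) = S →
      S.map (toLin' ((g⁻¹ : Matrix.symplecticGroup (Fin d) F) : Matrix (Fin d ⊕ Fin d) (Fin d ⊕ Fin d) F)) = S := by
    intro S hS
    conv_lhs => rw [← hS]
    rw [← Submodule.map_comp, ← toLin'_mul, ← Submonoid.coe_mul, inv_mul_cancel, Submonoid.coe_one,
      toLin'_one, Submodule.map_id]
  obtain ⟨hB, hC⟩ := hblock g hR hL
  obtain ⟨hB', hC'⟩ := hblock g⁻¹ (hinv _ hR) (hinv _ hL)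
  set M := (g : Matrix (Fin d ⊕ Fin d) (Fin d ⊕ Fin d) F)
  set N := ((g⁻¹ : Matrix.symplecticGroup (Fin d) F) : Matrix (Fin d ⊕ Fin d) (Fin d ⊕ Fin d) F)
  have hMN : M * N = 1 ∧ N * M = 1 := by
    constructor
    · rw [← Submonoid.coe_mul, mul_inv_cancel, Submonoid.coe_one]
    · rw [← Submonoid.coe_mul, inv_mul_cancel, Submonoid.coe_one]
  have hM : M = fromBlocks M.toBlocks₁₁ 0 0 M.toBlocks₂₂ := by
    conv_lhs => rw [← fromBlocks_toBlocks M, hB, hC]
  have hN : N = fromBlocks N.toBlocks₁₁ 0 0 N.toBlocks₂₂ := by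
    conv_lhs => rw [← fromBlocks_toBlocks N, hB', hC']
  have h1 := hMN.1
  have h2 := hMN.2
  rw [hM, hN, fromBlocks_multiply, ← fromBlocks_one, fromBlocks_inj] at h1 h2
  simp only [Matrix.mul_zero, Matrix.zero_mul, add_zero] at h1 h2
  let A : GL (Fin d) F := ⟨M.toBlocks₁₁, N.toBlocks₁₁, h1.1, h2.1⟩
  refine ⟨A, ?_⟩
  have hlev : ((levi F d A)⁻¹ * g : Matrix.symplecticGroup (Fin d) F).1 =
      fromBlocks 1 0 0 ((A : Matrix (Fin d) (Fin d) F)ᵀ * M.toBlocks₂₂) := by
    show (((levi F d A)⁻¹ : Matrix.symplecticGroup (Fin d) F) : Matrix (Fin d ⊕ Fin d) (Fin d ⊕ Fin d) F) * M = _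
    conv_lhs => rw [← map_inv, hM]
    show fromBlocks ((A⁻¹ : GL (Fin d) F) : Matrix (Fin d) (Fin d) F) 0 0
      (((A⁻¹)⁻¹ : GL (Fin d) F) : Matrix (Fin d) (Fin d) F)ᵀ * _ = _
    rw [fromBlocks_multiply, inv_inv]
    congr 1 <;> simp only [Matrix.mul_zero, Matrix.zero_mul, add_zero, zero_add]
    exact h2.1
  have hmem := ((levi F d A)⁻¹ * g).2
  rw [hlev] at hmem
  have h3 := SymplecticGroup.fromBlocks_mem_iff.mp hmem
  have hD : (A : Matrix (Fin d) (Fin d) F)ᵀ * M.toBlocks₂₂ = 1 := by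
    have := h3.2.2
    simpa using this
  refine (inv_mul_eq_one.1 (Subtype.ext ?_))
  rw [hlev, hD, fromBlocks_one]
  rfl

/-- The action on pairs is transitive. -/
theorem exists_move_pair (U W : Submodule F (Fin d ⊕ Fin d → F)) (hc : IsCompl U W)
    (hU : ∀ u ∈ U, ∀ v ∈ U, sympForm d F u v = 0) (hW : ∀ u ∈ W, ∀ v ∈ W, sympForm d F u v = 0) :
    ∃ g : Matrix.symplecticGroup (Fin d) F,
      (rightSpace F d).map (toLin' (g : Matrix (Fin d ⊕ Fin d) (Fin d ⊕ Fin d) F)) = U ∧
      (leftSpace F d).map (toLin' (g : Matrix (Fin d ⊕ Fin d) (Fin d ⊕ Fin d) F)) = W := by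
  classical
  have hle : ∀ (U W : Submodule F (Fin d ⊕ Fin d → F)), IsCompl U W →
      (∀ u ∈ W, ∀ v ∈ W, sympForm d F u v = 0) → ∀ {ι : Type} [Fintype ι] (u : Module.Basis ι F U),
      Function.Injective (LinearMap.pi fun i => (sympBil d F (u i : Fin d ⊕ Fin d → F)).domRestrict W) := by
    intro U W hc hW ι _ u
    refine (injective_iff_map_eq_zero _).2 fun w hw => Subtype.ext (show (w : Fin d ⊕ Fin d → F) = 0 from sympBil_nondegenerate.2 _ fun y => ?_)
    obtain ⟨a, ha, b, hb, rfl⟩ := mem_sup.1 (hc.sup_eq_top.symm ▸ mem_top (x := y))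
    rw [map_add, LinearMap.add_apply, show sympBil d F b w = 0 from (sympBil_apply b w).trans (hW b hb w w.2),
      add_zero, show a = ∑ i, (u.repr ⟨a, ha⟩ i) • (u i : Fin d ⊕ Fin d → F) by
        have := congrArg Subtype.val (u.sum_repr ⟨a, ha⟩)
        simp only [Submodule.coe_sum, Submodule.coe_smul] at this
        exact this.symm]
    simp only [map_sum, map_smul, LinearMap.sum_apply, LinearMap.smul_apply]
    exact Finset.sum_eq_zero fun i _ => by
      rw [show sympBil d F (u i : Fin d ⊕ Fin d → F) w = 0 from congrFun hw i, smul_zero]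
  have hsum := finrank_add_eq_of_isCompl hc
  rw [Module.finrank_fintype_fun_eq_card, Fintype.card_sum, Fintype.card_fin] at hsum
  have hUd : Module.finrank F U = d := by
    have h1 := LinearMap.finrank_le_finrank_of_injective (hle U W hc hW (Module.finBasis F U))
    have h2 := LinearMap.finrank_le_finrank_of_injective (hle W U hc.symm hU (Module.finBasis F W))
    rw [Module.finrank_fin_fun] at h1 h2
    omega
  let u := Module.finBasisOfFinrankEq F U hUd
  have hsurj := (LinearMap.injective_iff_surjective_of_finrank_eq_finrank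
    (by rw [Module.finrank_fin_fun]; omega)).1 (hle U W hc hW u)
  choose w hw using fun k => hsurj (Pi.single k 1)
  have huw : ∀ i k, sympBil d F (u i : Fin d ⊕ Fin d → F) (w k) = if i = k then 1 else 0 := fun i k => by
    have := congrFun (hw k) i
    rw [Pi.single_apply] at this
    exact this
  let L : (Fin d ⊕ Fin d → F) →ₗ[F] (Fin d ⊕ Fin d → F) :=
    (Pi.basisFun F (Fin d ⊕ Fin d)).constr F (Sum.elim (fun k => (w k : Fin d ⊕ Fin d → F)) (fun i => (u i : Fin d ⊕ Fin d → F)))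
  have hL : ∀ x, L (Pi.basisFun F (Fin d ⊕ Fin d) x) =
      Sum.elim (fun k => (w k : Fin d ⊕ Fin d → F)) (fun i => (u i : Fin d ⊕ Fin d → F)) x :=
    (Pi.basisFun F (Fin d ⊕ Fin d)).constr_basis F _
  have hiso : (sympBil d F).compl₁₂ L L = sympBil d F := by
    refine LinearMap.ext_basis (Pi.basisFun F (Fin d ⊕ Fin d)) (Pi.basisFun F (Fin d ⊕ Fin d)) fun x y => ?_
    rw [LinearMap.compl₁₂_apply, hL, hL]
    have hRR : ∀ i k, sympBil d F (Pi.basisFun F (Fin d ⊕ Fin d) (Sum.inr i)) (Pi.basisFun F (Fin d ⊕ Fin d) (Sum.inr k)) = 0 :=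
      fun i k => by simp [sympBil_apply, sympForm_apply, Pi.single_apply]
    have hLL : ∀ i k, sympBil d F (Pi.basisFun F (Fin d ⊕ Fin d) (Sum.inl i)) (Pi.basisFun F (Fin d ⊕ Fin d) (Sum.inl k)) = 0 :=
      fun i k => by simp [sympBil_apply, sympForm_apply, Pi.single_apply]
    have hRL : ∀ i k, sympBil d F (Pi.basisFun F (Fin d ⊕ Fin d) (Sum.inr i)) (Pi.basisFun F (Fin d ⊕ Fin d) (Sum.inl k)) =
        if i = k then 1 else 0 :=
      fun i k => by simp [sympBil_apply, sympForm_apply, Pi.single_apply, eq_comm]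
    have hswap : ∀ a b, sympBil d F a b = -sympBil d F b a := fun a b => by
      rw [sympBil_apply, sympBil_apply, sympForm_swap]
    rcases x with x | x <;> rcases y with y | y <;> simp only [Sum.elim_inl, Sum.elim_inr]
    · rw [hLL, sympBil_apply]; exact hW _ (w x).2 _ (w y).2
    · rw [hswap _ (u y : Fin d ⊕ Fin d → F), huw, hswap (Pi.basisFun F _ _) (Pi.basisFun F _ (Sum.inr y)), hRL]
    · rw [huw, hRL]
    · rw [hRR, sympBil_apply]; exact hU _ (u x).2 _ (u y).2
  have hmem : LinearMap.toMatrix' L ∈ Matrix.symplecticGroup (Fin d) F := by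
    rw [mem_symplecticGroup_iff_sympForm]
    intro a b
    rw [LinearMap.toMatrix'_mulVec, LinearMap.toMatrix'_mulVec, ← sympBil_apply, ← sympBil_apply]
    exact LinearMap.congr_fun₂ hiso a b
  refine ⟨⟨_, hmem⟩, ?_⟩
  show (rightSpace F d).map (toLin' (LinearMap.toMatrix' L)) = U ∧ _
  rw [toLin'_toMatrix']
  have hinj : Function.Injective L := by
    have := toLin_injective (⟨_, hmem⟩ : Matrix.symplecticGroup (Fin d) F)
    simpa using this
  refine map_eq_of_isCompl hc ?_ ?_ ?_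
  · rintro _ ⟨v, hv, rfl⟩
    rw [← (Pi.basisFun F (Fin d ⊕ Fin d)).sum_repr v, map_sum]
    refine sum_mem fun x _ => ?_
    rw [map_smul, hL]
    rcases x with x | x
    · rw [Pi.basisFun_repr, mem_rightSpace.1 hv x, zero_smul]; exact zero_mem _
    · exact smul_mem _ _ (u x).2
  · rintro _ ⟨v, hv, rfl⟩
    rw [← (Pi.basisFun F (Fin d ⊕ Fin d)).sum_repr v, map_sum]
    refine sum_mem fun x _ => ?_
    rw [map_smul, hL]
    rcases x with x | x
    · exact smul_mem _ _ (w x).2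
    · rw [Pi.basisFun_repr, mem_leftSpace.1 hv x, zero_smul]; exact zero_mem _
  · rw [← Submodule.map_sup, isCompl_left_right.sup_eq_top, Submodule.map_top]
    exact LinearMap.range_eq_top.2 (LinearMap.injective_iff_surjective.1 hinj)

theorem sympForm_map (g : Matrix.symplecticGroup (Fin d) F) {S : Submodule F (Fin d ⊕ Fin d → F)}
    (hS : ∀ u ∈ S, ∀ v ∈ S, sympForm d F u v = 0) :
    ∀ u ∈ S.map (toLin' (g : Matrix (Fin d ⊕ Fin d) (Fin d ⊕ Fin d) F)),
      ∀ v ∈ S.map (toLin' (g : Matrix (Fin d ⊕ Fin d) (Fin d ⊕ Fin d) F)), sympForm d F u v = 0 := by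
  rintro _ ⟨u, hu, rfl⟩ _ ⟨v, hv, rfl⟩
  rw [toLin'_apply, toLin'_apply, mem_symplecticGroup_iff_sympForm.1 g.2, hS u hu v hv]

/-- The set of ordered pairs of complementary totally isotropic subspaces. -/
abbrev IsoPair (F : Type*) [Field F] (d : ℕ) :=
  {P : Submodule F (Fin d ⊕ Fin d → F) × Submodule F (Fin d ⊕ Fin d → F) // IsCompl P.1 P.2 ∧
    (∀ u ∈ P.1, ∀ v ∈ P.1, Cfsg.sympForm d F u v = 0) ∧ (∀ u ∈ P.2, ∀ v ∈ P.2, Cfsg.sympForm d F u v = 0)}

theorem card_isoPair [Fintype F] :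
    Nat.card (Matrix.symplecticGroup (Fin d) F) = Nat.card (IsoPair F d) * Nat.card (GL (Fin d) F) := by
  rw [Nat.card_congr (MonoidHom.ofInjective (levi_injective (F := F) (d := d))).toEquiv]
  let L := fun g : Matrix.symplecticGroup (Fin d) F => toLin' (g : Matrix (Fin d ⊕ Fin d) (Fin d ⊕ Fin d) F)
  have hmul : ∀ a b, L (a * b) = (L a).comp (L b) := fun a b => toLin'_mul _ _
  have hright : ∀ u ∈ rightSpace F d, ∀ v ∈ rightSpace F d, sympForm d F u v = 0 := fun u hu v hv => by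
    simp [sympForm_apply, mem_rightSpace.1 hu, mem_rightSpace.1 hv]
  have hleft : ∀ u ∈ leftSpace F d, ∀ v ∈ leftSpace F d, sympForm d F u v = 0 := fun u hu v hv => by
    simp [sympForm_apply, mem_leftSpace.1 hu, mem_leftSpace.1 hv]
  have hbij : ∀ g, Function.Bijective (L g) := fun g =>
    ⟨toLin_injective g, LinearMap.injective_iff_surjective.1 (toLin_injective g)⟩
  refine SympSub.card_eq_of_fibres _ (fun g => (⟨((rightSpace F d).map (L g), (leftSpace F d).map (L g)),
    ⟨Submodule.disjoint_map (toLin_injective g) isCompl_left_right.disjoint,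
      by rw [codisjoint_iff, ← Submodule.map_sup, isCompl_left_right.sup_eq_top, Submodule.map_top,
        LinearMap.range_eq_top]; exact (hbij g).2⟩,
    sympForm_map g hright, sympForm_map g hleft⟩ : IsoPair F d)) ?_ ?_
  · rintro ⟨⟨U, W⟩, hc, hU, hW⟩
    obtain ⟨g, hg1, hg2⟩ := exists_move_pair U W hc hU hW
    exact ⟨g, Subtype.ext (Prod.ext hg1 hg2)⟩
  · intro a b
    have hcancel : ∀ S : Submodule F (Fin d ⊕ Fin d → F),
        S.map (L a) = S.map (L b) ↔ S.map (L (a⁻¹ * b)) = S := by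
      intro S
      rw [hmul, Submodule.map_comp]
      constructor
      · intro h
        rw [← h, ← Submodule.map_comp, ← hmul, inv_mul_cancel]
        simp [L, toLin'_one]
      · intro h
        conv_lhs => rw [← h, ← Submodule.map_comp, ← hmul, mul_inv_cancel]
        simp [L, toLin'_one]
    rw [Subtype.ext_iff, Prod.ext_iff, hcancel, hcancel]
    refine ⟨fun h => mem_levi_range _ h.1 h.2, ?_⟩
    rintro ⟨A, hA⟩
    rw [← hA]
    have hsub : ∀ {S : Submodule F (Fin d ⊕ Fin d → F)}, (∀ v ∈ S, L (levi F d A) v ∈ S) →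
        S.map (L (levi F d A)) = S := by
      intro S h
      refine Submodule.eq_of_le_of_finrank_le (by rintro _ ⟨v, hv, rfl⟩; exact h v hv) ?_
      rw [← (Submodule.equivMapOfInjective _ (toLin_injective _) _).finrank_eq]
    constructor
    · refine hsub fun v hv => mem_rightSpace.2 fun i => ?_
      simp [L, levi, fromBlocks_mulVec, funext fun j => mem_rightSpace.1 hv j, Function.comp_def]
      exact congrFun (Matrix.mulVec_zero _) i
    · refine hsub fun v hv => mem_leftSpace.2 fun i => ?_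
      simp [L, levi, fromBlocks_mulVec, funext fun j => mem_leftSpace.1 hv j, Function.comp_def]
      exact congrFun (Matrix.mulVec_zero _) i

theorem exists_dvd_pow_add_one [Fintype F] {r : ℕ} (hr : r.Prime) (hrq : ¬ r ∣ Fintype.card F)
    (h : r ∣ Nat.card (IsoPair F d)) : ∃ i < d, r ∣ Fintype.card F ^ (i + 1) + 1 := by
  set q := Fintype.card F
  have hc := card_isoPair (F := F) (d := d)
  rw [SympSub.card_symplecticGroup, Matrix.card_GL_field] at hc
  have h1 : (∏ i : Fin d, (q ^ d - q ^ (i : ℕ))) =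
      q ^ (∑ i ∈ Finset.range d, i) * ∏ i ∈ Finset.range d, (q ^ (i + 1) - 1) := by
    rw [Fin.prod_univ_eq_prod_range (fun i => q ^ d - q ^ i), ← Finset.prod_pow_eq_pow_sum,
      ← Finset.prod_range_reflect (fun i => q ^ (i + 1) - 1), ← Finset.prod_mul_distrib]
    refine Finset.prod_congr rfl fun i hi => ?_
    rw [Finset.mem_range] at hi
    rw [Nat.mul_sub, mul_one, ← pow_add, show i + (d - 1 - i + 1) = d by omega]
  have h2 : SympSub.spOrder q d = (∏ i ∈ Finset.range d, (q ^ (i + 1) - 1)) *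
      (q ^ d ^ 2 * ∏ i ∈ Finset.range d, (q ^ (i + 1) + 1)) := by
    rw [SympSub.spOrder, mul_left_comm, ← Finset.prod_mul_distrib]
    congr 1
    refine Finset.prod_congr rfl fun i _ => ?_
    rw [mul_comm 2, pow_mul, show q ^ (i + 1) - 1 = q ^ (i + 1) - 1 from rfl, mul_comm]
    simpa using Nat.sq_sub_sq (q ^ (i + 1)) 1
  rw [h1, h2] at hc
  have hpos : 0 < ∏ i ∈ Finset.range d, (q ^ (i + 1) - 1) := Finset.prod_pos fun i _ =>
    Nat.sub_pos_of_lt (Nat.one_lt_pow (by omega) Fintype.one_lt_card)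
  have h3 : q ^ d ^ 2 * ∏ i ∈ Finset.range d, (q ^ (i + 1) + 1) =
      Nat.card (IsoPair F d) * q ^ (∑ i ∈ Finset.range d, i) :=
    Nat.eq_of_mul_eq_mul_left hpos (by convert hc using 1 <;> ring)
  have h4 : r ∣ q ^ d ^ 2 * ∏ i ∈ Finset.range d, (q ^ (i + 1) + 1) := h3 ▸ h.mul_right _
  rcases hr.dvd_mul.1 h4 with h5 | h5
  · exact absurd (hr.dvd_of_dvd_pow h5) hrq
  · obtain ⟨i, hi, hri⟩ := (Prime.dvd_finsetProd_iff hr.prime _).1 h5
    exact ⟨i, Finset.mem_range.1 hi, hri⟩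

end Cfsg.Agent.Elusive
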