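import Mathlib
import Cfsg.Agent.Forms.Symplectic

/-!
Orthogonal hyperbolic planes permuted by an isometry of an alternating form with scalar square.
-/

namespace Cfsg.Agent.Elusive

open Submodule

variable {F : Type*} [Field F] {V : Type*} [AddCommGroup V] [Module F V]

/-- Hyperbolic pairs, mutually orthogonal. -/
structure IsHypFamily {ι : Type*} [DecidableEq ι] (B : LinearMap.BilinForm F V) (v w : ι → V) : Prop where
  vv : ∀ i j, B (v i) (v j) = 0
  ww : ∀ i j, B (w i) (w j) = 0
  vw : ∀ i j, B (v i) (w j) = if i = j then 1 else 0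

theorem IsHypFamily.linearIndependent {ι : Type*} [DecidableEq ι] [Fintype ι] {B : LinearMap.BilinForm F V}
    (hB : B.IsAlt) {v w : ι → V} (h : IsHypFamily B v w) : LinearIndependent F (Sum.elim v w) := by
  rw [Fintype.linearIndependent_iff]
  intro c hc i
  rw [Fintype.sum_sum_type] at hc
  simp only [Sum.elim_inl, Sum.elim_inr] at hc
  cases i with
  | inl i =>
    have := congrArg (fun x => B x (w i)) hc
    simpa [map_sum, LinearMap.sum_apply, h.vw, h.ww, Finset.sum_ite_eq'] using this
  | inr i =>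
    have := congrArg (fun x => B (v i) x) hc
    simpa [map_sum, h.vw, h.vv, Finset.sum_ite_eq] using this

variable (B : LinearMap.BilinForm F V) (f : V →ₗ[F] V) (S : Submodule F V)

/-- `f`-invariant and non-degenerate. -/
def NondegInv : Prop := (∀ x ∈ S, f x ∈ S) ∧ ∀ u ∈ S, (∀ v ∈ S, B u v = 0) → u = 0

/-- A block of orthogonal hyperbolic planes in `S` permuted by `f`, satisfying `Q`. -/
def HasBlock (Q : V → V → Prop) : Prop :=
  ∃ (κ : Type) (_ : Fintype κ) (_ : DecidableEq κ) (_ : Nonempty κ) (v w : κ → V) (π : κ → κ),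
    IsHypFamily B v w ∧ (∀ i, v i ∈ S) ∧ (∀ i, w i ∈ S) ∧ (∀ i, π (π i) = i) ∧
    (∀ i, f (v i) ∈ span F {v (π i), w (π i)} ∧ f (w i) ∈ span F {v (π i), w (π i)}) ∧
    ∀ i, Q (v i) (w i)

theorem exists_planes [FiniteDimensional F V] (hB : B.IsAlt) {z : F} (hz : z ≠ 0)
    (hff : ∀ x, f (f x) = z • x) (hiso : ∀ x y, B (f x) (f y) = B x y) (Q : V → V → Prop)
    (step : ∀ S, NondegInv B f S → S ≠ ⊥ → HasBlock B f S Q) :
    ∀ S, NondegInv B f S → ∃ (ι : Type) (_ : Fintype ι) (_ : DecidableEq ι) (v w : ι → V) (π : ι → ι),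
      IsHypFamily B v w ∧ span F (Set.range (Sum.elim v w)) = S ∧ (∀ i, π (π i) = i) ∧
      (∀ i, f (v i) ∈ span F {v (π i), w (π i)} ∧ f (w i) ∈ span F {v (π i), w (π i)}) ∧
      ∀ i, Q (v i) (w i) := by
  intro S
  induction hd : Module.finrank F S using Nat.strong_induction_on generalizing S with
  | _ m ih =>
    intro hS
    by_cases hbot : S = ⊥
    · subst hbot
      refine ⟨Empty, inferInstance, inferInstance, Empty.elim, Empty.elim, id,
        ⟨fun i => i.elim, fun i => i.elim, fun i => i.elim⟩, ?_, fun i => i.elim, fun i => i.elim, fun i => i.elim⟩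
      rw [Set.range_eq_empty, span_empty]
    obtain ⟨κ, _, _, hne, v, w, π, hf1, hv, hw, hπ, hmap, hQ⟩ := step S hS hbot
    let S' : Submodule F V :=
      { carrier := {x | x ∈ S ∧ ∀ i, B (v i) x = 0 ∧ B (w i) x = 0}
        add_mem' := fun {a b} ha hb => ⟨add_mem ha.1 hb.1, fun i => by
          simp [map_add, (ha.2 i).1, (ha.2 i).2, (hb.2 i).1, (hb.2 i).2]⟩
        zero_mem' := ⟨zero_mem _, fun i => by simp⟩
        smul_mem' := fun c a ha => ⟨smul_mem _ c ha.1, fun i => by
          simp [(ha.2 i).1, (ha.2 i).2]⟩ }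
    have hperp : ∀ x ∈ S', ∀ i, ∀ p ∈ span F {v i, w i}, B p x = 0 := by
      intro x hx i p hp
      rw [mem_span_pair] at hp
      obtain ⟨a, b, rfl⟩ := hp
      simp [(hx.2 i).1, (hx.2 i).2]
    have hswap : ∀ x y, B x y = -B y x := fun x y => (LinearMap.IsAlt.neg hB y x).symm
    have hnt : ∀ p x, B p (f x) = z * B (f p) x := by
      intro p x
      rw [← hiso p (f x), hff, map_smul, smul_eq_mul]
    have hS' : NondegInv B f S' := by
      refine ⟨fun x hx => ⟨hS.1 x hx.1, fun i => ⟨?_, ?_⟩⟩, fun u hu h => hS.2 u hu.1 fun y hy => ?_⟩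
      · rw [hnt, hperp x hx _ _ (hmap i).1, mul_zero]
      · rw [hnt, hperp x hx _ _ (hmap i).2, mul_zero]
      · let P := ∑ i, (B y (w i) • v i - B y (v i) • w i)
        have hy' : y - P ∈ S' := by
          refine ⟨sub_mem hy (sum_mem fun i _ => sub_mem (smul_mem _ _ (hv i)) (smul_mem _ _ (hw i))), fun i => ⟨?_, ?_⟩⟩
          · simp only [P, map_sub, map_sum, map_smul, hf1.vv, hf1.vw, smul_eq_mul, mul_zero, mul_ite,
              mul_one, zero_sub, Finset.sum_neg_distrib, Finset.sum_ite_eq, Finset.mem_univ, if_true]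
            rw [hswap (v i) y]; ring
          · simp only [P, map_sub, map_sum, map_smul, hswap (w i) (v _), hf1.ww, hf1.vw, smul_eq_mul,
              mul_zero, mul_neg, mul_ite, mul_one, sub_zero, Finset.sum_neg_distrib,
              Finset.sum_ite_eq', Finset.mem_univ, if_true]
            rw [hswap (w i) y]; ring
        have h1 := h _ hy'
        have h2 : B u P = 0 := by
          simp only [P, map_sum, map_sub, map_smul, smul_eq_mul, hswap u (v _), hswap u (w _),
            (hu.2 _).1, (hu.2 _).2, neg_zero, mul_zero, sub_zero, Finset.sum_const_zero]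
        rw [map_sub, h2, sub_zero] at h1
        exact h1
    have hlt : Module.finrank F S' < m := by
      rw [← hd]
      refine finrank_lt_finrank_of_lt (lt_of_le_of_ne (fun x hx => hx.1) fun he => ?_)
      obtain ⟨i⟩ := hne
      have := ((he ▸ hw i : w i ∈ S').2 i).1
      rw [hf1.vw, if_pos rfl] at this
      exact one_ne_zero this
    obtain ⟨ι, _, _, v', w', π', hf2, hspan, hπ', hmap', hQ'⟩ := ih _ hlt S' rfl hS'
    have hmem' : (∀ i, v' i ∈ S') ∧ ∀ i, w' i ∈ S' := by
      constructor <;> intro i <;> rw [← hspan]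
      · exact subset_span ⟨Sum.inl i, rfl⟩
      · exact subset_span ⟨Sum.inr i, rfl⟩
    refine ⟨κ ⊕ ι, inferInstance, inferInstance, Sum.elim v v', Sum.elim w w', Sum.map π π',
      ⟨?_, ?_, ?_⟩, ?_, ?_, ?_, ?_⟩
    · rintro (i | i) (j | j)
      · exact hf1.vv i j
      · exact ((hmem'.1 j).2 i).1
      · rw [hswap]; simp [((hmem'.1 i).2 j).1]
      · exact hf2.vv i j
    · rintro (i | i) (j | j)
      · exact hf1.ww i j
      · exact ((hmem'.2 j).2 i).2
      · rw [hswap]; simp [((hmem'.2 i).2 j).2]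
      · exact hf2.ww i j
    · rintro (i | i) (j | j)
      · simp [hf1.vw]
      · simp [((hmem'.2 j).2 i).1]
      · simp only [Sum.elim_inl, Sum.elim_inr, reduceCtorEq, if_false]
        rw [hswap, ((hmem'.1 i).2 j).2, neg_zero]
      · simp [hf2.vw]
    · apply le_antisymm
      · rw [span_le]
        rintro _ ⟨(i | i) | (i | i), rfl⟩
        · exact hv i
        · exact (hmem'.1 i).1
        · exact hw i
        · exact (hmem'.2 i).1
      · intro y hy
        have hsub : ∀ x ∈ S', x ∈ span F (Set.range (Sum.elim (Sum.elim v v') (Sum.elim w w'))) := by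
          intro x hx
          rw [← hspan] at hx
          refine span_mono ?_ hx
          rintro _ ⟨i | i, rfl⟩
          · exact ⟨Sum.inl (Sum.inr i), rfl⟩
          · exact ⟨Sum.inr (Sum.inr i), rfl⟩
        have hy' : y - ∑ i, (B y (w i) • v i - B y (v i) • w i) ∈ S' := by
          refine ⟨sub_mem hy (sum_mem fun i _ => sub_mem (smul_mem _ _ (hv i)) (smul_mem _ _ (hw i))), fun i => ⟨?_, ?_⟩⟩
          · simp only [map_sub, map_sum, map_smul, hf1.vv, hf1.vw, smul_eq_mul, mul_zero, mul_ite,
              mul_one, zero_sub, Finset.sum_neg_distrib, Finset.sum_ite_eq, Finset.mem_univ, if_true]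
            rw [hswap (v i) y]; ring
          · simp only [map_sub, map_sum, map_smul, hswap (w i) (v _), hf1.ww, hf1.vw, smul_eq_mul,
              mul_zero, mul_neg, mul_ite, mul_one, sub_zero, Finset.sum_neg_distrib,
              Finset.sum_ite_eq', Finset.mem_univ, if_true]
            rw [hswap (w i) y]; ring
        have := add_mem (hsub _ hy') (sum_mem (fun i _ => sub_mem
          (smul_mem _ (B y (w i)) (subset_span ⟨Sum.inl (Sum.inl i), rfl⟩ :
            v i ∈ span F (Set.range (Sum.elim (Sum.elim v v') (Sum.elim w w')))))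
          (smul_mem _ (B y (v i)) (subset_span ⟨Sum.inr (Sum.inl i), rfl⟩))) (t := Finset.univ))
        simp only [Sum.elim_inl, Sum.elim_inr] at this
        rwa [sub_add_cancel] at this
    · rintro (i | i) <;> simp [hπ, hπ']
    · rintro (i | i)
      · exact hmap i
      · exact hmap' i
    · rintro (i | i)
      · exact hQ i
      · exact hQ' i

/-- A single invariant plane as a block. -/
theorem hasBlock_one (hB : B.IsAlt) (Q : V → V → Prop) {v w : V} (hv : v ∈ S) (hw : w ∈ S)
    (h : B v w = 1) (h1 : f v ∈ span F {v, w}) (h2 : f w ∈ span F {v, w}) (hQ : Q v w) :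
    HasBlock B f S Q :=
  ⟨Unit, inferInstance, inferInstance, inferInstance, fun _ => v, fun _ => w, id,
    ⟨fun _ _ => hB v, fun _ _ => hB w, fun _ _ => by simpa using h⟩, fun _ => hv, fun _ => hw,
    fun _ => rfl, fun _ => ⟨h1, h2⟩, fun _ => hQ⟩

/-- Blocks in the case that some vector is not orthogonal to its image. -/
theorem hasBlock_of_ne (hB : B.IsAlt) {z : F} (hff : ∀ x, f (f x) = z • x) (hS : NondegInv B f S)
    {u : V} (hu : u ∈ S) (hne : B u (f u) ≠ 0) (Q : V → V → Prop)
    (hQ : ∀ (u : V) (c : F), c ≠ 0 → Q u (c • f u)) : HasBlock B f S Q := by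
  refine hasBlock_one B f S hB Q hu (smul_mem _ (B u (f u))⁻¹ (hS.1 u hu)) ?_ ?_ ?_ (hQ u _ (inv_ne_zero hne))
  · rw [map_smul, smul_eq_mul, inv_mul_cancel₀ hne]
  · exact mem_span_pair.2 ⟨0, B u (f u), by rw [zero_smul, zero_add, smul_smul, mul_inv_cancel₀ hne, one_smul]⟩
  · exact mem_span_pair.2 ⟨(B u (f u))⁻¹ * z, 0, by rw [zero_smul, add_zero, map_smul, hff, smul_smul]⟩

theorem exists_unit_partner (hS : NondegInv B f S) {v : V} (hv : v ∈ S) (hv0 : v ≠ 0) :
    ∃ w ∈ S, B v w = 1 := by
  by_contra h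
  push Not at h
  refine hv0 (hS.2 v hv fun y hy => ?_)
  by_contra hy0
  exact h ((B v y)⁻¹ • y) (smul_mem _ _ hy) (by rw [map_smul, smul_eq_mul, inv_mul_cancel₀ hy0])

/-- In odd characteristic, an involutory isometry has invariant planes on which it is scalar. -/
theorem hasBlock_eigen (hB : B.IsAlt) (h2 : (2 : F) ≠ 0) (hff : ∀ x, f (f x) = x)
    (hiso : ∀ x y, B (f x) (f y) = B x y) (hS : NondegInv B f S) (hne : S ≠ ⊥) (Q : V → V → Prop)
    (hQ : ∀ v w : V, f v ∈ span F {v} → f w ∈ span F {w} → Q v w) : HasBlock B f S Q := by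
  obtain ⟨u, hu, hu0⟩ := exists_mem_ne_zero_of_ne_bot hne
  obtain ⟨v, hv, hv0, e, he, hev⟩ : ∃ v ∈ S, v ≠ 0 ∧ ∃ e : F, e * e = 1 ∧ f v = e • v := by
    by_cases hp : u + f u = 0
    · exact ⟨u, hu, hu0, -1, by ring, by rw [neg_one_smul]; exact eq_neg_of_add_eq_zero_right hp⟩
    · exact ⟨_, add_mem hu (hS.1 u hu), hp, 1, one_mul 1, by rw [map_add, hff, one_smul, add_comm]⟩
  obtain ⟨w, hw, hvw⟩ := exists_unit_partner B f S hS hv hv0
  let w' := (2 : F)⁻¹ • (w + e • f w)
  have hfw' : f w' = e • w' := by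
    simp only [w', map_smul, map_add, hff, smul_add, smul_smul]
    rw [show e * ((2 : F)⁻¹ * e) = (2 : F)⁻¹ * (e * e) by ring, he, mul_one, mul_comm e, add_comm]
  have hvw' : B v w' = 1 := by
    have h3 : B v (f w) = e := by
      have := hiso (f v) w
      rw [hff, hev, map_smul, LinearMap.smul_apply, hvw, smul_eq_mul, mul_one] at this
      exact this
    simp only [w', map_smul, map_add, hvw, h3, smul_eq_mul, he]
    rw [one_add_one_eq_two, inv_mul_cancel₀ h2]
  exact hasBlock_one B f S hB Q hv (smul_mem _ _ (add_mem hw (smul_mem _ _ (hS.1 w hw)))) hvw'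
    (mem_span_pair.2 ⟨e, 0, by rw [hev]; simp⟩) (mem_span_pair.2 ⟨0, e, by rw [zero_smul, zero_add, hfw']⟩)
    (hQ _ _ (mem_span_singleton.2 ⟨e, hev.symm⟩) (mem_span_singleton.2 ⟨e, hfw'.symm⟩))

/-- If every vector is orthogonal to its image and the square is `-1` then the characteristic is two. -/
theorem two_eq_zero_of_isotropic (hB : B.IsAlt) (hff : ∀ x, f (f x) = -x)
    (hiso : ∀ x y, B (f x) (f y) = B x y) (hS : NondegInv B f S) (hne : S ≠ ⊥)
    (h : ∀ u ∈ S, B u (f u) = 0) : (2 : F) = 0 := by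
  obtain ⟨u, hu, hu0⟩ := exists_mem_ne_zero_of_ne_bot hne
  obtain ⟨w, hw, huw⟩ := exists_unit_partner B f S hS hu hu0
  have h1 := h _ (add_mem hu (neg_mem (hS.1 w hw)))
  have e1 := h u hu
  have e2 := h _ (neg_mem (hS.1 w hw))
  simp only [map_add, map_neg, hff, neg_neg, LinearMap.add_apply, LinearMap.neg_apply, e1, huw] at h1 e2
  have e3 : B (f w) (f u) = -1 := by
    rw [hiso, ← LinearMap.IsAlt.neg hB u w, huw]
  rw [e3, e2] at h1
  linear_combination h1

/-- In characteristic two: a fixed plane, or two planes exchanged by `f`. -/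
theorem hasBlock_char_two (hB : B.IsAlt) (h2 : (2 : F) = 0) (hff : ∀ x, f (f x) = x)
    (hiso : ∀ x y, B (f x) (f y) = B x y) (hS : NondegInv B f S) (hne : S ≠ ⊥)
    (h : ∀ u ∈ S, B u (f u) = 0) : HasBlock B f S (fun _ _ => True) := by
  have hneg : ∀ c : F, -c = c := fun c => by linear_combination -c * h2
  by_cases hid : ∀ u ∈ S, f u = u
  · obtain ⟨v, hv, hv0⟩ := exists_mem_ne_zero_of_ne_bot hne
    obtain ⟨w, hw, hvw⟩ := exists_unit_partner B f S hS hv hv0
    exact hasBlock_one B f S hB _ hv hw hvw (mem_span_pair.2 ⟨1, 0, by simp [hid v hv]⟩)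
      (mem_span_pair.2 ⟨0, 1, by simp [hid w hw]⟩) trivial
  push Not at hid
  obtain ⟨v, hv, hfv⟩ := hid
  obtain ⟨y, hy, hy1⟩ := exists_unit_partner B f S hS (sub_mem (hS.1 v hv) hv)
    (sub_ne_zero.2 hfv)
  -- `B (f v - v) y = 1`, hence `y` or `f y` can be corrected
  let α := B v y
  let β := B (f v) y
  have hαβ : β - α = 1 := by simpa [map_sub] using hy1
  have hfy : B v (f y) = β := by rw [← hiso v (f y), hff]
  have hfy' : B (f v) (f y) = α := hiso v y
  have hαβ2 : α + β = 1 := by linear_combination hαβ + α * h2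
  let w := α • y + β • f y
  have hvw : B v w = 1 := by
    simp only [w, map_add, map_smul, hfy, smul_eq_mul, show B v y = α from rfl]
    linear_combination (α + β + 1) * hαβ2 - α * β * h2
  have hfvw : B (f v) w = 0 := by
    simp only [w, map_add, map_smul, hfy', smul_eq_mul, show B (f v) y = β from rfl]
    linear_combination (α * β) * h2
  have hwS : w ∈ S := add_mem (smul_mem _ _ hy) (smul_mem _ _ (hS.1 y hy))
  have hvfw : B v (f w) = 0 := by rw [← hiso v (f w), hff, hfvw]
  have e1 : B v (f v) = 0 := h v hv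
  have e2 : B w (f w) = 0 := h w hwS
  have hswap : ∀ x y, B x y = -B y x := fun x y => (LinearMap.IsAlt.neg hB y x).symm
  refine ⟨Bool, inferInstance, inferInstance, inferInstance, fun b => if b then f v else v,
    fun b => if b then f w else w, not, ⟨?_, ?_, ?_⟩, ?_, ?_, Bool.not_not, ?_, fun _ => trivial⟩
  · rintro (_ | _) (_ | _) <;> simp only [Bool.false_eq_true, if_false, if_true]
    · exact hB v
    · exact e1
    · rw [hswap, e1, neg_zero]
    · exact hB _
  · rintro (_ | _) (_ | _) <;> simp only [Bool.false_eq_true, if_false, if_true]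
    · exact hB w
    · exact e2
    · rw [hswap, e2, neg_zero]
    · exact hB _
  · rintro (_ | _) (_ | _) <;> simp only [Bool.false_eq_true, Bool.true_eq_false, if_false, if_true]
    · exact hvw
    · exact hvfw
    · exact hfvw
    · rw [hiso]; exact hvw
  · rintro (_ | _)
    exacts [hv, hS.1 v hv]
  · rintro (_ | _)
    exacts [hwS, hS.1 w hwS]
  · rintro (_ | _) <;> simp only [Bool.not_false, Bool.not_true, Bool.false_eq_true, if_false, if_true]
    · exact ⟨subset_span (by simp), subset_span (by simp)⟩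
    · exact ⟨subset_span (by simp [hff]), subset_span (by simp [hff])⟩

end Cfsg.Agent.Elusive
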