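import Cfsg.Agent.Arith.FiniteField
import Cfsg.Agent.SympSub.Count

/-!
Symplectic elements of prime order with one irreducible block.
-/

namespace Cfsg.Agent.Elusive

open Cfsg.Agent.Forms Polynomial

variable {F : Type*} [Field F]

theorem invariant_of_irreducible_minpoly {V : Type*} [AddCommGroup V] [Module F V] [FiniteDimensional F V]
    {f : Module.End F V} (hirr : Irreducible (minpoly F f))
    (hdeg : (minpoly F f).natDegree = Module.finrank F V) (W : Submodule F V) (hW : ∀ v ∈ W, f v ∈ W) :
    W = ⊥ ∨ W = ⊤ := by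
  by_cases hb : W = ⊥
  · exact Or.inl hb
  refine Or.inr ?_
  obtain ⟨v, hv, hv0⟩ := Submodule.exists_mem_ne_zero_of_ne_bot hb
  have hpow : ∀ k : ℕ, (f ^ k) v ∈ W := by
    intro k
    induction k with
    | zero => simpa using hv
    | succ k ih => rw [pow_succ', Module.End.mul_apply]; exact hW _ ih
  set e := Module.finrank F V
  let φ : Polynomial.degreeLT F e →ₗ[F] W :=
    ((LinearMap.applyₗ v).comp ((aeval f).toLinearMap.comp (Polynomial.degreeLT F e).subtype)).codRestrict W
      fun P => by
        show aeval f (P : F[X]) v ∈ W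
        rw [aeval_eq_sum_range, LinearMap.sum_apply]
        exact sum_mem fun i _ => W.smul_mem _ (hpow i)
  have hφ : Function.Injective φ := by
    refine (injective_iff_map_eq_zero _).2 fun P hP => Subtype.ext ?_
    by_contra hne
    have hne' : (P : F[X]) ≠ 0 := hne
    have hP' : aeval f (P : F[X]) v = 0 := congrArg Subtype.val hP
    have hlt : (P : F[X]).natDegree < e := by
      rw [Polynomial.natDegree_lt_iff_degree_lt hne']
      exact Polynomial.mem_degreeLT.1 P.2
    have hnd : ¬ minpoly F f ∣ (P : F[X]) := fun h => by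
      have := Polynomial.natDegree_le_of_dvd h hne'
      omega
    obtain ⟨a, b, hab⟩ := ((hirr.coprime_iff_not_dvd).2 hnd)
    have := congrArg (fun Q => aeval f Q v) hab
    simp [minpoly.aeval, Module.End.mul_apply, hP'] at this
    exact hv0 this.symm
  have hle := LinearMap.finrank_le_finrank_of_injective hφ
  rw [(Polynomial.degreeLTEquiv F e).finrank_eq, Module.finrank_fin_fun] at hle
  exact Submodule.eq_top_of_finrank_eq (le_antisymm (Submodule.finrank_le W) hle)

variable [Fintype F]

/-- An element of order `r` of `Sp_{2j}` with no proper invariant subspace when `2j` is the order of `q` mod `r`. -/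
theorem exists_irreducible_symp {r j : ℕ} [Fact r.Prime] (hj : 0 < j)
    (hord : orderOf ((Fintype.card F : ℕ) : ZMod r) = 2 * j) :
    ∃ y : Matrix.symplecticGroup (Fin j) F, orderOf y = r ∧
      ∀ W : Submodule F (Fin j ⊕ Fin j → F),
        (∀ v ∈ W, Matrix.toLin' (y : Matrix (Fin j ⊕ Fin j) (Fin j ⊕ Fin j) F) v ∈ W) → W = ⊥ ∨ W = ⊤ := by
  classical
  set q := Fintype.card F
  have hdvd : r ∣ SympSub.spOrder q j := by
    refine Dvd.dvd.mul_left ((?_ : r ∣ q ^ (2 * j) - 1).trans ?_) _
    · have h1 : ((q : ℕ) : ZMod r) ^ (2 * j) = 1 := hord ▸ pow_orderOf_eq_one _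
      rw [← CharP.cast_eq_zero_iff (ZMod r) r]
      rw [Nat.cast_sub (Nat.one_le_pow _ _ Fintype.card_pos), Nat.cast_pow, h1, Nat.cast_one, sub_self]
    · exact ⟨_, (Finset.mul_prod_erase (Finset.range j) (fun i => q ^ (2 * (i + 1)) - 1)
        (show j - 1 ∈ Finset.range j from Finset.mem_range.2 (by omega))).symm.trans
        (by rw [show j - 1 + 1 = j by omega])⟩
  have : Finite (Matrix.symplecticGroup (Fin j) F) := inferInstance
  obtain ⟨y, hy⟩ := exists_prime_orderOf_dvd_card' (G := Matrix.symplecticGroup (Fin j) F) r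
    (by rwa [SympSub.card_symplecticGroup])
  refine ⟨y, hy, ?_⟩
  let φ : Matrix.symplecticGroup (Fin j) F →* Module.End F (Fin j ⊕ Fin j → F) :=
    { toFun := fun g => Matrix.toLinAlgEquiv' (g : Matrix (Fin j ⊕ Fin j) (Fin j ⊕ Fin j) F)
      map_one' := by simp
      map_mul' := fun g h => by simp }
  have hφ : Function.Injective φ := fun g h e => Subtype.ext (Matrix.toLinAlgEquiv'.injective e)
  have h1 : φ y ≠ 1 := fun h => by
    rw [← map_one φ] at h
    rw [hφ h, orderOf_one] at hy
    exact (Fact.out : r.Prime).ne_one hy.symm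
  have hr : φ y ^ r = 1 := by rw [← map_pow, ← hy, pow_orderOf_eq_one, map_one]
  have hdeg : (minpoly F (φ y)).natDegree ≤ 2 * j := by
    refine (Polynomial.natDegree_le_of_dvd (LinearMap.minpoly_dvd_charpoly _) (LinearMap.charpoly_monic _).ne_zero).trans ?_
    rw [LinearMap.charpoly_natDegree, Module.finrank_fintype_fun_eq_card, Fintype.card_sum, Fintype.card_fin]
    omega
  obtain ⟨hirr, hd⟩ := Arith.irreducible_minpoly_of_primitive (n := 2 * j) (by omega) hord h1 hr hdeg
  intro W hW
  refine invariant_of_irreducible_minpoly hirr ?_ W hW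
  rw [hd, Module.finrank_fintype_fun_eq_card, Fintype.card_sum, Fintype.card_fin]
  omega

end Cfsg.Agent.Elusive
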