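import Cfsg.Agent.Elusive.InvolutionForms
import Cfsg.Agent.MaxSub.FieldSub

/-!
Quadratic field structures normalised by maps with scalar square.
-/

namespace Cfsg.Agent.Elusive

open Finset Submodule

theorem exists_pow_eq_neg_one_iff {F : Type*} [Field F] [Fintype F] (h2 : (2 : F) ≠ 0) {n : ℕ} (hn : 0 < n) :
    (∃ w : F, w ^ n = -1) ↔ padicValNat 2 n < padicValNat 2 (Fintype.card F - 1) := by
  classical
  have hq1 : Fintype.card F - 1 ≠ 0 := by have := Fintype.one_lt_card (α := F); omega
  have hne : (-1 : F) ≠ 1 := fun h => h2 (by linear_combination -h)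
  obtain ⟨k, n', hodd, rfl⟩ := Nat.exists_eq_two_pow_mul_odd hn.ne'
  have hk : padicValNat 2 (2 ^ k * n') = k := by
    rw [padicValNat.mul (by positivity) (by rcases hodd with ⟨a, rfl⟩; omega), padicValNat.prime_pow,
      padicValNat.eq_zero_of_not_dvd (by rcases hodd with ⟨a, rfl⟩; omega), add_zero]
  rw [hk]
  constructor
  · rintro ⟨w, hw⟩
    set w' := w ^ n'
    have hw' : w' ^ 2 ^ k = -1 := by rw [← pow_mul, mul_comm, hw]
    have hord : orderOf w' = 2 ^ (k + 1) := orderOf_eq_prime_pow (by rw [hw']; exact hne)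
      (by rw [pow_succ, pow_mul, hw', neg_one_sq])
    have h0 : w' ≠ 0 := fun h => by rw [h, zero_pow (by positivity)] at hw'; simp at hw'
    have := orderOf_dvd_of_pow_eq_one (FiniteField.pow_card_sub_one_eq_one w' h0)
    rw [hord] at this
    exact (padicValNat_dvd_iff_le hq1).1 this
  · intro h
    obtain ⟨u, hu⟩ := IsCyclic.exists_ofOrder_eq_natCard (α := Fˣ)
    rw [Nat.card_units, Nat.card_eq_fintype_card] at hu
    obtain ⟨c, hc⟩ := (padicValNat_dvd_iff_le (p := 2) hq1).2 (Nat.succ_le_of_lt h)
    refine ⟨(u : F) ^ c, ?_⟩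
    have e1 : ((u : F) ^ (c * 2 ^ k)) ^ 2 = 1 := by
      rw [← pow_mul, show c * 2 ^ k * 2 = 2 ^ (k + 1) * c by rw [pow_succ]; ring, ← hc, ← hu,
        ← Units.val_pow_eq_pow_val, pow_orderOf_eq_one, Units.val_one]
    have e2 : (u : F) ^ (c * 2 ^ k) ≠ 1 := by
      rw [← Units.val_pow_eq_pow_val, Ne, Units.val_eq_one, ← orderOf_dvd_iff_pow_eq_one, hu]
      intro hd
      have hc0 : 0 < c := Nat.pos_of_ne_zero fun h => hq1 (by rw [hc, h, mul_zero])
      have := Nat.le_of_dvd (Nat.mul_pos hc0 (by positivity)) hd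
      rw [hc, pow_succ] at this
      have : 2 ^ k * c * 2 = 2 ^ k * 2 * c := by ring
      have : 0 < 2 ^ k * c := by positivity
      nlinarith
    rw [← pow_mul, ← mul_assoc, pow_mul, (sq_eq_one_iff.1 e1).resolve_left e2, hodd.neg_one_pow]

/-- A monomial basis with coefficients. -/
theorem exists_monomial {F V : Type*} [Field F] [AddCommGroup V] [Module F V] [FiniteDimensional F V]
    (f : Module.End F V) {z : F} (hz : z ≠ 0) (hf : ∀ v, f (f v) = z • v) :
    ∃ (ι : Type) (_ : Fintype ι) (b : Module.Basis ι F V) (π : ι → ι) (a : ι → F),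
      (∀ i, π (π i) = i) ∧ (∀ i, f (b i) = a i • b (π i)) ∧ ∀ i, a i * a (π i) = z := by
  obtain ⟨ι, hι, b, π, hli, hsp, hπ, hb⟩ := exists_monomial_basis f hz hf
  choose a ha using fun i => Submodule.mem_span_singleton.1 (hb i)
  let B := Module.Basis.mk hli (top_le_iff.2 hsp)
  have hB : ∀ i, B i = b i := fun i => Module.Basis.mk_apply _ _ i
  refine ⟨ι, hι, B, π, a, hπ, fun i => by rw [hB, hB, ha], fun i => ?_⟩
  have h := hf (b i)
  rw [← ha, map_smul, ← ha (π i), hπ, smul_smul] at h
  exact smul_left_injective F (hli.ne_zero i) h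

variable {F : Type*} [Field F] {V : Type*} [AddCommGroup V] [Module F V] [FiniteDimensional F V]

/-- A map with irreducible quadratic equation has a basis of pairs `v, J v`. -/
theorem exists_quad_basis {J : Module.End F V} {t u : F} (hJ : J * J = t • J + u • 1)
    (hno : ∀ l : F, l * l ≠ t * l + u) {d : ℕ} (hd : Module.finrank F V = 2 * d) :
    ∃ b : Module.Basis (Fin d ⊕ Fin d) F V, ∀ k, J (b (Sum.inl k)) = b (Sum.inr k) := by
  have hJJ : ∀ v, J (J v) = t • J v + u • v := fun v => LinearMap.congr_fun hJ v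
  have key : ∀ k, k ≤ d → ∃ v : Fin k → V, LinearIndependent F (Sum.elim v fun i => J (v i)) := by
    intro k
    induction k with
    | zero => exact fun _ => ⟨Fin.elim0, linearIndependent_empty_type⟩
    | succ k ih =>
      intro hk
      obtain ⟨v, hv⟩ := ih (by omega)
      set S := span F (Set.range (Sum.elim v fun i => J (v i))) with hS
      have hSJ : ∀ w ∈ S, J w ∈ S := by
        intro w hw
        induction hw using Submodule.span_induction with
        | mem x hx =>
          obtain ⟨i, rfl⟩ := hx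
          rcases i with i | i
          · exact subset_span ⟨Sum.inr i, rfl⟩
          · show J (J (v i)) ∈ S
            rw [hJJ]
            exact add_mem (smul_mem _ _ (subset_span ⟨Sum.inr i, rfl⟩)) (smul_mem _ _ (subset_span ⟨Sum.inl i, rfl⟩))
        | zero => simp
        | add x y _ _ hx hy => rw [map_add]; exact add_mem hx hy
        | smul c x _ hx => rw [map_smul]; exact smul_mem _ c hx
      obtain ⟨w, hw⟩ : ∃ w, w ∉ S := by
        by_contra! h
        have := Submodule.finrank_mono (s := (⊤ : Submodule F V)) (t := S) fun x _ => h x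
        rw [finrank_top, hS, finrank_span_eq_card hv, Fintype.card_sum, Fintype.card_fin, hd] at this
        omega
      have hwJ : ∀ a b : F, a • w + b • J w ∈ S → a = 0 ∧ b = 0 := by
        intro a b hab
        rcases eq_or_ne b 0 with rfl | hb
        · refine ⟨?_, rfl⟩
          rw [zero_smul, add_zero] at hab
          by_contra ha
          exact hw (by simpa [smul_smul, ha] using smul_mem S a⁻¹ hab)
        · exfalso
          -- eliminate `J w`
          have h2 := sub_mem (smul_mem S b (hSJ _ hab)) (smul_mem S (a + b * t) hab)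
          rw [map_add, map_smul, map_smul, hJJ] at h2
          have h3 : (b * b * u - (a + b * t) * a) • w ∈ S := by
            convert h2 using 1
            module
          refine hw (?_ : w ∈ S)
          have hne : b * b * u - (a + b * t) * a ≠ 0 := fun h => hno (-(a / b)) (by
            field_simp
            linear_combination -h)
          simpa [smul_smul, hne] using smul_mem S (b * b * u - (a + b * t) * a)⁻¹ h3
      refine ⟨Fin.snoc v w, ?_⟩
      rw [Fintype.linearIndependent_iff] at hv ⊢
      intro g hg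
      simp only [Fintype.sum_sum_type, Sum.elim_inl, Sum.elim_inr, Fin.sum_univ_castSucc, Fin.snoc_castSucc,
        Fin.snoc_last] at hg
      have hmem : g (Sum.inl (Fin.last k)) • w + g (Sum.inr (Fin.last k)) • J w ∈ S := by
        rw [show g (Sum.inl (Fin.last k)) • w + g (Sum.inr (Fin.last k)) • J w =
          -((∑ i : Fin k, g (Sum.inl i.castSucc) • v i) + ∑ i : Fin k, g (Sum.inr i.castSucc) • J (v i)) by
          rw [eq_neg_iff_add_eq_zero, ← hg]; abel]
        exact neg_mem (add_mem (sum_mem fun i _ => smul_mem _ _ (subset_span ⟨Sum.inl i, rfl⟩))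
          (sum_mem fun i _ => smul_mem _ _ (subset_span ⟨Sum.inr i, rfl⟩)))
      obtain ⟨e1, e2⟩ := hwJ _ _ hmem
      rw [e1, e2, zero_smul, zero_smul, add_zero, add_zero] at hg
      have h0 := hv (Sum.elim (fun i => g (Sum.inl i.castSucc)) fun i => g (Sum.inr i.castSucc)) (by
        simpa only [Fintype.sum_sum_type, Sum.elim_inl, Sum.elim_inr] using hg)
      rintro (i | i)
      · exact Fin.lastCases e1 (fun j => h0 (Sum.inl j)) i
      · exact Fin.lastCases e2 (fun j => h0 (Sum.inr j)) i
  obtain ⟨v, hv⟩ := key d le_rfl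
  refine ⟨Module.Basis.mk hv (hv.span_eq_top_of_card_eq_finrank' ?_).ge, fun k => by simp [Module.Basis.mk_apply]⟩
  rw [Fintype.card_sum, Fintype.card_fin, hd, two_mul]

/-- Maps with the same irreducible quadratic equation are conjugate. -/
theorem exists_conj_quad {J J' : Module.End F V} {t u : F} (hJ : J * J = t • J + u • 1)
    (hJ' : J' * J' = t • J' + u • 1) (hno : ∀ l : F, l * l ≠ t * l + u) {d : ℕ} (hd : Module.finrank F V = 2 * d) :
    ∃ g : V ≃ₗ[F] V, ∀ v, g (J' v) = J (g v) := by
  obtain ⟨b, hb⟩ := exists_quad_basis hJ hno hd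
  obtain ⟨b', hb'⟩ := exists_quad_basis hJ' hno hd
  let g : V ≃ₗ[F] V := b'.equiv b (Equiv.refl _)
  refine ⟨g, fun v => ?_⟩
  have h : g.toLinearMap ∘ₗ J' = J ∘ₗ g.toLinearMap := by
    refine b'.ext fun i => ?_
    rcases i with k | k
    · simp [g, hb', hb]
    · have e1 : J' (b' (Sum.inr k)) = t • b' (Sum.inr k) + u • b' (Sum.inl k) := by
        rw [← hb']; exact LinearMap.congr_fun hJ' _
      have e2 : J (b (Sum.inr k)) = t • b (Sum.inr k) + u • b (Sum.inl k) := by
        rw [← hb]; exact LinearMap.congr_fun hJ _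
      simp [g, e1, e2]
  exact LinearMap.congr_fun h v

end Cfsg.Agent.Elusive
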