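import Cfsg.Agent.Elusive.TwoByTwo

/-!
Quaternion subgroups of `GL₂` and their normalisers.
-/

namespace Cfsg.Agent.Elusive

open Matrix

variable {F : Type*} [Field F]

theorem quaternion_generators (h2 : (2 : F) ≠ 0) (R : Subgroup (GL (Fin 2) F))
    (hR : Nonempty (↥R ≃* QuaternionGroup 2)) :
    ∃ i j : GL (Fin 2) F, i ∈ R ∧ j ∈ R ∧ R ≤ Subgroup.closure {i, j} ∧
      (i : Matrix (Fin 2) (Fin 2) F) * i = -1 ∧ (j : Matrix (Fin 2) (Fin 2) F) * j = -1 ∧
      (j : Matrix (Fin 2) (Fin 2) F) * i = -((i : Matrix (Fin 2) (Fin 2) F) * j) ∧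
      (∀ z : F, (i : Matrix (Fin 2) (Fin 2) F) ≠ z • 1) ∧ (i : Matrix (Fin 2) (Fin 2) F).det = 1 ∧
      (j : Matrix (Fin 2) (Fin 2) F).det = 1 ∧ i * j ≠ j * i := by
  obtain ⟨e⟩ := hR
  have he : ∀ u v : R, e u = e v → (u : GL (Fin 2) F) = v := fun u v h => congrArg Subtype.val (e.injective h)
  let ι : QuaternionGroup 2 →* GL (Fin 2) F := R.subtype.comp e.symm.toMonoidHom
  have hι : Function.Injective ι := Subtype.val_injective.comp e.symm.injective
  set i := ι (QuaternionGroup.a 1)
  set j := ι (QuaternionGroup.xa 0)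
  set z := ι (QuaternionGroup.a 2)
  have hii : i * i = z := by rw [← map_mul]; exact congrArg ι (by decide)
  have hjj : j * j = z := by rw [← map_mul]; exact congrArg ι (by decide)
  have hji : j * i = z * (i * j) := by rw [← map_mul, ← map_mul, ← map_mul]; exact congrArg ι (by decide)
  have hne : i * j ≠ j * i := by
    rw [← map_mul, ← map_mul]
    exact fun h => absurd (hι h) (by decide)
  have hzz : z * z = 1 := by rw [← map_mul, ← map_one ι]; exact congrArg ι (by decide)
  have hz1 : z ≠ 1 := by rw [← map_one ι]; exact fun h => absurd (hι h) (by decide)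
  have hzi : z * i = i * z := by rw [← map_mul, ← map_mul]; exact congrArg ι (by decide)
  have hzj : z * j = j * z := by rw [← map_mul, ← map_mul]; exact congrArg ι (by decide)
  have hzs : ∃ c : F, (z : Matrix (Fin 2) (Fin 2) F) = c • 1 := by
    by_contra h
    push Not at h
    refine hne (Units.ext ?_)
    exact commute_of_commute_two h (congrArg Units.val hzi) (congrArg Units.val hzj)
  obtain ⟨c, hc⟩ := hzs
  have hzm : (z : Matrix (Fin 2) (Fin 2) F) = -1 := by
    have h1 := congrArg Units.val hzz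
    rw [Units.val_mul, hc, Units.val_one, smul_mul_smul_comm, one_mul] at h1
    have h2' : c * c = 1 := by simpa using congrFun (congrFun h1 0) 0
    rcases mul_self_eq_one_iff.1 h2' with rfl | rfl
    · exact absurd (Units.ext (by rw [hc, one_smul, Units.val_one])) hz1
    · rw [hc, neg_one_smul]
  have hns : ∀ w : GL (Fin 2) F, w * (i * j) ≠ (i * j) * w ∨ w * i ≠ i * w ∨ w * j ≠ j * w →
      ∀ s : F, (w : Matrix (Fin 2) (Fin 2) F) ≠ s • 1 := by
    intro w hw s hs
    rcases hw with h | h | h <;> refine h (Units.ext ?_) <;>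
      simp only [Units.val_mul, hs, smul_mul_assoc, mul_smul_comm, one_mul, mul_one]
  have hins := hns i (Or.inr (Or.inr hne))
  have hjns := hns j (Or.inr (Or.inl (Ne.symm hne)))
  have det_one : ∀ w : Matrix (Fin 2) (Fin 2) F, (∀ s : F, w ≠ s • 1) → w * w = -1 → w.det = 1 := by
    intro w hw hww
    have h := mul_self_two w
    rw [hww] at h
    have := coeff_eq_of_nonscalar hw (a := (0 : F)) (b := -1) (a' := w 0 0 + w 1 1) (b' := -w.det)
      (by rw [zero_smul, zero_add, neg_one_smul, h, sub_eq_add_neg, neg_smul])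
    linear_combination this.2
  have hi2 : (i : Matrix (Fin 2) (Fin 2) F) * i = -1 := by rw [← Units.val_mul, hii, hzm]
  have hj2 : (j : Matrix (Fin 2) (Fin 2) F) * j = -1 := by rw [← Units.val_mul, hjj, hzm]
  refine ⟨i, j, (e.symm _).2, (e.symm _).2, ?_, hi2, hj2, ?_, hins, det_one _ hins hi2, det_one _ hjns hj2, hne⟩
  · intro w hw
    have hwe : w = ι (e ⟨w, hw⟩) := by simp [ι]
    rw [hwe]
    have hclo : ∀ g : QuaternionGroup 2,
        g ∈ Subgroup.closure ({QuaternionGroup.a 1, QuaternionGroup.xa 0} : Set (QuaternionGroup 2)) := by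
      intro g
      have ha : ∀ k, QuaternionGroup.a k ∈
          Subgroup.closure ({QuaternionGroup.a 1, QuaternionGroup.xa 0} : Set (QuaternionGroup 2)) := by
        intro k
        rw [show QuaternionGroup.a k = (QuaternionGroup.a 1 : QuaternionGroup 2) ^ k.val by
          rw [QuaternionGroup.a_one_pow]; simp]
        exact pow_mem (Subgroup.subset_closure (by simp)) _
      cases g with
      | a k => exact ha k
      | xa k =>
        rw [show QuaternionGroup.xa k = QuaternionGroup.xa 0 * (QuaternionGroup.a k : QuaternionGroup 2) by simp]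
        exact mul_mem (Subgroup.subset_closure (by simp)) (ha k)
    have h1 := Subgroup.mem_map_of_mem ι (hclo (e ⟨w, hw⟩))
    rw [MonoidHom.map_closure, Set.image_pair] at h1
    exact h1
  · rw [← Units.val_mul, hji, Units.val_mul, hzm, Units.val_mul, neg_one_mul]

/-- An element of order three normalising the quaternion group. -/
theorem exists_three_normalizing (h2 : (2 : F) ≠ 0) (R : Subgroup (GL (Fin 2) F)) {i j : GL (Fin 2) F}
    (hiR : i ∈ R) (hjR : j ∈ R) (hgen : R ≤ Subgroup.closure {i, j}) [Finite R]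
    (hi : (i : Matrix (Fin 2) (Fin 2) F) * i = -1) (hj : (j : Matrix (Fin 2) (Fin 2) F) * j = -1)
    (hji : (j : Matrix (Fin 2) (Fin 2) F) * i = -((i : Matrix (Fin 2) (Fin 2) F) * j))
    (hins : ∀ z : F, (i : Matrix (Fin 2) (Fin 2) F) ≠ z • 1) :
    ∃ A : GL (Fin 2) F, A ∈ Subgroup.normalizer (R : Set (GL (Fin 2) F)) ∧
      (A : Matrix (Fin 2) (Fin 2) F).det = 1 ∧
      (A : Matrix (Fin 2) (Fin 2) F) 0 0 + (A : Matrix (Fin 2) (Fin 2) F) 1 1 = -1 := by
  set I := (i : Matrix (Fin 2) (Fin 2) F) with hI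
  set J := (j : Matrix (Fin 2) (Fin 2) F) with hJ
  have r1 : ∀ M, I * (I * M) = -M := fun M => by rw [← mul_assoc, hi, neg_one_mul]
  have r2 : ∀ M, J * (J * M) = -M := fun M => by rw [← mul_assoc, hj, neg_one_mul]
  have r3 : ∀ M, J * (I * M) = -(I * (J * M)) := fun M => by
    rw [← mul_assoc, hji, neg_mul, mul_assoc]
  set S := I + J + I * J with hS
  have hSI : (1 + S) * I = J * (1 + S) := by
    simp only [hS, add_mul, mul_add, one_mul, mul_one, mul_assoc, hi, hj, hji, r1, r2, r3, mul_neg, neg_neg]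
    abel
  have hSJ : (1 + S) * J = (I * J) * (1 + S) := by
    simp only [hS, add_mul, mul_add, one_mul, mul_one, mul_assoc, hi, hj, hji, r1, r2, r3, mul_neg, neg_neg]
    abel
  have hSS : S * S = (-3 : F) • 1 := by
    have : S * S = -1 + -1 + -1 := by
      simp only [hS, add_mul, mul_add, one_mul, mul_one, mul_assoc, hi, hj, hji, r1, r2, r3, mul_neg, neg_neg]
      abel
    rw [this, show (-3 : F) = -1 + -1 + -1 by norm_num, add_smul, add_smul, neg_one_smul]
  let A0 : Matrix (Fin 2) (Fin 2) F := (-(2 : F)⁻¹) • (1 + S)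
  have hA2 : A0 * A0 = (-1 : F) • A0 - (1 : F) • (1 : Matrix (Fin 2) (Fin 2) F) := by
    have hexp : (1 + S) * (1 + S) = (-2 : F) • 1 + (2 : F) • S := by
      have e : (1 + S) * (1 + S) = 1 + (S + S) + S * S := by noncomm_ring
      rw [e, hSS, show (-2 : F) = 1 + -3 by norm_num, add_smul, one_smul, two_smul]
      abel
    simp only [A0, smul_mul_smul_comm, hexp]
    ext a b
    simp only [Matrix.smul_apply, Matrix.sub_apply, Matrix.add_apply, smul_eq_mul]
    field_simp
    ring
  have hns : ∀ z : F, A0 ≠ z • 1 := by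
    intro z hz
    have hS' : (1 + S) = (-(2 * z)) • (1 : Matrix (Fin 2) (Fin 2) F) := by
      have := congrArg (fun M => (-(2 : F)) • M) hz
      simp only [A0, smul_smul] at this
      rw [neg_mul_neg, mul_inv_cancel₀ h2, one_smul, neg_mul] at this
      exact this
    have h1 : I * (1 + S) = (1 + S) * I := by rw [hS', mul_smul_comm, smul_mul_assoc, one_mul, mul_one]
    simp only [hS, add_mul, mul_add, one_mul, mul_one, mul_assoc, hi, hj, hji, r1, r2, r3, mul_neg,
      neg_neg] at h1
    have h3 : I * J = J := by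
      have h4 : (2 : F) • (I * J - J) = 0 := by
        rw [two_smul]
        have := sub_eq_zero.2 h1
        rw [← this]
        abel
      exact sub_eq_zero.1 ((smul_eq_zero.1 h4).resolve_left h2)
    refine hins 1 ?_
    have := congrArg (fun M => M * J) h3
    simp only [mul_assoc, hj, mul_neg, mul_one, neg_inj] at this
    rw [one_smul]
    exact this
  have hdet : A0.det = 1 ∧ A0 0 0 + A0 1 1 = -1 := by
    have h := mul_self_two A0
    rw [hA2] at h
    have := coeff_eq_of_nonscalar hns (a := (-1 : F)) (b := (-1 : F)) (a' := A0 0 0 + A0 1 1) (b' := -A0.det)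
      (by rw [neg_smul (1 : F) (1 : Matrix (Fin 2) (Fin 2) F), ← sub_eq_add_neg, h, neg_smul, sub_eq_add_neg])
    exact ⟨by linear_combination this.2, this.1.symm⟩
  have hu : IsUnit A0 := (Matrix.isUnit_iff_isUnit_det A0).2 (by rw [hdet.1]; exact isUnit_one)
  refine ⟨hu.unit, ?_, hdet.1, hdet.2⟩
  have hA : ((hu.unit : GL (Fin 2) F) : Matrix (Fin 2) (Fin 2) F) = A0 := IsUnit.unit_spec hu
  have hci : hu.unit * i * hu.unit⁻¹ = j := by
    rw [mul_inv_eq_iff_eq_mul]
    refine Units.ext ?_
    simp only [Units.val_mul, hA, A0, smul_mul_assoc, mul_smul_comm, ← hI, ← hJ, hSI]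
  have hcj : hu.unit * j * hu.unit⁻¹ = i * j := by
    rw [mul_inv_eq_iff_eq_mul]
    refine Units.ext ?_
    simp only [Units.val_mul, hA, A0, smul_mul_assoc, mul_smul_comm, ← hI, ← hJ, hSJ]
  have hle : R.map (MulAut.conj hu.unit).toMonoidHom ≤ R := by
    refine (Subgroup.map_mono hgen).trans ?_
    rw [MonoidHom.map_closure, Subgroup.closure_le, Set.image_pair]
    rintro _ (rfl | rfl)
    · simp only [MulEquiv.coe_toMonoidHom, MulAut.conj_apply, hci]; exact hjR
    · simp only [MulEquiv.coe_toMonoidHom, MulAut.conj_apply, hcj]; exact R.mul_mem hiR hjR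
  rw [Subgroup.mem_normalizer_iff_map_conj_eq]
  refine Subgroup.eq_of_le_of_card_ge hle ?_
  exact (Subgroup.card_map_of_injective (MulAut.conj hu.unit).injective).ge

/-- An element of prime order at least five normalising a quaternion group centralises it. -/
theorem commute_of_normalizing {G : Type*} [Group G] (R : Subgroup G) (hR : Nat.card R = 8)
    {i : G} (hi : i ∈ R) {z : G} (hz : z ∈ R) (hz1 : z ≠ 1) {y : G}
    (hy : y ∈ Subgroup.normalizer (R : Set G)) (hyz : y * z = z * y) {r : ℕ} (hr : r.Prime) (h5 : 5 ≤ r)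
    (hyr : y ^ r = 1) : y * i = i * y := by
  classical
  have : Finite R := Nat.finite_of_card_ne_zero (by omega)
  have : Fintype R := Fintype.ofFinite R
  rw [Subgroup.mem_normalizer_iff] at hy
  let c : R ≃* R :=
    { toFun := fun u => ⟨y * u * y⁻¹, (hy u).1 u.2⟩
      invFun := fun u => ⟨y⁻¹ * u * y, (hy _).2 (by simp [mul_assoc])⟩
      left_inv := fun u => Subtype.ext (by simp [mul_assoc])
      right_inv := fun u => Subtype.ext (by simp [mul_assoc])
      map_mul' := fun u v => Subtype.ext (by simp [mul_assoc]) }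
  let σ : Equiv.Perm R := c.toEquiv
  have hσp : σ ^ r = 1 := by
    have : ∀ (m : ℕ) (u : R), (((σ ^ m) u : R) : G) = y ^ m * u * (y ^ m)⁻¹ := by
      intro m
      induction m with
      | zero => intro u; simp
      | succ m ihm =>
        intro u
        rw [pow_succ', Equiv.Perm.mul_apply]
        show y * ((σ ^ m) u : R) * y⁻¹ = _
        rw [ihm, pow_succ', _root_.mul_inv_rev]
        simp [mul_assoc]
    exact Equiv.ext fun u => Subtype.ext (by rw [this, hyr]; simp)
  by_contra hne
  have hfi : σ ⟨i, hi⟩ ≠ ⟨i, hi⟩ := fun h => hne (mul_inv_eq_iff_eq_mul.1 (congrArg Subtype.val h))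
  have hord : orderOf σ = r := by
    have := Fact.mk hr
    exact orderOf_eq_prime hσp fun h => hfi (by rw [h]; rfl)
  obtain ⟨m, hm⟩ := Equiv.Perm.cycleType_prime_order (σ := σ) (hord.symm ▸ hr)
  have hsum := Equiv.Perm.sum_cycleType σ
  rw [hm, hord, Multiset.sum_replicate, smul_eq_mul] at hsum
  let Fx : Subgroup R :=
    { carrier := {u | c u = u}
      one_mem' := map_one c
      mul_mem' := fun {a b} ha hb => by show c (a * b) = a * b; rw [map_mul, ha, hb]
      inv_mem' := fun {a} ha => by show c a⁻¹ = a⁻¹; rw [map_inv, ha] }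
  have hFx : Nat.card Fx + σ.support.card = 8 := by
    rw [show Nat.card Fx = (σ.supportᶜ).card by
      rw [Nat.card_eq_fintype_card]
      refine (Fintype.card_congr (Equiv.subtypeEquivRight fun u => ?_)).trans (Fintype.card_coe _)
      simp only [Finset.mem_compl, Equiv.Perm.mem_support, not_not]
      exact Iff.rfl, Finset.card_compl, ← Nat.card_eq_fintype_card, hR]
    have := σ.support.card_le_univ
    rw [← Nat.card_eq_fintype_card, hR] at this
    omega
  have hd : Nat.card Fx ∣ 8 := hR ▸ Subgroup.card_subgroup_dvd_card Fx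
  have h2 : 1 < Nat.card Fx := by
    rw [Finite.one_lt_card_iff_nontrivial, Subgroup.nontrivial_iff_ne_bot]
    intro hb
    have : (⟨z, hz⟩ : R) ∈ Fx := Subtype.ext (show y * z * y⁻¹ = z by rw [hyz, mul_inv_cancel_right])
    rw [hb, Subgroup.mem_bot] at this
    exact hz1 (congrArg Subtype.val this)
  have hr8 : (m + 1) * r ≤ 6 := by omega
  have : m = 0 := by nlinarith
  subst this
  have hle := Nat.le_of_dvd (by norm_num) hd
  have hr6 : r = 5 ∨ r = 6 := by omega
  rcases hr6 with rfl | rfl
  · have : Nat.card Fx = 3 := by omega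
    rw [this] at hd
    norm_num at hd
  · norm_num at hr

end Cfsg.Agent.Elusive
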