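import Cfsg.Agent.Elusive.SLElements

/-!
Criteria for every element of prime order of `PSL_n` to fix subspaces of given dimensions.
-/

namespace Cfsg.Agent.Elusive

open Polynomial Matrix

variable {F : Type*} [Field F] [Fintype F] {n r : ℕ} [Fact r.Prime]

theorem invariant_of_map_le {V : Type*} [AddCommGroup V] [Module F V] {f : Module.End F V} {W : Submodule F V}
    (h : W.map f ≤ W) : ∀ v ∈ W, f v ∈ W := fun v hv => h ⟨v, hv, rfl⟩

theorem map_le_of_invariant {V : Type*} [AddCommGroup V] [Module F V] {f : Module.End F V} {W : Submodule F V}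
    (h : ∀ v ∈ W, f v ∈ W) : W.map f ≤ W := by
  rintro _ ⟨v, hv, rfl⟩; exact h v hv

theorem map_smul_le_of_map_le {V : Type*} [AddCommGroup V] [Module F V] {f : Module.End F V} {W : Submodule F V}
    (w : F) (h : W.map f ≤ W) : W.map (w • f) ≤ W :=
  map_le_of_invariant fun v hv => W.smul_mem w (invariant_of_map_le h v hv)

/-- All representatives are scalar multiples of maps of order `r` when `r` does not divide `q - 1`. -/
theorem forall_of_forall_order (P : Module.End F (Fin n → F) → Prop) (hP : ∀ (g : Module.End F (Fin n → F)) (w : F), P g → P (w • g))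
    (hn : 0 < n) (hi : 2 ≤ orderOf ((Fintype.card F : ℕ) : ZMod r))
    (h : ∀ g : Module.End F (Fin n → F), g ^ r = 1 → g ≠ 1 → P g) (x : SpecialLinearGroup (Fin n) F)
    (hx : ∃ z : F, ((x ^ r : SpecialLinearGroup (Fin n) F) : Matrix (Fin n) (Fin n) F) = z • (1 : Matrix (Fin n) (Fin n) F))
    (hx' : ∀ c : F, (x : Matrix (Fin n) (Fin n) F) ≠ c • (1 : Matrix (Fin n) (Fin n) F)) :
    P (toLin' (x : Matrix (Fin n) (Fin n) F)) := by
  obtain ⟨z, hz⟩ := hx
  rcases order_reduction Fact.out hn hz hx' with ⟨w, g, -, hg, hg1, hg2⟩ | hno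
  · rw [hg]; exact hP g w (h g hg1 hg2)
  · obtain ⟨b, hb⟩ := exists_pow_eq_of_not_dvd (Fact.out : r.Prime) (not_dvd_sub_one hi) z
    exact absurd hb (hno b)

/-- The criterion when `r` divides `q - 1`. -/
theorem forall_iff_of_order_one (P : Module.End F (Fin n → F) → Prop) (hP : ∀ (g : Module.End F (Fin n → F)) (w : F), P g → P (w • g))
    (hn : 0 < n) (m : ℕ) (hd : r ∣ Fintype.card F - 1)
    (hgood : ∀ g : Module.End F (Fin n → F), g ^ r = 1 → g ≠ 1 → P g)
    (hbad : ∀ (g : Module.End F (Fin n → F)) (z : F), (∀ b : F, b ^ r ≠ z) → g ^ r = z • 1 → (P g ↔ r ∣ m)) :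
    (∀ x : SpecialLinearGroup (Fin n) F,
      (∃ z : F, ((x ^ r : SpecialLinearGroup (Fin n) F) : Matrix (Fin n) (Fin n) F) = z • (1 : Matrix (Fin n) (Fin n) F)) →
      (∀ c : F, (x : Matrix (Fin n) (Fin n) F) ≠ c • (1 : Matrix (Fin n) (Fin n) F)) →
      P (toLin' (x : Matrix (Fin n) (Fin n) F))) ↔
    (r ∣ m ∨ (padicValNat r n ≤ padicValNat r (Fintype.card F - 1) ∧ (r = 2 → Even n → Fintype.card F % 4 = 1))) := by
  have hr := (Fact.out : r.Prime)
  constructor
  · intro h
    by_contra hc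
    push Not at hc
    obtain ⟨z, hz, t, ht, het⟩ := (exists_bad_scalar_iff hd hn).2 fun ⟨h1, h2⟩ => by
      obtain ⟨e1, e2, e3⟩ := hc.2 h1
      exact e3 (h2 e1 e2)
    have ht0 : 0 < t := Nat.pos_of_ne_zero fun h0 => by rw [h0, zero_mul] at ht; omega
    obtain ⟨x, hx, hx'⟩ := exists_element_bad hr ht ht0 hz het
    exact hc.1 ((hbad _ z hz (toLin'_pow_eq_smul_one.1 hx)).1 (h x ⟨z, hx⟩ hx'))
  · rintro h x ⟨z, hz⟩ hx'
    rcases order_reduction hr hn hz hx' with ⟨w, g, -, hg, hg1, hg2⟩ | hno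
    · rw [hg]; exact hP g w (hgood g hg1 hg2)
    · refine (hbad _ z hno (toLin'_pow_eq_smul_one.1 hz)).2 (h.resolve_right fun hc => ?_)
      replace hz : (x : Matrix (Fin n) (Fin n) F) ^ r = z • 1 := (Matrix.SpecialLinearGroup.coe_pow x r).symm.trans hz
      obtain ⟨t, ht, hdet⟩ := det_of_pow_eq_scalar hr hno hz
      exact (exists_bad_scalar_iff hd hn).1 ⟨z, hno, t, ht, hdet.symm.trans x.det_coe⟩ hc

omit [Fintype F] in
theorem semisimple_irreducible {g : Module.End F (Fin n → F)} {z : F} (hrF : (r : F) ≠ 0) (hz : ∀ b : F, b ^ r ≠ z)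
    (hg : g ^ r = z • 1) :
    g.IsSemisimple ∧ Irreducible (X ^ r - C z) ∧ aeval g (X ^ r - C z) = 0 ∧ (X ^ r - C z).natDegree = r := by
  have hr := (Fact.out : r.Prime)
  have hz0 : z ≠ 0 := fun h => hz 0 (by rw [h, zero_pow hr.ne_zero])
  refine ⟨isSemisimple_of_pow_eq_smul hrF hz0 hg, X_pow_sub_C_irreducible_of_prime hr hz, ?_, natDegree_X_pow_sub_C⟩
  simp [hg, Algebra.algebraMap_eq_smul_one]

theorem natCast_ne_zero_of_not_dvd (hr : ¬ r ∣ Fintype.card F) : (r : F) ≠ 0 := by
  intro h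
  obtain ⟨e, hp, he⟩ := FiniteField.card F (ringChar F)
  rw [ringChar.spec, Nat.dvd_prime (Fact.out : r.Prime)] at h
  rcases h with h | h
  · exact hp.ne_one h
  · exact hr (by rw [he, h]; exact dvd_pow_self r e.pos.ne')

/-- For `g ^ r = z` without root there is an invariant subspace of dimension `m ≤ n` iff `r ∣ m`. -/
theorem exists_invariant_bad_iff {g : Module.End F (Fin n → F)} {z : F} (hr : ¬ r ∣ Fintype.card F)
    (hz : ∀ b : F, b ^ r ≠ z) (hg : g ^ r = z • 1) {m : ℕ} (hm : m ≤ n) :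
    (∃ W : Submodule F (Fin n → F), Module.finrank F W = m ∧ W.map g ≤ W) ↔ r ∣ m := by
  obtain ⟨hs, hirr, h0, hd⟩ := semisimple_irreducible (natCast_ne_zero_of_not_dvd hr) hz hg
  constructor
  · rintro ⟨W, hW, hWg⟩
    rw [← hd, ← hW]
    exact dvd_finrank_of_irreducible hs hirr h0 (invariant_of_map_le hWg)
  · rintro ⟨t, rfl⟩
    obtain ⟨X', -, -, hX, -, hXd, -⟩ := exists_invariant_of_irreducible hs hirr h0 (le_refl t)
      (by rw [Module.finrank_fin_fun, hd, mul_comm]; exact hm)
    exact ⟨X', by rw [hXd, hd, mul_comm], map_le_of_invariant hX⟩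

/-- A subspace of dimension `m` is invariant under a map of order `r` when `m mod i ≤ n mod i`. -/
theorem exists_invariant_of_mod {g : Module.End F (Fin n → F)} (hg : g ^ r = 1) (hr : ¬ r ∣ Fintype.card F) {m : ℕ}
    (hm : m ≤ n) (hmod : m % orderOf ((Fintype.card F : ℕ) : ZMod r) ≤ n % orderOf ((Fintype.card F : ℕ) : ZMod r)) :
    ∃ W : Submodule F (Fin n → F), Module.finrank F W = m ∧ W.map g ≤ W := by
  have hmod' := finrank_fixed_mod hg hr
  rw [Module.finrank_fin_fun] at hmod'
  set i := orderOf ((Fintype.card F : ℕ) : ZMod r) with hi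
  set c := Module.finrank F ↥(LinearMap.ker (g - 1))
  have hcn : c ≤ n := le_of_le_of_eq (Submodule.finrank_le _) (Module.finrank_fin_fun F)
  have ec := Nat.div_add_mod' c i
  have en := Nat.div_add_mod' n i
  have em := Nat.div_add_mod' m i
  have hdiv : m / i ≤ n / i := Nat.div_le_div_right hm
  have hcdiv : c / i ≤ n / i := Nat.div_le_div_right hcn
  have hc : min (c / i) (m / i) * i + m % i ≤ c := by
    have := Nat.mul_le_mul_right i (min_le_left (c / i) (m / i))
    omega
  have ht : c + (m / i - c / i) * i ≤ Module.finrank F (Fin n → F) := by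
    rw [Module.finrank_fin_fun, Nat.sub_mul]
    have := Nat.mul_le_mul_right i hdiv
    have := Nat.mul_le_mul_right i hcdiv
    omega
  obtain ⟨X', -, -, hX, -, hXd, -⟩ := exists_invariant_flag hg hr (le_refl _) hc (le_refl _) ht
  refine ⟨X', ?_, map_le_of_invariant hX⟩
  rw [hXd, ← hi]
  rcases le_total (c / i) (m / i) with h | h
  · rw [min_eq_left h, Nat.sub_mul]
    have := Nat.mul_le_mul_right i h
    omega
  · rw [min_eq_right h, Nat.sub_eq_zero_of_le h]
    omega

/-- Nested invariant subspaces of dimensions `m` and `n - m`. -/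
theorem exists_invariant_flag_of_mod {g : Module.End F (Fin n → F)} (hg : g ^ r = 1) (hr : ¬ r ∣ Fintype.card F) {m : ℕ}
    (hm : 2 * m ≤ n) (hmod : 2 * (m % orderOf ((Fintype.card F : ℕ) : ZMod r)) ≤ n % orderOf ((Fintype.card F : ℕ) : ZMod r)) :
    ∃ U W : Submodule F (Fin n → F), U ≤ W ∧ Module.finrank F U = m ∧ Module.finrank F W = n - m ∧
      U.map g ≤ U ∧ W.map g ≤ W := by
  have hmod' := finrank_fixed_mod hg hr
  have hi0 := orderOf_pos_of_not_dvd hr
  rw [Module.finrank_fin_fun] at hmod'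
  set i := orderOf ((Fintype.card F : ℕ) : ZMod r) with hi
  set c := Module.finrank F ↥(LinearMap.ker (g - 1))
  have hcn : c ≤ n := le_of_le_of_eq (Submodule.finrank_le _) (Module.finrank_fin_fun F)
  have ec := Nat.div_add_mod' c i
  have en := Nat.div_add_mod' n i
  have em := Nat.div_add_mod' m i
  set M := m / i
  set C' := c / i
  set N := n / i
  have hMN : 2 * M ≤ N := by
    by_contra hlt
    have := Nat.mul_le_mul_right i (Nat.not_le.1 hlt)
    rw [Nat.succ_mul, mul_assoc] at this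
    have := Nat.mod_lt n hi0
    omega
  have hCN : C' ≤ N := Nat.div_le_div_right hcn
  obtain ⟨M', hM'⟩ : ∃ M', N = M + M' := ⟨N - M, by omega⟩
  have hMM : M ≤ M' := by omega
  have eN : N * i = M * i + M' * i := by rw [hM', add_mul]
  have hMMi := Nat.mul_le_mul_right i hMM
  have hCNi := Nat.mul_le_mul_right i hCN
  have hle : min C' M * i ≤ min C' M' * i := Nat.mul_le_mul_right i (min_le_min_left _ hMM)
  have hc : min C' M * i + m % i ≤ min C' M' * i + (n % i - m % i) := by omega
  have hc₂ : min C' M' * i + (n % i - m % i) ≤ c := by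
    have := Nat.mul_le_mul_right i (min_le_left C' M')
    omega
  have ht : c + (M' - C') * i ≤ Module.finrank F (Fin n → F) := by
    rw [Module.finrank_fin_fun, Nat.sub_mul]
    omega
  obtain ⟨U, W, hUW, hU, hW, hUd, hWd⟩ := exists_invariant_flag hg hr hc hc₂ (Nat.sub_le_sub_right hMM C') ht
  have key : ∀ A, min C' A * i + (A - C') * i = A * i := fun A => by
    rw [← add_mul]; congr 1; omega
  refine ⟨U, W, hUW, ?_, ?_, map_le_of_invariant hU, map_le_of_invariant hW⟩
  · rw [hUd, ← hi]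
    have := key M
    omega
  · rw [hWd, ← hi]
    have := key M'
    omega

end Cfsg.Agent.Elusive
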