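import Cfsg.Agent.MaxSub.FieldSub
import Cfsg.Agent.Elusive.InvariantDim

/-!
The normaliser of a field subalgebra of prime degree `n` in `GL_n(F)`: elements of order `n`.
-/

namespace Cfsg.Agent.Elusive.SingerPrime

open Matrix Cfsg.Geo

variable {F : Type*} [Field F] [Fintype F] {n : ℕ} [Fact n.Prime] {K : Subalgebra F (Matrix (Fin n) (Fin n) F)}

theorem neZero : NeZero n := ⟨(Fact.out : n.Prime).ne_zero⟩

attribute [local instance] neZero

/-- The linear map `a ↦ a v`. -/
def orbit (K : Subalgebra F (Matrix (Fin n) (Fin n) F)) (v : Fin n → F) : K →ₗ[F] (Fin n → F) where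
  toFun a := (a : Matrix (Fin n) (Fin n) F) *ᵥ v
  map_add' a b := add_mulVec _ _ v
  map_smul' c a := smul_mulVec c _ v

theorem orbit_bijective (hK : IsFieldSubalgebra n K) {v : Fin n → F} (hv : v ≠ 0) :
    Function.Bijective (orbit K v) := by
  have hinj : Function.Injective (orbit K v) := by
    refine (injective_iff_map_eq_zero _).2 fun a ha => ?_
    by_contra hne
    obtain ⟨b, hb, hab⟩ := hK.inv a a.2 fun h => hne (Subtype.ext h)
    apply hv
    have h : (a : Matrix (Fin n) (Fin n) F) *ᵥ v = 0 := ha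
    rw [← one_mulVec v, ← hab, hK.comm a a.2 b hb, ← mulVec_mulVec, h, mulVec_zero]
  exact ⟨hinj, (LinearMap.injective_iff_surjective_of_finrank_eq_finrank
    (by rw [hK.finrank_eq, Module.finrank_fin_fun])).1 hinj⟩

theorem mem_of_commute (hK : IsFieldSubalgebra n K) {y : Matrix (Fin n) (Fin n) F}
    (h : ∀ k ∈ K, y * k = k * y) : y ∈ K := by
  have hv : (Pi.single (0 : Fin n) 1 : Fin n → F) ≠ 0 := fun h0 => by simpa using congrFun h0 0
  obtain ⟨a, ha⟩ := (orbit_bijective hK hv).2 (y *ᵥ Pi.single 0 1)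
  suffices y = a by rw [this]; exact a.2
  apply Matrix.toLin'.injective
  refine LinearMap.ext fun u => ?_
  obtain ⟨k, rfl⟩ := (orbit_bijective hK hv).2 u
  show y *ᵥ ((k : Matrix (Fin n) (Fin n) F) *ᵥ _) = (a : Matrix (Fin n) (Fin n) F) *ᵥ ((k : Matrix (Fin n) (Fin n) F) *ᵥ _)
  have ha' : (a : Matrix (Fin n) (Fin n) F) *ᵥ Pi.single 0 1 = y *ᵥ Pi.single 0 1 := ha
  rw [mulVec_mulVec, h k k.2, ← mulVec_mulVec, mulVec_mulVec (Pi.single (0 : Fin n) (1 : F)) (a : Matrix (Fin n) (Fin n) F),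
    hK.comm a a.2 k k.2, ← mulVec_mulVec, ha']

/-- Elements of the field whose order divides the degree are scalars. -/
theorem scalar_of_mem (hK : IsFieldSubalgebra n K) {y : Matrix (Fin n) (Fin n) F} (hy : y ∈ K) (hn : y ^ n = 1) :
    ∃ c : F, y = c • 1 := by
  classical
  let _ : Field K := (MaxSub.isField_of_isFieldSubalgebra hK).toField
  have : Fintype K := Fintype.ofFinite K
  have : FiniteDimensional F K := Module.Finite.of_finite
  set z : K := ⟨y, hy⟩
  have hz : z ^ n = 1 := Subtype.ext (by simpa [SubmonoidClass.coe_pow] using hn)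
  have hq : z ^ Fintype.card F = z := by
    calc z ^ Fintype.card F = z ^ (Fintype.card F % n) := pow_eq_pow_mod _ hz
      _ = z ^ (Fintype.card F ^ n % n) := by
        congr 1
        refine ((ZMod.natCast_eq_natCast_iff' _ _ n).1 ?_).symm
        rw [Nat.cast_pow, ZMod.pow_card]
      _ = z ^ (Fintype.card F ^ n) := (pow_eq_pow_mod _ hz).symm
      _ = z ^ Fintype.card K := by rw [Module.card_eq_pow_finrank (K := F) (V := K), hK.finrank_eq]
      _ = z := FiniteField.pow_card z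
  have hbot : z ∈ (⊥ : IntermediateField F K) := by
    rw [IsGalois.mem_bot_iff_fixed]
    intro f
    obtain ⟨i, rfl⟩ := (FiniteField.bijective_frobeniusAlgEquivOfAlgebraic_pow F K).2 f
    simp only [AlgEquiv.coe_pow, FiniteField.coe_frobeniusAlgEquivOfAlgebraic]
    exact Function.iterate_fixed hq _
  obtain ⟨c, hc⟩ := IntermediateField.mem_bot.1 hbot
  exact ⟨c, by rw [← Algebra.algebraMap_eq_smul_one]; exact (congrArg Subtype.val hc).symm⟩

/-- An element of the normaliser of `n`-th power one which is not scalar has at most a line of fixed vectors. -/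
theorem fixed_line (hK : IsFieldSubalgebra n K) {y : GL (Fin n) F} (hy : y ∈ subalgebraNormalizer K)
    (hn : (y : Matrix (Fin n) (Fin n) F) ^ n = 1) (hns : ∀ c : F, (y : Matrix (Fin n) (Fin n) F) ≠ c • 1)
    {u v : Fin n → F} (hu0 : u ≠ 0) (hu : (y : Matrix (Fin n) (Fin n) F) *ᵥ u = u)
    (hv : (y : Matrix (Fin n) (Fin n) F) *ᵥ v = v) : ∃ c : F, v = c • u := by
  classical
  let _ : Field K := (MaxSub.isField_of_isFieldSubalgebra hK).toField
  obtain ⟨a, ha⟩ := (orbit_bijective hK hu0).2 v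
  change (a : Matrix (Fin n) (Fin n) F) *ᵥ u = v at ha
  set a' : K := ⟨_, (MaxSub.mem_normalizer_iff_map_le.1 hy) a a.2⟩
  have hyu : ((y⁻¹ : GL (Fin n) F) : Matrix (Fin n) (Fin n) F) *ᵥ u = u := by
    conv_lhs => rw [← hu]
    rw [mulVec_mulVec, ← Units.val_mul, inv_mul_cancel, Units.val_one, one_mulVec]
  have haa : a' = a := (orbit_bijective hK hu0).1 (by
    show (_ * _ * _ : Matrix (Fin n) (Fin n) F) *ᵥ u = (a : Matrix (Fin n) (Fin n) F) *ᵥ u
    rw [← mulVec_mulVec, hyu, ← mulVec_mulVec, ha, hv])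
  have hcomm : (y : Matrix (Fin n) (Fin n) F) * a = a * y := by
    conv_rhs => rw [← haa]
    show _ = _ * _ * _ * _
    rw [mul_assoc ((y : Matrix (Fin n) (Fin n) F) * a), ← Units.val_mul, inv_mul_cancel, Units.val_one, mul_one]
  let C : Subalgebra F K := (Subalgebra.centralizer F {(y : Matrix (Fin n) (Fin n) F)}).comap K.val
  have hprime : (Module.finrank F K).Prime := by rw [hK.finrank_eq]; exact Fact.out
  have haC : a ∈ C := by
    rw [Subalgebra.mem_comap, Subalgebra.mem_centralizer_iff]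
    rintro _ rfl
    exact hcomm
  rcases (Subalgebra.isSimpleOrder_of_finrank_prime F K hprime).eq_bot_or_eq_top C with h | h
  · rw [h, Algebra.mem_bot] at haC
    obtain ⟨c, hc⟩ := haC
    refine ⟨c, ?_⟩
    rw [← ha, ← hc]
    show (algebraMap F (Matrix (Fin n) (Fin n) F) c) *ᵥ u = c • u
    rw [Algebra.algebraMap_eq_smul_one, smul_mulVec, one_mulVec]
  · obtain ⟨c, hc⟩ := scalar_of_mem hK (mem_of_commute hK fun k hk => by
      have : (⟨k, hk⟩ : K) ∈ C := h ▸ Algebra.mem_top
      rw [Subalgebra.mem_comap, Subalgebra.mem_centralizer_iff] at this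
      exact this _ rfl) hn
    exact absurd hc (hns c)

/-- An element with two independent fixed vectors is not conjugate into the normaliser. -/
theorem not_conj_mem (hK : IsFieldSubalgebra n K) {x : GL (Fin n) F}
    (hn : (x : Matrix (Fin n) (Fin n) F) ^ n = 1) (hns : ∀ c : F, (x : Matrix (Fin n) (Fin n) F) ≠ c • 1)
    {u v : Fin n → F} (hu0 : u ≠ 0) (hu : (x : Matrix (Fin n) (Fin n) F) *ᵥ u = u)
    (hv : (x : Matrix (Fin n) (Fin n) F) *ᵥ v = v) (huv : ∀ c : F, v ≠ c • u) (P : GL (Fin n) F) :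
    P⁻¹ * x * P ∉ subalgebraNormalizer K := by
  intro h
  have key : ∀ w, (x : Matrix (Fin n) (Fin n) F) *ᵥ w = w →
      ((P⁻¹ * x * P : GL (Fin n) F) : Matrix (Fin n) (Fin n) F) *ᵥ (((P⁻¹ : GL (Fin n) F) : Matrix (Fin n) (Fin n) F) *ᵥ w) =
        ((P⁻¹ : GL (Fin n) F) : Matrix (Fin n) (Fin n) F) *ᵥ w := by
    intro w hw
    rw [mulVec_mulVec, ← Units.val_mul, show P⁻¹ * x * P * P⁻¹ = P⁻¹ * x by group, Units.val_mul, ← mulVec_mulVec, hw]
  have hPinj : ∀ {w : Fin n → F}, ((P⁻¹ : GL (Fin n) F) : Matrix (Fin n) (Fin n) F) *ᵥ w = 0 → w = 0 := fun {w} hw => by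
    rw [← one_mulVec w, ← Units.val_one (α := Matrix (Fin n) (Fin n) F), ← mul_inv_cancel P, Units.val_mul,
      ← mulVec_mulVec, hw, mulVec_zero]
  have hpow : ((P⁻¹ * x * P : GL (Fin n) F) : Matrix (Fin n) (Fin n) F) ^ n = 1 := by
    rw [Units.val_mul, Units.val_mul, Units.conj_pow', hn, mul_one, Units.inv_mul]
  have hns' : ∀ c : F, ((P⁻¹ * x * P : GL (Fin n) F) : Matrix (Fin n) (Fin n) F) ≠ c • 1 := fun c hc => hns c (by
    rw [show x = P * (P⁻¹ * x * P) * P⁻¹ by group, Units.val_mul, Units.val_mul, hc, Matrix.mul_smul,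
      Matrix.smul_mul, mul_one, Units.mul_inv])
  obtain ⟨c, hc⟩ := fixed_line hK h hpow hns' (fun h0 => hu0 (hPinj h0)) (key u hu) (key v hv)
  refine huv c (sub_eq_zero.1 (hPinj ?_))
  rw [mulVec_sub, mulVec_smul, hc, sub_self]

/-- A matrix with a cyclic vector for its action. -/
def HasCyclicVector (x : Matrix (Fin n) (Fin n) F) : Prop :=
  ∃ v, Function.Surjective (Fintype.linearCombination F (fun i : Fin n => (x ^ (i : ℕ)) *ᵥ v))

/-- Two elements of order `n` with cyclic vectors are conjugate. -/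
theorem conj_of_cyclic {x y : GL (Fin n) F} (hxn : (x : Matrix (Fin n) (Fin n) F) ^ n = 1)
    (hyn : (y : Matrix (Fin n) (Fin n) F) ^ n = 1) (hx : HasCyclicVector (x : Matrix (Fin n) (Fin n) F))
    (hy : HasCyclicVector (y : Matrix (Fin n) (Fin n) F)) : ∃ P : GL (Fin n) F, P⁻¹ * x * P = y := by
  classical
  have mk : ∀ (z : Matrix (Fin n) (Fin n) F) (v : Fin n → F), z ^ n = 1 →
      Function.Surjective (Fintype.linearCombination F (fun i : Fin n => (z ^ (i : ℕ)) *ᵥ v)) →
      ∃ A : (Fin n → F) ≃ₗ[F] (Fin n → F), ∀ m : ℕ, A (Pi.single ⟨m % n, Nat.mod_lt _ (NeZero.pos n)⟩ 1) = (z ^ m) *ᵥ v := by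
    intro z v hz hs
    refine ⟨LinearEquiv.ofBijective _ ⟨LinearMap.injective_iff_surjective.2 hs, hs⟩, fun m => ?_⟩
    show Fintype.linearCombination F _ _ = _
    rw [Fintype.linearCombination_apply_single, one_smul, pow_eq_pow_mod m hz]
  obtain ⟨v, hv⟩ := hx
  obtain ⟨w, hw⟩ := hy
  obtain ⟨A, hA⟩ := mk _ v hxn hv
  obtain ⟨B, hB⟩ := mk _ w hyn hw
  let T := B.symm.trans A
  let P : GL (Fin n) F := Matrix.GeneralLinearGroup.toLin.symm (LinearMap.GeneralLinearGroup.ofLinearEquiv T)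
  refine ⟨P, ?_⟩
  rw [mul_assoc, inv_mul_eq_iff_eq_mul]
  apply Units.ext
  apply Matrix.toLin'.injective
  rw [Units.val_mul, Units.val_mul, Matrix.toLin'_mul, Matrix.toLin'_mul]
  have hP : Matrix.toLin' (P : Matrix (Fin n) (Fin n) F) = T.toLinearMap := Matrix.toLin'_toMatrix' _
  rw [hP]
  refine LinearMap.ext fun u => ?_
  obtain ⟨c, rfl⟩ := B.surjective u
  suffices Matrix.toLin' (x : Matrix (Fin n) (Fin n) F) ∘ₗ A.toLinearMap =
      T.toLinearMap ∘ₗ Matrix.toLin' (y : Matrix (Fin n) (Fin n) F) ∘ₗ B.toLinearMap by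
    have := LinearMap.congr_fun this c
    simpa [T] using this
  refine (Pi.basisFun F (Fin n)).ext fun i => ?_
  have hi : i = ⟨(i : ℕ) % n, Nat.mod_lt _ (NeZero.pos n)⟩ := Fin.ext (Nat.mod_eq_of_lt i.2).symm
  simp only [LinearMap.comp_apply, LinearEquiv.coe_coe, Pi.basisFun_apply, Matrix.toLin'_apply]
  rw [hi, hA, hB, mulVec_mulVec, mulVec_mulVec, ← pow_succ', ← pow_succ', ← hA, ← hB]
  show _ = A (B.symm _)
  rw [B.symm_apply_apply]

/-- The normaliser contains an element of order `n` with a cyclic vector. -/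
theorem exists_cyclic_mem (hK : IsFieldSubalgebra n K) :
    ∃ y ∈ subalgebraNormalizer K, (y : Matrix (Fin n) (Fin n) F) ^ n = 1 ∧
      HasCyclicVector (y : Matrix (Fin n) (Fin n) F) := by
  classical
  let _ : Field K := (MaxSub.isField_of_isFieldSubalgebra hK).toField
  have : Fintype K := Fintype.ofFinite K
  have : FiniteDimensional F K := Module.Finite.of_finite
  have hv : (Pi.single (0 : Fin n) 1 : Fin n → F) ≠ 0 := fun h0 => by simpa using congrFun h0 0
  let e := LinearEquiv.ofBijective _ (orbit_bijective hK hv)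
  let φ := FiniteField.frobeniusAlgEquivOfAlgebraic F K
  let T : (Fin n → F) ≃ₗ[F] (Fin n → F) := e.symm.trans (φ.toLinearEquiv.trans e)
  let y : GL (Fin n) F := Matrix.GeneralLinearGroup.toLin.symm (LinearMap.GeneralLinearGroup.ofLinearEquiv T)
  have hy : ∀ u, (y : Matrix (Fin n) (Fin n) F) *ᵥ u = T u := fun u => LinearMap.toMatrix'_mulVec _ u
  have he : ∀ b : K, e b = (b : Matrix (Fin n) (Fin n) F) *ᵥ Pi.single 0 1 := fun b => rfl
  have hye : ∀ b : K, (y : Matrix (Fin n) (Fin n) F) *ᵥ e b = e (φ b) := fun b => by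
    rw [hy]; show e (φ (e.symm (e b))) = _; rw [e.symm_apply_apply]
  have hpow : ∀ (i : ℕ) (b : K), (y : Matrix (Fin n) (Fin n) F) ^ i *ᵥ e b = e ((φ ^ i) b) := by
    intro i
    induction i with
    | zero => intro b; rw [pow_zero, one_mulVec, pow_zero, AlgEquiv.one_apply]
    | succ i ih => intro b; rw [pow_succ, ← mulVec_mulVec, hye, ih, pow_succ, AlgEquiv.mul_apply]
  refine ⟨y, MaxSub.mem_normalizer_iff_map_le.2 fun k hk => ?_, ?_, ?_⟩
  · have hconj : (y : Matrix (Fin n) (Fin n) F) * k = (φ ⟨k, hk⟩ : K).1 * y := by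
      apply Matrix.toLin'.injective
      refine LinearMap.ext fun u => ?_
      obtain ⟨b, rfl⟩ := e.surjective u
      rw [Matrix.toLin'_apply, Matrix.toLin'_apply, ← mulVec_mulVec, ← mulVec_mulVec, hye,
        show k *ᵥ e b = e (⟨k, hk⟩ * b) by rw [he, he]; exact mulVec_mulVec _ _ _, hye, map_mul, he, he]
      exact (mulVec_mulVec _ _ _).symm
    rw [hconj, mul_assoc, Units.mul_inv, mul_one]
    exact (φ ⟨k, hk⟩ : K).2
  · apply Matrix.toLin'.injective
    refine LinearMap.ext fun u => ?_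
    obtain ⟨b, rfl⟩ := e.surjective u
    rw [Matrix.toLin'_apply, Matrix.toLin'_apply, hpow, one_mulVec]
    have h1 : φ ^ n = 1 := by
      have := pow_orderOf_eq_one φ
      rwa [FiniteField.orderOf_frobeniusAlgEquivOfAlgebraic F K, hK.finrank_eq] at this
    rw [h1, AlgEquiv.one_apply]
  · refine ⟨e (IsGalois.normalBasis F K 1), fun u => ?_⟩
    let σ : Fin n ≃ (K ≃ₐ[F] K) := (finCongr hK.finrank_eq.symm).trans
      (Equiv.ofBijective _ (FiniteField.bijective_frobeniusAlgEquivOfAlgebraic_pow F K))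
    refine ⟨((IsGalois.normalBasis F K).reindex σ.symm).equivFun (e.symm u), ?_⟩
    rw [Fintype.linearCombination_apply]
    conv_rhs => rw [← e.apply_symm_apply u, ← ((IsGalois.normalBasis F K).reindex σ.symm).sum_equivFun (e.symm u), map_sum]
    refine Finset.sum_congr rfl fun i _ => ?_
    rw [map_smul, Module.Basis.reindex_apply, Equiv.symm_symm, hpow, IsGalois.normalBasis_apply (K := F) (L := K) (σ i)]
    rfl

/-- Conjugacy into the normaliser by `GL` gives conjugacy by `SL`. -/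
theorem exists_sl_conj (hK : IsFieldSubalgebra n K) {x : SpecialLinearGroup (Fin n) F} {P : GL (Fin n) F}
    (h : P⁻¹ * SpecialLinearGroup.toGL x * P ∈ subalgebraNormalizer K) :
    ∃ Q : SpecialLinearGroup (Fin n) F,
      Q⁻¹ * x * Q ∈ (subalgebraNormalizer K).comap SpecialLinearGroup.toGL := by
  classical
  let _ : Field K := (MaxSub.isField_of_isFieldSubalgebra hK).toField
  have : Fintype K := Fintype.ofFinite K
  have : FiniteDimensional F K := Module.Finite.of_finite
  obtain ⟨c, hc⟩ := FiniteField.norm_surjective F K (P : Matrix (Fin n) (Fin n) F).det⁻¹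
  have hv : (Pi.single (0 : Fin n) 1 : Fin n → F) ≠ 0 := fun h0 => by simpa using congrFun h0 0
  let e := LinearEquiv.ofBijective _ (orbit_bijective hK hv)
  have hdet : (c : Matrix (Fin n) (Fin n) F).det = Algebra.norm F c := by
    rw [← LinearMap.det_toLin', Algebra.norm_apply, ← LinearMap.det_conj (Algebra.lmul F K c) e]
    congr 1
    refine LinearMap.ext fun u => ?_
    obtain ⟨b, rfl⟩ := e.surjective u
    simp only [LinearMap.comp_apply, LinearEquiv.coe_coe, e.symm_apply_apply, Matrix.toLin'_apply]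
    exact mulVec_mulVec (Pi.single (0 : Fin n) (1 : F)) (c : Matrix (Fin n) (Fin n) F) (b : Matrix (Fin n) (Fin n) F)
  have hPdet : (P : Matrix (Fin n) (Fin n) F).det ≠ 0 :=
    ((Matrix.isUnit_iff_isUnit_det _).1 P.isUnit).ne_zero
  let C : GL (Fin n) F := Matrix.GeneralLinearGroup.mkOfDetNeZero c (by rw [hdet, hc]; exact inv_ne_zero hPdet)
  have hC : C ∈ subalgebraNormalizer K := MaxSub.mem_normalizer_iff_map_le.2 fun k hk => by
    rw [show ((C : GL (Fin n) F) : Matrix (Fin n) (Fin n) F) * k = k * (C : GL (Fin n) F) from hK.comm _ c.2 _ hk,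
      mul_assoc, Units.mul_inv, mul_one]
    exact hk
  obtain ⟨Q, hQ⟩ : ∃ Q : SpecialLinearGroup (Fin n) F, SpecialLinearGroup.toGL Q = P * C :=
    ⟨⟨(P : Matrix (Fin n) (Fin n) F) * c, by rw [det_mul, hdet, hc, mul_inv_cancel₀ hPdet]⟩, Units.ext rfl⟩
  refine ⟨Q, ?_⟩
  rw [Subgroup.mem_comap, map_mul, map_mul, map_inv, hQ,
    show (P * C)⁻¹ * SpecialLinearGroup.toGL x * (P * C) = C⁻¹ * (P⁻¹ * SpecialLinearGroup.toGL x * P) * C by group]
  exact mul_mem (mul_mem (inv_mem hC) h) hC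

/-- Elements of order `n` with a cyclic vector are conjugate into the normaliser. -/
theorem conj_mem_of_cyclic (hK : IsFieldSubalgebra n K) {x : SpecialLinearGroup (Fin n) F} {w : F} (hw : w ≠ 0)
    {g : GL (Fin n) F} (hg : (x : Matrix (Fin n) (Fin n) F) = w • (g : Matrix (Fin n) (Fin n) F))
    (hgn : (g : Matrix (Fin n) (Fin n) F) ^ n = 1) (hcyc : HasCyclicVector (g : Matrix (Fin n) (Fin n) F)) :
    ∃ Q : SpecialLinearGroup (Fin n) F,
      Q⁻¹ * x * Q ∈ (subalgebraNormalizer K).comap SpecialLinearGroup.toGL := by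
  obtain ⟨y, hy, hyn, hyc⟩ := exists_cyclic_mem hK
  obtain ⟨P, hP⟩ := conj_of_cyclic hgn hyn hcyc hyc
  refine exists_sl_conj hK (P := P) (MaxSub.mem_normalizer_iff_map_le.2 fun k hk => ?_)
  have h1 := MaxSub.mem_normalizer_iff_map_le.1 (hP ▸ hy) k hk
  have h2 : ((P⁻¹ * SpecialLinearGroup.toGL x * P : GL (Fin n) F) : Matrix (Fin n) (Fin n) F) =
      w • ((P⁻¹ * g * P : GL (Fin n) F) : Matrix (Fin n) (Fin n) F) := by
    simp only [Units.val_mul, SpecialLinearGroup.coe_GL_coe_matrix, hg, Matrix.mul_smul, Matrix.smul_mul]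
  have h3 : (((P⁻¹ * SpecialLinearGroup.toGL x * P)⁻¹ : GL (Fin n) F) : Matrix (Fin n) (Fin n) F) =
      w⁻¹ • (((P⁻¹ * g * P)⁻¹ : GL (Fin n) F) : Matrix (Fin n) (Fin n) F) := by
    refine Units.inv_eq_of_mul_eq_one_right ?_
    rw [h2, Matrix.smul_mul, Matrix.mul_smul, smul_smul, mul_inv_cancel₀ hw, one_smul, Units.mul_inv]
  rw [h2, h3, Matrix.smul_mul, Matrix.mul_smul, Matrix.smul_mul, smul_smul, inv_mul_cancel₀ hw, one_smul]
  exact h1

/-- When `q` has order `n - 1` modulo `n`, non-trivial elements of order `n` have cyclic vectors. -/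
theorem cyclic_of_order (hn3 : 3 ≤ n) (ho : orderOf ((Fintype.card F : ℕ) : ZMod n) = n - 1)
    {g : Matrix (Fin n) (Fin n) F} (hg : g ^ n = 1) (hg1 : g ≠ 1) : HasCyclicVector g := by
  classical
  have hq : ¬ n ∣ Fintype.card F := fun h => by
    rw [Arith.orderOf_card_natCast_eq_zero_iff.2 h] at ho
    omega
  set f : Module.End F (Fin n → F) := Matrix.toLinAlgEquiv' g
  have hf : f ^ n = 1 := by rw [← map_pow, hg, map_one]
  have hfp : ∀ (m : ℕ) u, (f ^ m) u = g ^ m *ᵥ u := fun m u => by rw [← map_pow]; rfl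
  set C := LinearMap.ker (f - 1) with hCdef
  have hCne : C ≠ ⊤ := fun h => hg1 (Matrix.toLinAlgEquiv'.injective (by
    rw [map_one]; exact sub_eq_zero.1 (LinearMap.ker_eq_top.1 h)))
  have hC1 : Module.finrank F C = 1 := by
    have hmod := finrank_fixed_mod hf hq
    rw [Module.finrank_fin_fun, ho, ← hCdef] at hmod
    have hlt := Submodule.finrank_lt hCne
    rw [Module.finrank_fin_fun] at hlt
    obtain ⟨t, rfl⟩ : ∃ t, n = t + 1 := ⟨n - 1, by omega⟩
    simp only [Nat.add_sub_cancel, Nat.add_mod_left, Nat.mod_eq_of_lt (show 1 < t by omega)] at hmod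
    rcases Nat.lt_or_ge (Module.finrank F C) t with h | h
    · rwa [Nat.mod_eq_of_lt h] at hmod
    · rw [show Module.finrank F C = t by omega, Nat.mod_self] at hmod; omega
  have hCinv : ∀ u ∈ C, f u ∈ C := fun u hu => by
    have : f u = u := sub_eq_zero.1 (LinearMap.mem_ker.1 hu)
    rwa [this]
  obtain ⟨M, -, hM, hsup, hd⟩ := exists_invariant_compl (semisimple_of_order hf hq) (W := ⊤) (fun v _ => trivial) hCinv le_top
  have hdim := finrank_eq_add_of_disjoint hsup hd
  rw [finrank_top, Module.finrank_fin_fun, hC1] at hdim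
  obtain ⟨a, haC, ha0⟩ := Submodule.exists_mem_ne_zero_of_ne_bot (p := C) (fun h => by rw [h, finrank_bot] at hC1; omega)
  obtain ⟨b, hbM, hb0⟩ := Submodule.exists_mem_ne_zero_of_ne_bot (p := M) (fun h => by rw [h, finrank_bot] at hdim; omega)
  set L := Fintype.linearCombination F (fun i : Fin n => g ^ (i : ℕ) *ᵥ (a + b))
  refine ⟨a + b, LinearMap.range_eq_top.1 ?_⟩
  set W := LinearMap.range L
  have hgen : ∀ m : ℕ, (f ^ m) (a + b) ∈ W := fun m => by
    refine ⟨Pi.single ⟨m % n, Nat.mod_lt _ (NeZero.pos n)⟩ 1, ?_⟩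
    rw [Fintype.linearCombination_apply_single, one_smul, hfp, pow_eq_pow_mod m hg]
  have hW : ∀ u ∈ W, f u ∈ W := by
    rintro _ ⟨c, rfl⟩
    rw [Fintype.linearCombination_apply, map_sum]
    refine Submodule.sum_mem _ fun i _ => ?_
    rw [map_smul, ← hfp, ← Module.End.mul_apply, ← pow_succ']
    exact W.smul_mem _ (hgen _)
  have hfa : ∀ m, (f ^ m) a = a := fun m => by
    induction m with
    | zero => rfl
    | succ m ih => rw [pow_succ, Module.End.mul_apply, show f a = a from sub_eq_zero.1 (LinearMap.mem_ker.1 haC), ih]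
  have hsb : (∑ i ∈ Finset.range n, f ^ i) b = 0 := by
    refine Submodule.disjoint_def.1 hd _ ?_ ?_
    · rw [hCdef, LinearMap.mem_ker, ← Module.End.mul_apply, mul_geom_sum, hf, sub_self, LinearMap.zero_apply]
    · rw [LinearMap.sum_apply]
      refine Submodule.sum_mem _ fun i hi => ?_
      clear hi
      induction i with
      | zero => exact hbM
      | succ i ih => rw [pow_succ', Module.End.mul_apply]; exact hM _ ih
  have haW : a ∈ W := by
    have hna : (n : F) • a ∈ W := by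
      have h : (∑ i ∈ Finset.range n, f ^ i) (a + b) = (n : F) • a := by
        rw [map_add, hsb, add_zero, LinearMap.sum_apply, Finset.sum_congr rfl (fun i _ => hfa i), Finset.sum_const,
          Finset.card_range, ← Nat.cast_smul_eq_nsmul F]
      rw [← h, LinearMap.sum_apply]
      exact Submodule.sum_mem _ fun i _ => hgen i
    have hnF : (n : F) ≠ 0 := fun h => by
      obtain ⟨e, hp, he⟩ := FiniteField.card F (ringChar F)
      rw [ringChar.spec, Nat.dvd_prime (Fact.out : n.Prime)] at h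
      rcases h with h | h
      · exact hp.ne_one h
      · exact hq (by rw [he, h]; exact dvd_pow_self n e.pos.ne')
    have := W.smul_mem (n : F)⁻¹ hna
    rwa [inv_smul_smul₀ hnF] at this
  have hbW : b ∈ W := by
    have := W.sub_mem (hgen 0) haW
    simpa using this
  obtain ⟨t, ht, -⟩ := finrank_invariant hf hq (W := W ⊓ M) (fun u hu => ⟨hW u hu.1, hM u hu.2⟩)
  have hbot : W ⊓ M ⊓ C = ⊥ := eq_bot_iff.2 fun u hu => Submodule.disjoint_def.1 hd u hu.2 hu.1.2
  rw [← hCdef, hbot, finrank_bot, zero_add, ho] at ht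
  have ht1 : 1 ≤ t := Nat.pos_of_ne_zero fun h0 => by
    rw [h0, zero_mul, Submodule.finrank_eq_zero] at ht
    exact hb0 ((Submodule.mem_bot F).1 (ht ▸ ⟨hbW, hbM⟩))
  apply Submodule.eq_top_of_finrank_eq
  have hle : C ⊔ W ⊓ M ≤ W := sup_le (fun u hu => by
    obtain ⟨c, rfl⟩ := (finrank_eq_one_iff_of_nonzero' (⟨a, haC⟩ : C) (by simpa using ha0)).1 hC1 ⟨u, hu⟩ |>.imp
      fun c hc => (congrArg Subtype.val hc)
    exact W.smul_mem c haW) inf_le_left
  have h1 := Submodule.finrank_mono hle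
  rw [finrank_eq_add_of_disjoint rfl (hd.mono_right inf_le_right), hC1, ht] at h1
  have h2 := Submodule.finrank_le W
  rw [Module.finrank_fin_fun] at h2 ⊢
  have h3 : n - 1 ≤ t * (n - 1) := Nat.le_mul_of_pos_left _ ht1
  omega

end Cfsg.Agent.Elusive.SingerPrime
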