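import Cfsg.Agent.Elusive.SubfieldOdd

/-!
Conjugacy into, and obstructions for, subfield subgroups of `SL_n`.
-/

namespace Cfsg.Agent.Elusive

open Polynomial Module

variable {F : Type*} [Field F] (F₀ : Subfield F) {n : ℕ}

/-- A scalar multiple of a map with a basis over `F₀` is conjugate into the subfield subgroup. -/
theorem conj_mem_of_basis {r : ℕ} (hr : r ≠ 0) {x : Matrix.SpecialLinearGroup (Fin n) F} {w : F} (hw : w ≠ 0)
    {g : Module.End F (Fin n → F)} (hxg : Matrix.toLin' (x : Matrix (Fin n) (Fin n) F) = w • g) (hg : g ^ r = 1)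
    (B : Basis (Fin n) F (Fin n → F)) (hB : ∀ j, g (B j) ∈ Submodule.span F₀ (Set.range B))
    (hdet : ∀ lam : F, lam ≠ 0 → ∃ y : Module.End F (Fin n → F), y * g = g * y ∧ LinearMap.det y = lam) :
    ∃ P : Matrix.SpecialLinearGroup (Fin n) F, P⁻¹ * x * P ∈ (Cfsg.Geo.subfieldSubgroup F₀ 1).comap
      (Matrix.SpecialLinearGroup.toGL : Matrix.SpecialLinearGroup (Fin n) F →* GL (Fin n) F) := by
  classical
  set δ := LinearMap.det B.equivFun.symm.toLinearMap with hδ
  have hδ0 : δ ≠ 0 := (LinearEquiv.isUnit_det' _).ne_zero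
  obtain ⟨y, hy, hyd⟩ := hdet δ⁻¹ (inv_ne_zero hδ0)
  set A₀ : Matrix (Fin n) (Fin n) F₀ := Matrix.of fun i j => ⟨LinearMap.toMatrix B B g i j, by
    rw [LinearMap.toMatrix_apply]; exact repr_mem_of_mem_span F₀ B (hB j) i⟩
  have hAmap : A₀.map F₀.subtype = LinearMap.toMatrix B B g := rfl
  have hAr : A₀ ^ r = 1 := by
    refine Matrix.map_injective (f := F₀.subtype) Subtype.val_injective ?_
    simp only [Matrix.map_pow, hAmap, Matrix.map_one _ (map_zero _) (map_one _)]
    show (LinearMap.toMatrixAlgEquiv B g) ^ r = 1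
    rw [← map_pow, hg, map_one]
  set L := y * B.equivFun.symm.toLinearMap with hL
  have hLdet : (LinearMap.toMatrix' L).det = 1 := by
    rw [LinearMap.det_toMatrix', hL, map_mul, ← hδ, hyd, inv_mul_cancel₀ hδ0]
  obtain ⟨P, hP⟩ : ∃ P : Matrix.SpecialLinearGroup (Fin n) F, (P : Matrix (Fin n) (Fin n) F) = LinearMap.toMatrix' L :=
    ⟨⟨_, hLdet⟩, rfl⟩
  refine ⟨P, mem_subfield_of F₀ hw (Units.ofPowEqOne A₀ r hAr hr) ?_⟩
  show _ = w • A₀.map F₀.subtype
  suffices h : (x : Matrix (Fin n) (Fin n) F) * P = P * (w • A₀.map F₀.subtype) by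
    rw [Matrix.SpecialLinearGroup.coe_mul, Matrix.SpecialLinearGroup.coe_mul, mul_assoc, h, ← mul_assoc,
      ← Matrix.SpecialLinearGroup.coe_mul, inv_mul_cancel, Matrix.SpecialLinearGroup.coe_one, one_mul]
  apply Matrix.toLin'.injective
  rw [Matrix.toLin'_mul, Matrix.toLin'_mul, hxg, hP, Matrix.toLin'_toMatrix', map_smul, LinearMap.comp_smul,
    LinearMap.smul_comp]
  congr 1
  show g * L = L * Matrix.toLin' (A₀.map F₀.subtype)
  have hbg : g * B.equivFun.symm.toLinearMap =
      B.equivFun.symm.toLinearMap * Matrix.toLin' (LinearMap.toMatrix B B g) := by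
    refine LinearMap.ext fun v => ?_
    show g (B.equivFun.symm v) = B.equivFun.symm (Matrix.mulVec (LinearMap.toMatrix B B g) v)
    rw [LinearEquiv.eq_symm_apply]
    have := LinearMap.toMatrix_mulVec_repr B B g (B.equivFun.symm v)
    rw [← Basis.equivFun_apply, LinearEquiv.apply_symm_apply] at this
    rw [this]; rfl
  rw [hAmap, hL, ← mul_assoc, ← hy, mul_assoc, hbg, ← mul_assoc]

variable [Fintype F]

/-- For a quadratic extension, a diagonal map with eigenvalues permuted by Frobenius lives over `F₀`. -/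
theorem exists_pair_basis {q₀ : ℕ} [Fintype F₀] (hF₀ : Fintype.card F₀ = q₀) (hq : Fintype.card F = q₀ ^ 2)
    {V : Type*} [AddCommGroup V] [Module F V] {ι : Type*} [Fintype ι] (g : Module.End F V) (b : Basis ι F V) (a : ι → F)
    (hb : ∀ i, g (b i) = a i • b i) (π : ι → ι) (hπ : ∀ i, π (π i) = i) (ha : ∀ i, a (π i) = a i ^ q₀) :
    ∃ B : Basis ι F V, ∀ j, g (B j) ∈ Submodule.span F₀ (Set.range B) := by
  classical
  obtain ⟨p, hp⟩ := CharP.exists F
  have : Fact p.Prime := ⟨CharP.char_is_prime F p⟩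
  have : CharP F₀ p := inferInstance
  obtain ⟨f₀, -, hf₀⟩ := FiniteField.card F₀ p
  have hσ : ∀ x : F, iterateFrobenius F p f₀ x = x ^ q₀ := fun x => by rw [iterateFrobenius_def, ← hf₀, hF₀]
  have hσσ : ∀ x : F, (x ^ q₀) ^ q₀ = x := fun x => by rw [← pow_mul, ← pow_two, ← hq, FiniteField.pow_card]
  have hσ0 : ∀ x : F₀, (x : F) ^ q₀ = x := fun x => by rw [← SubmonoidClass.coe_pow, ← hF₀, FiniteField.pow_card]
  have hq1 : 2 ≤ q₀ := by rw [← hF₀]; exact Fintype.one_lt_card
  obtain ⟨θ, hθ⟩ : ∃ θ : F, θ ∉ F₀ := by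
    by_contra h
    push Not at h
    have := Fintype.card_le_of_injective (fun x : F => (⟨x, h x⟩ : F₀)) (fun x y e => congrArg Subtype.val e)
    rw [hq, hF₀] at this
    nlinarith
  have hinj : Function.Injective (fun z : F₀ × F₀ => (z.1 : F) + (z.2 : F) * θ) := by
    rintro ⟨x, y⟩ ⟨x', y'⟩ h
    simp only at h
    by_cases hy : y = y'
    · subst hy; rw [add_left_inj] at h; exact Prod.ext (Subtype.ext h) rfl
    · exfalso
      have hne : (y : F) - y' ≠ 0 := sub_ne_zero.2 fun e => hy (Subtype.ext e)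
      apply hθ
      rw [show θ = ((x' : F) - x) / (y - y') by field_simp; linear_combination h]
      exact div_mem (sub_mem x'.2 x.2) (sub_mem y.2 y'.2)
  have hsurj : ∀ x : F, ∃ α β : F₀, x = (α : F) + (β : F) * θ := fun x => by
    obtain ⟨⟨α, β⟩, h⟩ := ((Fintype.bijective_iff_injective_and_card _).2
      ⟨hinj, by rw [Fintype.card_prod, hF₀, hq, pow_two]⟩).2 x
    exact ⟨α, β, h.symm⟩
  have hθ' : θ ^ q₀ - θ ≠ 0 := by
    intro h
    obtain ⟨α, β, hαβ⟩ := hsurj (θ * θ)
    have hfix : ∀ x : F, x ^ q₀ = x := fun x => by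
      obtain ⟨α, β, rfl⟩ := hsurj x
      rw [← hσ, map_add, map_mul, hσ, hσ, hσ, hσ0, hσ0, sub_eq_zero.1 h]
    have hle : Fintype.card F ≤ (X ^ q₀ - X : F[X]).roots.toFinset.card := by
      refine Finset.card_le_card (s := Finset.univ) fun x _ => ?_
      simp [FiniteField.X_pow_card_sub_X_ne_zero F (show 1 < q₀ by omega), hfix]
    have := hle.trans ((Multiset.toFinset_card_le _).trans (Polynomial.card_roots' _))
    rw [FiniteField.X_pow_card_sub_X_natDegree_eq F (show 1 < q₀ by omega), hq] at this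
    nlinarith
  let o := Fintype.equivFin ι
  let u : ι → V := fun i =>
    if π i = i then b i else if o i < o (π i) then b i + b (π i) else θ • b (π i) + (θ ^ q₀) • b i
  have hspan : ⊤ ≤ Submodule.span F (Set.range u) := by
    rw [← b.span_eq, Submodule.span_le]
    rintro _ ⟨i, rfl⟩
    by_cases h : π i = i
    · exact Submodule.subset_span ⟨i, by simp [u, h]⟩
    have hu : ∀ j, π j ≠ j → o j < o (π j) →
        b (π j) ∈ Submodule.span F (Set.range u) ∧ b j ∈ Submodule.span F (Set.range u) := by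
      intro j hj hlt
      have h1 : b j + b (π j) ∈ Submodule.span F (Set.range u) := Submodule.subset_span ⟨j, by simp [u, hj, hlt]⟩
      have h2 : θ • b j + (θ ^ q₀) • b (π j) ∈ Submodule.span F (Set.range u) :=
        Submodule.subset_span ⟨π j, by simp [u, hπ, Ne.symm hj, hlt.not_gt]⟩
      have h3 : b (π j) ∈ Submodule.span F (Set.range u) := by
        have h4 := Submodule.smul_mem _ (θ ^ q₀ - θ)⁻¹ (sub_mem h2 (Submodule.smul_mem _ θ h1))
        rwa [show θ • b j + (θ ^ q₀) • b (π j) - θ • (b j + b (π j)) = (θ ^ q₀ - θ) • b (π j) by module,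
          inv_smul_smul₀ hθ'] at h4
      refine ⟨h3, ?_⟩
      have := sub_mem h1 h3
      simpa using this
    rcases lt_or_gt_of_ne (fun e => h (o.injective e)) with hlt | hlt
    · have := (hu (π i) (by rw [hπ]; exact Ne.symm h) (by rwa [hπ])).1
      rwa [hπ] at this
    · exact (hu i h hlt).2
  let B := basisOfTopLeSpanOfCardEqFinrank u hspan (Module.finrank_eq_card_basis b).symm
  refine ⟨B, fun i => ?_⟩
  rw [show (B : ι → V) = u from coe_basisOfTopLeSpanOfCardEqFinrank _ _ _]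
  by_cases h : π i = i
  · have hai : a i ∈ F₀ := by
      obtain ⟨α, β, hαβ⟩ := hsurj (a i)
      have h1 := ha i
      rw [h, hαβ, ← hσ, map_add, map_mul, hσ, hσ, hσ, hσ0, hσ0] at h1
      have hβ : (β : F) = 0 := by
        have : (β : F) * (θ ^ q₀ - θ) = 0 := by linear_combination -h1
        exact (mul_eq_zero.1 this).resolve_right hθ'
      rw [hαβ, hβ, zero_mul, add_zero]; exact α.2
    have hu : u i = b i := by simp [u, h]
    rw [hu, hb, show a i • b i = (⟨a i, hai⟩ : F₀) • b i from rfl, ← hu]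
    exact Submodule.smul_mem _ _ (Submodule.subset_span ⟨i, rfl⟩)
  have key : ∀ j, π j ≠ j → o j < o (π j) → g (u j) ∈ Submodule.span F₀ (Set.range u) ∧
      g (u (π j)) ∈ Submodule.span F₀ (Set.range u) := by
    intro j hj hlt
    have hu1 : u j = b j + b (π j) := by simp [u, hj, hlt]
    have hu2 : u (π j) = θ • b j + (θ ^ q₀) • b (π j) := by simp [u, hπ, Ne.symm hj, hlt.not_gt]
    obtain ⟨α, β, h1⟩ := hsurj (a j)
    obtain ⟨α', β', h2⟩ := hsurj (θ * a j)
    have h1' : a (π j) = (α : F) + (β : F) * θ ^ q₀ := by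
      rw [ha, h1, ← hσ, map_add, map_mul, hσ, hσ, hσ, hσ0, hσ0]
    have h2' : θ ^ q₀ * a (π j) = (α' : F) + (β' : F) * θ ^ q₀ := by
      rw [ha, ← mul_pow, h2, ← hσ, map_add, map_mul, hσ, hσ, hσ, hσ0, hσ0]
    refine ⟨?_, ?_⟩
    · have : g (u j) = α • u j + β • u (π j) := by
        rw [hu1, hu2, map_add, hb, hb, h1, h1', show ∀ v : V, α • v = (α : F) • v from fun v => rfl,
          show ∀ v : V, β • v = (β : F) • v from fun v => rfl]
        module
      rw [this]
      exact add_mem (Submodule.smul_mem _ _ (Submodule.subset_span ⟨j, rfl⟩))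
        (Submodule.smul_mem _ _ (Submodule.subset_span ⟨π j, rfl⟩))
    · have : g (u (π j)) = α' • u j + β' • u (π j) := by
        rw [hu1, hu2, map_add, map_smul, map_smul, hb, hb, smul_smul, smul_smul, h2, h2',
          show ∀ v : V, α' • v = (α' : F) • v from fun v => rfl, show ∀ v : V, β' • v = (β' : F) • v from fun v => rfl]
        module
      rw [this]
      exact add_mem (Submodule.smul_mem _ _ (Submodule.subset_span ⟨j, rfl⟩))
        (Submodule.smul_mem _ _ (Submodule.subset_span ⟨π j, rfl⟩))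
  rcases lt_or_gt_of_ne (fun e => h (o.injective e)) with hlt | hlt
  · have := (key (π i) (by rw [hπ]; exact Ne.symm h) (by rwa [hπ])).2
    rwa [hπ] at this
  · exact (key i h hlt).1

/-- The index of a subgroup containing `SL_n(q₀)` is prime to `r` if no `(q^i-1)/(q₀^i-1)` is divisible by `r`. -/
theorem not_dvd_index_of_forall {k q₀ r : ℕ} (hr : r.Prime) (hn : 0 < n) (hF₀ : Nat.card F₀ = q₀)
    (hqk : Fintype.card F = q₀ ^ k) (hk : 0 < k) (hrq : ¬ r ∣ q₀)
    (hR : ∀ i, 2 ≤ i → i ≤ n → ¬ r ∣ ∑ l ∈ Finset.range k, (q₀ ^ i) ^ l)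
    (H : Subgroup (Matrix.SpecialLinearGroup (Fin n) F))
    (hH : ∀ M : Matrix.SpecialLinearGroup (Fin n) F₀, Matrix.SpecialLinearGroup.map F₀.subtype M ∈ H) :
    ¬ r ∣ H.index := by
  classical
  have : Fintype F₀ := Fintype.ofFinite _
  have : Nonempty (Fin n) := ⟨⟨0, hn⟩⟩
  rw [Nat.card_eq_fintype_card] at hF₀
  have hq₀1 : 2 ≤ q₀ := by rw [← hF₀]; exact Fintype.one_lt_card
  let R : ℕ → ℕ := fun j => ∑ i ∈ Finset.range k, (q₀ ^ j) ^ i
  have hRmul : ∀ j, R j * (q₀ ^ j - 1) = Fintype.card F ^ j - 1 := fun j => by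
    rw [geom_sum_mul_of_one_le (Nat.one_le_pow _ _ (by omega)), hqk, ← pow_mul, ← pow_mul, mul_comm j k]
  let ψ : Matrix.SpecialLinearGroup (Fin n) F₀ →* H :=
    (Matrix.SpecialLinearGroup.map F₀.subtype).codRestrict H hH
  have hψ : Function.Injective ψ := fun A B h => by
    apply Subtype.ext
    ext a b
    exact congrFun (congrFun (congrArg
      (fun z : H => ((z.1 : Matrix.SpecialLinearGroup (Fin n) F) : Matrix (Fin n) (Fin n) F)) h) a) b
  obtain ⟨c, hc⟩ := Subgroup.card_dvd_of_injective ψ hψ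
  have hGL := Linear.card_GL_eq_mul_card_SL (F := F) (ι := Fin n)
  have hGL0 := Linear.card_GL_eq_mul_card_SL (F := F₀) (ι := Fin n)
  rw [Linear.card_GL_factor, Nat.card_units, Nat.card_eq_fintype_card] at hGL hGL0
  rw [hF₀] at hGL0
  set s := n * (n - 1) / 2
  obtain ⟨m, hm⟩ : ∃ m, n = m + 1 := ⟨n - 1, by omega⟩
  set P' := ∏ i ∈ Finset.range m, R (i + 2)
  have hP : ¬ r ∣ P' := fun h => by
    obtain ⟨i, hi, hd⟩ := (Prime.dvd_finset_prod_iff hr.prime _).1 h
    rw [Finset.mem_range] at hi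
    exact hR (i + 2) (by omega) (by omega) hd
  have hprod : ∏ i : Fin n, R (n - (i : ℕ)) = R 1 * P' := by
    rw [Fin.prod_univ_eq_prod_range (fun i => R (n - i)) n]
    calc ∏ i ∈ Finset.range n, R (n - i) = ∏ i ∈ Finset.range n, R (i + 1) := by
          rw [← Finset.prod_range_reflect (fun i => R (i + 1))]
          refine Finset.prod_congr rfl fun i hi => ?_
          rw [Finset.mem_range] at hi
          rw [show n - 1 - i + 1 = n - i by omega]
      _ = R 1 * P' := by rw [hm, Finset.prod_range_succ', mul_comm]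
  have e1 : ∏ i : Fin n, (Fintype.card F ^ (n - (i : ℕ)) - 1) = R 1 * P' * ∏ i : Fin n, (q₀ ^ (n - (i : ℕ)) - 1) := by
    rw [← hprod, ← Finset.prod_mul_distrib]; exact Finset.prod_congr rfl fun i _ => (hRmul _).symm
  have e2 : Fintype.card F - 1 = R 1 * (q₀ - 1) := by simpa using (hRmul 1).symm
  obtain ⟨u, hu⟩ : ∃ u, k = u + 1 := ⟨k - 1, by omega⟩
  have e3 : Fintype.card F ^ s = q₀ ^ s * (q₀ ^ u) ^ s := by
    rw [hqk, hu, pow_succ, mul_pow, mul_comm]
  rw [e1, e2, e3, ← H.card_mul_index, hc] at hGL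
  set T := Nat.card (Matrix.SpecialLinearGroup (Fin n) F₀)
  have hR1 : 0 < R 1 := Finset.sum_pos (fun i _ => pow_pos (pow_pos (by omega) _) _) ⟨0, by simp [hk]⟩
  have key : (q₀ - 1) * T * R 1 * ((q₀ ^ u) ^ s * P') = (q₀ - 1) * T * R 1 * (c * H.index) := by
    rw [← hGL0]
    calc q₀ ^ s * (∏ i : Fin n, (q₀ ^ (n - (i : ℕ)) - 1)) * R 1 * ((q₀ ^ u) ^ s * P')
        = q₀ ^ s * (q₀ ^ u) ^ s * (R 1 * P' * ∏ i : Fin n, (q₀ ^ (n - (i : ℕ)) - 1)) := by ring
      _ = R 1 * (q₀ - 1) * (T * c * H.index) := hGL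
      _ = _ := by rw [hGL0]; ring
  have h1 := Nat.eq_of_mul_eq_mul_left (Nat.mul_pos (Nat.mul_pos (by omega) Nat.card_pos) hR1) key
  intro hd
  have h2 : r ∣ (q₀ ^ u) ^ s * P' := h1 ▸ dvd_mul_of_dvd_right hd c
  rcases hr.dvd_mul.1 h2 with h | h
  · exact hrq (hr.dvd_of_dvd_pow (hr.dvd_of_dvd_pow h))
  · exact hP h

/-- Fixed spaces do not change under extension of the field. -/
theorem finrank_ker_map {k q₀ : ℕ} [Fintype F₀] (hF₀ : Fintype.card F₀ = q₀) (hqk : Fintype.card F = q₀ ^ k)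
    (M : Matrix (Fin n) (Fin n) F₀) :
    Module.finrank F (LinearMap.ker (Matrix.toLin' (M.map F₀.subtype))) =
      Module.finrank F₀ (LinearMap.ker (Matrix.toLin' M)) := by
  classical
  have : Module.Finite F₀ F := Module.Finite.of_finite
  have hq1 : 2 ≤ q₀ := by rw [← hF₀]; exact Fintype.one_lt_card
  have hk : Module.finrank F₀ F = k := by
    have h := Module.card_eq_pow_finrank (K := F₀) (V := F)
    rw [hqk, hF₀] at h
    exact (Nat.pow_right_injective hq1 h).symm
  let β := Module.finBasisOfFinrankEq F₀ F hk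
  let e : (Fin n → F) ≃ (Fin k → Fin n → F₀) :=
    { toFun := fun v t i => β.equivFun (v i) t
      invFun := fun w i => β.equivFun.symm fun t => w t i
      left_inv := fun v => funext fun i => β.equivFun.symm_apply_apply (v i)
      right_inv := fun w => funext fun t => funext fun i => congrFun (β.equivFun.apply_symm_apply fun t => w t i) t }
  have hmem : ∀ v, v ∈ LinearMap.ker (Matrix.toLin' (M.map F₀.subtype)) ↔ ∀ t, e v t ∈ LinearMap.ker (Matrix.toLin' M) := by
    intro v
    have h : ∀ t i, Matrix.mulVec M (e v t) i = β.equivFun (Matrix.mulVec (M.map F₀.subtype) v i) t := by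
      intro t i
      simp only [Matrix.mulVec, dotProduct, map_sum, Finset.sum_apply, Matrix.map_apply]
      refine Finset.sum_congr rfl fun l _ => ?_
      rw [show F₀.subtype (M i l) * v l = M i l • v l from rfl, map_smul]
      rfl
    simp only [LinearMap.mem_ker, Matrix.toLin'_apply]
    constructor
    · intro hv t; funext i; rw [h, hv]; simp
    · intro hv; funext i
      refine β.equivFun.injective (funext fun t => ?_)
      rw [← h, hv]; simp
  let E : LinearMap.ker (Matrix.toLin' (M.map F₀.subtype)) ≃ (Fin k → LinearMap.ker (Matrix.toLin' M)) :=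
    (e.subtypeEquiv hmem).trans (Equiv.subtypePiEquivPi (p := fun _ w => w ∈ LinearMap.ker (Matrix.toLin' M)))
  have h1 := Module.natCard_eq_pow_finrank (K := F) (V := LinearMap.ker (Matrix.toLin' (M.map F₀.subtype)))
  have h2 := Module.natCard_eq_pow_finrank (K := F₀) (V := LinearMap.ker (Matrix.toLin' M))
  rw [Nat.card_eq_fintype_card (α := F), hqk] at h1
  rw [Nat.card_eq_fintype_card (α := F₀), hF₀] at h2
  have := Nat.card_congr E
  rw [Nat.card_fun, h1, h2, Nat.card_fin, ← pow_mul, ← pow_mul, mul_comm _ k] at this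
  have hk0 : 0 < k := hk ▸ Module.finrank_pos
  exact Nat.eq_of_mul_eq_mul_left hk0 (Nat.pow_right_injective hq1 this)

/-- Eigenvalue multiplicities that no Frobenius-affine map preserves give elements outside the subfield subgroup. -/
theorem exists_not_conj_of_multiset {r q₀ : ℕ} [Fact r.Prime] [Fintype F₀] (hF₀ : Fintype.card F₀ = q₀) {ζ : F}
    (hζ : IsPrimitiveRoot ζ r) {w : F} (D : Multiset (ZMod r)) (hD : Multiset.card D = n)
    (hdet : w ^ n * (D.map fun j : ZMod r => ζ ^ j.val).prod = 1)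
    (hnoinv : ∀ s : ZMod r, D.map (fun j => (q₀ : ZMod r) * j + s) ≠ D) {a b : ZMod r} (ha : a ∈ D) (hb : b ∈ D)
    (hab : a ≠ b) :
    ∃ x : Matrix.SpecialLinearGroup (Fin n) F,
      ((x ^ r : Matrix.SpecialLinearGroup (Fin n) F) : Matrix (Fin n) (Fin n) F) = (w ^ r) • 1 ∧
      (∀ z : F, (x : Matrix (Fin n) (Fin n) F) ≠ z • 1) ∧
      ∀ P : Matrix.SpecialLinearGroup (Fin n) F, P⁻¹ * x * P ∉ (Cfsg.Geo.subfieldSubgroup F₀ 1).comap
        (Matrix.SpecialLinearGroup.toGL : Matrix.SpecialLinearGroup (Fin n) F →* GL (Fin n) F) := by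
  classical
  have hr := (Fact.out : r.Prime)
  have hn : 0 < n := hD ▸ Multiset.card_pos.2 (fun h => by rw [h] at ha; exact Multiset.notMem_zero a ha)
  have : Nonempty (Fin n) := ⟨⟨0, hn⟩⟩
  have : NeZero r := ⟨hr.ne_zero⟩
  set χ : ZMod r → F := fun j => ζ ^ j.val
  have hχinj : Function.Injective χ := fun i j h => ZMod.val_injective r (hζ.pow_inj (ZMod.val_lt i) (ZMod.val_lt j) h)
  have hχadd : ∀ i j, χ (i + j) = χ i * χ j := fun i j => by
    simp only [χ, ← pow_add, ZMod.val_add, ← pow_eq_pow_mod _ hζ.pow_eq_one]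
  have hχnat : ∀ i : ℕ, χ (i : ZMod r) = ζ ^ i := fun i => by
    simp only [χ, ZMod.val_natCast]; exact (pow_eq_pow_mod _ hζ.pow_eq_one).symm
  have hχq : ∀ i, χ i ^ q₀ = χ ((q₀ : ZMod r) * i) := fun i => by
    rw [show χ i = ζ ^ i.val from rfl, ← pow_mul, ← hχnat, Nat.cast_mul, ZMod.natCast_zmod_val, mul_comm]
  obtain ⟨d, hd⟩ : ∃ d : Fin n → ZMod r, (Finset.univ : Finset (Fin n)).val.map d = D := by
    refine ⟨fun i => D.toList.get (Fin.cast (by rw [Multiset.length_toList, hD]) i), ?_⟩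
    rw [Fin.univ_val_map]
    conv_rhs => rw [← D.coe_toList, ← List.ofFn_get D.toList]
    rw [List.ofFn_congr (by rw [Multiset.length_toList, hD]) D.toList.get]
  have hdet' : (Matrix.diagonal fun i => w * χ (d i)).det = 1 := by
    rw [Matrix.det_diagonal, Finset.prod_mul_distrib, Finset.prod_const, Finset.card_univ, Fintype.card_fin, ← hdet, ← hd,
      Multiset.map_map]
    rfl
  obtain ⟨x, hx⟩ : ∃ x : Matrix.SpecialLinearGroup (Fin n) F,
      (x : Matrix (Fin n) (Fin n) F) = Matrix.diagonal fun i => w * χ (d i) := ⟨⟨_, hdet'⟩, rfl⟩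
  have hw0 : w ≠ 0 := fun h => by rw [h, zero_pow hn.ne', zero_mul] at hdet; exact zero_ne_one hdet
  have hχr : ∀ j, χ j ^ r = 1 := fun j => by rw [← pow_mul, mul_comm, pow_mul, hζ.pow_eq_one, one_pow]
  refine ⟨x, ?_, ?_, ?_⟩
  · rw [Matrix.SpecialLinearGroup.coe_pow, hx, Matrix.diagonal_pow, Matrix.smul_one_eq_diagonal]
    exact congrArg Matrix.diagonal (funext fun i => by simp [mul_pow, hχr])
  · intro z hz
    rw [← hd, Multiset.mem_map] at ha hb
    obtain ⟨i, -, rfl⟩ := ha
    obtain ⟨j, -, rfl⟩ := hb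
    have hi := congrFun (congrFun hz i) i
    have hj := congrFun (congrFun hz j) j
    rw [hx, Matrix.diagonal_apply_eq, Matrix.smul_apply, Matrix.one_apply_eq, smul_eq_mul, mul_one] at hi hj
    exact hab (hχinj (mul_left_cancel₀ hw0 (hi.trans hj.symm)))
  intro P hP
  obtain ⟨v, M, hM⟩ := exists_of_mem_subfield F₀ hP
  set u : F := (v : F)⁻¹ * w with hu
  have hu0 : u ≠ 0 := mul_ne_zero (inv_ne_zero v.ne_zero) hw0
  have hM' : (M : Matrix (Fin n) (Fin n) F₀).map F₀.subtype =
      ((P⁻¹ : Matrix.SpecialLinearGroup (Fin n) F) : Matrix (Fin n) (Fin n) F) * Matrix.diagonal (fun i => u * χ (d i)) * P := by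
    have h : Matrix.diagonal (fun i => u * χ (d i)) = (v : F)⁻¹ • (x : Matrix (Fin n) (Fin n) F) := by
      rw [hx, ← Matrix.diagonal_smul]
      exact congrArg Matrix.diagonal (funext fun i => by simp [hu, mul_assoc])
    rw [h, Matrix.mul_smul, Matrix.smul_mul, ← Matrix.SpecialLinearGroup.coe_mul, ← Matrix.SpecialLinearGroup.coe_mul,
      hM, inv_smul_smul₀ v.ne_zero]
  have hσ0 : ∀ y : F₀, (y : F) ^ q₀ = y := fun y => by rw [← SubmonoidClass.coe_pow, ← hF₀, FiniteField.pow_card]
  -- `u ^ r` lies in the subfield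
  have hur : (u ^ r) ^ q₀ = u ^ r := by
    have hdr : Matrix.diagonal (fun i => u * χ (d i)) ^ r = (u ^ r) • (1 : Matrix (Fin n) (Fin n) F) := by
      rw [Matrix.diagonal_pow, Matrix.smul_one_eq_diagonal]
      exact congrArg Matrix.diagonal (funext fun i => by simp [mul_pow, hχr])
    have hM3 : ((M : Matrix (Fin n) (Fin n) F₀) ^ r).map F₀.subtype = (u ^ r) • (1 : Matrix (Fin n) (Fin n) F) := by
      rw [Matrix.map_pow, hM']
      have hconj : ∀ m : ℕ, (((P⁻¹ : Matrix.SpecialLinearGroup (Fin n) F) : Matrix (Fin n) (Fin n) F) *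
          Matrix.diagonal (fun i => u * χ (d i)) * P) ^ m =
          ((P⁻¹ : Matrix.SpecialLinearGroup (Fin n) F) : Matrix (Fin n) (Fin n) F) *
            Matrix.diagonal (fun i => u * χ (d i)) ^ m * P := by
        intro m
        induction m with
        | zero => rw [pow_zero, pow_zero, mul_one, ← Matrix.SpecialLinearGroup.coe_mul, inv_mul_cancel,
            Matrix.SpecialLinearGroup.coe_one]
        | succ m ih =>
          rw [pow_succ, ih, pow_succ]
          simp only [mul_assoc]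
          rw [← mul_assoc (P : Matrix (Fin n) (Fin n) F) ((P⁻¹ : Matrix.SpecialLinearGroup (Fin n) F) : Matrix (Fin n) (Fin n) F),
            ← Matrix.SpecialLinearGroup.coe_mul, mul_inv_cancel, Matrix.SpecialLinearGroup.coe_one, one_mul]
      rw [hconj, hdr, Matrix.mul_smul, mul_one, Matrix.smul_mul, ← Matrix.SpecialLinearGroup.coe_mul, inv_mul_cancel,
        Matrix.SpecialLinearGroup.coe_one]
    have h00 := congrFun (congrFun hM3 ⟨0, hn⟩) ⟨0, hn⟩
    rw [Matrix.map_apply, Matrix.smul_apply, Matrix.one_apply_eq, smul_eq_mul, mul_one] at h00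
    rw [← h00]; exact hσ0 _
  obtain ⟨i, -, hi⟩ := hζ.eq_pow_of_pow_eq_one (show (u ^ q₀ / u) ^ r = 1 by
    rw [div_pow, ← pow_mul, mul_comm, pow_mul, hur, div_self (pow_ne_zero _ hu0)])
  have hus : u ^ q₀ = u * χ (i : ZMod r) := by rw [hχnat, hi]; field_simp
  -- compare characteristic polynomials
  obtain ⟨p, hp⟩ := CharP.exists F
  have : Fact p.Prime := ⟨CharP.char_is_prime F p⟩
  obtain ⟨f₀, -, hf₀⟩ := FiniteField.card F₀ p
  set φ := iterateFrobenius F p f₀ with hφdef
  have hφ : ∀ y : F, φ y = y ^ q₀ := fun y => by rw [iterateFrobenius_def, ← hf₀, hF₀]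
  have hcp : ((M : Matrix (Fin n) (Fin n) F₀).charpoly.map F₀.subtype) =
      ((Finset.univ : Finset (Fin n)).val.map fun i => X - C (u * χ (d i))).prod := by
    rw [← Matrix.charpoly_map, hM']
    have := Matrix.charpoly_units_conj' (Matrix.SpecialLinearGroup.toGL P) (Matrix.diagonal fun i => u * χ (d i))
    have hinv : (((Matrix.SpecialLinearGroup.toGL P)⁻¹ : GL (Fin n) F) : Matrix (Fin n) (Fin n) F) =
        ((P⁻¹ : Matrix.SpecialLinearGroup (Fin n) F) : Matrix (Fin n) (Fin n) F) := by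
      rw [← map_inv]; rfl
    rw [← Matrix.coe_units_inv, hinv, Matrix.SpecialLinearGroup.coe_GL_coe_matrix, Matrix.charpoly_diagonal] at this
    rw [this, Finset.prod_eq_multiset_prod]
  have hcp' : ((Finset.univ : Finset (Fin n)).val.map fun i => X - C (u * χ (d i))).prod.map φ =
      ((Finset.univ : Finset (Fin n)).val.map fun i => X - C (u * χ (d i))).prod := by
    rw [← hcp, Polynomial.map_map]
    congr 1
    exact RingHom.ext fun y => (hφ _).trans (hσ0 y)
  rw [Polynomial.map_multiset_prod, Multiset.map_map] at hcp'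
  have hroots := congrArg Polynomial.roots hcp'
  rw [show (Polynomial.map φ ∘ fun i => X - C (u * χ (d i))) =
      (fun a => X - C a) ∘ fun i => φ (u * χ (d i)) from funext fun i => by simp,
    ← Multiset.map_map, Polynomial.roots_multiset_prod_X_sub_C,
    show (fun i => X - C (u * χ (d i))) = (fun a => X - C a) ∘ fun i => u * χ (d i) from rfl,
    ← Multiset.map_map, Polynomial.roots_multiset_prod_X_sub_C] at hroots
  apply hnoinv (i : ZMod r)
  have h' : (Finset.univ : Finset (Fin n)).val.map (fun j => u * χ ((q₀ : ZMod r) * d j + i)) =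
      (Finset.univ : Finset (Fin n)).val.map (fun j => u * χ (d j)) := by
    refine Eq.trans (Multiset.map_congr rfl fun j _ => ?_) hroots
    rw [hφ, mul_pow, hχq, hus, hχadd]; ring
  rw [← hd, Multiset.map_map]
  refine Multiset.map_injective (fun _ _ h => hχinj (mul_left_cancel₀ hu0 h) : Function.Injective fun j => u * χ j) ?_
  rw [Multiset.map_map, Multiset.map_map]
  exact h'

end Cfsg.Agent.Elusive
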