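import Mathlib

/-!
Numbers of subspaces, of flags of two subspaces and of complementary pairs.
-/

namespace Cfsg.Agent.Elusive

open Finset

variable {F : Type*} [Field F] [Fintype F] {V : Type*} [AddCommGroup V] [Module F V] [Finite V]

/-- `(q - 1) (q ^ 2 - 1) ⋯ (q ^ k - 1)`. -/
def qFac (q k : ℕ) : ℕ := ∏ j ∈ range k, (q ^ (j + 1) - 1)

theorem qFac_pos {q : ℕ} (hq : 1 < q) (k : ℕ) : 0 < qFac q k :=
  prod_pos fun j _ => Nat.sub_pos_of_lt (Nat.one_lt_pow (by omega) hq)

theorem qFac_split (q : ℕ) {k n : ℕ} (h : k ≤ n) :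
    qFac q n = qFac q (n - k) * ∏ i ∈ range k, (q ^ (n - i) - 1) := by
  induction k with
  | zero => simp
  | succ k ih =>
    rw [ih (by omega), show n - k = n - (k + 1) + 1 by omega, qFac, prod_range_succ, ← qFac, prod_range_succ,
      show n - k = n - (k + 1) + 1 by omega]
    ring

theorem prod_pow_sub_pow (q k n : ℕ) (h : k ≤ n) :
    ∏ i : Fin k, (q ^ n - q ^ (i : ℕ)) = q ^ (∑ i ∈ range k, i) * ∏ i ∈ range k, (q ^ (n - i) - 1) := by
  rw [Fin.prod_univ_eq_prod_range (fun i => q ^ n - q ^ i), ← prod_pow_eq_pow_sum, ← prod_mul_distrib]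
  refine prod_congr rfl fun i hi => ?_
  rw [mem_range] at hi
  rw [Nat.mul_sub, mul_one, ← pow_add, Nat.add_sub_cancel' (by omega)]

theorem card_subspaces_mul {m : ℕ} (hm : m ≤ Module.finrank F V) :
    Nat.card {W : Submodule F V // Module.finrank F W = m} * qFac (Fintype.card F) m =
      ∏ i ∈ range m, (Fintype.card F ^ (Module.finrank F V - i) - 1) := by
  classical
  have : Fintype V := Fintype.ofFinite V
  have : FiniteDimensional F V := Module.Finite.of_finite
  let g : {s : Fin m → V // LinearIndependent F s} → {W : Submodule F V // Module.finrank F W = m} :=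
    fun s => ⟨Submodule.span F (Set.range s.1), (finrank_span_eq_card s.2).trans (Fintype.card_fin m)⟩
  have fib : ∀ W, {s // g s = W} ≃ {s : Fin m → W.1 // LinearIndependent F s} := fun W =>
    { toFun := fun s => ⟨fun i => ⟨s.1.1 i, (congrArg Subtype.val s.2).le (Submodule.subset_span ⟨i, rfl⟩)⟩,
        LinearIndependent.of_comp (Submodule.subtype _) s.1.2⟩
      invFun := fun s => ⟨⟨fun i => (s.1 i : V), s.2.map' W.1.subtype W.1.ker_subtype⟩, Subtype.ext (by
        refine Submodule.eq_of_le_of_finrank_eq (Submodule.span_le.2 (by rintro _ ⟨i, rfl⟩; exact (s.1 i).2)) ?_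
        exact ((finrank_span_eq_card (s.2.map' W.1.subtype W.1.ker_subtype)).trans (Fintype.card_fin m)).trans W.2.symm)⟩
      left_inv := fun s => rfl
      right_inv := fun s => rfl }
  let e : {s : Fin m → V // LinearIndependent F s} ≃
      Σ W : {W : Submodule F V // Module.finrank F W = m}, {s : Fin m → W.1 // LinearIndependent F s} :=
    (Equiv.sigmaFiberEquiv g).symm.trans (Equiv.sigmaCongrRight fib)
  have h : Nat.card {s : Fin m → V // LinearIndependent F s} =
      Nat.card {W : Submodule F V // Module.finrank F W = m} * ∏ i : Fin m, (Fintype.card F ^ m - Fintype.card F ^ (i : ℕ)) := by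
    rw [Nat.card_congr e, Nat.card_sigma]
    have : ∀ W : {W : Submodule F V // Module.finrank F W = m},
        Nat.card {s : Fin m → W.1 // LinearIndependent F s} = ∏ i : Fin m, (Fintype.card F ^ m - Fintype.card F ^ (i : ℕ)) := fun W => by
      rw [card_linearIndependent (le_of_eq W.2.symm), W.2]
    rw [Finset.sum_congr rfl fun W _ => this W, Finset.sum_const, card_univ, Nat.card_eq_fintype_card, smul_eq_mul]
  rw [card_linearIndependent hm, prod_pow_sub_pow _ _ _ hm, prod_pow_sub_pow _ _ _ le_rfl, mul_left_comm] at h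
  have hd : ∏ i ∈ range m, (Fintype.card F ^ (m - i) - 1) = qFac (Fintype.card F) m := by
    rw [qFac_split _ (le_refl m)]; simp [qFac]
  rw [← hd]
  exact (Nat.eq_of_mul_eq_mul_left (pow_pos Fintype.card_pos _) h).symm

theorem card_subspaces_mul' {m : ℕ} (hm : m ≤ Module.finrank F V) :
    Nat.card {W : Submodule F V // Module.finrank F W = m} * qFac (Fintype.card F) m *
      qFac (Fintype.card F) (Module.finrank F V - m) = qFac (Fintype.card F) (Module.finrank F V) := by
  rw [card_subspaces_mul hm, qFac_split _ hm, mul_comm]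

theorem exists_dvd_of_dvd_prod {r : ℕ} (hr : r.Prime) {q m N : ℕ} (hq : 1 < q) (hm : m ≤ N)
    (h : r ∣ ∏ i ∈ range m, (q ^ (N - i) - 1)) : ¬ r ∣ q ∧ ∃ j < m, r ∣ q ^ (N - j) - 1 := by
  obtain ⟨j, hj, hj'⟩ := (Prime.dvd_finsetProd_iff hr.prime _).1 h
  rw [mem_range] at hj
  refine ⟨fun hd => ?_, j, hj, hj'⟩
  have h1 : r ∣ q ^ (N - j) := dvd_pow hd (by omega)
  have := Nat.dvd_sub h1 hj'
  rw [Nat.sub_sub_self (Nat.one_le_pow _ _ (by omega))] at this
  exact hr.ne_one (Nat.dvd_one.1 this)

/-- A prime dividing the number of `m`-spaces. -/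
theorem dvd_card_subspaces {m r : ℕ} (hr : r.Prime) (hm : m ≤ Module.finrank F V)
    (h : r ∣ Nat.card {W : Submodule F V // Module.finrank F W = m}) :
    ¬ r ∣ Fintype.card F ∧ ∃ j < m, r ∣ Fintype.card F ^ (Module.finrank F V - j) - 1 :=
  exists_dvd_of_dvd_prod hr Fintype.one_lt_card hm (card_subspaces_mul hm ▸ h.mul_right _)

/-- A prime dividing the number of nested pairs of dimensions `m`, `n - m`. -/
theorem dvd_card_flags {m r : ℕ} (hr : r.Prime) (hm : 2 * m ≤ Module.finrank F V)
    (h : r ∣ Nat.card {P : Submodule F V × Submodule F V //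
      P.1 ≤ P.2 ∧ Module.finrank F P.1 = m ∧ Module.finrank F P.2 = Module.finrank F V - m}) :
    ¬ r ∣ Fintype.card F ∧ ∃ j < 2 * m, r ∣ Fintype.card F ^ (Module.finrank F V - j) - 1 := by
  classical
  have : Fintype V := Fintype.ofFinite V
  set n := Module.finrank F V
  set q := Fintype.card F
  refine exists_dvd_of_dvd_prod hr Fintype.one_lt_card hm (dvd_trans h ⟨qFac q m * qFac q m, ?_⟩)
  let e : {P : Submodule F V × Submodule F V // P.1 ≤ P.2 ∧ Module.finrank F P.1 = m ∧ Module.finrank F P.2 = n - m} ≃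
      Σ W : {W : Submodule F V // Module.finrank F W = n - m}, {U : Submodule F W.1 // Module.finrank F U = m} :=
    { toFun := fun P => ⟨⟨P.1.2, P.2.2.2⟩, ⟨P.1.1.comap P.1.2.subtype,
        (Submodule.comapSubtypeEquivOfLe P.2.1).finrank_eq.trans P.2.2.1⟩⟩
      invFun := fun x => ⟨(x.2.1.map x.1.1.subtype, x.1.1), Submodule.map_subtype_le _ _,
        (Submodule.equivMapOfInjective _ x.1.1.injective_subtype x.2.1).finrank_eq.symm.trans x.2.2, x.1.2⟩
      left_inv := fun P => Subtype.ext (Prod.ext (by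
        simp only [Submodule.map_comap_subtype]; exact inf_eq_right.2 P.2.1) rfl)
      right_inv := fun x => Sigma.ext rfl (heq_of_eq (Subtype.ext (Submodule.comap_map_eq_of_injective
        x.1.1.injective_subtype _))) }
  have hfib : ∀ W : {W : Submodule F V // Module.finrank F W = n - m},
      Nat.card {U : Submodule F W.1 // Module.finrank F U = m} * qFac q m * qFac q (n - 2 * m) = qFac q (n - m) := fun W => by
    have := card_subspaces_mul' (F := F) (V := W.1) (m := m) (by rw [W.2]; omega)
    rwa [W.2, show n - m - m = n - 2 * m by omega] at this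
  have hW := card_subspaces_mul' (F := F) (V := V) (m := n - m) (by omega)
  rw [show n - (n - m) = m by omega] at hW
  rw [Nat.card_congr e, Nat.card_sigma]
  refine Nat.eq_of_mul_eq_mul_left (qFac_pos (Fintype.one_lt_card (α := F)) (n - 2 * m)) ?_
  rw [← qFac_split q hm, ← hW, Nat.card_eq_fintype_card, ← Finset.card_univ, mul_assoc, ← smul_eq_mul (#_),
    ← Finset.sum_const, Finset.sum_mul, Finset.mul_sum]
  refine Finset.sum_congr rfl fun W _ => ?_
  rw [← hfib W]
  ring

/-- A prime dividing the number of complementary pairs, the first of dimension `m`. -/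
theorem dvd_card_compl {m r : ℕ} (hr : r.Prime) (hrq : ¬ r ∣ Fintype.card F) (hm : m ≤ Module.finrank F V)
    (h : r ∣ Nat.card {P : Submodule F V × Submodule F V // IsCompl P.1 P.2 ∧ Module.finrank F P.1 = m}) :
    ∃ j < m, r ∣ Fintype.card F ^ (Module.finrank F V - j) - 1 := by
  classical
  have : Fintype V := Fintype.ofFinite V
  have : FiniteDimensional F V := Module.Finite.of_finite
  let e : {P : Submodule F V × Submodule F V // IsCompl P.1 P.2 ∧ Module.finrank F P.1 = m} ≃
      Σ U : {U : Submodule F V // Module.finrank F U = m}, {W : Submodule F V // IsCompl U.1 W} :=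
    { toFun := fun P => ⟨⟨P.1.1, P.2.2⟩, ⟨P.1.2, P.2.1⟩⟩
      invFun := fun x => ⟨(x.1.1, x.2.1), x.2.2, x.1.2⟩
      left_inv := fun _ => rfl
      right_inv := fun _ => rfl }
  have hfib : ∀ U : {U : Submodule F V // Module.finrank F U = m},
      Nat.card {W : Submodule F V // IsCompl U.1 W} = Fintype.card F ^ ((Module.finrank F V - m) * m) := fun U => by
    rw [Nat.card_congr (Submodule.isComplEquivProj U.1)]
    obtain ⟨f₀, hf₀⟩ := (U.1.subtype).exists_leftInverse_of_injective U.1.ker_subtype
    have hf₀' : ∀ x : U.1, f₀ x = x := fun x => LinearMap.congr_fun hf₀ x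
    let e : { f : V →ₗ[F] U.1 // ∀ x : U.1, f x = x } ≃ ((V ⧸ U.1) →ₗ[F] U.1) :=
      { toFun := fun f => U.1.liftQ (f.1 - f₀) fun x hx => LinearMap.mem_ker.2 (by
          rw [LinearMap.sub_apply, f.2 ⟨x, hx⟩, hf₀' ⟨x, hx⟩, sub_self])
        invFun := fun g => ⟨f₀ + g.comp U.1.mkQ, fun x => by
          rw [LinearMap.add_apply, LinearMap.comp_apply, hf₀', Submodule.mkQ_apply,
            (Submodule.Quotient.mk_eq_zero _).2 x.2, map_zero, add_zero]⟩
        left_inv := fun f => Subtype.ext (LinearMap.ext fun x => by simp)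
        right_inv := fun g => Submodule.linearMap_qext _ (LinearMap.ext fun x => by simp) }
    rw [Nat.card_congr e, Module.natCard_eq_pow_finrank (K := F), Module.finrank_linearMap,
      Submodule.finrank_quotient, U.2, Nat.card_eq_fintype_card]
  rw [Nat.card_congr e, Nat.card_sigma, Finset.sum_congr rfl fun U _ => hfib U, Finset.sum_const, Finset.card_univ,
    smul_eq_mul, ← Nat.card_eq_fintype_card] at h
  rcases hr.dvd_mul.1 h with h | h
  · exact (dvd_card_subspaces hr hm h).2
  · exact absurd (hr.dvd_of_dvd_pow h) hrq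

end Cfsg.Agent.Elusive
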