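import Cfsg.Agent.Elusive.SympOrder
import Cfsg.Agent.Elusive.Embed
import Cfsg.Agent.Spectrum.Symplectic
import Cfsg.Agent.SympSub.Count

/-!
Symplectic decompositions: their number, and elements with prescribed fixed spaces.
-/

namespace Cfsg.Agent.Elusive

open Cfsg.Agent.Forms Submodule

/-- Ordered tuples of distinct objects, closed under reordering, come in classes of size `t!`. -/
theorem factorial_dvd_card {α : Type*} {t : ℕ} [Finite α] (Pr : (Fin t → α) → Prop)
    (hinj : ∀ D, Pr D → Function.Injective D) (hperm : ∀ D (τ : Equiv.Perm (Fin t)), Pr D → Pr (D ∘ τ)) :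
    Nat.factorial t ∣ Nat.card {D // Pr D} := by
  classical
  set X := {D // Pr D}
  have : Fintype X := Fintype.ofFinite X
  let K : X → Finset α := fun D => Finset.univ.image D.1
  rw [Nat.card_eq_fintype_card, ← Finset.card_univ, Finset.card_eq_sum_card_image K Finset.univ]
  refine Finset.dvd_sum fun S hS => ?_
  obtain ⟨D₀, -, rfl⟩ := Finset.mem_image.1 hS
  refine dvd_of_eq ?_
  rw [← Fintype.card_fin t, ← Fintype.card_perm]
  refine Finset.card_bij (fun τ _ => (⟨D₀.1 ∘ τ, hperm D₀.1 τ D₀.2⟩ : X)) (fun τ _ => ?_)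
    (fun τ _ τ' _ h => ?_) (fun D hD => ?_)
  · rw [Finset.mem_filter]
    exact ⟨Finset.mem_univ _, by
      show Finset.univ.image (D₀.1 ∘ τ) = Finset.univ.image D₀.1
      rw [← Finset.image_image, Finset.image_univ_of_surjective τ.surjective]⟩
  · exact Equiv.ext fun i => hinj _ D₀.2 (congrFun (congrArg Subtype.val h) i)
  · rw [Finset.mem_filter] at hD
    have hex : ∀ i, ∃ j, D₀.1 j = D.1 i := fun i => by
      have h0 : D.1 i ∈ K D := Finset.mem_image_of_mem _ (Finset.mem_univ i)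
      have : D.1 i ∈ Finset.univ.image D₀.1 := by rw [hD.2] at h0; exact h0
      obtain ⟨j, -, hj⟩ := Finset.mem_image.1 this
      exact ⟨j, hj⟩
    choose τ hτ using hex
    have hinj' : Function.Injective τ := fun i j h => hinj _ D.2 (by rw [← hτ i, ← hτ j, h])
    exact ⟨Equiv.ofBijective τ (Finite.injective_iff_bijective.1 hinj'), Finset.mem_univ _, Subtype.ext (funext hτ)⟩

variable {F : Type*} [Field F] {d : ℕ}

/-- The decompositions into mutually orthogonal nondegenerate subspaces of dimension `a`. -/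
def IsOrthDecomp (d a : ℕ) {t : ℕ} (D : Fin t → Submodule F (Fin d ⊕ Fin d → F)) : Prop :=
  Cfsg.Geo.IsMDecomposition a D ∧ (∀ j, ∀ u ∈ D j, u ≠ 0 → ∃ v ∈ D j, Cfsg.sympForm d F u v ≠ 0) ∧
    (∀ j j', j ≠ j' → ∀ u ∈ D j, ∀ v ∈ D j', Cfsg.sympForm d F u v = 0)

theorem IsOrthDecomp.nonDegOn {a t : ℕ} {D : Fin t → Submodule F (Fin d ⊕ Fin d → F)}
    (hD : IsOrthDecomp d a D) (j : Fin t) : NonDegOn (sympBil d F) (D j) := by
  intro u hu h
  by_contra h0
  obtain ⟨v, hv, hne⟩ := hD.2.1 j u hu h0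
  exact hne (by rw [← sympBil_apply]; exact h v hv)

theorem IsOrthDecomp.orth {a t : ℕ} {D : Fin t → Submodule F (Fin d ⊕ Fin d → F)}
    (hD : IsOrthDecomp d a D) {j j' : Fin t} (h : j ≠ j') {u v : Fin d ⊕ Fin d → F} (hu : u ∈ D j) (hv : v ∈ D j') :
    sympBil d F u v = 0 := by
  rw [sympBil_apply]; exact hD.2.2 j j' h u hu v hv

theorem isOrthDecomp_of_family {a t : ℕ} (ht : 2 ≤ t) (ha : 0 < a) {D : Fin t → Submodule F (Fin d ⊕ Fin d → F)}
    (hd : ∀ j, Module.finrank F (D j) = a) (hN : ∀ j, NonDegOn (sympBil d F) (D j))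
    (ho : ∀ j j', j ≠ j' → ∀ u ∈ D j, ∀ v ∈ D j', sympBil d F u v = 0) (hsup : ⨆ j, D j = ⊤) :
    IsOrthDecomp d a D := by
  refine ⟨⟨ht, ha, hd, iSupIndep_of_orthogonal hN ho, hsup⟩, fun j u hu h0 => ?_, fun j j' h u hu v hv => ?_⟩
  · by_contra hcon
    push Not at hcon
    exact h0 (hN j u hu fun v hv => by rw [sympBil_apply]; exact hcon v hv)
  · rw [← sympBil_apply]; exact ho j j' h u hu v hv

/-- The number of such decompositions is divisible by `t!` and divides the order of the symplectic group. -/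
theorem card_orthDecomp [Fintype F] {a t : ℕ} (hae : Even a)
    (hne : Nonempty {D : Fin t → Submodule F (Fin d ⊕ Fin d → F) // IsOrthDecomp d a D}) :
    Nat.factorial t ∣ Nat.card {D : Fin t → Submodule F (Fin d ⊕ Fin d → F) // IsOrthDecomp d a D} ∧
      Nat.card {D : Fin t → Submodule F (Fin d ⊕ Fin d → F) // IsOrthDecomp d a D} ∣
        Nat.card (Matrix.symplecticGroup (Fin d) F) := by
  classical
  constructor
  · refine factorial_dvd_card _ (fun D hD i j h => ?_) (fun D τ hD => ?_)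
    · by_contra hne'
      have h1 : Disjoint (D i) (D j) := hD.1.indep.pairwiseDisjoint hne'
      rw [h] at h1
      have := hD.1.finrank_eq j
      rw [disjoint_self.1 h1, finrank_bot] at this
      exact hD.1.pos.ne this
    · exact ⟨⟨hD.1.two_le, hD.1.pos, fun i => hD.1.finrank_eq _, hD.1.indep.comp τ.injective, by
        rw [show iSup (D ∘ τ) = iSup D from Equiv.iSup_comp τ]; exact hD.1.iSup_eq_top⟩,
        fun j => hD.2.1 (τ j), fun j j' h => hD.2.2 _ _ (τ.injective.ne h)⟩
  set X := {D : Fin t → Submodule F (Fin d ⊕ Fin d → F) // IsOrthDecomp d a D}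
  obtain ⟨k, hk⟩ := hae
  set B := sympBil d F
  let lin : Matrix.symplecticGroup (Fin d) F → ((Fin d ⊕ Fin d → F) ≃ₗ[F] (Fin d ⊕ Fin d → F)) := SympSub.spLin
  have hB : ∀ (g : Matrix.symplecticGroup (Fin d) F) u v, B (lin g u) (lin g v) = B u v :=
    fun g => SympSub.spLin_mem g
  have hmapD : ∀ (g : Matrix.symplecticGroup (Fin d) F) (D : X),
      IsOrthDecomp d a (fun i => (D.1 i).map (lin g).toLinearMap) := by
    intro g D
    refine isOrthDecomp_of_family D.2.1.two_le D.2.1.pos (fun i => ?_) (fun i => ?_) ?_ ?_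
    · exact (LinearEquiv.finrank_map_eq _ _).trans (D.2.1.finrank_eq i)
    · rintro _ ⟨u, hu, rfl⟩ h
      rw [D.2.nonDegOn i u hu fun v hv => (hB g u v).symm.trans (h _ ⟨v, hv, rfl⟩), map_zero]
    · rintro i j hij _ ⟨u, hu, rfl⟩ _ ⟨v, hv, rfl⟩
      exact (hB g u v).trans (D.2.orth hij hu hv)
    · rw [← Submodule.map_iSup, D.2.1.iSup_eq_top, Submodule.map_top, LinearMap.range_eq_top]
      exact (lin g).surjective
  let _ : MulAction (Matrix.symplecticGroup (Fin d) F) X :=
    { smul := fun g D => ⟨_, hmapD g D⟩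
      one_smul := fun D => Subtype.ext (funext fun i => by
        show (D.1 i).map (lin 1).toLinearMap = D.1 i
        rw [show (lin 1).toLinearMap = LinearMap.id from LinearMap.ext fun v => Matrix.one_mulVec v, Submodule.map_id])
      mul_smul := fun g h D => Subtype.ext (funext fun i => by
        show (D.1 i).map (lin (g * h)).toLinearMap = ((D.1 i).map (lin h).toLinearMap).map (lin g).toLinearMap
        rw [← Submodule.map_comp]
        congr 1
        exact LinearMap.ext fun v => (Matrix.mulVec_mulVec v _ _).symm) }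
  have : MulAction.IsPretransitive (Matrix.symplecticGroup (Fin d) F) X := ⟨fun D D' => by
    have hex : ∀ j, ∃ e : D.1 j ≃ₗ[F] D'.1 j, ∀ u v : D.1 j, B (e u : Fin d ⊕ Fin d → F) (e v) = B u v := by
      intro j
      obtain ⟨hA1, hN1⟩ := nonDegOn_restrict sympBil_isAlt (D.2.nonDegOn j)
      obtain ⟨hA2, hN2⟩ := nonDegOn_restrict sympBil_isAlt (D'.2.nonDegOn j)
      obtain ⟨e1, h1⟩ := SympSub.exists_iso_sympBil hA1 hN1 (k := k) (by rw [D.2.1.finrank_eq, hk, two_mul])
      obtain ⟨e2, h2⟩ := SympSub.exists_iso_sympBil hA2 hN2 (k := k) (by rw [D'.2.1.finrank_eq, hk, two_mul])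
      refine ⟨e1.trans e2.symm, fun u v => ?_⟩
      show (B.restrict (D'.1 j)) (e2.symm (e1 u)) (e2.symm (e1 v)) = _
      rw [← h2, e2.apply_symm_apply, e2.apply_symm_apply, h1]
      rfl
    choose e he using hex
    have hcoord : ∀ E : X, ∃ Φ : ((j : Fin t) → E.1 j) ≃ₗ[F] (Fin d ⊕ Fin d → F),
        ∀ w, Φ w = ∑ j, (w j : Fin d ⊕ Fin d → F) := by
      intro E
      let S : ((j : Fin t) → E.1 j) →ₗ[F] (Fin d ⊕ Fin d → F) := ∑ j, (E.1 j).subtype.comp (LinearMap.proj j)
      have hS : ∀ w, S w = ∑ j, (w j : Fin d ⊕ Fin d → F) := fun w => by simp [S]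
      have hinj : Function.Injective S := by
        refine (injective_iff_map_eq_zero _).2 fun w hw => funext fun j => Subtype.ext ?_
        rw [hS] at hw
        exact (iSupIndep_iff_finsetSum_eq_zero_imp_eq_zero _).1 E.2.1.indep Finset.univ
          (fun j => (w j : Fin d ⊕ Fin d → F)) (fun j _ => (w j).2) hw j (Finset.mem_univ _)
      have hsurj : Function.Surjective S := by
        rw [← LinearMap.range_eq_top, eq_top_iff, ← E.2.1.iSup_eq_top]
        refine iSup_le fun j x hx => ⟨Pi.single j ⟨x, hx⟩, ?_⟩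
        rw [hS, Finset.sum_eq_single j (fun i _ hi => by rw [Pi.single_eq_of_ne hi]; rfl)
          (fun h => absurd (Finset.mem_univ _) h), Pi.single_eq_same]
      exact ⟨LinearEquiv.ofBijective S ⟨hinj, hsurj⟩, hS⟩
    obtain ⟨Φ, hΦ⟩ := hcoord D
    obtain ⟨Φ', hΦ'⟩ := hcoord D'
    obtain ⟨T, hT⟩ : ∃ T : (Fin d ⊕ Fin d → F) ≃ₗ[F] (Fin d ⊕ Fin d → F),
        ∀ w, T (Φ w) = ∑ j, (e j (w j) : Fin d ⊕ Fin d → F) :=
      ⟨(Φ.symm.trans (LinearEquiv.piCongrRight e)).trans Φ', fun w => by simp [hΦ']⟩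
    have hTB : ∀ u v, B (T u) (T v) = B u v := by
      intro u v
      obtain ⟨w, rfl⟩ := Φ.surjective u
      obtain ⟨w', rfl⟩ := Φ.surjective v
      rw [hT, hT, hΦ, hΦ]
      simp only [map_sum, LinearMap.sum_apply]
      refine Finset.sum_congr rfl fun i _ => Finset.sum_congr rfl fun j _ => ?_
      by_cases hij : j = i
      · subst hij; exact he j _ _
      · rw [D'.2.orth hij (e j _).2 (e i _).2, D.2.orth hij (w j).2 (w' i).2]
    obtain ⟨g, hg⟩ := SympSub.spLin_bijective.2 ⟨T, hTB⟩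
    refine ⟨g, Subtype.ext (funext fun j => ?_)⟩
    show (D.1 j).map (lin g).toLinearMap = D'.1 j
    have hg' : lin g = T := congrArg Subtype.val hg
    rw [hg']
    refine eq_of_le_of_finrank_le ?_ (by rw [LinearEquiv.finrank_map_eq, D.2.1.finrank_eq, D'.2.1.finrank_eq])
    rintro _ ⟨x, hx, rfl⟩
    have : Φ (Pi.single j ⟨x, hx⟩) = x := by
      rw [hΦ, Finset.sum_eq_single j (fun i _ hi => by rw [Pi.single_eq_of_ne hi]; rfl)
        (fun h => absurd (Finset.mem_univ _) h), Pi.single_eq_same]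
    show T x ∈ D'.1 j
    rw [← this, hT, Finset.sum_eq_single j (fun i _ hi => by rw [Pi.single_eq_of_ne hi, map_zero]; rfl)
      (fun h => absurd (Finset.mem_univ _) h), Pi.single_eq_same]
    exact (e j _).2⟩
  obtain ⟨D₀⟩ := hne
  rw [← MulAction.index_stabilizer_of_transitive (Matrix.symplecticGroup (Fin d) F) D₀]
  exact Subgroup.index_dvd_card _

section elements

variable [Fintype F] {r : ℕ} [Fact r.Prime]

omit [Fintype F] in
theorem toLin'_pow_of_pow_eq_one {g : Matrix.symplecticGroup (Fin d) F} {k : ℕ} (hg : g ^ k = 1) :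
    (Matrix.toLin' (g : Matrix (Fin d ⊕ Fin d) (Fin d ⊕ Fin d) F)) ^ k = 1 := by
  show (Matrix.toLinAlgEquiv' (g : Matrix (Fin d ⊕ Fin d) (Fin d ⊕ Fin d) F) : Module.End F _) ^ k = 1
  rw [← map_pow, ← SubmonoidClass.coe_pow, hg, Submonoid.coe_one, map_one]

omit [Fintype F] in
theorem sympBil_toLin' (g : Matrix.symplecticGroup (Fin d) F) (u v : Fin d ⊕ Fin d → F) :
    sympBil d F (Matrix.toLin' (g : Matrix (Fin d ⊕ Fin d) (Fin d ⊕ Fin d) F) u)
      (Matrix.toLin' (g : Matrix (Fin d ⊕ Fin d) (Fin d ⊕ Fin d) F) v) = sympBil d F u v := by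
  rw [sympBil_apply, sympBil_apply, Matrix.toLin'_apply, Matrix.toLin'_apply]
  exact mem_symplecticGroup_iff_sympForm.1 g.2 u v

/-- A prime divisor of the order of `Sp_{2d}` other than the characteristic has `c ≤ 2d`. -/
theorem le_of_dvd_card_symplecticGroup (hr : ¬ r ∣ Fintype.card F) {i c : ℕ}
    (hi : i = orderOf ((Fintype.card F : ℕ) : ZMod r)) (hc : c = if Even i then i else 2 * i)
    (h : r ∣ Nat.card (Matrix.symplecticGroup (Fin d) F)) : c ≤ 2 * d := by
  rw [SympSub.card_symplecticGroup, SympSub.spOrder] at h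
  rcases (Fact.out : r.Prime).dvd_mul.1 h with h | h
  · exact absurd ((Fact.out : r.Prime).dvd_of_dvd_pow h) hr
  · obtain ⟨l, hl, hl'⟩ := (Prime.dvd_finsetProd_iff (Fact.out : r.Prime).prime _).1 h
    rw [← ZMod.natCast_eq_zero_iff, Nat.cast_sub (Nat.one_le_pow _ _ Fintype.card_pos), Nat.cast_pow, Nat.cast_one,
      sub_eq_zero, ← orderOf_dvd_iff_pow_eq_one, ← hi] at hl'
    rw [Finset.mem_range] at hl
    rw [hc]
    split_ifs with he
    · exact (Nat.le_of_dvd (by omega) hl').trans (by omega)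
    · have hco : Nat.Coprime i 2 := Nat.coprime_two_right.2 (Nat.not_even_iff_odd.1 he)
      have := Nat.le_of_dvd (by omega) (hco.dvd_of_dvd_mul_left hl')
      omega

/-- An element of order `r` of `Sp_c` without fixed vectors. -/
theorem exists_fixed_free (hr : ¬ r ∣ Fintype.card F) (hr2 : r ≠ 2) {i c : ℕ}
    (hi : i = orderOf ((Fintype.card F : ℕ) : ZMod r)) (hc : c = if Even i then i else 2 * i) {m : ℕ}
    (hm : 2 * m = c) :
    ∃ y : Matrix.symplecticGroup (Fin m) F, y ^ r = 1 ∧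
      ∀ v, Matrix.toLin' (y : Matrix (Fin m ⊕ Fin m) (Fin m ⊕ Fin m) F) v = v → v = 0 := by
  classical
  have hi0 : 0 < i := hi ▸ orderOf_pos_of_not_dvd hr
  have hc0 : 0 < c := by rw [hc]; split_ifs <;> omega
  set q := Fintype.card F
  have hdvd : r ∣ SympSub.spOrder q m := by
    refine Dvd.dvd.mul_left ((?_ : r ∣ q ^ (2 * m) - 1).trans ?_) _
    · have hic : i ∣ c := by rw [hc]; split_ifs; exacts [dvd_rfl, Dvd.intro_left _ rfl]
      have h1 : ((q : ℕ) : ZMod r) ^ (2 * m) = 1 := orderOf_dvd_iff_pow_eq_one.1 (by rw [hm, ← hi]; exact hic)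
      rw [← CharP.cast_eq_zero_iff (ZMod r) r]
      rw [Nat.cast_sub (Nat.one_le_pow _ _ Fintype.card_pos), Nat.cast_pow, h1, Nat.cast_one, sub_self]
    · exact ⟨_, (Finset.mul_prod_erase (Finset.range m) (fun i => q ^ (2 * (i + 1)) - 1)
        (show m - 1 ∈ Finset.range m from Finset.mem_range.2 (by omega))).symm.trans
        (by rw [show m - 1 + 1 = m by omega])⟩
  obtain ⟨y, hy⟩ := exists_prime_orderOf_dvd_card' (G := Matrix.symplecticGroup (Fin m) F) r
    (by rwa [SympSub.card_symplecticGroup])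
  have hyr : y ^ r = 1 := hy ▸ pow_orderOf_eq_one y
  refine ⟨y, hyr, ?_⟩
  set f := Matrix.toLin' (y : Matrix (Fin m ⊕ Fin m) (Fin m ⊕ Fin m) F) with hfdef
  obtain ⟨M, -, -, -, -, -, hsup, -, j, hj, -⟩ := exists_moving_part (B := sympBil m F) (f := f) sympBil_isAlt
    (sympBil_toLin' y) (toLin'_pow_of_pow_eq_one hyr) hr hr2 (W := ⊤) (fun v _ => trivial)
    (nonDegOn_top sympBil_nondegenerate) hi hc
  rw [finrank_top, top_inf_eq, Module.finrank_fintype_fun_eq_card, Fintype.card_sum, Fintype.card_fin, ← two_mul, hm] at hj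
  intro v hv
  have hmem : v ∈ LinearMap.ker (f - 1) := by
    rw [LinearMap.mem_ker, LinearMap.sub_apply, Module.End.one_apply, hv, sub_self]
  rcases Nat.eq_zero_or_pos j with rfl | hj0
  · exfalso
    have htop : LinearMap.ker (f - 1) = ⊤ := Submodule.eq_top_of_finrank_eq (by
      rw [Module.finrank_fintype_fun_eq_card, Fintype.card_sum, Fintype.card_fin, ← two_mul, hm]
      omega)
    have : (y : Matrix (Fin m ⊕ Fin m) (Fin m ⊕ Fin m) F) = 1 := by
      refine Matrix.toLin'.injective ?_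
      rw [Matrix.toLin'_one]
      exact sub_eq_zero.1 (LinearMap.ker_eq_top.1 htop)
    rw [show y = 1 from Subtype.ext this, orderOf_one] at hy
    exact (Fact.out : r.Prime).ne_one hy.symm
  · have := Nat.le_mul_of_pos_left c hj0
    have h0 : Module.finrank F (LinearMap.ker (f - 1)) = 0 := by omega
    rw [Submodule.finrank_eq_zero] at h0
    exact (mem_bot F).1 (h0 ▸ hmem)

omit [Fintype F] [Fact r.Prime] in
theorem spBlock_fixed {a b : ℕ} (g : Matrix.symplecticGroup (Fin a) F) (h : Matrix.symplecticGroup (Fin b) F)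
    (hg : ∀ v, Matrix.toLin' (g : Matrix (Fin a ⊕ Fin a) (Fin a ⊕ Fin a) F) v = v → v = 0)
    (hh : ∀ v, Matrix.toLin' (h : Matrix (Fin b ⊕ Fin b) (Fin b ⊕ Fin b) F) v = v → v = 0) :
    ∀ v, Matrix.toLin' (Spectrum.spBlock a b (g, h) : Matrix (Fin (a + b) ⊕ Fin (a + b)) (Fin (a + b) ⊕ Fin (a + b)) F) v = v →
      v = 0 := by
  intro v hv
  set e := Spectrum.spBlockEquiv a b
  rw [Matrix.toLin'_apply] at hv
  change (Matrix.reindex e e (Matrix.fromBlocks (g : Matrix _ _ F) 0 0 (h : Matrix _ _ F))).mulVec v = v at hv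
  rw [Matrix.reindex_apply, Matrix.submatrix_mulVec_equiv, Equiv.symm_symm] at hv
  have hv' := congrArg (fun w => w ∘ e) hv
  rw [Function.comp_assoc, Equiv.symm_comp_self, Function.comp_id, Matrix.fromBlocks_mulVec, Matrix.zero_mulVec,
    Matrix.zero_mulVec, add_zero, zero_add] at hv'
  have h1 := hg ((v ∘ e) ∘ Sum.inl) (funext fun x => by rw [Matrix.toLin'_apply]; simpa using congrFun hv' (Sum.inl x))
  have h2 := hh ((v ∘ e) ∘ Sum.inr) (funext fun x => by rw [Matrix.toLin'_apply]; simpa using congrFun hv' (Sum.inr x))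
  funext z
  obtain ⟨w, rfl⟩ := e.surjective z
  rcases w with w | w
  · exact congrFun h1 w
  · exact congrFun h2 w

/-- Elements of order `r` of `Sp_{2d}` whose moving part has dimension `j c`. -/
theorem exists_moving_element (hr : ¬ r ∣ Fintype.card F) (hr2 : r ≠ 2) {i c : ℕ}
    (hi : i = orderOf ((Fintype.card F : ℕ) : ZMod r)) (hc : c = if Even i then i else 2 * i) {j : ℕ}
    (hjd : j * c ≤ 2 * d) :
    ∃ x : Matrix.symplecticGroup (Fin d) F, x ^ r = 1 ∧
      Module.finrank F (LinearMap.ker (Matrix.toLin' (x : Matrix (Fin d ⊕ Fin d) (Fin d ⊕ Fin d) F) - 1)) =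
        2 * d - j * c := by
  classical
  obtain ⟨m, hm⟩ : Even c := by rw [hc]; split_ifs with h; exacts [h, even_two_mul _]
  rw [← two_mul] at hm
  obtain ⟨y, hy, hy'⟩ := exists_fixed_free hr hr2 hi hc hm.symm
  have hblk : ∀ l, ∃ g : Matrix.symplecticGroup (Fin (l * m)) F, g ^ r = 1 ∧
      ∀ v, Matrix.toLin' (g : Matrix (Fin (l * m) ⊕ Fin (l * m)) (Fin (l * m) ⊕ Fin (l * m)) F) v = v → v = 0 := by
    intro l
    induction l with
    | zero =>
      refine ⟨1, one_pow r, fun v _ => funext fun z => ?_⟩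
      rw [Nat.zero_mul] at z
      rcases z with z | z <;> exact z.elim0
    | succ l ih =>
      obtain ⟨g, hg, hg'⟩ := ih
      rw [Nat.succ_mul]
      exact ⟨Spectrum.spBlock (l * m) m (g, y), by rw [← map_pow, Prod.pow_mk, hg, hy, Prod.mk_one_one, map_one],
        spBlock_fixed g y hg' hy'⟩
  obtain ⟨g, hg, hg'⟩ := hblk j
  have hjm : j * m ≤ d := by rw [hm, Nat.mul_left_comm] at hjd; omega
  refine ⟨sympEmbed hjm g, by rw [← map_pow, hg, map_one], ?_⟩
  rw [toLin'_sympEmbed]
  set f := Matrix.toLin' (g : Matrix (Fin (j * m) ⊕ Fin (j * m)) (Fin (j * m) ⊕ Fin (j * m)) F)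
  have hker : LinearMap.ker (blockEnd hjm f - 1) = LinearMap.ker (sympProj F hjm) := by
    ext v
    rw [LinearMap.mem_ker, LinearMap.mem_ker, LinearMap.sub_apply, Module.End.one_apply]
    constructor
    · intro h
      refine hg' _ ?_
      show f (sympProj F hjm v) = _
      rw [← sympProj_blockEnd, sub_eq_zero.1 h]
    · intro h
      simp [blockEnd, h]
  rw [hker]
  have hsurj : LinearMap.range (sympProj F hjm) = ⊤ :=
    LinearMap.range_eq_top.2 fun u => ⟨sympExt F hjm u, sympProj_sympExt hjm u⟩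
  have := LinearMap.finrank_range_add_finrank_ker (sympProj F hjm)
  rw [hsurj, finrank_top, Module.finrank_fintype_fun_eq_card, Module.finrank_fintype_fun_eq_card, Fintype.card_sum,
    Fintype.card_sum, Fintype.card_fin, Fintype.card_fin] at this
  rw [hm, Nat.mul_left_comm, two_mul (j * m)]
  omega

end elements

end Cfsg.Agent.Elusive
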