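import Cfsg.Agent.Elusive.SympIsotropic
import Cfsg.Agent.Elusive.Primitive
import Cfsg.Agent.Elusive.Embed
import Cfsg.Agent.Elusive.SympDecomp

/-!
Symplectic elements made of prescribed irreducible blocks, and their isotropic invariant subspaces.
-/

namespace Cfsg.Agent.Elusive

open Polynomial Submodule Cfsg.Agent.Forms

variable {F : Type*} [Field F]

section blocks

variable {d m : ℕ}

/-- Restriction to the coordinate pairs in the range of `ι`. -/
def pairProj (F : Type*) [Field F] (ι : Fin m → Fin d) : (Fin d ⊕ Fin d → F) →ₗ[F] (Fin m ⊕ Fin m → F) :=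
  LinearMap.funLeft F F (Sum.map ι ι)

/-- Extension by zero outside the range of `ι`. -/
noncomputable def pairExt (F : Type*) [Field F] (ι : Fin m → Fin d) : (Fin m ⊕ Fin m → F) →ₗ[F] (Fin d ⊕ Fin d → F) :=
  Function.ExtendByZero.linearMap F (Sum.map ι ι)

theorem pairProj_pairExt {ι : Fin m → Fin d} (hι : Function.Injective ι) (a : Fin m ⊕ Fin m → F) :
    pairProj F ι (pairExt F ι a) = a :=
  funext fun x => (Sum.map_injective.2 ⟨hι, hι⟩).extend_apply a 0 x

theorem pairExt_eq_zero (ι : Fin m → Fin d) (a : Fin m ⊕ Fin m → F) {x : Fin d ⊕ Fin d} {l : Fin d}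
    (hx : x = Sum.inl l ∨ x = Sum.inr l) (hl : ∀ k, ι k ≠ l) : pairExt F ι a x = 0 := by
  refine Function.extend_apply' a (0 : Fin d ⊕ Fin d → F) x ?_
  rintro ⟨(k | k), rfl⟩ <;> rcases hx with hx | hx <;>
    simp only [Sum.map_inl, Sum.map_inr, reduceCtorEq, Sum.inl.injEq, Sum.inr.injEq] at hx <;>
    exact hl k hx

theorem pairProj_pairExt_of_disjoint {ι κ : Fin m → Fin d} (h : ∀ k l, ι k ≠ κ l) (a : Fin m ⊕ Fin m → F) :
    pairProj F κ (pairExt F ι a) = 0 :=
  funext fun x => by
    rcases x with l | l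
    · exact pairExt_eq_zero ι a (Or.inl rfl) fun k => h k l
    · exact pairExt_eq_zero ι a (Or.inr rfl) fun k => h k l

theorem sympBil_pairExt {ι : Fin m → Fin d} (hι : Function.Injective ι) (a : Fin m ⊕ Fin m → F)
    (v : Fin d ⊕ Fin d → F) : sympBil d F (pairExt F ι a) v = sympBil m F a (pairProj F ι v) := by
  rw [sympBil_apply, sympBil_apply, sympForm_apply, sympForm_apply]
  refine (Finset.sum_of_injOn ι hι.injOn (fun _ _ => Finset.mem_univ _)
    (fun i _ hi => ?_) (fun i _ => ?_)).symm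
  · rw [pairExt_eq_zero ι a (Or.inl rfl) fun k hk => hi ⟨k, Finset.mem_univ _, hk⟩,
      pairExt_eq_zero ι a (Or.inr rfl) fun k hk => hi ⟨k, Finset.mem_univ _, hk⟩]
    ring
  · have e1 := congrFun (pairProj_pairExt hι a) (Sum.inl i)
    have e2 := congrFun (pairProj_pairExt hι a) (Sum.inr i)
    simp only [pairProj, LinearMap.funLeft_apply, Sum.map_inl, Sum.map_inr] at e1 e2 ⊢
    rw [e1, e2]

variable {j : ℕ}

/-- The block sum of maps along disjoint sets of coordinate pairs. -/
noncomputable def blocksEnd (ι : Fin j → Fin m → Fin d) (f : Fin j → Module.End F (Fin m ⊕ Fin m → F)) :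
    Module.End F (Fin d ⊕ Fin d → F) :=
  LinearMap.id + ∑ s, pairExt F (ι s) ∘ₗ (f s - 1) ∘ₗ pairProj F (ι s)

theorem blocksEnd_apply (ι : Fin j → Fin m → Fin d) (f : Fin j → Module.End F (Fin m ⊕ Fin m → F))
    (v : Fin d ⊕ Fin d → F) :
    blocksEnd ι f v = v + ∑ s, pairExt F (ι s) (f s (pairProj F (ι s) v) - pairProj F (ι s) v) := by
  simp [blocksEnd, LinearMap.sum_apply]

/-- Disjoint coordinate blocks. -/
structure BlockIdx (ι : Fin j → Fin m → Fin d) : Prop where
  inj : ∀ s, Function.Injective (ι s)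
  disj : ∀ s s', s ≠ s' → ∀ k l, ι s k ≠ ι s' l

variable {ι : Fin j → Fin m → Fin d}

theorem BlockIdx.proj_sum (hι : BlockIdx ι) (a : Fin j → (Fin m ⊕ Fin m → F)) (s : Fin j) :
    pairProj F (ι s) (∑ s', pairExt F (ι s') (a s')) = a s := by
  rw [map_sum, Finset.sum_eq_single s (fun s' _ h => pairProj_pairExt_of_disjoint (hι.disj s' s h) _)
    (fun h => absurd (Finset.mem_univ _) h), pairProj_pairExt (hι.inj s)]

theorem BlockIdx.proj_blocksEnd (hι : BlockIdx ι) (f : Fin j → Module.End F (Fin m ⊕ Fin m → F)) (s : Fin j)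
    (v : Fin d ⊕ Fin d → F) : pairProj F (ι s) (blocksEnd ι f v) = f s (pairProj F (ι s) v) := by
  rw [blocksEnd_apply, map_add, hι.proj_sum]
  abel

theorem BlockIdx.blocksEnd_mul (hι : BlockIdx ι) (f g : Fin j → Module.End F (Fin m ⊕ Fin m → F)) :
    blocksEnd ι f * blocksEnd ι g = blocksEnd ι (fun s => f s * g s) := by
  refine LinearMap.ext fun v => ?_
  rw [Module.End.mul_apply, blocksEnd_apply, blocksEnd_apply ι g v, blocksEnd_apply, add_assoc, ← Finset.sum_add_distrib]
  congr 1
  refine Finset.sum_congr rfl fun s _ => ?_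
  rw [← blocksEnd_apply ι g v, hι.proj_blocksEnd, ← map_add, Module.End.mul_apply]
  congr 1
  abel

theorem BlockIdx.blocksEnd_pow (hι : BlockIdx ι) (f : Fin j → Module.End F (Fin m ⊕ Fin m → F)) (n : ℕ) :
    blocksEnd ι f ^ n = blocksEnd ι (fun s => f s ^ n) := by
  induction n with
  | zero => exact LinearMap.ext fun v => by simp [blocksEnd_apply]
  | succ n ih => rw [pow_succ, ih, hι.blocksEnd_mul]; rfl

theorem BlockIdx.sympBil_blocksEnd (hι : BlockIdx ι) {f : Fin j → Module.End F (Fin m ⊕ Fin m → F)}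
    (hf : ∀ s a b, sympBil m F (f s a) (f s b) = sympBil m F a b) (u v : Fin d ⊕ Fin d → F) :
    sympBil d F (blocksEnd ι f u) (blocksEnd ι f v) = sympBil d F u v := by
  have hA : (sympBil d F).IsAlt := sympBil_isAlt
  have hA' : (sympBil m F).IsAlt := sympBil_isAlt
  rw [blocksEnd_apply, blocksEnd_apply]
  set w := ∑ s, pairExt F (ι s) (f s (pairProj F (ι s) v) - pairProj F (ι s) v) with hw
  have h1 : ∀ x, sympBil d F (∑ s, pairExt F (ι s) (f s (pairProj F (ι s) u) - pairProj F (ι s) u)) x =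
      ∑ s, sympBil m F (f s (pairProj F (ι s) u) - pairProj F (ι s) u) (pairProj F (ι s) x) := fun x => by
    rw [map_sum, LinearMap.sum_apply]
    exact Finset.sum_congr rfl fun s _ => sympBil_pairExt (hι.inj s) _ _
  have h2 : sympBil d F u w =
      ∑ s, sympBil m F (pairProj F (ι s) u) (f s (pairProj F (ι s) v) - pairProj F (ι s) v) := by
    rw [hw, map_sum]
    refine Finset.sum_congr rfl fun s _ => ?_
    rw [← LinearMap.IsAlt.neg hA, sympBil_pairExt (hι.inj s), LinearMap.IsAlt.neg hA']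
  have h3 : ∀ s, pairProj F (ι s) w = f s (pairProj F (ι s) v) - pairProj F (ι s) v := fun s => hι.proj_sum _ s
  simp only [map_add, LinearMap.add_apply, h1, h2, h3]
  rw [add_assoc, ← Finset.sum_add_distrib, ← Finset.sum_add_distrib, add_eq_left]
  refine Finset.sum_eq_zero fun s _ => ?_
  simp only [map_sub, LinearMap.sub_apply, hf]
  ring

theorem BlockIdx.aeval_pairExt (hι : BlockIdx ι) (f : Fin j → Module.End F (Fin m ⊕ Fin m → F)) (s : Fin j)
    (P : F[X]) (a : Fin m ⊕ Fin m → F) :
    aeval (blocksEnd ι f) P (pairExt F (ι s) a) = pairExt F (ι s) (aeval (f s) P a) := by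
  have h1 : ∀ a, blocksEnd ι f (pairExt F (ι s) a) = pairExt F (ι s) (f s a) := by
    intro a
    rw [blocksEnd_apply, Finset.sum_eq_single s (fun s' _ h => by
        rw [pairProj_pairExt_of_disjoint (hι.disj s s' (Ne.symm h))]; simp)
      (fun h => absurd (Finset.mem_univ _) h), pairProj_pairExt (hι.inj s), map_sub]
    abel
  induction P using Polynomial.induction_on' generalizing a with
  | add P Q hP hQ => simp [hP, hQ]
  | monomial k c =>
    simp only [aeval_monomial, Module.End.mul_apply, Module.algebraMap_end_apply, map_smul]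
    congr 1
    induction k generalizing a with
    | zero => simp
    | succ k ih => rw [pow_succ, pow_succ, Module.End.mul_apply, Module.End.mul_apply, h1, ih]

end blocks

variable [Fintype F] {r : ℕ} [Fact r.Prime]

/-- The irreducible factors of the cyclotomic polynomial, listed. -/
theorem exists_cyclotomic_factors (hr : ¬ r ∣ Fintype.card F) {i : ℕ}
    (hi : i = orderOf ((Fintype.card F : ℕ) : ZMod r)) :
    ∃ P : Fin ((r - 1) / i) → F[X], Function.Injective P ∧
      ∀ s, Irreducible (P s) ∧ (P s).Monic ∧ P s ∣ cyclotomic r F := by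
  classical
  have hr' := (Fact.out : r.Prime)
  have hi0 : 0 < i := hi ▸ orderOf_pos_of_not_dvd hr
  have hrF : ((r : ℕ) : F) ≠ 0 := fun h => by
    obtain ⟨e, hp, he⟩ := FiniteField.card F (ringChar F)
    rw [ringChar.spec, Nat.dvd_prime hr'] at h
    rcases h with h | h
    · exact hp.ne_one h
    · exact hr (by rw [he, h]; exact dvd_pow_self r e.pos.ne')
  set S := (UniqueFactorizationMonoid.normalizedFactors (cyclotomic r F)).toFinset
  have hnd : (UniqueFactorizationMonoid.normalizedFactors (cyclotomic r F)).Nodup := by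
    rw [← UniqueFactorizationMonoid.squarefree_iff_nodup_normalizedFactors (cyclotomic_ne_zero r F)]
    have : NeZero ((r : ℕ) : F) := ⟨hrF⟩
    exact squarefree_cyclotomic r F
  have hS : ∀ P ∈ S, Irreducible P ∧ P.Monic ∧ P ∣ cyclotomic r F := by
    intro P hP
    rw [Multiset.mem_toFinset] at hP
    refine ⟨UniqueFactorizationMonoid.irreducible_of_normalized_factor P hP, ?_,
      UniqueFactorizationMonoid.dvd_of_mem_normalizedFactors hP⟩
    rw [← UniqueFactorizationMonoid.normalize_normalized_factor P hP]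
    exact Polynomial.monic_normalize (UniqueFactorizationMonoid.irreducible_of_normalized_factor P hP).ne_zero
  have hcard : S.card * i = r - 1 := by
    have h1 := UniqueFactorizationMonoid.prod_normalizedFactors (cyclotomic_ne_zero r F)
    have h2 := natDegree_eq_of_degree_eq (degree_eq_degree_of_associated h1)
    rw [natDegree_cyclotomic, Nat.totient_prime hr', natDegree_multiset_prod _ (fun h0 =>
      (UniqueFactorizationMonoid.irreducible_of_normalized_factor _ h0).ne_zero rfl)] at h2
    rw [← h2, Multiset.map_congr rfl (fun P hP => Arith.natDegree_irreducible_factor_cyclotomic hr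
      (hS P (Multiset.mem_toFinset.2 hP)).1 (hS P (Multiset.mem_toFinset.2 hP)).2.2), Multiset.map_const',
      Multiset.sum_replicate, smul_eq_mul, ← hi, Multiset.toFinset_card_of_nodup hnd]
  have hc : S.card = (r - 1) / i := by rw [← hcard, Nat.mul_div_cancel _ hi0]
  refine ⟨fun s => (S.equivFin.symm (Fin.cast hc.symm s) : F[X]), fun s s' h => ?_, fun s => hS _ (Subtype.prop _)⟩
  exact Fin.cast_injective _ (S.equivFin.symm.injective (Subtype.ext h))

/-- An irreducible block with prescribed annihilator. -/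
theorem exists_block_of_factor (hr : ¬ r ∣ Fintype.card F) {i m : ℕ} (hm : 0 < m) (him : i = 2 * m)
    (hi : i = orderOf ((Fintype.card F : ℕ) : ZMod r)) {P : F[X]} (hP : Irreducible P) (hPc : P ∣ cyclotomic r F) :
    ∃ f : Module.End F (Fin m ⊕ Fin m → F), f ^ r = 1 ∧ (∀ a b, sympBil m F (f a) (f b) = sympBil m F a b) ∧
      (∀ a, f a = a → a = 0) ∧ aeval f P = 0 ∧
      ∀ W : Submodule F (Fin m ⊕ Fin m → F), (∀ v ∈ W, f v ∈ W) → W = ⊥ ∨ W = ⊤ := by
  classical
  have hr' := (Fact.out : r.Prime)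
  obtain ⟨y, hy, hy'⟩ := exists_irreducible_symp (F := F) (r := r) hm (hi ▸ him)
  set g := Matrix.toLin' (y : Matrix (Fin m ⊕ Fin m) (Fin m ⊕ Fin m) F) with hg
  have hgr : g ^ r = 1 := toLin'_pow_of_pow_eq_one (hy ▸ pow_orderOf_eq_one y)
  have hg1 : g ≠ 1 := fun h => by
    rw [show y = 1 from Subtype.ext (Matrix.toLin'.injective (by
      rw [OneMemClass.coe_one, Matrix.toLin'_one]; exact h)), orderOf_one] at hy
    exact hr'.ne_one hy.symm
  have hdim : Module.finrank F (Fin m ⊕ Fin m → F) = i := by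
    rw [Module.finrank_fintype_fun_eq_card, Fintype.card_sum, Fintype.card_fin, him, two_mul]
  obtain ⟨hirr, hdeg⟩ := Arith.irreducible_minpoly_of_primitive (n := i) (by omega) hi.symm hg1 hgr (by
    refine (Polynomial.natDegree_le_of_dvd (LinearMap.minpoly_dvd_charpoly _) (LinearMap.charpoly_monic _).ne_zero).trans ?_
    rw [LinearMap.charpoly_natDegree, hdim])
  set μ := minpoly F g
  have : Fact (Irreducible μ) := ⟨hirr⟩
  set L := AdjoinRoot μ
  have hμr : μ ∣ X ^ r - 1 := minpoly.dvd F g (by simp [hgr])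
  have hroot : AdjoinRoot.root μ ^ r = 1 := by
    have : aeval (AdjoinRoot.root μ) (X ^ r - 1 : F[X]) = 0 := by
      rw [AdjoinRoot.aeval_eq, AdjoinRoot.mk_eq_zero]; exact hμr
    simpa [sub_eq_zero] using this
  have hne1 : AdjoinRoot.root μ ≠ 1 := fun h => by
    have h1 : μ ∣ X - C (1 : F) := by rw [← AdjoinRoot.mk_eq_zero]; simp [h]
    have h2 := natDegree_le_of_dvd h1 (X_sub_C_ne_zero (1 : F))
    rw [natDegree_X_sub_C, hdeg] at h2
    omega
  have hprim : IsPrimitiveRoot (AdjoinRoot.root μ) r := by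
    rw [← orderOf_eq_prime hroot hne1]; exact IsPrimitiveRoot.orderOf _
  have hspl : ((X : L[X]) ^ r - 1).Splits := by
    rw [← map_one (C : L →+* L[X])]
    exact X_pow_sub_C_splits_of_isPrimitiveRoot hprim (one_pow r)
  have hdvd : P.map (algebraMap F L) ∣ (X : L[X]) ^ r - 1 := by
    have h := Polynomial.map_dvd (algebraMap F L) (hPc.trans ⟨_, (cyclotomic_prime_mul_X_sub_one F r).symm⟩)
    simpa using h
  have hdeg0 : (P.map (algebraMap F L)).degree ≠ 0 := by
    rw [degree_map]; exact (degree_pos_of_irreducible hP).ne'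
  obtain ⟨δ, hδ⟩ := (hspl.of_dvd (X_pow_sub_C_ne_zero hr'.pos (1 : L) |> fun h => by simpa using h) hdvd).exists_eval_eq_zero hdeg0
  have hδr : δ ^ r = 1 := by
    have := Polynomial.eval_eq_zero_of_dvd_of_eval_eq_zero hdvd hδ
    simpa [sub_eq_zero] using this
  have : NeZero r := ⟨hr'.ne_zero⟩
  obtain ⟨e, he, hδe⟩ := hprim.eq_pow_of_pow_eq_one hδr
  have hPe : aeval (g ^ e) P = 0 := by
    have h0 : aeval (AdjoinRoot.root μ) (P.comp (X ^ e)) = 0 := by
      rw [aeval_comp, map_pow, aeval_X, hδe, aeval_def, eval₂_eq_eval_map]; exact hδ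
    rw [AdjoinRoot.aeval_eq, AdjoinRoot.mk_eq_zero] at h0
    obtain ⟨R, hR⟩ := h0
    have : aeval g (P.comp (X ^ e)) = 0 := by rw [hR, map_mul, minpoly.aeval, zero_mul]
    rwa [aeval_comp, map_pow, aeval_X] at this
  have hPdeg : P.natDegree = i := (Arith.natDegree_irreducible_factor_cyclotomic hr hP hPc).trans hi.symm
  have hδne : δ ≠ 1 := fun h => by
    have h0 : P.eval 1 = 0 := by
      rw [h, eval_map, eval₂_at_one] at hδ
      exact (algebraMap F L).injective (by rw [hδ, map_zero])
    have := natDegree_eq_of_degree_eq (degree_eq_degree_of_associated ((irreducible_X_sub_C (1 : F)).associated_of_dvd hP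
      (dvd_iff_isRoot.2 h0)))
    rw [natDegree_X_sub_C, hPdeg] at this
    omega
  have hge1 : g ^ e ≠ 1 := fun h => by
    rw [h] at hPe
    have h0 : P.eval 1 = 0 := by
      by_contra h0
      have hne : (Fin m ⊕ Fin m → F) := fun _ => 1
      have := LinearMap.congr_fun hPe (fun _ => 1)
      rw [show (1 : Module.End F (Fin m ⊕ Fin m → F)) = algebraMap F _ 1 by simp, aeval_algebraMap_apply_eq_algebraMap_eval,
        Module.algebraMap_end_apply, LinearMap.zero_apply, smul_eq_zero] at this
      exact one_ne_zero (congrFun (this.resolve_left h0) (Sum.inl ⟨0, hm⟩) : (1 : F) = 0)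
    have := natDegree_eq_of_degree_eq (degree_eq_degree_of_associated ((irreducible_X_sub_C (1 : F)).associated_of_dvd hP
      (dvd_iff_isRoot.2 h0)))
    rw [natDegree_X_sub_C, hPdeg] at this
    omega
  have her : (g ^ e) ^ r = 1 := by rw [← pow_mul, mul_comm, pow_mul, hgr, one_pow]
  have hcop : Nat.Coprime e r := (hr'.coprime_iff_not_dvd.2 fun ⟨w, hw⟩ => hge1 (by rw [hw, pow_mul, hgr, one_pow])).symm
  have hback : ∀ W : Submodule F (Fin m ⊕ Fin m → F), (∀ v ∈ W, (g ^ e) v ∈ W) → ∀ v ∈ W, g v ∈ W := by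
    obtain ⟨u, hu⟩ : ∃ u : ℕ, g = (g ^ e) ^ u := by
      obtain ⟨u, hu⟩ := Nat.exists_mul_mod_eq_one_of_coprime hcop hr'.one_lt
      exact ⟨u, by rw [← pow_mul, pow_eq_pow_mod (e * u) hgr, hu.2, pow_one]⟩
    intro W hW v hv
    rw [hu]
    clear hu
    induction u with
    | zero => exact hv
    | succ u ih => rw [pow_succ', Module.End.mul_apply]; exact hW _ ih
  refine ⟨g ^ e, her, ?_, ?_, hPe, fun W hW => hy' W (hback W hW)⟩
  · intro a b
    have : ∀ k a b, sympBil m F ((g ^ k) a) ((g ^ k) b) = sympBil m F a b := fun k => by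
      induction k with
      | zero => intro a b; simp
      | succ k ih =>
        intro a b
        rw [pow_succ', Module.End.mul_apply, Module.End.mul_apply, hg, sympBil_toLin', ← hg, ih]
    exact this e a b
  · intro a ha
    rcases hy' (LinearMap.ker (g ^ e - 1)) (fun v hv => by
      rw [LinearMap.mem_ker, LinearMap.sub_apply, Module.End.one_apply, sub_eq_zero] at hv ⊢
      rw [← Module.End.mul_apply, ← pow_succ, pow_succ', Module.End.mul_apply, hv]) with h | h
    · exact (mem_bot F).1 (h ▸ show a ∈ LinearMap.ker (g ^ e - 1) by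
        rw [LinearMap.mem_ker, LinearMap.sub_apply, Module.End.one_apply, ha, sub_self])
    · exact absurd (sub_eq_zero.1 (LinearMap.ker_eq_top.1 h)) hge1

/-- An element all of whose isotropic invariant subspaces are small: `j` blocks, all but one class single. -/
theorem exists_small_isotropic (hr : ¬ r ∣ Fintype.card F) {d i : ℕ}
    (hi : i = orderOf ((Fintype.card F : ℕ) : ZMod r)) (hev : Even i) {j t' : ℕ} (hjd : j * i ≤ 2 * d)
    (ht' : 0 < t') (ht'j : t' ≤ j) (ht : t' ≤ (r - 1) / i) (hpar : Even (j - t')) :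
    ∃ x : Matrix.symplecticGroup (Fin d) F, x ^ r = 1 ∧ x ≠ 1 ∧
      ∀ W : Submodule F (Fin d ⊕ Fin d → F), IsoOn (sympBil d F) W →
        (∀ v ∈ W, Matrix.toLin' (x : Matrix (Fin d ⊕ Fin d) (Fin d ⊕ Fin d) F) v ∈ W) →
        2 * Module.finrank F W + t' * i ≤ 2 * d := by
  classical
  obtain ⟨m, him⟩ := hev
  have him2 : i = 2 * m := by omega
  have hi0 : 0 < i := hi ▸ orderOf_pos_of_not_dvd hr
  have hm : 0 < m := by omega
  obtain ⟨P, hPinj, hP⟩ := exists_cyclotomic_factors hr hi
  -- the classes: singles `1 ≤ s < t'`, all others the class of `0`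
  let cls : Fin j → Fin t' := fun s => if h : (s : ℕ) < t' then ⟨s, h⟩ else ⟨0, ht'⟩
  let Q : Fin j → F[X] := fun s => P (Fin.castLE ht (cls s))
  choose f hfr hfB hffix hfP hfirr using fun s : Fin j =>
    exists_block_of_factor hr hm him2 hi (hP (Fin.castLE ht (cls s))).1 (hP (Fin.castLE ht (cls s))).2.2
  have hjm : j * m ≤ d := by rw [him2, Nat.mul_left_comm] at hjd; omega
  let ι : Fin j → Fin m → Fin d := fun s l => Fin.castLE hjm (finProdFinEquiv (s, l))
  have hι : BlockIdx ι := ⟨fun s a b h => by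
      have := finProdFinEquiv.injective (Fin.castLE_injective hjm h); simpa using this,
    fun s s' hss' k l h => hss' (congrArg Prod.fst (finProdFinEquiv.injective (Fin.castLE_injective hjm h)))⟩
  set g := blocksEnd ι f with hgdef
  have hgr : g ^ r = 1 := by
    rw [hgdef, hι.blocksEnd_pow]
    exact LinearMap.ext fun v => by simp [blocksEnd_apply, hfr]
  have hgB : ∀ u v, sympBil d F (g u) (g v) = sympBil d F u v := hι.sympBil_blocksEnd hfB
  let x : Matrix.symplecticGroup (Fin d) F := ⟨LinearMap.toMatrix' g, by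
    rw [mem_symplecticGroup_iff_sympForm]
    intro u v
    rw [LinearMap.toMatrix'_mulVec, LinearMap.toMatrix'_mulVec, ← sympBil_apply, ← sympBil_apply]
    exact hgB u v⟩
  have hx : Matrix.toLin' (x : Matrix (Fin d ⊕ Fin d) (Fin d ⊕ Fin d) F) = g := Matrix.toLin'_toMatrix' g
  refine ⟨x, Subtype.ext (Matrix.toLin'.injective ?_), fun h => ?_, fun W hWI hW => ?_⟩
  · rw [SubmonoidClass.coe_pow, Matrix.toLin'_pow, hx, hgr, OneMemClass.coe_one, Matrix.toLin'_one]
    rfl
  · have h0 : ∀ v, g v = v := fun v => by rw [← hx, h, OneMemClass.coe_one, Matrix.toLin'_one]; rfl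
    let a : Fin m ⊕ Fin m → F := fun _ => 1
    let s₀ : Fin j := ⟨0, by omega⟩
    have := hι.proj_blocksEnd f s₀ (pairExt F (ι s₀) a)
    rw [← hgdef, h0, pairProj_pairExt (hι.inj s₀)] at this
    exact one_ne_zero (congrFun (hffix s₀ a this.symm) (Sum.inl ⟨0, hm⟩) : (1 : F) = 0)
  rw [hx] at hW
  obtain ⟨Y, hYW, hY, hYC, hYr, hWd⟩ := exists_fixed_moving hgr hr hW
  -- vectors in the range of `g - 1` are sums of blocks
  have hrange : ∀ y ∈ LinearMap.range (g - 1), y = ∑ s, pairExt F (ι s) (pairProj F (ι s) y) := by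
    rintro _ ⟨v, rfl⟩
    conv_lhs => rw [LinearMap.sub_apply, Module.End.one_apply, hgdef, blocksEnd_apply, add_sub_cancel_left]
    refine Finset.sum_congr rfl fun s _ => ?_
    rw [LinearMap.sub_apply, Module.End.one_apply, map_sub (pairProj F (ι s)), hgdef, hι.proj_blocksEnd]
  have hQ : ∀ (R : F[X]) (y : Fin d ⊕ Fin d → F), y ∈ LinearMap.range (g - 1) →
      aeval g R y = ∑ s, pairExt F (ι s) (aeval (f s) R (pairProj F (ι s) y)) := by
    intro R y hy
    conv_lhs => rw [hrange y hy, map_sum]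
    exact Finset.sum_congr rfl fun s _ => hι.aeval_pairExt f s R _
  -- single classes do not meet `Y`
  have hsingle : ∀ s₀ : Fin j, (s₀ : ℕ) < t' → 0 < (s₀ : ℕ) → ∀ y ∈ Y, pairProj F (ι s₀) y = 0 := by
    intro s₀ hs₀ hs₀' y hy
    set R := ∏ l ∈ Finset.univ.erase (cls s₀), P (Fin.castLE ht l) with hR
    have hz : aeval g R y = pairExt F (ι s₀) (aeval (f s₀) R (pairProj F (ι s₀) y)) := by
      rw [hQ R y (hYr hy), Finset.sum_eq_single s₀ (fun s _ hs => ?_) (fun h => absurd (Finset.mem_univ _) h)]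
      have hcl : cls s ≠ cls s₀ := fun h => hs <| Fin.ext <| by
        have := congrArg Fin.val h
        simp only [cls, dif_pos hs₀] at this
        split_ifs at this with h'
        · exact this
        · simp only at this; omega
      obtain ⟨R', hR'⟩ : P (Fin.castLE ht (cls s)) ∣ R := Finset.dvd_prod_of_mem _ (Finset.mem_erase.2 ⟨hcl, Finset.mem_univ _⟩)
      rw [hR', map_mul, hfP s, zero_mul, LinearMap.zero_apply, map_zero]
    let X₀ := Y.comap (pairExt F (ι s₀))
    have hX₀ : ∀ a ∈ X₀, f s₀ a ∈ X₀ := fun a ha => by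
      show pairExt F (ι s₀) (f s₀ a) ∈ Y
      have h1 := hι.aeval_pairExt f s₀ X a
      rw [aeval_X, aeval_X] at h1
      rw [← h1]
      exact hY _ ha
    have hbot : X₀ = ⊥ := (hfirr s₀ X₀ hX₀).resolve_right fun htop => by
      have hne : (fun _ => (1 : F) : Fin m ⊕ Fin m → F) ≠ 0 := fun h => one_ne_zero (congrFun h (Sum.inl ⟨0, hm⟩))
      refine hne (sympBil_nondegenerate.1 _ fun b => ?_)
      have h := hWI _ (hYW (show pairExt F (ι s₀) (fun _ => (1 : F)) ∈ Y from (htop ▸ mem_top : _ ∈ X₀)))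
        _ (hYW (show pairExt F (ι s₀) b ∈ Y from (htop ▸ mem_top : b ∈ X₀)))
      rwa [sympBil_pairExt (hι.inj s₀), pairProj_pairExt (hι.inj s₀)] at h
    have ha : aeval (f s₀) R (pairProj F (ι s₀) y) = 0 := by
      have : aeval (f s₀) R (pairProj F (ι s₀) y) ∈ X₀ := by
        show pairExt F (ι s₀) _ ∈ Y
        rw [← hz]
        exact aeval_mem hY R y hy
      rwa [hbot, mem_bot] at this
    by_contra hne
    have hPR := (hP (Fin.castLE ht (cls s₀))).1
    by_cases hd : P (Fin.castLE ht (cls s₀)) ∣ R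
    · obtain ⟨l, hl, hdl⟩ := (Prime.dvd_finsetProd_iff hPR.prime _).1 hd
      exact (Finset.mem_erase.1 hl).1 (Fin.castLE_injective ht (hPinj (eq_of_monic_of_associated (hP _).2.1 (hP _).2.1
        (hPR.associated_of_dvd (hP _).1 hdl)))).symm
    · obtain ⟨u, v, huv⟩ := (hPR.coprime_iff_not_dvd).2 hd
      have := congrArg (fun S => aeval (f s₀) S (pairProj F (ι s₀) y)) huv
      simp [Module.End.mul_apply, ha, hfP s₀] at this
      exact hne this.symm
  -- the remaining blocks
  let G : Finset (Fin j) := Finset.univ.filter fun s => ¬ ((s : ℕ) < t' ∧ 0 < (s : ℕ))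
  have hGcard : G.card = j + 1 - t' := by
    have h1 : (Finset.univ.filter fun s : Fin j => ((s : ℕ) < t' ∧ 0 < (s : ℕ))).card = t' - 1 := by
      rw [← Finset.card_range (t' - 1)]
      refine Finset.card_bij (fun s _ => (s : ℕ) - 1) (fun s hs => ?_) (fun s hs s' hs' h => ?_) (fun l hl => ?_)
      · rw [Finset.mem_filter] at hs; rw [Finset.mem_range]; omega
      · rw [Finset.mem_filter] at hs hs'; exact Fin.ext (by omega)
      · rw [Finset.mem_range] at hl
        exact ⟨⟨l + 1, by omega⟩, Finset.mem_filter.2 ⟨Finset.mem_univ _, by show l + 1 < t'; omega, Nat.succ_pos l⟩, rfl⟩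
    have h2 := Finset.card_filter_add_card_filter_not (s := (Finset.univ : Finset (Fin j)))
      (fun s => ((s : ℕ) < t' ∧ 0 < (s : ℕ)))
    rw [h1, Finset.card_univ, Fintype.card_fin] at h2
    show G.card = _
    simp only [G]
    omega
  have hGne : ⟨0, by omega⟩ ∈ G := Finset.mem_filter.2 ⟨Finset.mem_univ _, by simp⟩
  let Φ : ({s // s ∈ G} → (Fin m ⊕ Fin m → F)) →ₗ[F] (Fin d ⊕ Fin d → F) :=
    ∑ s : {s // s ∈ G}, (pairExt F (ι s.1)).comp (LinearMap.proj s)
  have hΦ : ∀ a, Φ a = ∑ s : {s // s ∈ G}, pairExt F (ι s.1) (a s) := fun a => by simp [Φ]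
  have hproj : ∀ a (s : {s // s ∈ G}), pairProj F (ι s.1) (Φ a) = a s := by
    intro a s
    rw [hΦ, map_sum, Finset.sum_eq_single s (fun s' _ h => pairProj_pairExt_of_disjoint
      (hι.disj _ _ fun h' => h (Subtype.ext h')) _) (fun h => absurd (Finset.mem_univ _) h), pairProj_pairExt (hι.inj _)]
  have hN : NonDegOn (sympBil d F) (LinearMap.range Φ) := by
    rintro _ ⟨a, rfl⟩ h
    rw [show a = 0 from funext fun s => sympBil_nondegenerate.1 _ fun b => ?_, map_zero]
    have h' := h (Φ (Pi.single s b)) ⟨_, rfl⟩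
    rw [hΦ a, map_sum, LinearMap.sum_apply, Finset.sum_eq_single s (fun s' _ hs' => by
      rw [sympBil_pairExt (hι.inj _), hproj, Pi.single_eq_of_ne hs', map_zero]) (fun h => absurd (Finset.mem_univ _) h),
      sympBil_pairExt (hι.inj _), hproj, Pi.single_eq_same] at h'
    exact h'
  have hYΦ : Y ≤ LinearMap.range Φ := fun y hy => by
    refine ⟨fun s => pairProj F (ι s.1) y, ?_⟩
    conv_rhs => rw [hrange y (hYr hy)]
    rw [hΦ, ← Finset.sum_subtype G (fun _ => Iff.rfl) (fun s => pairExt F (ι s) (pairProj F (ι s) y))]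
    refine Finset.sum_subset (Finset.subset_univ G) fun s _ hs => ?_
    rw [Finset.mem_filter] at hs
    push Not at hs
    obtain ⟨hs1, hs2⟩ := hs (Finset.mem_univ s)
    rw [hsingle s hs1 hs2 y hy, map_zero]
  have hYd := two_mul_finrank_le hYΦ hN (fun a ha b hb => hWI a (hYW ha) b (hYW hb))
  have hΦd : Module.finrank F (LinearMap.range Φ) = (j + 1 - t') * i := by
    rw [LinearMap.finrank_range_of_inj (fun a b h => funext fun s => by rw [← hproj a s, h, hproj]),
      Module.finrank_pi_fintype, Finset.sum_congr rfl (fun _ _ => Module.finrank_fintype_fun_eq_card F), Finset.sum_const,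
      Finset.card_univ, Fintype.card_coe, hGcard, Fintype.card_sum, Fintype.card_fin, smul_eq_mul, him]
  rw [hΦd] at hYd
  have hdvd := dvd_finrank_moving hgr hr hY hYC
  rw [← hi] at hdvd
  obtain ⟨z, hz⟩ := hdvd
  obtain ⟨w, hw⟩ := hpar
  have hz' : z ≤ w := by
    have h1 : i * (2 * z) ≤ i * (j + 1 - t') := by rw [Nat.mul_left_comm, ← hz, mul_comm i]; exact hYd
    have := Nat.le_of_mul_le_mul_left h1 hi0
    omega
  -- the fixed part
  have hCd : Module.finrank F (LinearMap.ker (g - 1)) + j * i = 2 * d := by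
    let Φj : (Fin j → (Fin m ⊕ Fin m → F)) →ₗ[F] (Fin d ⊕ Fin d → F) :=
      ∑ s, (pairExt F (ι s)).comp (LinearMap.proj s)
    have hΦj : ∀ a, Φj a = ∑ s, pairExt F (ι s) (a s) := fun a => by simp [Φj]
    have hker : LinearMap.ker (g - 1) = LinearMap.ker (LinearMap.pi fun s => pairProj F (ι s)) := by
      ext v
      rw [mem_ker_sub_one, LinearMap.mem_ker]
      constructor
      · intro hv
        funext s
        exact hffix s _ (show f s (pairProj F (ι s) v) = pairProj F (ι s) v by
          rw [← hι.proj_blocksEnd, ← hgdef, hv])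
      · intro hv
        rw [hgdef, blocksEnd_apply, Finset.sum_eq_zero (fun s _ => ?_), add_zero]
        rw [show pairProj F (ι s) v = 0 from congrFun hv s, map_zero, sub_zero, map_zero]
    have hsurj : LinearMap.range (LinearMap.pi fun s => pairProj F (ι s)) = ⊤ :=
      LinearMap.range_eq_top.2 fun a => ⟨Φj a, funext fun s => by
        show pairProj F (ι s) (Φj a) = a s
        rw [hΦj, hι.proj_sum]⟩
    have h := LinearMap.finrank_range_add_finrank_ker (LinearMap.pi fun s => pairProj (d := d) F (ι s))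
    rw [hsurj, finrank_top, ← hker, Module.finrank_pi_fintype, Finset.sum_congr rfl (fun _ _ => Module.finrank_fintype_fun_eq_card F),
      Finset.sum_const, Finset.card_univ, Fintype.card_fin, Fintype.card_sum, Fintype.card_fin, smul_eq_mul,
      Module.finrank_fintype_fun_eq_card, Fintype.card_sum, Fintype.card_fin, ← him] at h
    omega
  have hWC := two_mul_finrank_le (inf_le_right : W ⊓ LinearMap.ker (g - 1) ≤ LinearMap.ker (g - 1))
    (by
      have h := nonDegOn_inf_ker sympBil_isAlt hgB hgr hr (W := ⊤) (fun _ _ => trivial) (nonDegOn_top sympBil_nondegenerate)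
      rwa [top_inf_eq] at h)
    (fun a ha b hb => hWI a ha.1 b hb.1)
  rw [hWd, hz]
  have h1 : (2 * z + t') * i ≤ j * i := Nat.mul_le_mul_right i (by omega)
  rw [Nat.add_mul, Nat.mul_assoc, mul_comm z i] at h1
  omega

end Cfsg.Agent.Elusive
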