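import Cfsg.Agent.Elusive.Planes
import Cfsg.Agent.Elusive.Involution

/-!
Elements of the symplectic group with scalar square.
-/

namespace Cfsg.Agent.Elusive

open Cfsg.Agent.Forms Submodule

variable {F : Type*} [Field F] {d : ℕ}

/-- The linear map of a symplectic matrix with scalar square. -/
theorem symp_sq_scalar (hd : 0 < d) (x : ↥(Matrix.symplecticGroup (Fin d) F)) {z : F}
    (hz : ((x ^ 2 : ↥(Matrix.symplecticGroup (Fin d) F)) : Matrix (Fin d ⊕ Fin d) (Fin d ⊕ Fin d) F)
      = z • (1 : Matrix (Fin d ⊕ Fin d) (Fin d ⊕ Fin d) F)) :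
    let f := Matrix.toLin' (x : Matrix (Fin d ⊕ Fin d) (Fin d ⊕ Fin d) F)
    (∀ u v, sympBil d F (f u) (f v) = sympBil d F u v) ∧ (∀ v, f (f v) = z • v) ∧ z * z = 1 := by
  intro f
  have hiso : ∀ u v, sympBil d F (f u) (f v) = sympBil d F u v := fun u v => by
    simp only [f, sympBil_apply, Matrix.toLin'_apply]
    exact mem_symplecticGroup_iff_sympForm.1 x.2 u v
  have hff : ∀ v, f (f v) = z • v := fun v => by
    rw [SubmonoidClass.coe_pow, pow_two] at hz
    simp only [f, Matrix.toLin'_apply, Matrix.mulVec_mulVec, hz, Matrix.smul_mulVec, Matrix.one_mulVec]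
  refine ⟨hiso, hff, ?_⟩
  let i : Fin d := ⟨0, hd⟩
  have h1 : sympBil d F (Pi.single (Sum.inr i) 1) (Pi.single (Sum.inl i) 1) = 1 := by
    simp [sympBil_apply, sympForm_apply, Pi.single_apply]
  have := hiso (f (Pi.single (Sum.inr i) 1)) (f (Pi.single (Sum.inl i) 1))
  rw [hff, hff, hiso, h1, map_smul, map_smul, LinearMap.smul_apply, h1] at this
  simpa using this

theorem nondegInv_top (f : (Fin d ⊕ Fin d → F) →ₗ[F] (Fin d ⊕ Fin d → F)) :
    NondegInv (sympBil d F) f ⊤ :=
  ⟨fun _ _ => trivial, fun u _ h => sympBil_nondegenerate.1 u fun v => h v trivial⟩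

theorem card_planes {ι : Type} [Fintype ι] [DecidableEq ι] {v w : ι → Fin d ⊕ Fin d → F}
    (h : IsHypFamily (sympBil d F) v w) (hspan : span F (Set.range (Sum.elim v w)) = ⊤) :
    Fintype.card ι = d := by
  have := finrank_span_eq_card (h.linearIndependent sympBil_isAlt)
  rw [hspan, finrank_top, Module.finrank_fintype_fun_eq_card] at this
  simp only [Fintype.card_sum, Fintype.card_fin] at this
  omega

end Cfsg.Agent.Elusive
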