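import Cfsg.Agent.Elusive.Imprimitive
import Cfsg.Agent.SympSub.Iso
import Cfsg.Agent.Arith.FiniteField

/-!
Isometries of odd prime order of a nondegenerate alternating form: orthogonal sums of invariant
nondegenerate subspaces.
-/

namespace Cfsg.Agent.Elusive

open Polynomial Submodule

variable {F : Type*} [Field F] {V : Type*} [AddCommGroup V] [Module F V]

/-- The subspace `W` has trivial radical. -/
def NonDegOn (B : LinearMap.BilinForm F V) (W : Submodule F V) : Prop :=
  ∀ x ∈ W, (∀ y ∈ W, B x y = 0) → x = 0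

theorem alt_symm_zero {B : LinearMap.BilinForm F V} (hA : B.IsAlt) {x y : V} (h : B x y = 0) : B y x = 0 := by
  rw [← LinearMap.IsAlt.neg hA x y, h, neg_zero]

theorem nonDegOn_bot (B : LinearMap.BilinForm F V) : NonDegOn B ⊥ := fun _ hx _ => (mem_bot F).1 hx

theorem nonDegOn_top {B : LinearMap.BilinForm F V} (hB : B.Nondegenerate) : NonDegOn B ⊤ :=
  fun x _ h => hB.1 x fun y => h y mem_top

theorem nonDegOn_sup {B : LinearMap.BilinForm F V} (hA : B.IsAlt) {X Y : Submodule F V} (hX : NonDegOn B X)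
    (hY : NonDegOn B Y) (ho : ∀ x ∈ X, ∀ y ∈ Y, B x y = 0) : NonDegOn B (X ⊔ Y) := by
  intro z hz h
  obtain ⟨x, hx, y, hy, rfl⟩ := mem_sup.1 hz
  have h1 : x = 0 := hX x hx fun x' hx' => by
    have := h x' (mem_sup_left hx')
    rwa [map_add, LinearMap.add_apply, alt_symm_zero hA (ho x' hx' y hy), add_zero] at this
  subst h1
  rw [zero_add] at h ⊢
  exact hY y hy fun y' hy' => h y' (mem_sup_right hy')

theorem nonDegOn_restrict {B : LinearMap.BilinForm F V} (hA : B.IsAlt) {W : Submodule F V} (hW : NonDegOn B W) :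
    (B.restrict W).IsAlt ∧ (B.restrict W).Nondegenerate :=
  ⟨fun x => hA x, fun x h => Subtype.ext (hW x x.2 fun y hy => h ⟨y, hy⟩),
    fun y h => Subtype.ext (hW y y.2 fun x hx => alt_symm_zero hA (h ⟨x, hx⟩))⟩

variable [FiniteDimensional F V]

theorem even_finrank_of_nonDegOn {B : LinearMap.BilinForm F V} (hA : B.IsAlt) {W : Submodule F V}
    (hW : NonDegOn B W) : Even (Module.finrank F W) := by
  obtain ⟨m, b, -⟩ := Forms.exists_symplectic_basis (nonDegOn_restrict hA hW).1 (nonDegOn_restrict hA hW).2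
  exact ⟨m, by rw [Module.finrank_eq_card_basis b, Fintype.card_sum, Fintype.card_fin]⟩

theorem nonDegOn_split {B : LinearMap.BilinForm F V} (hA : B.IsAlt) {W U : Submodule F V} (hUW : U ≤ W)
    (hU : NonDegOn B U) (hW : NonDegOn B W) :
    U ⊔ W ⊓ B.orthogonal U = W ∧ Disjoint U (W ⊓ B.orthogonal U) ∧ NonDegOn B (W ⊓ B.orthogonal U) := by
  have hc := LinearMap.BilinForm.isCompl_orthogonal_of_restrict_nondegenerate (fun _ _ h => alt_symm_zero hA h)
    (nonDegOn_restrict hA hU).2
  have hsup : U ⊔ W ⊓ B.orthogonal U = W := by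
    rw [inf_comm, ← sup_inf_assoc_of_le _ hUW, hc.sup_eq_top, top_inf_eq]
  refine ⟨hsup, hc.disjoint.mono_right inf_le_right, fun x hx h => hW x hx.1 fun w hw => ?_⟩
  rw [← hsup] at hw
  obtain ⟨u, hu, y, hy, rfl⟩ := mem_sup.1 hw
  rw [map_add, h y hy, alt_symm_zero hA (hx.2 u hu), add_zero]

theorem orthogonal_invariant {B : LinearMap.BilinForm F V} {f : Module.End F V} (hB : ∀ u v, B (f u) (f v) = B u v)
    (hf : Function.Injective f) {U : Submodule F V} (hU : ∀ v ∈ U, f v ∈ U) :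
    ∀ v ∈ B.orthogonal U, f v ∈ B.orthogonal U := by
  intro v hv u hu
  have hmap : U.map f = U := eq_of_le_of_finrank_le (map_le_iff_le_comap.2 hU)
    (equivMapOfInjective f hf U).finrank_eq.le
  obtain ⟨u', hu', rfl⟩ := (hmap.symm ▸ hu : u ∈ U.map f)
  exact (hB u' v).trans (hv u' hu')

/-- Repeatedly splitting off pieces of dimension `c`. -/
theorem exists_nonDegOn_mult {B : LinearMap.BilinForm F V} (hA : B.IsAlt) {f : Module.End F V}
    (hB : ∀ u v, B (f u) (f v) = B u v) (hf : Function.Injective f) {c : ℕ} (W : Submodule F V)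
    (hW : ∀ v ∈ W, f v ∈ W) (hN : NonDegOn B W)
    (step : ∀ Y ≤ W, (∀ v ∈ Y, f v ∈ Y) → NonDegOn B Y → Y ≠ ⊥ →
      ∃ U ≤ Y, (∀ v ∈ U, f v ∈ U) ∧ NonDegOn B U ∧ Module.finrank F U = c)
    (j : ℕ) (hj : j * c ≤ Module.finrank F W) :
    ∃ U ≤ W, (∀ v ∈ U, f v ∈ U) ∧ NonDegOn B U ∧ Module.finrank F U = j * c := by
  induction j with
  | zero => exact ⟨⊥, bot_le, fun v hv => by simp_all, nonDegOn_bot B, by simp⟩
  | succ j ih =>
    rw [Nat.succ_mul] at hj
    obtain ⟨U, hUW, hU, hUN, hUd⟩ := ih (by omega)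
    obtain ⟨hsup, hdis, hYN⟩ := nonDegOn_split hA hUW hUN hN
    have hY : ∀ v ∈ W ⊓ B.orthogonal U, f v ∈ W ⊓ B.orthogonal U :=
      fun v hv => ⟨hW v hv.1, orthogonal_invariant hB hf hU v hv.2⟩
    rcases Nat.eq_zero_or_pos c with rfl | hc
    · exact ⟨U, hUW, hU, hUN, by simpa using hUd⟩
    obtain ⟨U', hU'Y, hU', hU'N, hU'd⟩ := step _ inf_le_left hY hYN fun h => by
      have := finrank_eq_add_of_disjoint hsup hdis
      rw [h, finrank_bot] at this; omega
    refine ⟨U ⊔ U', sup_le hUW (hU'Y.trans inf_le_left), fun v hv => ?_,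
      nonDegOn_sup hA hUN hU'N fun x hx y hy => (hU'Y hy).2 x hx, ?_⟩
    · obtain ⟨a, ha, b, hb, rfl⟩ := mem_sup.1 hv
      rw [map_add]
      exact add_mem_sup (hU a ha) (hU' b hb)
    · rw [finrank_eq_add_of_disjoint rfl (hdis.mono_right hU'Y), hUd, hU'd, Nat.succ_mul]

theorem exists_nonDegOn_of_even {B : LinearMap.BilinForm F V} (hA : B.IsAlt) {W : Submodule F V}
    (hW : NonDegOn B W) {k : ℕ} (hk : Even k) (hk' : k ≤ Module.finrank F W) :
    ∃ U ≤ W, NonDegOn B U ∧ Module.finrank F U = k := by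
  obtain ⟨j, rfl⟩ := hk
  suffices step : ∀ Y ≤ W, (∀ v ∈ Y, (1 : Module.End F V) v ∈ Y) → NonDegOn B Y → Y ≠ ⊥ →
      ∃ U ≤ Y, (∀ v ∈ U, (1 : Module.End F V) v ∈ U) ∧ NonDegOn B U ∧ Module.finrank F U = 2 by
    obtain ⟨U, hUW, -, hUN, hUd⟩ := exists_nonDegOn_mult hA (f := 1) (fun _ _ => rfl) (fun _ _ h => h) (c := 2) W
      (fun v hv => hv) hW step j (by omega)
    exact ⟨U, hUW, hUN, by omega⟩
  intro Y _ _ hY hne
  obtain ⟨u, hu, hu0⟩ := exists_mem_ne_zero_of_ne_bot hne
  obtain ⟨v, hv, huv⟩ : ∃ v ∈ Y, B u v ≠ 0 := by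
    by_contra h
    push Not at h
    exact hu0 (hY u hu h)
  have key : ∀ a b : F, B u (a • u + b • v) = b * B u v ∧ B v (a • u + b • v) = -(a * B u v) := fun a b => by
    refine ⟨?_, ?_⟩
    · rw [map_add, map_smul, map_smul, hA u, smul_eq_mul, smul_eq_mul, mul_zero, zero_add]
    · rw [map_add, map_smul, map_smul, hA v, ← LinearMap.IsAlt.neg hA u v, smul_eq_mul, smul_eq_mul, mul_zero,
        add_zero, mul_neg]
  have hli : LinearIndependent F ![u, v] := by
    refine LinearIndependent.pair_iff.2 fun a b hab => ?_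
    obtain ⟨h1, h2⟩ := key a b
    rw [hab, map_zero] at h1 h2
    exact ⟨by simpa [huv] using h2.symm, by simpa [huv] using h1.symm⟩
  refine ⟨span F {u, v}, span_le.2 (Set.pair_subset hu hv), fun w hw => hw, fun w hw h => ?_, ?_⟩
  · obtain ⟨a, b, rfl⟩ := mem_span_pair.1 hw
    obtain ⟨h1, h2⟩ := key a b
    have e1 := alt_symm_zero hA (h u (subset_span (Set.mem_insert _ _)))
    have e2 := alt_symm_zero hA (h v (subset_span (Set.mem_insert_of_mem _ rfl)))
    rw [e1] at h1
    rw [e2] at h2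
    rw [show a = 0 by simpa [huv] using h2.symm, show b = 0 by simpa [huv] using h1.symm]
    simp
  · have := finrank_span_eq_card hli
    rwa [Matrix.range_cons_cons_empty, Fintype.card_fin] at this

omit [FiniteDimensional F V] in
/-- Orthogonal nondegenerate subspaces are independent. -/
theorem iSupIndep_of_orthogonal {B : LinearMap.BilinForm F V} {ι : Type*} {D : ι → Submodule F V}
    (hN : ∀ j, NonDegOn B (D j)) (ho : ∀ j j', j ≠ j' → ∀ u ∈ D j, ∀ v ∈ D j', B u v = 0) : iSupIndep D := by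
  intro j
  refine Submodule.disjoint_def.2 fun x hx hx' => hN j x hx fun y hy => ?_
  refine iSup_induction _ (motive := fun z => B z y = 0) hx' (fun k z hz => ?_) (by simp)
    fun z z' h h' => by simp [h, h']
  by_cases hk : k = j
  · rw [iSup_neg (by simpa using hk)] at hz
    rw [(mem_bot F).1 hz, map_zero, LinearMap.zero_apply]
  · rw [iSup_pos hk] at hz
    exact ho k j hk z hz y hy

section order

variable [Fintype F] {r : ℕ} [Fact r.Prime] {B : LinearMap.BilinForm F V} {f : Module.End F V}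

omit [FiniteDimensional F V] [Fintype F] in
theorem injective_of_pow_eq_one (hf : f ^ r = 1) : Function.Injective f := fun u v h => by
  have := congrArg (fun y => (f ^ (r - 1)) y) h
  simpa [← Module.End.mul_apply, ← pow_succ, Nat.sub_add_cancel (Fact.out : r.Prime).one_le, hf] using this

omit [FiniteDimensional F V] [Fintype F] in
theorem sympBil_aeval_adjoint (hB : ∀ u v, B (f u) (f v) = B u v) (hf : f ^ r = 1) (P : F[X]) :
    ∀ u v, B u (aeval f P v) = B (aeval (f ^ (r - 1)) P u) v := by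
  have hr := (Fact.out : r.Prime).one_le
  induction P using Polynomial.induction_on' with
  | add P Q hP hQ => intro u v; simp [hP, hQ]
  | monomial k a =>
    intro u v
    simp only [aeval_monomial, Module.End.mul_apply, Module.algebraMap_end_apply, map_smul, LinearMap.smul_apply]
    congr 1
    induction k generalizing u with
    | zero => simp
    | succ k ih =>
      rw [pow_succ' f, Module.End.mul_apply, pow_succ (f ^ (r - 1)), Module.End.mul_apply, ← ih,
        ← hB ((f ^ (r - 1)) u) _, ← Module.End.mul_apply f (f ^ (r - 1)), ← pow_succ',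
        Nat.sub_add_cancel hr, hf, Module.End.one_apply]

/-- The fixed part of a nondegenerate invariant subspace is nondegenerate. -/
theorem nonDegOn_inf_ker (_hA : B.IsAlt) (hB : ∀ u v, B (f u) (f v) = B u v) (hf : f ^ r = 1)
    (hr : ¬ r ∣ Fintype.card F) {W : Submodule F V} (hW : ∀ v ∈ W, f v ∈ W) (hN : NonDegOn B W) :
    NonDegOn B (W ⊓ LinearMap.ker (f - 1)) := by
  set C := LinearMap.ker (f - 1)
  have hmem : ∀ {v}, v ∈ C ↔ f v = v := fun {v} => by
    rw [LinearMap.mem_ker, LinearMap.sub_apply, Module.End.one_apply, sub_eq_zero]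
  obtain ⟨Y, hYW, hY, hsup, hd⟩ := exists_invariant_compl (semisimple_of_order hf hr) hW
    (X := W ⊓ C) (fun v hv => by rw [hmem.1 hv.2]; exact hv) inf_le_left
  intro x hx h
  refine hN x hx.1 fun w hw => ?_
  rw [← hsup] at hw
  obtain ⟨c, hc, y, hy, rfl⟩ := mem_sup.1 hw
  rw [map_add, h c hc, zero_add]
  let φ : Y →ₗ[F] Y := f.restrict hY - LinearMap.id
  have hφ : Function.Injective φ := (injective_iff_map_eq_zero _).2 fun z hz => Subtype.ext
    (Submodule.disjoint_def.1 hd _ ⟨hYW z.2, hmem.2 (sub_eq_zero.1 (congrArg Subtype.val hz))⟩ z.2)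
  obtain ⟨z, hz⟩ := LinearMap.injective_iff_surjective.1 hφ ⟨y, hy⟩
  have hz' : f z.1 - z.1 = y := congrArg Subtype.val hz
  rw [← hz', map_sub]
  conv_lhs => arg 1; rw [← hmem.1 hx.2]
  rw [hB, sub_self]

/-- A nondegenerate invariant subspace without fixed vectors contains one of dimension `c`, where `c` is the
least even multiple of the order of `q` modulo `r`. -/
theorem exists_nonDegOn_small (hA : B.IsAlt) (hB : ∀ u v, B (f u) (f v) = B u v) (hf : f ^ r = 1)
    (hr : ¬ r ∣ Fintype.card F) (hr2 : r ≠ 2) {W : Submodule F V} (hW : ∀ v ∈ W, f v ∈ W) (hN : NonDegOn B W)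
    (hC : Disjoint (LinearMap.ker (f - 1)) W) (hne : W ≠ ⊥) {i c : ℕ}
    (hi : i = orderOf ((Fintype.card F : ℕ) : ZMod r)) (hc : c = if Even i then i else 2 * i) :
    ∃ U ≤ W, (∀ v ∈ U, f v ∈ U) ∧ NonDegOn B U ∧ Module.finrank F U = c := by
  classical
  have hinj := injective_of_pow_eq_one (r := r) hf
  have hi0 : 0 < i := hi ▸ orderOf_pos_of_not_dvd hr
  have hirr : ∀ (U X : Submodule F V), U ≤ W → Module.finrank F U = i → X ≤ U → (∀ v ∈ X, f v ∈ X) →
      X = ⊥ ∨ X = U := by
    intro U X hUW hUd hXU hX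
    obtain ⟨k, hk, -⟩ := finrank_invariant hf hr hX
    rw [← hi, (hC.mono_right (hXU.trans hUW)).symm.eq_bot, finrank_bot, zero_add] at hk
    rcases Nat.eq_zero_or_pos k with rfl | hk0
    · rw [zero_mul, finrank_eq_zero] at hk; exact Or.inl hk
    · exact Or.inr (eq_of_le_of_finrank_le hXU (by rw [hk, hUd]; exact Nat.le_mul_of_pos_left _ hk0))
  have hiso : ∀ U ≤ W, (∀ v ∈ U, f v ∈ U) → Module.finrank F U = i → ¬ NonDegOn B U →
      ∀ x ∈ U, ∀ y ∈ U, B x y = 0 := by
    intro U hUW hU hUd hnd x hx y hy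
    rcases hirr U (U ⊓ B.orthogonal U) hUW hUd inf_le_left
      (fun v hv => ⟨hU v hv.1, orthogonal_invariant hB hinj hU v hv.2⟩) with h | h
    · refine absurd (fun z hz hzU => (mem_bot F).1 (h ▸ ⟨hz, fun w hw => alt_symm_zero hA (hzU w hw)⟩)) hnd
    · exact (h.symm ▸ hy : y ∈ U ⊓ B.orthogonal U).2 x hx
  obtain ⟨U, hUW, hU, hUd⟩ := exists_small_of_pow_eq_one hf hr hW hC hne
  rw [← hi] at hUd
  by_cases hUN : NonDegOn B U
  · refine ⟨U, hUW, hU, hUN, ?_⟩
    have := even_finrank_of_nonDegOn hA hUN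
    rw [hUd] at this
    rw [hc, if_pos this, hUd]
  have hUi := hiso U hUW hU hUd hUN
  have hperp : ∀ v ∈ W ⊓ B.orthogonal U, f v ∈ W ⊓ B.orthogonal U :=
    fun v hv => ⟨hW v hv.1, orthogonal_invariant hB hinj hU v hv.2⟩
  obtain ⟨R, hRW, hR, hsup, hd⟩ := exists_invariant_compl (semisimple_of_order hf hr) hW hperp inf_le_left
  have hpair : ∀ u ∈ U, (∀ v ∈ R, B u v = 0) → u = 0 := fun u hu h => hN u (hUW hu) fun w hw => by
    rw [← hsup] at hw
    obtain ⟨a, ha, b, hb, rfl⟩ := mem_sup.1 hw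
    rw [map_add, h b hb, ha.2 u hu, add_zero]
  have hpair' : ∀ v ∈ R, (∀ u ∈ U, B u v = 0) → v = 0 := fun v hv h =>
    Submodule.disjoint_def.1 hd v ⟨hRW hv, h⟩ hv
  have hRd : Module.finrank F R = i := by
    let φ : R →ₗ[F] Module.Dual F U := ((LinearMap.lcomp F F U.subtype).comp B.flip).comp R.subtype
    have hφ : Function.Injective φ := (injective_iff_map_eq_zero _).2 fun v hv =>
      Subtype.ext (hpair' v v.2 fun u hu => LinearMap.congr_fun hv ⟨u, hu⟩)
    let ψ : U →ₗ[F] Module.Dual F R := ((LinearMap.lcomp F F R.subtype).comp B).comp U.subtype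
    have hψ : Function.Injective ψ := (injective_iff_map_eq_zero _).2 fun u hu =>
      Subtype.ext (hpair u u.2 fun v hv => LinearMap.congr_fun hu ⟨v, hv⟩)
    have h1 := LinearMap.finrank_le_finrank_of_injective hφ
    have h2 := LinearMap.finrank_le_finrank_of_injective hψ
    rw [Subspace.dual_finrank_eq] at h1 h2
    omega
  by_cases hev : Even i
  swap
  · have hRi := hiso R hRW hR hRd fun h => hev (hRd ▸ even_finrank_of_nonDegOn hA h)
    refine ⟨U ⊔ R, sup_le hUW hRW, fun v hv => ?_, fun x hx h => ?_, ?_⟩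
    · obtain ⟨a, ha, b, hb, rfl⟩ := mem_sup.1 hv
      rw [map_add]
      exact add_mem_sup (hU a ha) (hR b hb)
    · obtain ⟨u, hu, v, hv, rfl⟩ := mem_sup.1 hx
      have hv0 : v = 0 := hpair' v hv fun u' hu' => by
        have := h u' (mem_sup_left hu')
        rw [map_add, LinearMap.add_apply, hUi u hu u' hu', zero_add] at this
        exact alt_symm_zero hA this
      subst hv0
      rw [add_zero] at h ⊢
      exact hpair u hu fun v' hv' => h v' (mem_sup_right hv')
    · rw [finrank_eq_add_of_disjoint rfl, hUd, hRd, hc, if_neg hev, two_mul]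
      exact Submodule.disjoint_def.2 fun x hxU hxR => hpair' x hxR fun u hu => hUi u hu x hxU
  · rw [if_pos hev] at hc
    have : Fintype (⊤ : Subfield F) := Fintype.ofFinite _
    have hcard : Fintype.card (⊤ : Subfield F) = Fintype.card F :=
      Fintype.card_congr (Subfield.topEquiv (K := F)).toEquiv
    obtain ⟨v₀, P, hv₀, hv₀0, hP, hPm, -, hPv⟩ := exists_annihilator (⊤ : Subfield F) hr (by rwa [hcard])
      (by rw [hcard]) hf hU (fun h => by rw [h, finrank_bot] at hUd; omega)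
    have hcyc : ∀ v, aeval f P v = 0 → v ≠ 0 →
        ∃ S : Submodule F V, v ∈ S ∧ (∀ w ∈ S, f w ∈ S) ∧ Module.finrank F S = P.natDegree ∧
          ∀ X : Submodule F V, (∀ w ∈ X, f w ∈ X) → v ∈ X → S ≤ X := by
      intro v hv hv0
      set w := fun j : Fin P.natDegree => (f ^ (j : ℕ)) v
      have hS : ∀ x ∈ span F (Set.range w), f x ∈ span F (Set.range w) := by
        intro x hx
        induction hx using Submodule.span_induction with
        | mem x hx =>
          obtain ⟨j, rfl⟩ := hx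
          exact Submodule.span_le_restrictScalars (⊤ : Subfield F) F (Set.range w)
            (apply_cyclic_mem_span (⊤ : Subfield F) hPm (fun _ => trivial) hv j)
        | zero => simp
        | add x y _ _ hx hy => rw [map_add]; exact add_mem hx hy
        | smul a x _ hx => rw [map_smul]; exact smul_mem _ a hx
      refine ⟨_, ?_, hS, ?_, fun X hX hvX => span_le.2 ?_⟩
      · exact subset_span ⟨⟨0, hP.natDegree_pos⟩, by simp [w]⟩
      · rw [finrank_span_eq_card (linearIndependent_pow_apply hP hv hv0), Fintype.card_fin]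
      · rintro _ ⟨j, rfl⟩
        show (f ^ (j : ℕ)) v ∈ X
        generalize (j : ℕ) = m
        induction m with
        | zero => simpa using hvX
        | succ m ih => rw [pow_succ', Module.End.mul_apply]; exact hX _ ih
    have hdeg : P.natDegree = i := by
      obtain ⟨S, hvS, hS, hSd, hSmin⟩ := hcyc v₀ hPv hv₀0
      rcases hirr U S hUW hUd (hSmin U hU hv₀) hS with h | h
      · exact absurd ((mem_bot F).1 (h ▸ hvS)) hv₀0
      · rw [← hSd, h, hUd]
    have hUk : ∀ u ∈ U, aeval f P u = 0 := by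
      have : U ⊓ LinearMap.ker (aeval f P) = U := by
        refine (hirr U _ hUW hUd inf_le_left fun v hv => ⟨hU v hv.1, ?_⟩).resolve_left fun h =>
          hv₀0 ((mem_bot F).1 (h ▸ ⟨hv₀, hPv⟩))
        show aeval f P (f v) = 0
        rw [← Module.End.mul_apply, show aeval f P * f = f * aeval f P by
          conv_lhs => arg 2; rw [← aeval_X (R := F) f]
          rw [← map_mul, mul_comm, map_mul, aeval_X], Module.End.mul_apply, show aeval f P v = 0 from hv.2, map_zero]
      exact fun u hu => (this.symm ▸ hu : u ∈ U ⊓ _).2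
    obtain ⟨i', hi'⟩ := hev
    set q := Fintype.card F
    have hinv : aeval (f ^ (r - 1)) P = aeval f P ^ q ^ i' := by
      have hexp : ∀ s : ℕ, expand F (q ^ s) P = P ^ q ^ s := by
        intro s
        induction s with
        | zero => simp
        | succ s ih => rw [pow_succ' q, ← expand_expand, ih, map_pow, FiniteField.expand_card, ← pow_mul]
      rw [← map_pow, ← hexp, expand_aeval, pow_eq_pow_mod (q ^ i') hf]
      congr 2
      have h1 : ((q : ZMod r) ^ i') * ((q : ZMod r) ^ i') = 1 := by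
        rw [← pow_add, ← hi', hi, pow_orderOf_eq_one]
      have h2 : ((q : ZMod r) ^ i') ≠ 1 := fun h => by
        have := Nat.le_of_dvd (by omega) (hi ▸ orderOf_dvd_of_pow_eq_one h)
        omega
      have h3 := ((mul_self_eq_one_iff.1 h1).resolve_left h2)
      have h4 : ((q ^ i' : ℕ) : ZMod r) = ((r - 1 : ℕ) : ZMod r) := by
        rw [Nat.cast_pow, h3, Nat.cast_sub (Fact.out : r.Prime).one_le, ZMod.natCast_self, Nat.cast_one, zero_sub]
      rw [ZMod.natCast_eq_natCast_iff'] at h4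
      rw [h4, Nat.mod_eq_of_lt (by have := (Fact.out : r.Prime).pos; omega)]
    have hRk : ∀ v ∈ R, aeval f P v = 0 := fun v hv => hpair' _ (aeval_mem hR P v hv) fun u hu => by
      rw [sympBil_aeval_adjoint hB hf, hinv]
      have : (aeval f P ^ q ^ i') u = 0 := by
        rw [← Nat.sub_add_cancel (Nat.one_le_pow i' q Fintype.card_pos), pow_succ, Module.End.mul_apply, hUk u hu, map_zero]
      rw [this, map_zero, LinearMap.zero_apply]
    let Y := W ⊓ LinearMap.ker (aeval f P)
    by_contra hcon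
    have hvv : ∀ v ∈ Y, B v (f v) = 0 := by
      intro v hv
      rcases eq_or_ne v 0 with rfl | hv0
      · simp
      obtain ⟨S, hvS, hS, hSd, hSmin⟩ := hcyc v hv.2 hv0
      rw [hdeg] at hSd
      have hSW := hSmin W hW hv.1
      refine hiso S hSW hS hSd (fun h => hcon ⟨S, hSW, hS, h, hSd.trans hc.symm⟩) v hvS _ (hS v hvS)
    have hY : ∀ v ∈ Y, f v ∈ Y := fun v hv => ⟨hW v hv.1, by
      show aeval f P (f v) = 0
      rw [← Module.End.mul_apply, show aeval f P * f = f * aeval f P by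
        conv_lhs => arg 2; rw [← aeval_X (R := F) f]
        rw [← map_mul, mul_comm, map_mul, aeval_X], Module.End.mul_apply, show aeval f P v = 0 from hv.2, map_zero]⟩
    have hYpow : ∀ k, ∀ v ∈ Y, (f ^ k) v ∈ Y := by
      intro k
      induction k with
      | zero => intro v hv; exact hv
      | succ k ih => intro v hv; rw [pow_succ', Module.End.mul_apply]; exact hY _ (ih v hv)
    have hfr : ∀ v, f ((f ^ (r - 1)) v) = v := fun v => by
      rw [← Module.End.mul_apply, ← pow_succ', Nat.sub_add_cancel (Fact.out : r.Prime).one_le, hf, Module.End.one_apply]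
    let φ : Y →ₗ[F] Y := LinearMap.restrict (f - f ^ (r - 1)) fun v hv => sub_mem (hY v hv) (hYpow _ v hv)
    have hφ : Function.Injective φ := (injective_iff_map_eq_zero _).2 fun z hz => Subtype.ext <| by
      have h1 : f z.1 = (f ^ (r - 1)) z.1 := sub_eq_zero.1 (congrArg Subtype.val hz)
      have h2 : (f ^ 2) z.1 = z.1 := by rw [pow_two, Module.End.mul_apply, h1, hfr]
      have h3 : ∀ k, (f ^ (2 * k)) z.1 = z.1 := fun k => by
        induction k with
        | zero => simp
        | succ k ih => rw [Nat.mul_succ, pow_add, Module.End.mul_apply, h2, ih]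
      obtain ⟨k, hk⟩ := (Fact.out : r.Prime).odd_of_ne_two hr2
      have h4 := LinearMap.congr_fun hf z.1
      rw [hk, pow_succ', Module.End.mul_apply, h3, Module.End.one_apply] at h4
      exact Submodule.disjoint_def.1 hC _ (by
        rw [LinearMap.mem_ker, LinearMap.sub_apply, Module.End.one_apply, h4, sub_self]) z.2.1
    have hYiso : ∀ u ∈ Y, ∀ w ∈ Y, B u w = 0 := by
      intro u hu w hw
      obtain ⟨z, hz⟩ := LinearMap.injective_iff_surjective.1 hφ ⟨w, hw⟩
      have hz' : f z.1 - (f ^ (r - 1)) z.1 = w := congrArg Subtype.val hz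
      have h1 := hvv (u + z.1) (add_mem hu z.2)
      simp only [map_add, LinearMap.add_apply, hvv u hu, hvv z.1 z.2, zero_add, add_zero] at h1
      rw [← hz', map_sub]
      have h2 : B z.1 (f u) = - B u ((f ^ (r - 1)) z.1) := by
        conv_rhs => rw [← hB, hfr]
        exact (LinearMap.IsAlt.neg hA _ _).symm
      rw [h2, neg_add_eq_zero] at h1
      rw [← h1, sub_self]
    obtain ⟨u, hu, hu0⟩ := exists_mem_ne_zero_of_ne_bot (p := U) (fun h => by rw [h, finrank_bot] at hUd; omega)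
    exact hu0 (hpair u hu fun v hv => hYiso u ⟨hUW hu, hUk u hu⟩ v ⟨hRW hv, hRk v hv⟩)

/-- The moving part of a nondegenerate invariant subspace. -/
theorem exists_moving_part (hA : B.IsAlt) (hB : ∀ u v, B (f u) (f v) = B u v) (hf : f ^ r = 1)
    (hr : ¬ r ∣ Fintype.card F) (hr2 : r ≠ 2) {W : Submodule F V} (hW : ∀ v ∈ W, f v ∈ W) (hN : NonDegOn B W)
    {i c : ℕ} (hi : i = orderOf ((Fintype.card F : ℕ) : ZMod r)) (hc : c = if Even i then i else 2 * i) :
    ∃ M ≤ W, (∀ v ∈ M, f v ∈ M) ∧ NonDegOn B M ∧ (∀ x ∈ W ⊓ LinearMap.ker (f - 1), ∀ y ∈ M, B x y = 0) ∧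
      Disjoint (LinearMap.ker (f - 1)) M ∧ W ⊓ LinearMap.ker (f - 1) ⊔ M = W ∧
      (∀ j, j * c ≤ Module.finrank F M → ∃ U ≤ M, (∀ v ∈ U, f v ∈ U) ∧ NonDegOn B U ∧ Module.finrank F U = j * c) ∧
      ∃ j, Module.finrank F W = Module.finrank F ↥(W ⊓ LinearMap.ker (f - 1)) + j * c ∧
        Module.finrank F M = j * c := by
  set C := LinearMap.ker (f - 1) with hCdef
  have hinj := injective_of_pow_eq_one (r := r) hf
  have hCN := nonDegOn_inf_ker hA hB hf hr hW hN
  obtain ⟨hsup, hd, hMN⟩ := nonDegOn_split hA inf_le_left hCN hN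
  set M := W ⊓ B.orthogonal (W ⊓ C)
  have hCinv : ∀ v ∈ W ⊓ C, f v ∈ W ⊓ C := fun v hv => by
    have : f v = v := sub_eq_zero.1 (LinearMap.mem_ker.1 hv.2)
    rwa [this]
  have hM : ∀ v ∈ M, f v ∈ M := fun v hv => ⟨hW v hv.1, orthogonal_invariant hB hinj hCinv v hv.2⟩
  have hCM : Disjoint C M := Submodule.disjoint_def.2 fun v hv hv' =>
    Submodule.disjoint_def.1 hd v ⟨hv'.1, hv⟩ hv'
  have step : ∀ Y ≤ M, (∀ v ∈ Y, f v ∈ Y) → NonDegOn B Y → Y ≠ ⊥ →
      ∃ U ≤ Y, (∀ v ∈ U, f v ∈ U) ∧ NonDegOn B U ∧ Module.finrank F U = c :=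
    fun Y hYM hY hYN hne => exists_nonDegOn_small hA hB hf hr hr2 hY hYN (hCM.mono_right hYM) hne hi hc
  have hmult := exists_nonDegOn_mult hA hB hinj M hM hMN step
  refine ⟨M, inf_le_left, hM, hMN, fun x hx y hy => hy.2 x hx, hCM, hsup, hmult, Module.finrank F M / c, ?_⟩
  have hdvd : Module.finrank F M = Module.finrank F M / c * c := by
    obtain ⟨U, hUM, hU, hUN, hUd⟩ := hmult (Module.finrank F M / c) (Nat.div_mul_le_self _ _)
    obtain ⟨hsup', hd', hRN⟩ := nonDegOn_split hA hUM hUN hMN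
    have hsum := finrank_eq_add_of_disjoint hsup' hd'
    rcases eq_or_ne (M ⊓ B.orthogonal U) ⊥ with h | h
    · rw [h, finrank_bot, add_zero, hUd] at hsum; exact hsum
    · obtain ⟨U', hU'R, -, -, hU'd⟩ := step _ inf_le_left
        (fun v hv => ⟨hM v hv.1, orthogonal_invariant hB hinj hU v hv.2⟩) hRN h
      have h1 := Submodule.finrank_mono hU'R
      have h2 := Nat.div_add_mod' (Module.finrank F M) c
      have hi0 : 0 < i := hi ▸ orderOf_pos_of_not_dvd hr
      have hc0 : 0 < c := by rw [hc]; split_ifs <;> omega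
      have h3 := Nat.mod_lt (Module.finrank F M) hc0
      omega
  exact ⟨by rw [finrank_eq_add_of_disjoint hsup hd, ← hdvd], hdvd⟩

/-- Orthogonal decompositions into invariant nondegenerate summands of dimension `a`. -/
theorem exists_orth_family (hA : B.IsAlt) (hB : ∀ u v, B (f u) (f v) = B u v) (hf : f ^ r = 1)
    (hr : ¬ r ∣ Fintype.card F) (hr2 : r ≠ 2) {i c : ℕ} (hi : i = orderOf ((Fintype.card F : ℕ) : ZMod r))
    (hc : c = if Even i then i else 2 * i) {a : ℕ} (ha : Even a) :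
    ∀ (t : ℕ) (W : Submodule F V), (∀ v ∈ W, f v ∈ W) → NonDegOn B W → Module.finrank F W = a * t →
      t * (a % c) ≤ Module.finrank F ↥(W ⊓ LinearMap.ker (f - 1)) →
      ∃ D : Fin t → Submodule F V, (∀ j, Module.finrank F (D j) = a ∧ (∀ v ∈ D j, f v ∈ D j) ∧ NonDegOn B (D j)) ∧
        (∀ j j', j ≠ j' → ∀ u ∈ D j, ∀ v ∈ D j', B u v = 0) ∧ ⨆ j, D j = W := by
  have hce : Even c := by
    rw [hc]; split_ifs with h
    · exact h
    · exact even_two_mul _
  set C := LinearMap.ker (f - 1) with hCdef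
  intro t
  induction t with
  | zero =>
    intro W _ _ hd _
    rw [Nat.mul_zero, finrank_eq_zero] at hd
    exact ⟨fun j => j.elim0, fun j => j.elim0, fun j => j.elim0, by rw [hd]; exact iSup_of_empty _⟩
  | succ s ih =>
    intro W hW hN hd hQ
    obtain ⟨M, hMW, hM, hMN, hCMo, hCM, hsupM, hmult, j, hj, hMd⟩ := exists_moving_part hA hB hf hr hr2 hW hN hi hc
    set φ := Module.finrank F ↥(W ⊓ C)
    rw [hd, Nat.mul_succ] at hj
    rw [Nat.succ_mul] at hQ
    have hal := Nat.div_add_mod' a c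
    -- numbers of fixed vectors and moving pieces in the first summand
    obtain ⟨c₁, j₁, hc₁e, hc₁, hj₁, hsum, hrest⟩ : ∃ c₁ j₁, Even c₁ ∧ c₁ ≤ φ ∧ j₁ ≤ j ∧ c₁ + j₁ * c = a ∧
        (s * (a % c) + c₁ ≤ φ) := by
      by_cases hcase : j * c + a % c ≤ a
      · have hjc : Even (j * c) := hce.mul_left j
        refine ⟨a - j * c, j, ?_, by omega, le_rfl, by omega, ?_⟩
        · rw [Nat.even_sub (by omega)]; exact iff_of_true ha hjc
        · have : s * (a % c) ≤ s * a := Nat.mul_le_mul_left s (Nat.mod_le a c)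
          rw [mul_comm a s] at hj
          omega
      · have hjq : a / c ≤ j := by
          by_contra hlt
          have : j * c ≤ a / c * c := Nat.mul_le_mul_right c (by omega)
          omega
        refine ⟨a % c, a / c, ?_, by omega, hjq, by omega, hQ⟩
        have h1 : Even (a / c * c) := hce.mul_left _
        rw [← hal, Nat.even_add] at ha
        exact ha.1 h1
    obtain ⟨U₁, hU₁, hU₁N, hU₁d⟩ := exists_nonDegOn_of_even hA (nonDegOn_inf_ker hA hB hf hr hW hN) hc₁e hc₁
    obtain ⟨U₂, hU₂M, hU₂, hU₂N, hU₂d⟩ := hmult j₁ (by rw [hMd]; exact Nat.mul_le_mul_right c hj₁)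
    have hU₁f : ∀ v ∈ U₁, f v ∈ U₁ := fun v hv => by
      have : f v = v := sub_eq_zero.1 (LinearMap.mem_ker.1 (hU₁ hv).2)
      rwa [this]
    have hdis : Disjoint U₁ U₂ := hCM.mono (hU₁.trans inf_le_right) hU₂M
    have hUN : NonDegOn B (U₁ ⊔ U₂) :=
      nonDegOn_sup hA hU₁N hU₂N fun x hx y hy => hCMo x (hU₁ hx) y (hU₂M hy)
    have hUW : U₁ ⊔ U₂ ≤ W := sup_le (hU₁.trans inf_le_left) (hU₂M.trans hMW)
    have hU : ∀ v ∈ U₁ ⊔ U₂, f v ∈ U₁ ⊔ U₂ := fun v hv => by
      obtain ⟨x, hx, y, hy, rfl⟩ := mem_sup.1 hv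
      rw [map_add]
      exact add_mem_sup (hU₁f x hx) (hU₂ y hy)
    have hUd : Module.finrank F ↥(U₁ ⊔ U₂) = a := by rw [finrank_eq_add_of_disjoint rfl hdis, hU₁d, hU₂d, hsum]
    obtain ⟨hsup, hd', hRN⟩ := nonDegOn_split hA hUW hUN hN
    set R := W ⊓ B.orthogonal (U₁ ⊔ U₂)
    have hR : ∀ v ∈ R, f v ∈ R :=
      fun v hv => ⟨hW v hv.1, orthogonal_invariant hB (injective_of_pow_eq_one (r := r) hf) hU v hv.2⟩
    have hdim := finrank_eq_add_of_disjoint hsup hd'
    rw [hd, hUd, Nat.mul_succ] at hdim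
    have hfx := finrank_inf_ker_of_sup hU hR hsup hd'
    have hUC : Module.finrank F ↥((U₁ ⊔ U₂) ⊓ C) = c₁ := by
      rw [sup_inf_assoc_of_le U₂ (hU₁.trans inf_le_right), inf_comm U₂, (hCM.mono_right hU₂M).eq_bot, sup_bot_eq, hU₁d]
    rw [← hCdef, hUC] at hfx
    obtain ⟨D, hD, ho, hsupD⟩ := ih R hR hRN (by omega) (by omega)
    refine ⟨Fin.cons (U₁ ⊔ U₂) D, fun k => ?_, fun k k' hkk' => ?_, ?_⟩
    · obtain rfl | ⟨k, rfl⟩ := Fin.eq_zero_or_eq_succ k
      · rw [Fin.cons_zero]; exact ⟨hUd, hU, hUN⟩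
      · rw [Fin.cons_succ]; exact hD k
    · obtain rfl | ⟨k, rfl⟩ := Fin.eq_zero_or_eq_succ k <;> obtain rfl | ⟨k', rfl⟩ := Fin.eq_zero_or_eq_succ k'
      · exact absurd rfl hkk'
      · intro u hu v hv
        simp only [Fin.cons_zero, Fin.cons_succ] at hu hv
        exact ((hsupD ▸ le_iSup D k') hv).2 u hu
      · intro u hu v hv
        simp only [Fin.cons_zero, Fin.cons_succ] at hu hv
        exact alt_symm_zero hA (((hsupD ▸ le_iSup D k) hu).2 v hv)
      · simpa using ho k k' (fun h => hkk' (by rw [h]))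
    · rw [← hsup, ← hsupD]
      refine le_antisymm (iSup_le fun k => ?_) (sup_le ?_ (iSup_le fun k => ?_))
      · obtain rfl | ⟨k, rfl⟩ := Fin.eq_zero_or_eq_succ k
        · simp
        · rw [Fin.cons_succ]; exact (le_iSup D k).trans le_sup_right
      · exact le_iSup_of_le 0 (by simp)
      · exact le_iSup_of_le k.succ (by simp)

end order

end Cfsg.Agent.Elusive
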