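import Cfsg.Agent.Elusive.InvariantDim
import Cfsg.Prelude.Def_GeometricClasses

/-!
Ranks of `A ⊗ B - c` and criteria against membership in tensor product stabilisers.
-/

set_option autoImplicit false

namespace Cfsg.Agent.Elusive.Tensor

open Matrix
open scoped Kronecker

variable {F : Type*} [Field F] {a b : ℕ}

theorem kronecker_mulVec_pure (A : Matrix (Fin a) (Fin a) F) (B : Matrix (Fin b) (Fin b) F)
    (v : Fin a → F) (y : Fin b → F) (p : Fin a × Fin b) :
    ((A ⊗ₖ B) *ᵥ fun p => v p.1 * y p.2) p = (A *ᵥ v) p.1 * (B *ᵥ y) p.2 := by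
  simp only [Matrix.mulVec, dotProduct, Matrix.kroneckerMap_apply, Finset.sum_mul_sum, Fintype.sum_prod_type]
  exact Finset.sum_congr rfl fun i _ => Finset.sum_congr rfl fun j _ => by ring

/-- A matrix for which every vector is an eigenvector is scalar. -/
theorem exists_not_eigen {A : Matrix (Fin a) (Fin a) F} (hA : ∀ α : F, A ≠ α • 1) :
    ∃ v : Fin a → F, ∀ μ : F, A *ᵥ v ≠ μ • v := by
  by_contra! h
  rcases Nat.eq_zero_or_pos a with rfl | ha
  · exact hA 0 (Matrix.ext fun i => i.elim0)
  choose μ hμ using h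
  set z : Fin a := ⟨0, ha⟩
  refine hA (μ (Pi.single z 1)) (Matrix.ext fun i j => ?_)
  have key : ∀ k : Fin a, ∀ i, A i k = μ (Pi.single k 1) * (Pi.single k 1 : Fin a → F) i := fun k i => by
    have := congrFun (hμ (Pi.single k 1)) i
    simpa using this
  have hd : μ (Pi.single j 1) = μ (Pi.single z 1) := by
    rcases eq_or_ne j z with rfl | hjz
    · rfl
    have e := hμ (Pi.single j 1 + Pi.single z 1)
    rw [mulVec_add, hμ, hμ] at e
    have e1 := congrFun e j
    have e2 := congrFun e z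
    simp [hjz, hjz.symm] at e1 e2
    rw [e1, e2]
  rw [key j i, hd]
  simp [Matrix.one_apply, Pi.single_apply]

/-- If `A` is not scalar then `A ⊗ B - c` has rank at least `b`. -/
theorem le_rank_of_not_scalar {A : Matrix (Fin a) (Fin a) F} {B : Matrix (Fin b) (Fin b) F}
    (hA : ∀ α : F, A ≠ α • 1) (hB : IsUnit B) (c : F) : b ≤ (A ⊗ₖ B - c • 1).rank := by
  obtain ⟨v, hv⟩ := exists_not_eigen hA
  let pu : (Fin b → F) →ₗ[F] (Fin a × Fin b → F) :=
    { toFun := fun y p => v p.1 * y p.2
      map_add' := fun y y' => funext fun p => by simp [mul_add]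
      map_smul' := fun k y => funext fun p => by simp [mul_left_comm] }
  have hinj : Function.Injective ((A ⊗ₖ B - c • 1).mulVecLin ∘ₗ pu) := by
    rw [← LinearMap.ker_eq_bot, LinearMap.ker_eq_bot']
    intro y hy
    refine Matrix.mulVec_injective_of_isUnit hB ?_
    show B *ᵥ y = B *ᵥ 0
    rw [mulVec_zero]
    funext j
    by_contra hj
    refine hv (c * y j / (B *ᵥ y) j) (funext fun i => ?_)
    have h1 := congrFun hy (i, j)
    simp only [LinearMap.comp_apply, mulVecLin_apply, sub_mulVec, smul_mulVec, one_mulVec, Pi.sub_apply,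
      Pi.smul_apply, smul_eq_mul, Pi.zero_apply, pu, LinearMap.coe_mk, AddHom.coe_mk] at h1
    rw [kronecker_mulVec_pure] at h1
    have hj' : (B *ᵥ y) j ≠ 0 := hj
    rw [Pi.smul_apply, smul_eq_mul]
    field_simp
    linear_combination h1
  calc b = Module.finrank F (Fin b → F) := (Module.finrank_fin_fun F).symm
    _ = Module.finrank F (LinearMap.range ((A ⊗ₖ B - c • 1).mulVecLin ∘ₗ pu)) :=
        (LinearMap.finrank_range_of_inj hinj).symm
    _ ≤ _ := Submodule.finrank_mono (LinearMap.range_comp_le_range _ _)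

theorem scalar_kronecker_sub (α : F) (B : Matrix (Fin b) (Fin b) F) (c : F) :
    (α • (1 : Matrix (Fin a) (Fin a) F)) ⊗ₖ B - c • 1 = (1 : Matrix (Fin a) (Fin a) F) ⊗ₖ (α • B - c • 1) := by
  ext ⟨i, j⟩ ⟨i', j'⟩
  by_cases hi : i = i' <;> by_cases hj : j = j' <;> simp [hi, hj, mul_sub]

theorem rank_one_kronecker (M : Matrix (Fin b) (Fin b) F) :
    ((1 : Matrix (Fin a) (Fin a) F) ⊗ₖ M).rank = a * M.rank := by
  have hmv : ∀ (X : Fin a × Fin b → F) (p : Fin a × Fin b),
      (((1 : Matrix (Fin a) (Fin a) F) ⊗ₖ M) *ᵥ X) p = (M *ᵥ fun j => X (p.1, j)) p.2 := fun X p => by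
    simp [Matrix.mulVec, dotProduct, Fintype.sum_prod_type, Matrix.one_apply, ite_mul]
  let e : LinearMap.ker ((1 : Matrix (Fin a) (Fin a) F) ⊗ₖ M).mulVecLin ≃ₗ[F]
      (Fin a → LinearMap.ker M.mulVecLin) :=
    { toFun := fun X i => ⟨fun j => (X : Fin a × Fin b → F) (i, j), by
        rw [LinearMap.mem_ker, mulVecLin_apply]
        funext j
        rw [← hmv _ (i, j)]
        exact congrFun (LinearMap.mem_ker.1 X.2) (i, j)⟩
      invFun := fun Y => ⟨fun p => (Y p.1 : Fin b → F) p.2, by
        rw [LinearMap.mem_ker, mulVecLin_apply]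
        funext p
        rw [hmv]
        exact congrFun (LinearMap.mem_ker.1 (Y p.1).2) p.2⟩
      left_inv := fun X => rfl
      right_inv := fun Y => rfl
      map_add' := fun X X' => rfl
      map_smul' := fun k X => rfl }
  have h1 := e.finrank_eq
  rw [Module.finrank_pi_fintype, Finset.sum_const, Finset.card_univ, Fintype.card_fin, smul_eq_mul] at h1
  have h2 := LinearMap.finrank_range_add_finrank_ker ((1 : Matrix (Fin a) (Fin a) F) ⊗ₖ M).mulVecLin
  have h3 := LinearMap.finrank_range_add_finrank_ker M.mulVecLin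
  rw [h1, Module.finrank_fintype_fun_eq_card, Fintype.card_prod, Fintype.card_fin, Fintype.card_fin] at h2
  rw [Module.finrank_fintype_fun_eq_card, Fintype.card_fin] at h3
  have h4 : ((1 : Matrix (Fin a) (Fin a) F) ⊗ₖ M).rank + a * Module.finrank F (LinearMap.ker M.mulVecLin) = a * b := h2
  have h5 : a * b = a * M.rank + a * Module.finrank F (LinearMap.ker M.mulVecLin) := by
    rw [← mul_add]; exact congrArg (a * ·) h3.symm
  omega

/-- `A ⊗ B` with `A` scalar: the rank is a multiple of `a`. -/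
theorem rank_scalar_kronecker (α : F) (B : Matrix (Fin b) (Fin b) F) (c : F) :
    ((α • (1 : Matrix (Fin a) (Fin a) F)) ⊗ₖ B - c • 1).rank = a * (α • B - c • 1).rank := by
  rw [scalar_kronecker_sub, rank_one_kronecker]

/-- A Kronecker product which is scalar has scalar factors. -/
theorem scalar_of_kronecker_eq [NeZero b] {A : Matrix (Fin a) (Fin a) F} {B : Matrix (Fin b) (Fin b) F} {γ : F}
    (hB : IsUnit B) (h : A ⊗ₖ B = γ • 1) : ∃ α : F, A = α • 1 := by
  obtain ⟨j, k, hjk⟩ : ∃ j k, B j k ≠ 0 := by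
    by_contra! h0
    exact hB.ne_zero (Matrix.ext fun j k => h0 j k)
  have e : ∀ i i', A i i' * B j k = if i = i' ∧ j = k then γ else 0 := fun i i' => by
    have := congrFun (congrFun h (i, j)) (i', k)
    simp only [kroneckerMap_apply, Matrix.smul_apply, Matrix.one_apply, Prod.mk.injEq, smul_eq_mul, mul_ite,
      mul_one, mul_zero] at this
    exact this
  refine ⟨if j = k then γ / B j k else 0, Matrix.ext fun i i' => ?_⟩
  have := e i i'
  rw [Matrix.smul_apply, Matrix.one_apply, smul_eq_mul]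
  rcases eq_or_ne i i' with rfl | hi <;> by_cases hjk' : j = k
  · rw [if_pos ⟨rfl, hjk'⟩] at this
    rw [if_pos hjk', if_pos rfl, mul_one, eq_div_iff hjk]; exact this
  · rw [if_neg fun h' => hjk' h'.2, mul_eq_zero] at this
    rw [if_neg hjk', zero_mul, this.resolve_right hjk]
  · rw [if_neg fun h' => hi h'.1, mul_eq_zero] at this
    rw [if_neg hi, mul_zero, this.resolve_right hjk]
  · rw [if_neg fun h' => hi h'.1, mul_eq_zero] at this
    rw [if_neg hi, mul_zero, this.resolve_right hjk]

theorem kronecker_pow (A : Matrix (Fin a) (Fin a) F) (B : Matrix (Fin b) (Fin b) F) (r : ℕ) :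
    (A ⊗ₖ B) ^ r = (A ^ r) ⊗ₖ (B ^ r) := by
  induction r with
  | zero => simp
  | succ k ih => rw [pow_succ, ih, ← mul_kronecker_mul, ← pow_succ, ← pow_succ]

variable [Fintype F] {r : ℕ} [Fact r.Prime]

/-- A nontrivial matrix of order `r` moves at least `ord_r q` dimensions. -/
theorem le_rank_of_pow_eq_one {ι : Type*} [Fintype ι] [DecidableEq ι] {M : Matrix ι ι F} (hr : ¬ r ∣ Fintype.card F)
    (hM : M ^ r = 1) (hne : M ≠ 1) :
    orderOf ((Fintype.card F : ℕ) : ZMod r) ≤ (M - 1).rank := by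
  set f : Module.End F (ι → F) := toLinAlgEquiv' M
  have hf : f ^ r = 1 := by rw [← map_pow, hM, map_one]
  obtain ⟨t, ht, -⟩ := finrank_invariant hf hr (W := ⊤) fun v _ => trivial
  rw [finrank_top, top_inf_eq] at ht
  have hrk : (M - 1).rank = Module.finrank F (LinearMap.range (f - 1)) := by
    rw [Matrix.rank, ← map_one (toLinAlgEquiv' : Matrix ι ι F ≃ₐ[F] _), ← map_sub]
    rfl
  have h2 := LinearMap.finrank_range_add_finrank_ker (f - 1)
  rcases Nat.eq_zero_or_pos t with rfl | ht0
  · rw [zero_mul, add_zero] at ht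
    refine absurd ?_ hne
    have : f = 1 := by
      have hb : LinearMap.range (f - 1) = ⊥ := Submodule.finrank_eq_zero.1 (by omega)
      exact sub_eq_zero.1 (LinearMap.range_eq_bot.1 hb)
    exact toLinAlgEquiv'.injective (this.trans (map_one _).symm)
  · rw [hrk]
    have := Nat.le_mul_of_pos_left (orderOf ((Fintype.card F : ℕ) : ZMod r)) ht0
    omega

end Cfsg.Agent.Elusive.Tensor
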