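import Cfsg.Agent.Elusive.SympOrder
import Cfsg.Agent.Elusive.Unipotent
import Cfsg.Agent.ClassConj.FormTypes

/-!
Orthogonal decompositions of unipotent isometries of alternating forms, and the block sizes that occur on
nondegenerate invariant subspaces.
-/

set_option autoImplicit false

namespace Cfsg.Agent.Elusive

open Submodule

variable {F : Type*} [Field F] {V : Type*} [AddCommGroup V] [Module F V]
  {B : LinearMap.BilinForm F V} {f : Module.End F V}

theorem sub_one_mem {W : Submodule F V} (hW : ∀ v ∈ W, f v ∈ W) : ∀ v ∈ W, (f - 1) v ∈ W := fun v hv => by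
  rw [LinearMap.sub_apply, Module.End.one_apply]
  exact W.sub_mem (hW v hv) hv

/-- Moving one `f - 1` across the form. -/
theorem sub_one_step (hB : ∀ u v, B (f u) (f v) = B u v) (x y : V) :
    B ((f - 1) x) y = -B x ((f - 1) y) - B ((f - 1) x) ((f - 1) y) := by
  simp only [LinearMap.sub_apply, Module.End.one_apply, map_sub, hB]
  ring

theorem pow_pair_zero (hB : ∀ u v, B (f u) (f v) = B u v) {W : Submodule F V} (hW : ∀ v ∈ W, f v ∈ W) {k : ℕ}
    (hk : ∀ v ∈ W, ((f - 1) ^ k) v = 0) :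
    ∀ (a b : ℕ), k ≤ a + b → ∀ u ∈ W, ∀ v ∈ W, B (((f - 1) ^ a) u) (((f - 1) ^ b) v) = 0 := by
  have hvan : ∀ b, k ≤ b → ∀ v ∈ W, ((f - 1) ^ b) v = 0 := fun b hb v hv => by
    rw [show b = (b - k) + k by omega, pow_add, Module.End.mul_apply, hk v hv, map_zero]
  intro a
  induction a with
  | zero => intro b hb u _ v hv; rw [hvan b (by omega) v hv, map_zero]
  | succ a ih =>
    suffices ∀ n b, k ≤ a + 1 + b → k ≤ b + n → ∀ u ∈ W, ∀ v ∈ W,
        B (((f - 1) ^ (a + 1)) u) (((f - 1) ^ b) v) = 0 from fun b hb => this k b hb (Nat.le_add_left _ _)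
    intro n
    induction n with
    | zero => intro b _ hb u _ v hv; rw [hvan b hb v hv, map_zero]
    | succ n ihn =>
      intro b hb hbn u hu v hv
      rw [pow_succ', Module.End.mul_apply, sub_one_step hB, ← Module.End.mul_apply (f - 1) ((f - 1) ^ b), ← pow_succ',
        ← Module.End.mul_apply (f - 1) ((f - 1) ^ a), ← pow_succ', ih (b + 1) (by omega) u hu v hv,
        ihn (b + 1) (by omega) (by omega) u hu v hv]
      simp

theorem pow_pair_top (hB : ∀ u v, B (f u) (f v) = B u v) {W : Submodule F V} (hW : ∀ v ∈ W, f v ∈ W) {l : ℕ}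
    (hk : ∀ v ∈ W, ((f - 1) ^ (l + 1)) v = 0) :
    ∀ (a b : ℕ), a + b = l → ∀ u ∈ W, ∀ v ∈ W,
      B (((f - 1) ^ a) u) (((f - 1) ^ b) v) = (-1) ^ a * B u (((f - 1) ^ l) v) := by
  intro a
  induction a with
  | zero =>
    intro b hb u _ v _
    rw [Nat.zero_add] at hb
    rw [hb, pow_zero, pow_zero, one_mul, Module.End.one_apply]
  | succ a ih =>
    intro b hb u hu v hv
    rw [pow_succ', Module.End.mul_apply, sub_one_step hB, ← Module.End.mul_apply (f - 1) ((f - 1) ^ b), ← pow_succ',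
      ← Module.End.mul_apply (f - 1) ((f - 1) ^ a), ← pow_succ', ih (b + 1) (by omega) u hu v hv,
      pow_pair_zero hB hW hk (a + 1) (b + 1) (by omega) u hu v hv, pow_succ']
    ring

/-- The top pairing is symmetric or skew according to the block size. -/
theorem top_pair_swap (hA : B.IsAlt) (hB : ∀ u v, B (f u) (f v) = B u v) {W : Submodule F V}
    (hW : ∀ v ∈ W, f v ∈ W) {l : ℕ} (hk : ∀ v ∈ W, ((f - 1) ^ (l + 1)) v = 0) {u v : V} (hu : u ∈ W) (hv : v ∈ W) :
    B v (((f - 1) ^ l) u) = (-1) ^ (l + 1) * B u (((f - 1) ^ l) v) := by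
  have h := pow_pair_top hB hW hk l 0 (Nat.add_zero l) u hu v hv
  rw [pow_zero, Module.End.one_apply] at h
  rw [← LinearMap.IsAlt.neg hA, h, pow_succ]
  ring

/-- Blocks of odd size have isotropic top pairing. -/
theorem top_pair_self_zero (hA : B.IsAlt) (hB : ∀ u v, B (f u) (f v) = B u v) {W : Submodule F V}
    (hW : ∀ v ∈ W, f v ∈ W) {l : ℕ} (hk : ∀ v ∈ W, ((f - 1) ^ (l + 1)) v = 0) (hl : Even l) {v : V} (hv : v ∈ W) :
    B v (((f - 1) ^ l) v) = 0 := by
  obtain ⟨h, rfl⟩ := hl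
  have := pow_pair_top hB hW hk h h rfl v hv v hv
  rw [hA] at this
  exact (mul_eq_zero.1 this.symm).resolve_left (pow_ne_zero _ (neg_ne_zero.2 one_ne_zero))

/-- Vectors with nondegenerate top pairing generate a nondegenerate invariant subspace. -/
theorem exists_cyclic_span (hB : ∀ u v, B (f u) (f v) = B u v) {W : Submodule F V}
    (hW : ∀ v ∈ W, f v ∈ W) {l : ℕ} (hk : ∀ v ∈ W, ((f - 1) ^ (l + 1)) v = 0) {s : ℕ} (v : Fin s → V)
    (hv : ∀ a, v a ∈ W)
    (hG : ∀ c : Fin s → F, (∀ b, ∑ a, c a * B (v a) (((f - 1) ^ l) (v b)) = 0) → c = 0) :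
    ∃ U ≤ W, (∀ x ∈ U, f x ∈ U) ∧ NonDegOn B U ∧ Module.finrank F U = s * (l + 1) := by
  classical
  let g : Fin s × Fin (l + 1) → V := fun x => ((f - 1) ^ (x.2 : ℕ)) (v x.1)
  have hgW : ∀ x, g x ∈ W := fun x => pow_mem_of_invariant (sub_one_mem hW) _ _ (hv _)
  have key : ∀ c : Fin s × Fin (l + 1) → F, (∀ y, B (∑ x, c x • g x) (g y) = 0) → c = 0 := by
    intro c hc
    suffices ∀ t, ∀ x : Fin s × Fin (l + 1), (x.2 : ℕ) = t → c x = 0 from funext fun x => this _ x rfl
    intro t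
    induction t using Nat.strong_induction_on with
    | _ t ih =>
      rintro ⟨a₀, b₀⟩ (rfl : (b₀ : ℕ) = t)
      have hrow : ∀ b, ∑ a, c (a, b₀) * B (v a) (((f - 1) ^ l) (v b)) = 0 := by
        intro b
        have h := hc (b, ⟨l - (b₀ : ℕ), by omega⟩)
        rw [map_sum, LinearMap.sum_apply, Fintype.sum_prod_type, Finset.sum_congr rfl fun a _ =>
          Finset.sum_eq_single b₀ (fun t' _ ht' => ?_) (fun h => absurd (Finset.mem_univ _) h)] at h
        · simp only [map_smul, LinearMap.smul_apply, g, smul_eq_mul] at h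
          simp only [pow_pair_top hB hW hk (b₀ : ℕ) (l - (b₀ : ℕ)) (by omega) _ (hv _) _ (hv _), mul_left_comm (c _),
            ← Finset.mul_sum] at h
          exact (mul_eq_zero.1 h).resolve_left (pow_ne_zero _ (neg_ne_zero.2 one_ne_zero))
        · rw [map_smul, LinearMap.smul_apply, smul_eq_mul]
          rcases lt_or_gt_of_ne (Fin.val_ne_of_ne ht') with h1 | h1
          · rw [ih _ h1 (a, t') rfl, zero_mul]
          · simp only [g]
            rw [pow_pair_zero hB hW hk _ _ (by omega) _ (hv _) _ (hv _), mul_zero]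
      exact congrFun (hG (fun a => c (a, b₀)) hrow) a₀
  have hli : LinearIndependent F g := Fintype.linearIndependent_iff.2 fun c hc x =>
    congrFun (key c fun y => by rw [hc, map_zero, LinearMap.zero_apply]) x
  refine ⟨span F (Set.range g), span_le.2 (by rintro _ ⟨x, rfl⟩; exact hgW x), fun x hx => ?_, fun x hx h => ?_, ?_⟩
  · induction hx using span_induction with
    | mem y hy =>
      obtain ⟨⟨a, t⟩, rfl⟩ := hy
      have : f (g (a, t)) = g (a, t) + (f - 1) (g (a, t)) := by simp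
      rw [this]
      refine add_mem (subset_span ⟨_, rfl⟩) ?_
      simp only [g]
      rw [← Module.End.mul_apply, ← pow_succ']
      rcases Nat.lt_or_ge ((t : ℕ) + 1) (l + 1) with h | h
      · exact subset_span ⟨(a, ⟨_, h⟩), rfl⟩
      · rw [show (t : ℕ) + 1 = l + 1 by omega, hk _ (hv a)]
        exact zero_mem _
    | zero => simp
    | add y z _ _ hy hz => rw [map_add]; exact add_mem hy hz
    | smul c y _ hy => rw [map_smul]; exact Submodule.smul_mem _ _ hy
  · obtain ⟨c, rfl⟩ := mem_span_range_iff_exists_fun F |>.1 hx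
    rw [key c fun y => h _ (subset_span ⟨y, rfl⟩)]
    simp
  · rw [finrank_span_eq_card hli, Fintype.card_prod, Fintype.card_fin, Fintype.card_fin]

variable [FiniteDimensional F V]

/-- An orthogonally indecomposable piece. -/
theorem exists_unip_block (hA : B.IsAlt) (hB : ∀ u v, B (f u) (f v) = B u v) {p : ℕ} (hp : (f - 1) ^ p = 0)
    {W : Submodule F V} (hW : ∀ v ∈ W, f v ∈ W) (hN : NonDegOn B W) (hne : W ≠ ⊥) :
    ∃ (k : ℕ) (U : Submodule F V), 0 < k ∧ k ≤ p ∧ (∀ v ∈ W, ((f - 1) ^ k) v = 0) ∧ U ≤ W ∧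
      (∀ v ∈ U, f v ∈ U) ∧ NonDegOn B U ∧
      ((Even k ∧ Module.finrank F U = k ∧ ∃ v ∈ W, B v (((f - 1) ^ (k - 1)) v) ≠ 0) ∨
       ((Odd k ∨ (2 : F) = 0) ∧ Module.finrank F U = 2 * k)) := by
  classical
  have hex : ∃ k, ∀ v ∈ W, (((f - 1) ^ k : Module.End F V)) v = 0 := ⟨p, fun v _ => by rw [hp]; rfl⟩
  set k := Nat.find hex
  have hkW : ∀ v ∈ W, ((f - 1) ^ k) v = 0 := Nat.find_spec hex
  have hkp : k ≤ p := Nat.find_le fun v _ => by rw [hp]; rfl
  obtain ⟨l, hl⟩ : ∃ l, k = l + 1 := ⟨k - 1, by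
    rcases Nat.eq_zero_or_pos k with h | h
    · exfalso
      refine hne ((Submodule.eq_bot_iff _).2 fun v hv => ?_)
      have := hkW v hv
      rwa [h, pow_zero] at this
    · omega⟩
  rw [hl] at hkW
  obtain ⟨w, hw, u, hu, huw⟩ : ∃ w ∈ W, ∃ u ∈ W, B u (((f - 1) ^ l) w) ≠ 0 := by
    by_contra h
    push Not at h
    have : k ≤ l := Nat.find_le fun v hv => hN _ (pow_mem_of_invariant (sub_one_mem hW) _ _ hv) fun u hu =>
      alt_symm_zero hA (h v hv u hu)
    omega
  by_cases hsingle : ∃ v ∈ W, B v (((f - 1) ^ l) v) ≠ 0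
  · obtain ⟨v, hv, hv0⟩ := hsingle
    have hodd : ¬ Even l := fun h => hv0 (top_pair_self_zero hA hB hW hkW h hv)
    obtain ⟨U, hUW, hU, hUN, hUd⟩ := exists_cyclic_span hB hW hkW (fun _ : Fin 1 => v) (fun _ => hv)
      fun c hc => funext fun a => by
        have h := hc 0
        rw [Fin.sum_univ_one] at h
        rw [show a = 0 from Subsingleton.elim _ _]
        exact (mul_eq_zero.1 h).resolve_right hv0
    refine ⟨k, U, by omega, hkp, hl.symm ▸ hkW, hUW, hU, hUN, Or.inl ⟨?_, by rw [hUd, hl, one_mul], v, hv, ?_⟩⟩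
    · rw [hl]; exact (Nat.not_even_iff_odd.1 hodd).add_one
    · rwa [hl, Nat.add_sub_cancel]
  · push Not at hsingle
    have hwu : B w (((f - 1) ^ l) u) ≠ 0 := by
      rw [top_pair_swap hA hB hW hkW hu hw]
      exact mul_ne_zero (pow_ne_zero _ (neg_ne_zero.2 one_ne_zero)) huw
    obtain ⟨U, hUW, hU, hUN, hUd⟩ := exists_cyclic_span hB hW hkW ![u, w]
      (fun a => by fin_cases a <;> assumption) fun c hc => by
        have h0 := hc 0
        have h1 := hc 1
        simp only [Fin.sum_univ_two, Matrix.cons_val_zero, Matrix.cons_val_one, hsingle u hu, hsingle w hw, mul_zero,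
          zero_add, add_zero] at h0 h1
        funext a
        fin_cases a
        · exact (mul_eq_zero.1 h1).resolve_right huw
        · exact (mul_eq_zero.1 h0).resolve_right hwu
    refine ⟨k, U, by omega, hkp, hl.symm ▸ hkW, hUW, hU, hUN, Or.inr ⟨?_, by rw [hUd, hl]⟩⟩
    by_contra h
    push Not at h
    obtain ⟨hkodd, h2⟩ := h
    have h3 := hsingle (u + w) (add_mem hu hw)
    simp only [map_add, LinearMap.add_apply, hsingle u hu, hsingle w hw, zero_add, add_zero] at h3
    rw [top_pair_swap hA hB hW hkW hu hw, (show Even (l + 1) from hl ▸ Nat.not_odd_iff_even.1 hkodd).neg_one_pow,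
      one_mul, ← two_mul] at h3
    exact huw ((mul_eq_zero.1 h3).resolve_left h2)

/-- Removing a piece. -/
theorem split_invariant (hA : B.IsAlt) (hB : ∀ u v, B (f u) (f v) = B u v) (hinj : Function.Injective f)
    {W U : Submodule F V} (hW : ∀ v ∈ W, f v ∈ W) (hN : NonDegOn B W) (hUW : U ≤ W) (hU : ∀ v ∈ U, f v ∈ U)
    (hUN : NonDegOn B U) :
    ∃ R ≤ W, (∀ v ∈ R, f v ∈ R) ∧ NonDegOn B R ∧ (∀ x ∈ U, ∀ y ∈ R, B x y = 0) ∧ Disjoint U R ∧
      Module.finrank F W = Module.finrank F U + Module.finrank F R := by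
  obtain ⟨hsup, hd, hRN⟩ := nonDegOn_split hA hUW hUN hN
  refine ⟨W ⊓ B.orthogonal U, inf_le_left, fun v hv => ⟨hW v hv.1, orthogonal_invariant hB hinj hU v hv.2⟩, hRN,
    fun x hx y hy => hy.2 x hx, hd, ?_⟩
  have := Submodule.finrank_sup_add_finrank_inf_eq U (W ⊓ B.orthogonal U)
  rw [hsup, hd.eq_bot, finrank_bot, add_zero] at this
  exact this

/-- Joining two orthogonal pieces. -/
theorem join_invariant (hA : B.IsAlt) {W X Y : Submodule F V} (hXW : X ≤ W) (hYW : Y ≤ W)
    (hX : ∀ v ∈ X, f v ∈ X) (hY : ∀ v ∈ Y, f v ∈ Y) (hXN : NonDegOn B X) (hYN : NonDegOn B Y)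
    (ho : ∀ x ∈ X, ∀ y ∈ Y, B x y = 0) (hd : Disjoint X Y) :
    ∃ Z ≤ W, (∀ v ∈ Z, f v ∈ Z) ∧ NonDegOn B Z ∧ Module.finrank F Z = Module.finrank F X + Module.finrank F Y := by
  refine ⟨X ⊔ Y, sup_le hXW hYW, fun v hv => ?_, nonDegOn_sup hA hXN hYN ho, ?_⟩
  · obtain ⟨a, ha, b, hb, rfl⟩ := mem_sup.1 hv
    rw [map_add]
    exact add_mem_sup (hX a ha) (hY b hb)
  · have := Submodule.finrank_sup_add_finrank_inf_eq X Y
    rw [hd.eq_bot, finrank_bot, add_zero] at this
    exact this

/-- Odd characteristic: invariant nondegenerate subspaces of every admissible partial sum of the block sizes. -/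
theorem exists_nonDegOn_partition (hA : B.IsAlt) (hB : ∀ u v, B (f u) (f v) = B u v) (hinj : Function.Injective f)
    {p : ℕ} (hp : (f - 1) ^ p = 0) (h2 : (2 : F) ≠ 0) (W : Submodule F V) (hW : ∀ v ∈ W, f v ∈ W)
    (hN : NonDegOn B W) :
    ∃ μ : Multiset ℕ, (∀ a ∈ μ, 0 < a ∧ a ≤ p) ∧ (∀ a, Odd a → Even (μ.count a)) ∧ μ.sum = Module.finrank F W ∧
      ∀ ν ≤ μ, (∀ a, Odd a → Even (ν.count a)) →
        ∃ A ≤ W, (∀ v ∈ A, f v ∈ A) ∧ NonDegOn B A ∧ Module.finrank F A = ν.sum := by
  classical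
  induction h : Module.finrank F W using Nat.strong_induction_on generalizing W with
  | _ w ih =>
    subst h
    rcases eq_or_ne W ⊥ with rfl | hne
    · refine ⟨0, by simp, by simp, by simp, fun ν hν _ => ⟨⊥, le_rfl, by simp, nonDegOn_bot B, ?_⟩⟩
      rw [nonpos_iff_eq_zero.1 hν]; simp
    obtain ⟨k, U, hk0, hkp, -, hUW, hU, hUN, hUd⟩ := exists_unip_block hA hB hp hW hN hne
    obtain ⟨R, hRW, hR, hRN, ho, hd, hdim⟩ := split_invariant hA hB hinj hW hN hUW hU hUN
    have hUd0 : 0 < Module.finrank F U := by rcases hUd with ⟨-, h, -⟩ | ⟨-, h⟩ <;> omega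
    obtain ⟨μ, hμ, hμc, hμs, hμA⟩ := ih _ (by omega) R hR hRN rfl
    -- join a sub-multiset of the rest with the piece
    have hjoin : ∀ ν ≤ μ, (∀ a, Odd a → Even (ν.count a)) →
        ∃ A ≤ W, (∀ v ∈ A, f v ∈ A) ∧ NonDegOn B A ∧ Module.finrank F A = Module.finrank F U + ν.sum := by
      intro ν hν hνc
      obtain ⟨A, hAR, hA', hAN, hAd⟩ := hμA ν hν hνc
      rw [← hAd]
      exact join_invariant hA hUW (hAR.trans hRW) hU hA' hUN hAN (fun x hx y hy => ho x hx y (hAR hy))
        (hd.mono_right hAR)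
    have hskip : ∀ ν ≤ μ, (∀ a, Odd a → Even (ν.count a)) →
        ∃ A ≤ W, (∀ v ∈ A, f v ∈ A) ∧ NonDegOn B A ∧ Module.finrank F A = ν.sum := by
      intro ν hν hνc
      obtain ⟨A, hAR, hA', hAN, hAd⟩ := hμA ν hν hνc
      exact ⟨A, hAR.trans hRW, hA', hAN, hAd⟩
    rcases hUd with ⟨hke, hUk, -⟩ | ⟨hko, hUk⟩
    · have hne' : ∀ {a}, Odd a → a ≠ k := fun ha h => Nat.not_odd_iff_even.2 hke (h ▸ ha)
      refine ⟨k ::ₘ μ, ?_, fun a ha => by rw [Multiset.count_cons_of_ne (hne' ha)]; exact hμc a ha,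
        by rw [Multiset.sum_cons, hμs, hdim, hUk], fun ν hν hνc => ?_⟩
      · intro a ha
        rcases Multiset.mem_cons.1 ha with rfl | ha
        exacts [⟨hk0, hkp⟩, hμ a ha]
      by_cases hmem : k ∈ ν
      · obtain ⟨ν', rfl⟩ := Multiset.exists_cons_of_mem hmem
        rw [Multiset.sum_cons, ← hUk]
        refine hjoin ν' ((Multiset.cons_le_cons_iff k).1 hν) fun a ha => ?_
        have := hνc a ha
        rwa [Multiset.count_cons_of_ne (hne' ha)] at this
      · exact hskip ν ((Multiset.le_cons_of_notMem hmem).1 hν) hνc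
    · replace hko : Odd k := hko.resolve_right h2
      refine ⟨k ::ₘ k ::ₘ μ, ?_, fun a ha => ?_, by rw [Multiset.sum_cons, Multiset.sum_cons, hμs, hdim, hUk]; ring,
        fun ν hν hνc => ?_⟩
      · intro a ha
        rcases Multiset.mem_cons.1 ha with rfl | ha
        · exact ⟨hk0, hkp⟩
        rcases Multiset.mem_cons.1 ha with rfl | ha
        exacts [⟨hk0, hkp⟩, hμ a ha]
      · have := hμc a ha
        simp only [Multiset.count_cons]
        split_ifs <;> simpa [Nat.even_add_one] using this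
      by_cases hmem : k ∈ ν
      · obtain ⟨ν₁, rfl⟩ := Multiset.exists_cons_of_mem hmem
        have hmem' : k ∈ ν₁ := by
          have := hνc k hko
          rw [Multiset.count_cons_self, Nat.even_add_one] at this
          exact Multiset.count_pos.1 (Nat.pos_of_ne_zero fun h => this (h ▸ Even.zero))
        obtain ⟨ν', rfl⟩ := Multiset.exists_cons_of_mem hmem'
        rw [Multiset.sum_cons, Multiset.sum_cons, ← add_assoc, ← two_mul, ← hUk]
        refine hjoin ν' ((Multiset.cons_le_cons_iff k).1 ((Multiset.cons_le_cons_iff k).1 hν)) fun a ha => ?_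
        have := hνc a ha
        simp only [Multiset.count_cons] at this
        split_ifs at this <;> simpa [Nat.even_add_one] using this
      · exact hskip ν ((Multiset.le_cons_of_notMem hmem).1 ((Multiset.le_cons_of_notMem hmem).1 hν)) hνc

/-- Nilpotency two: invariant nondegenerate subspaces of even dimension, up to a congruence. -/
theorem exists_nonDegOn_two (hA : B.IsAlt) (hB : ∀ u v, B (f u) (f v) = B u v) (hinj : Function.Injective f)
    (hp : (f - 1) ^ 2 = 0) :
    ∀ (w : ℕ) (W : Submodule F V), Module.finrank F W = w → (∀ v ∈ W, f v ∈ W) → NonDegOn B W →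
      ∀ m, Even m → m ≤ w → ¬ (w % 4 = 0 ∧ m % 4 = 2) →
        ∃ A ≤ W, (∀ v ∈ A, f v ∈ A) ∧ NonDegOn B A ∧ Module.finrank F A = m := by
  intro w
  induction w using Nat.strong_induction_on with
  | _ w ih =>
    intro W hWd hW hN m hme hmw hcond
    rcases Nat.eq_zero_or_pos m with rfl | hm0
    · exact ⟨⊥, bot_le, by simp, nonDegOn_bot B, finrank_bot F V⟩
    rcases eq_or_ne m w with rfl | hmw'
    · exact ⟨W, le_rfl, hW, hN, hWd⟩
    obtain ⟨wh, hwh⟩ := hWd ▸ even_finrank_of_nonDegOn hA hN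
    obtain ⟨mh, rfl⟩ := hme
    obtain ⟨k, U, hk0, hk2, -, hUW, hU, hUN, hUd⟩ := exists_unip_block hA hB hp hW hN
      (fun h => by rw [h, finrank_bot] at hWd; omega)
    obtain ⟨R, hRW, hR, hRN, ho, hd, hdim⟩ := split_invariant hA hB hinj hW hN hUW hU hUN
    have hjoin : ∀ m', Even m' → m' ≤ Module.finrank F R → ¬ (Module.finrank F R % 4 = 0 ∧ m' % 4 = 2) →
        ∃ A ≤ W, (∀ v ∈ A, f v ∈ A) ∧ NonDegOn B A ∧ Module.finrank F A = Module.finrank F U + m' := by
      intro m' h1 h2 h3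
      obtain ⟨A, hAR, hA', hAN, hAd⟩ := ih _ (by rcases hUd with ⟨-, h, -⟩ | ⟨-, h⟩ <;> omega) R rfl hR hRN m' h1 h2 h3
      rw [← hAd]
      exact join_invariant hA hUW (hAR.trans hRW) hU hA' hUN hAN (fun x hx y hy => ho x hx y (hAR hy))
        (hd.mono_right hAR)
    have hskip : ∀ m', Even m' → m' ≤ Module.finrank F R → ¬ (Module.finrank F R % 4 = 0 ∧ m' % 4 = 2) →
        ∃ A ≤ W, (∀ v ∈ A, f v ∈ A) ∧ NonDegOn B A ∧ Module.finrank F A = m' := by
      intro m' h1 h2 h3
      obtain ⟨A, hAR, hA', hAN, hAd⟩ := ih _ (by rcases hUd with ⟨-, h, -⟩ | ⟨-, h⟩ <;> omega) R rfl hR hRN m' h1 h2 h3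
      exact ⟨A, hAR.trans hRW, hA', hAN, hAd⟩
    rw [hWd] at hdim
    obtain hU2 | hU4 : Module.finrank F U = 2 ∨ Module.finrank F U = 4 := by
      rcases hUd with ⟨⟨e, he⟩, h, -⟩ | ⟨-, h⟩ <;> omega
    · by_cases hgood : Module.finrank F R % 4 = 0 ∧ (mh + mh - 2) % 4 = 2
      · exact hskip _ ⟨mh, rfl⟩ (by omega) (by omega)
      · obtain ⟨A, hAW, hA', hAN, hAd⟩ := hjoin (mh + mh - 2) ⟨mh - 1, by omega⟩ (by omega) hgood
        exact ⟨A, hAW, hA', hAN, by omega⟩
    · by_cases h4 : 4 ≤ mh + mh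
      · obtain ⟨A, hAW, hA', hAN, hAd⟩ := hjoin (mh + mh - 4) ⟨mh - 2, by omega⟩ (by omega) (by omega)
        exact ⟨A, hAW, hA', hAN, by omega⟩
      · exact hskip _ ⟨mh, rfl⟩ (by omega) (by omega)

/-- Without planes every piece has dimension divisible by four. -/
theorem four_dvd_finrank (hA : B.IsAlt) (hB : ∀ u v, B (f u) (f v) = B u v) (hinj : Function.Injective f)
    (hp : (f - 1) ^ 2 = 0) (hnp : ∀ v, B v ((f - 1) v) = 0)
    (hTI : ∀ u v, (f - 1) u = 0 → (f - 1) v = 0 → B u v = 0) :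
    ∀ (w : ℕ) (W : Submodule F V), Module.finrank F W = w → (∀ v ∈ W, f v ∈ W) → NonDegOn B W → 4 ∣ w := by
  intro w
  induction w using Nat.strong_induction_on with
  | _ w ih =>
    intro W hWd hW hN
    rcases eq_or_ne W ⊥ with rfl | hne
    · rw [finrank_bot] at hWd; exact hWd ▸ dvd_zero 4
    obtain ⟨k, U, hk0, hk2, hkW, hUW, hU, hUN, hUd⟩ := exists_unip_block hA hB hp hW hN hne
    obtain ⟨R, -, hR, hRN, -, -, hdim⟩ := split_invariant hA hB hinj hW hN hUW hU hUN
    obtain rfl | rfl : k = 1 ∨ k = 2 := by omega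
    · -- no nondegenerate subspace is fixed
      refine absurd ((Submodule.eq_bot_iff _).2 fun x hx => hN x hx fun y hy => hTI x y ?_ ?_) hne
      · simpa using hkW x hx
      · simpa using hkW y hy
    · rcases hUd with ⟨-, -, v, -, h⟩ | ⟨-, hUd⟩
      · exact absurd (by simpa using hnp v) h
      · have h1 := ih _ (by omega) R rfl hR hRN
        omega

/-- The block sizes on an invariant nondegenerate subspace. -/
theorem exists_subpartition_alt (hA : B.IsAlt) (hB : B.Nondegenerate) (hiso : ∀ u v, B (f u) (f v) = B u v) {p : ℕ}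
    (hp : (f - 1) ^ p = 0) {μ : Multiset ℕ} (hμ : ∀ k, layerDim (f - 1) ⊤ k = μ.countP fun e => k < e)
    {W : Submodule F V} (hW : ∀ v ∈ W, f v ∈ W) (hN : NonDegOn B W) :
    ∃ ν : Multiset ℕ, ν ≤ μ ∧ ν.sum = Module.finrank F W ∧ ∀ e, Odd e → Even (ν.count e) := by
  classical
  set N : Module.End F V := f - 1 with hNdef
  have hinj : Function.Injective f := fun x y h => sub_eq_zero.1 (hB.1 _ fun z => by
    rw [← hiso, map_sub, h, sub_self, map_zero, LinearMap.zero_apply])
  have hWN : ∀ v ∈ W, N v ∈ W := sub_one_mem hW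
  obtain ⟨hsup, hd, -⟩ := nonDegOn_split hA le_top hN (nonDegOn_top hB)
  rw [top_inf_eq] at hsup hd
  have hc : IsCompl W (B.orthogonal W) := ⟨hd, codisjoint_iff.2 hsup⟩
  have hRN : ∀ v ∈ B.orthogonal W, N v ∈ B.orthogonal W := sub_one_mem (orthogonal_invariant hiso hinj hW)
  let c : ℕ → ℕ := fun k => layerDim N W k - layerDim N W (k + 1)
  have hcle : ∀ k, c k ≤ μ.count (k + 1) := by
    intro k
    have h1 := ClassConj.FormTypes.count_add_countP μ k
    rw [← hμ, ← hμ, layerDim_split hc hWN hRN, layerDim_split hc hWN hRN] at h1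
    have h2 := layerDim_succ_le hRN k
    simp only [c]
    omega
  have hzero : ∀ k, p ≤ k → layerDim N W k = 0 := fun k hk => by
    rw [layerDim, layerSpace, pow_eq_zero_of_le hk hp, Submodule.map_zero, finrank_bot]
  let ν : Multiset ℕ := ∑ k ∈ Finset.range p, Multiset.replicate (c k) (k + 1)
  have hν : ∀ k, ν.count (k + 1) = c k := by
    intro k
    simp only [ν, Multiset.count_sum', Multiset.count_replicate, add_left_inj]
    rw [Finset.sum_ite_eq' (Finset.range p) k c]
    split_ifs with h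
    · rfl
    · simp only [Finset.mem_range, not_lt] at h
      simp [c, hzero k h]
  have hν0 : ν.count 0 = 0 := by simp [ν, Multiset.count_sum', Multiset.count_replicate]
  refine ⟨ν, Multiset.le_iff_count.2 fun b => ?_, ?_, ?_⟩
  · rcases b with _ | b
    · rw [hν0]; exact Nat.zero_le _
    · rw [hν]; exact hcle b
  · have hs : ν.sum = ∑ k ∈ Finset.range p, c k * (k + 1) := by
      simp only [ν]
      induction Finset.range p using Finset.induction with
      | empty => simp
      | insert k s hk ih => simp [Finset.sum_insert hk, ih]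
    rw [hs]
    have key : ∀ m, ∑ k ∈ Finset.range m, c k * (k + 1) + m * layerDim N W m =
        ∑ k ∈ Finset.range m, layerDim N W k := by
      intro m
      induction m with
      | zero => simp
      | succ m ih =>
        rw [Finset.sum_range_succ, Finset.sum_range_succ, ← ih]
        obtain ⟨e, he⟩ := Nat.exists_eq_add_of_le (layerDim_succ_le hWN m)
        simp only [c, he, Nat.add_sub_cancel_left]
        ring
    have := key p
    rw [hzero p le_rfl, mul_zero, add_zero, sum_layerDim, hp, LinearMap.ker_zero, inf_top_eq] at this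
    exact this
  · rintro (_ | e) he
    · rw [hν0]; exact Even.zero
    · rw [hν]
      have he' : Even e := by rwa [Nat.odd_add_one, Nat.not_odd_iff_even] at he
      have hfr : f.restrict hW - 1 = N.restrict hWN := LinearMap.ext fun v => Subtype.ext rfl
      obtain ⟨hA', hN'⟩ := nonDegOn_restrict hA hN
      simp only [c]
      rw [← Elusive25.layerDim_restrict hWN, ← Elusive25.layerDim_restrict hWN, ← hfr]
      exact ClassConj.FormTypes.even_layerDim_sub_alt (B := B.restrict W) hA' hN' (fun u v => hiso u v) he'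

end Cfsg.Agent.Elusive
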