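import Cfsg.Agent.Elusive.UnitaryFactors
import Cfsg.Agent.ClassConj.FormTypes
import Cfsg.Agent.Forms.UnitaryStab

/-!
Invariant nondegenerate and totally isotropic subspaces of unitary elements of prime order, read off from the
kernel dimensions of the irreducible factors of `X ^ r - 1`.
-/

set_option autoImplicit false

namespace Cfsg.Agent.Elusive

open Polynomial Module Cfsg.Agent.Classical
open scoped Matrix

variable {F : Type*} [Field F] {n m l q : ℕ}

/-- The endomorphism of an invertible matrix. -/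
noncomputable def glEnd (g : GL (Fin n) F) : Module.End F (Fin n → F) :=
  Matrix.toLinAlgEquiv' (g : Matrix (Fin n) (Fin n) F)

/-- The kernel of a polynomial at an invertible matrix. -/
noncomputable def glKer (g : GL (Fin n) F) (f : F[X]) : Submodule F (Fin n → F) :=
  LinearMap.ker (aeval (glEnd g) f)

theorem glEnd_apply (g : GL (Fin n) F) (v : Fin n → F) : glEnd g v = (g : Matrix (Fin n) (Fin n) F) *ᵥ v := rfl

theorem finrank_glKer (g : GL (Fin n) F) (f : F[X]) :
    finrank F (glKer g f) = UClass.nullity (aeval (g : Matrix (Fin n) (Fin n) F) f) := by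
  rw [glKer, glEnd, UClass.aeval_toLinAlgEquiv', UClass.nullity_eq_ker_endo]

theorem glEnd_pow {g : GL (Fin n) F} {r : ℕ} (hg : g ^ r = 1) : glEnd g ^ r = 1 := by
  rw [glEnd, ← map_pow, ← Units.val_pow_eq_pow_val, hg, Units.val_one, map_one]

theorem mem_GU_iff (g : GL (Fin n) F) :
    g ∈ Cfsg.GU n F q ↔ ∀ u v, U.herm q (glEnd g u) (glEnd g v) = U.herm q u v := Iff.rfl

/-- An invertible matrix from a linear automorphism. -/
noncomputable def glOfLin (e : (Fin n → F) ≃ₗ[F] (Fin n → F)) : GL (Fin n) F := (U.glEquiv n F).symm e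

theorem glEnd_glOfLin (e : (Fin n → F) ≃ₗ[F] (Fin n → F)) (v : Fin n → F) : glEnd (glOfLin e) v = e v := by
  rw [glEnd_apply, ← U.glEquiv_apply, glOfLin, MulEquiv.apply_symm_apply]

/-- The kernel of a polynomial inside the image of an injective intertwiner. -/
theorem finrank_range_inf_glKer (g : GL (Fin m) F) (x : GL (Fin n) F) (Φ : (Fin m → F) →ₗ[F] (Fin n → F))
    (hΦ : Function.Injective Φ) (h : ∀ v, Φ (glEnd g v) = glEnd x (Φ v)) (f : F[X]) :
    finrank F ↥(LinearMap.range Φ ⊓ glKer x f) = finrank F (glKer g f) := by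
  rw [(Submodule.equivMapOfInjective Φ hΦ (glKer g f)).finrank_eq]
  suffices LinearMap.range Φ ⊓ glKer x f = (glKer g f).map Φ by rw [this]
  ext w
  constructor
  · rintro ⟨⟨v, rfl⟩, hw⟩
    refine ⟨v, LinearMap.mem_ker.2 (hΦ ?_), rfl⟩
    rw [ClassConj.aeval_intertwine Φ h f, map_zero]
    exact LinearMap.mem_ker.1 hw
  · rintro ⟨v, hv, rfl⟩
    refine ⟨⟨v, rfl⟩, LinearMap.mem_ker.2 ?_⟩
    rw [← ClassConj.aeval_intertwine Φ h f, LinearMap.mem_ker.1 hv, map_zero]

/-- Coordinates in two blocks. -/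
noncomputable def appendLin (F : Type*) [Field F] (m l : ℕ) : ((Fin m → F) × (Fin l → F)) ≃ₗ[F] (Fin (m + l) → F) :=
  (LinearEquiv.sumArrowLequivProdArrow (Fin m) (Fin l) F F).symm.trans (LinearEquiv.funCongrLeft F F finSumFinEquiv.symm)

theorem appendLin_castAdd (p : (Fin m → F) × (Fin l → F)) (i : Fin m) :
    appendLin F m l p (Fin.castAdd l i) = p.1 i := by
  simp [appendLin, LinearEquiv.funCongrLeft, LinearMap.funLeft]
  rfl

theorem appendLin_natAdd (p : (Fin m → F) × (Fin l → F)) (i : Fin l) :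
    appendLin F m l p (Fin.natAdd m i) = p.2 i := by
  simp [appendLin, LinearEquiv.funCongrLeft, LinearMap.funLeft]
  rfl

theorem herm_appendLin (p p' : (Fin m → F) × (Fin l → F)) :
    U.herm q (appendLin F m l p) (appendLin F m l p') = U.herm q p.1 p'.1 + U.herm q p.2 p'.2 := by
  simp [U.herm_def, Fin.sum_univ_add, appendLin_castAdd, appendLin_natAdd]

/-- Block sums. -/
theorem exists_blockSum (E : ((Fin m → F) × (Fin l → F)) ≃ₗ[F] (Fin n → F)) (g : GL (Fin m) F) (h : GL (Fin l) F) :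
    ∃ x : GL (Fin n) F, (∀ p, glEnd x (E p) = E (glEnd g p.1, glEnd h p.2)) ∧
      (∀ r : ℕ, g ^ r = 1 → h ^ r = 1 → x ^ r = 1) ∧
      ∀ f, finrank F (glKer x f) = finrank F (glKer g f) + finrank F (glKer h f) := by
  let e : (Fin n → F) ≃ₗ[F] (Fin n → F) :=
    (E.symm.trans ((U.glEquiv m F g).prodCongr (U.glEquiv l F h))).trans E
  have hx : ∀ p, glEnd (glOfLin e) (E p) = E (glEnd g p.1, glEnd h p.2) := fun p => by
    rw [glEnd_glOfLin]
    simp [e, glEnd_apply, U.glEquiv_apply]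
  refine ⟨glOfLin e, hx, fun r hg hh => ?_, fun f => ?_⟩
  · have hp : ∀ (j : ℕ) p, (glEnd (glOfLin e) ^ j) (E p) = E ((glEnd g ^ j) p.1, (glEnd h ^ j) p.2) := by
      intro j
      induction j with
      | zero => intro p; simp
      | succ j ih => intro p; rw [pow_succ', Module.End.mul_apply, ih, hx, pow_succ', pow_succ']; rfl
    refine Units.ext (Matrix.toLinAlgEquiv'.injective ?_)
    rw [Units.val_pow_eq_pow_val, map_pow, Units.val_one, map_one]
    refine LinearMap.ext fun v => ?_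
    obtain ⟨p, rfl⟩ := E.surjective v
    show (glEnd (glOfLin e) ^ r) (E p) = E p
    rw [hp, glEnd_pow hg, glEnd_pow hh]
    rfl
  · have hmap : glKer (glOfLin e) f = ((glKer g f).prod (glKer h f)).map E.toLinearMap := by
      have key : ∀ p, aeval (glEnd (glOfLin e)) f (E p) = E (aeval (glEnd g) f p.1, aeval (glEnd h) f p.2) := by
        intro p
        have h1 := ClassConj.aeval_intertwine (E.toLinearMap.comp (LinearMap.inl F _ _)) (y := glEnd g)
          (y' := glEnd (glOfLin e)) (fun v => (show E (glEnd g v, 0) = glEnd (glOfLin e) (E (v, 0)) by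
            rw [hx, map_zero])) f p.1
        have h2 := ClassConj.aeval_intertwine (E.toLinearMap.comp (LinearMap.inr F _ _)) (y := glEnd h)
          (y' := glEnd (glOfLin e)) (fun v => (show E (0, glEnd h v) = glEnd (glOfLin e) (E (0, v)) by
            rw [hx, map_zero])) f p.2
        change E (_, 0) = aeval (glEnd (glOfLin e)) f (E (p.1, 0)) at h1
        change E (0, _) = aeval (glEnd (glOfLin e)) f (E (0, p.2)) at h2
        conv_lhs => rw [show p = (p.1, 0) + (0, p.2) by simp, map_add, map_add, ← h1, ← h2, ← map_add]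
        simp
      ext v
      obtain ⟨p, rfl⟩ := E.surjective v
      rw [Submodule.mem_map_equiv, E.symm_apply_apply, glKer, LinearMap.mem_ker, key, LinearEquiv.map_eq_zero_iff,
        Prod.ext_iff, Submodule.mem_prod]
      rfl
    rw [hmap, LinearEquiv.finrank_map_eq, ClassConj.FormTypes.finrank_submodule_prod]

section field

variable (hF : U.SqField F q)
include hF

theorem herm_dualGL (g : GL (Fin n) F) (u v : Fin n → F) :
    U.herm q (glEnd g u) (glEnd (UClass.dualGL hF g) v) = U.herm q u v := by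
  set A := (g : Matrix (Fin n) (Fin n) F)
  set B := ((UClass.dualGL hF g : GL (Fin n) F) : Matrix (Fin n) (Fin n) F)
  have h1 : ClassConj.cstar hF A * B = 1 := by
    show ((UClass.cstarU hF g * (UClass.cstarU hF g)⁻¹ : GL (Fin n) F) : Matrix (Fin n) (Fin n) F) = 1
    rw [mul_inv_cancel, Units.val_one]
  have h2 := congrArg (ClassConj.cstar hF) h1
  rw [ClassConj.cstar_mul, ClassConj.cstar_cstar, UClass.cstar_one] at h2
  have h3 : Aᵀ * B.map (Forms.sqConj hF) = 1 := by
    have := congrArg Matrix.transpose h2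
    rwa [Matrix.transpose_mul, ClassConj.cstar, Matrix.transpose_transpose, Matrix.transpose_one] at this
  have hv : ∀ v : Fin n → F, (fun i => Forms.sqConj hF ((B *ᵥ v) i)) =
      B.map (Forms.sqConj hF) *ᵥ fun i => Forms.sqConj hF (v i) :=
    fun v => funext fun i => RingHom.map_mulVec (Forms.sqConj hF) B v i
  show (A *ᵥ u) ⬝ᵥ (fun i => Forms.sqConj hF ((B *ᵥ v) i)) = u ⬝ᵥ fun i => Forms.sqConj hF (v i)
  rw [hv, ← Matrix.vecMul_transpose, ← Matrix.dotProduct_mulVec, Matrix.mulVec_mulVec, h3, Matrix.one_mulVec]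

/-- Three blocks with an isotropic first one. -/
theorem exists_hyp_equiv (m l : ℕ) :
    ∃ Φ : ((Fin m → F) × ((Fin m → F) × (Fin l → F))) ≃ₗ[F] (Fin (m + (m + l)) → F),
      ∀ p p', U.herm q (Φ p) (Φ p') = U.herm q p.1 p'.2.1 + U.herm q p.2.1 p'.1 + U.herm q p.2.2 p'.2.2 := by
  haveI := hF.1
  obtain ⟨lam, hlam⟩ := hF.exists_norm (c := (-1 : F)) (by rw [hF.neg_pow, one_pow])
  obtain ⟨mu, hmu, hne⟩ : ∃ mu : F, mu ^ (q + 1) = -1 ∧ mu ≠ lam := by
    by_contra h
    push Not at h
    have := hF.card_norm_eq (c := (-1 : F)) (by rw [hF.neg_pow, one_pow]) (neg_ne_zero.2 one_ne_zero)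
    have h1 : Nat.card {x : F // x ^ (q + 1) = -1} ≤ 1 :=
      Finite.card_le_one_iff_subsingleton.2 ⟨fun a b => Subtype.ext ((h a a.2).trans (h b b.2).symm)⟩
    have := hF.one_lt
    omega
  have hd : 1 + lam * mu ^ q ≠ 0 := fun h => hne (by
    have h' : lam * mu ^ q * mu = -1 * mu := by rw [show lam * mu ^ q = -1 by linear_combination h]
    rw [mul_assoc, ← pow_succ, hmu] at h'
    linear_combination h')
  set t := ((1 + lam * mu ^ q)⁻¹) ^ q
  have ht : t ^ q * (1 + lam * mu ^ q) = 1 := by rw [hF.pow_pow, inv_mul_cancel₀ hd]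
  let π₁ : ((Fin m → F) × ((Fin m → F) × (Fin l → F))) →ₗ[F] (Fin m → F) := LinearMap.fst F _ _
  let π₂ : ((Fin m → F) × ((Fin m → F) × (Fin l → F))) →ₗ[F] (Fin m → F) :=
    (LinearMap.fst F _ _).comp (LinearMap.snd F (Fin m → F) ((Fin m → F) × (Fin l → F)))
  let π₃ : ((Fin m → F) × ((Fin m → F) × (Fin l → F))) →ₗ[F] (Fin l → F) :=
    (LinearMap.snd F _ _).comp (LinearMap.snd F (Fin m → F) ((Fin m → F) × (Fin l → F)))
  let f : ((Fin m → F) × ((Fin m → F) × (Fin l → F))) →ₗ[F] (Fin (m + (m + l)) → F) :=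
    (appendLin F m (m + l)).toLinearMap.comp
      ((π₁ + t • π₂).prod ((appendLin F m l).toLinearMap.comp ((lam • π₁ + (t * mu) • π₂).prod π₃)))
  have hf : ∀ p p', U.herm q (f p) (f p') = U.herm q p.1 p'.2.1 + U.herm q p.2.1 p'.1 + U.herm q p.2.2 p'.2.2 := by
    intro p p'
    have h1 : lam * lam ^ q = -1 := by rw [← pow_succ']; exact hlam
    have h2 : mu * mu ^ q = -1 := by rw [← pow_succ']; exact hmu
    have h3 : t * (1 + lam ^ q * mu) = 1 := by
      have := congrArg (fun x : F => x ^ q) ht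
      simpa [mul_pow, hF.pow_pow, hF.add_pow, one_pow] using this
    show U.herm q (appendLin F m (m + l) (p.1 + t • p.2.1, appendLin F m l (lam • p.1 + (t * mu) • p.2.1, p.2.2)))
      (appendLin F m (m + l) (p'.1 + t • p'.2.1, appendLin F m l (lam • p'.1 + (t * mu) • p'.2.1, p'.2.2))) = _
    simp only [herm_appendLin, U.herm_add_left, hF.herm_add_right, U.herm_smul_left, U.herm_smul_right, mul_pow]
    linear_combination (U.herm q p.1 p'.1) * h1 + (U.herm q p.1 p'.2.1) * ht + (U.herm q p.2.1 p'.1) * h3 +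
      (U.herm q p.2.1 p'.2.1 * t * t ^ q) * h2
  have hinj : Function.Injective f := (injective_iff_map_eq_zero _).2 fun p hp => by
    have key : ∀ p' : (Fin m → F) × ((Fin m → F) × (Fin l → F)), U.herm q p.1 p'.2.1 + U.herm q p.2.1 p'.1 + U.herm q p.2.2 p'.2.2 = 0 := fun p' => by
      rw [← hf, hp, U.herm_zero_left]
    refine Prod.ext (hF.eq_zero_of_herm _ fun v => ?_)
      (Prod.ext (hF.eq_zero_of_herm _ fun v => ?_) (hF.eq_zero_of_herm _ fun v => ?_))
    · simpa [U.herm_def, zero_pow hF.q_ne_zero] using key (0, (v, 0))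
    · simpa [U.herm_def, zero_pow hF.q_ne_zero] using key (v, (0, 0))
    · simpa [U.herm_def, zero_pow hF.q_ne_zero] using key (0, (0, v))
  refine ⟨LinearEquiv.ofBijective f ⟨hinj, (LinearMap.injective_iff_surjective_of_finrank_eq_finrank ?_).1 hinj⟩, hf⟩
  rw [Module.finrank_prod, Module.finrank_prod, finrank_fin_fun, finrank_fin_fun, finrank_fin_fun]

/-- A totally isotropic subspace of a nondegenerate one. -/
theorem two_mul_finrank_le_herm {K X : Submodule F (Fin n → F)}
    (hK : ∀ u ∈ K, (∀ v ∈ K, U.herm q u v = 0) → u = 0) (hXK : X ≤ K)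
    (hX : ∀ u ∈ X, ∀ v ∈ X, U.herm q u v = 0) : 2 * finrank F X ≤ finrank F K := by
  have hd : X ⊓ Forms.hperp q K = ⊥ := eq_bot_iff.2 fun v hv => hK v (hXK hv.1) hv.2
  have hle : X ⊔ Forms.hperp q K ≤ Forms.hperp q X :=
    sup_le (fun u hu v hv => hX u hu v hv) fun u hu v hv => hu v (hXK hv)
  have h1 := Submodule.finrank_mono hle
  have h2 := Submodule.finrank_sup_add_finrank_inf_eq X (Forms.hperp q K)
  rw [hd, finrank_bot, add_zero] at h2
  rw [h2, Forms.finrank_hperp hF, Forms.finrank_hperp hF] at h1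
  have hXn : finrank F X ≤ n := X.finrank_le.trans (by rw [finrank_fin_fun])
  have hKn : finrank F K ≤ n := K.finrank_le.trans (by rw [finrank_fin_fun])
  omega

end field

namespace DualFactors

variable {hF : U.SqField F q} {r b : ℕ} (S : DualFactors hF r b)

/-- All the factors. -/
noncomputable def all : Finset F[X] := letI := Classical.decEq F[X]; insert (X - 1 : F[X]) S.s

theorem mem_all (f : F[X]) : f ∈ S.all ↔ f = X - 1 ∨ f ∈ S.s := by
  letI := Classical.decEq F[X]
  exact Finset.mem_insert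

theorem sum_all (φ : F[X] → ℕ) : ∑ f ∈ S.all, φ f = φ (X - 1) + ∑ f ∈ S.s, φ f := by
  letI := Classical.decEq F[X]
  exact Finset.sum_insert S.notMem

theorem prod_all : ∏ f ∈ S.all, f = X ^ r - 1 := S.prod

theorem irr_all {f : F[X]} (hf : f ∈ S.all) : Irreducible f := by
  classical
  rw [S.mem_all] at hf
  rcases hf with rfl | hf
  · simpa using irreducible_X_sub_C (1 : F)
  · exact S.irr f hf

theorem aeval_prod {g : GL (Fin n) F} (hg : g ^ r = 1) : aeval (glEnd g) (∏ f ∈ S.all, f) = 0 := by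
  rw [S.prod_all, map_sub, map_pow, aeval_X, map_one, glEnd_pow hg, sub_self]

theorem dims {g : GL (Fin n) F} (hg : g ^ r = 1) :
    finrank F (glKer g (X - 1)) + ∑ j : S.s, finrank F (glKer g j) = n := by
  classical
  have h := ClassConj.sum_finrank_ker S.all id (fun a ha b hb => S.cop a ha b hb) (glEnd g) (S.aeval_prod hg)
  rw [finrank_fin_fun, S.sum_all, ← Finset.sum_coe_sort S.s] at h
  exact h.symm

theorem isConj_of_dims {g g' : GL (Fin n) F} (hg : g ^ r = 1) (hg' : g' ^ r = 1)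
    (h : ∀ j : S.s, finrank F (glKer g j) = finrank F (glKer g' j)) : IsConj g g' := by
  classical
  obtain ⟨E, hE⟩ := ClassConj.exists_intertwiner_of_kerDims S.all id (fun f hf => S.irr_all hf)
    (fun a ha b hb => S.cop a ha b hb) (glEnd g) (glEnd g') (S.aeval_prod hg) (S.aeval_prod hg') fun f hf => by
      rw [S.mem_all] at hf
      rcases hf with rfl | hf
      · have h1 := S.dims hg
        have h2 := S.dims hg'
        rw [Finset.sum_congr rfl fun j _ => h j] at h1
        exact Nat.add_right_cancel (h1.trans h2.symm)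
      · exact h ⟨f, hf⟩
  exact ClassConj.isConj_GL_of_intertwiner g g' E hE

theorem dvd_glKer (g : GL (Fin n) F) (j : S.s) : b ∣ finrank F (glKer g j) := by
  have := UClass.dvd_finrank_ker (glEnd g) (S.irr j j.2)
  rwa [S.deg j j.2] at this

theorem glKer_dual {g : GL (Fin n) F} (hg : g ^ r = 1) (j : S.s) :
    finrank F (glKer (UClass.dualGL hF g) j) = finrank F (glKer g (S.τ j)) := by
  rw [finrank_glKer, finrank_glKer, S.dual n g hg j]

theorem glKer_symm {g : GL (Fin n) F} (hg : g ^ r = 1) (hU : g ∈ Cfsg.GU n F q) (j : S.s) :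
    finrank F (glKer g (S.τ j)) = finrank F (glKer g j) := by
  rw [← S.glKer_dual hg, UClass.dualGL_of_mem hF g hU]

/-- Models. -/
theorem exists_model (hr : 0 < r) (a : S.s → ℕ) (hb : ∀ j, b ∣ a j) (hle : ∑ j, a j ≤ n) :
    ∃ g : GL (Fin n) F, g ^ r = 1 ∧ ∀ j : S.s, finrank F (glKer g j) = a j := by
  classical
  let c : F[X] → ℕ := fun f => if h : f ∈ S.s then a ⟨f, h⟩ / b else n - ∑ j, a j
  have hsum : ∑ f ∈ S.all, c f * f.natDegree = n := by
    have h1 : ∑ f ∈ S.s, c f * f.natDegree = ∑ j, a j := by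
      rw [← Finset.sum_coe_sort S.s (fun f => c f * f.natDegree)]
      refine Finset.sum_congr rfl fun j _ => ?_
      simp only [c, dif_pos j.2, S.deg j j.2]
      exact Nat.div_mul_cancel (hb j)
    rw [S.sum_all, h1, show (X - 1 : F[X]).natDegree = 1 by simpa using natDegree_X_sub_C (1 : F),
      mul_one]
    simp only [c, dif_neg S.notMem]
    omega
  obtain ⟨z, hz, hzd⟩ := ClassConj.exists_end_kerDims S.all id (fun f hf => (S.irr_all hf).ne_zero)
    (fun a ha b hb => S.cop a ha b hb) c hsum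
  have hzr : (Matrix.toLinAlgEquiv'.symm z) ^ r = 1 := by
    rw [show (∏ f ∈ S.all, id f) = ∏ f ∈ S.all, f from rfl, S.prod_all, map_sub, map_pow, aeval_X, map_one,
      sub_eq_zero] at hz
    rw [← map_pow, hz, map_one]
  obtain ⟨g, hg⟩ : IsUnit (Matrix.toLinAlgEquiv'.symm z) := (isUnit_pow_iff hr.ne').1 (by rw [hzr]; exact isUnit_one)
  refine ⟨g, Units.ext (by rw [Units.val_pow_eq_pow_val, hg, hzr, Units.val_one]), fun j => ?_⟩
  have := hzd j ((S.mem_all _).2 (Or.inr j.2))
  simp only [c, id_eq, dif_pos j.2, S.deg j j.2, Nat.div_mul_cancel (hb j)] at this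
  rw [glKer, glEnd, hg, AlgEquiv.apply_symm_apply]
  exact this

/-- Unitary models. -/
theorem exists_unitary (hr : 0 < r) (a : S.s → ℕ) (hb : ∀ j, b ∣ a j) (hle : ∑ j, a j ≤ n)
    (hτ : ∀ j, a (S.τ j) = a j) :
    ∃ g : GL (Fin n) F, g ∈ Cfsg.GU n F q ∧ g ^ r = 1 ∧ ∀ j : S.s, finrank F (glKer g j) = a j := by
  obtain ⟨g, hg, hga⟩ := S.exists_model hr a hb hle
  have hd : UClass.dualGL hF g ^ r = 1 := by rw [← map_pow, hg, map_one]
  obtain ⟨B, hB⟩ := UClass.exists_unitary_conj_of_dual hF g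
    (S.isConj_of_dims hg hd fun j => by rw [S.glKer_dual hg, hga, hga, hτ])
  refine ⟨B, B.2, ?_, fun j => ?_⟩
  · obtain ⟨c, hc⟩ := isConj_iff.1 hB
    rw [← hc, conj_pow, hg, mul_one, mul_inv_cancel]
  · rw [← hga j]
    exact (ClassConj.kerDims_of_isConj hB _).symm

include S in
/-- Moving a subspace of a model to a conjugate element. -/
theorem exists_transport {x y : GL (Fin n) F} (hx : x ∈ Cfsg.GU n F q) (hy : y ∈ Cfsg.GU n F q) (h : IsConj y x) :
    ∃ C : (Fin n → F) ≃ₗ[F] (Fin n → F), (∀ u v, U.herm q (C u) (C v) = U.herm q u v) ∧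
      ∀ v, C (glEnd y v) = glEnd x (C v) := by
  obtain ⟨c, hc⟩ := isConj_iff.1 (ClassConj.GU_isConj_of_isConj hF ⟨y, hy⟩ ⟨x, hx⟩ h)
  refine ⟨U.glEquiv n F c.1, fun u v => c.2 u v, fun v => ?_⟩
  have hc' : c.1 * y = x * c.1 := by
    have := congrArg Subtype.val (mul_inv_eq_iff_eq_mul.1 hc)
    exact this
  simp only [U.glEquiv_apply, glEnd_apply, Matrix.mulVec_mulVec]
  rw [← Units.val_mul, ← Units.val_mul, hc']

/-- A nondegenerate invariant subspace with prescribed kernel dimensions. -/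
theorem exists_nd (hr : 0 < r) {x : GL (Fin n) F} (hx : x ∈ Cfsg.GU n F q) (hxr : x ^ r = 1)
    (a : S.s → ℕ) (hb : ∀ j, b ∣ a j) (hτ : ∀ j, a (S.τ j) = a j) (hle : ∀ j : S.s, a j ≤ finrank F (glKer x j))
    {e : ℕ} (he : e ≤ finrank F (glKer x (X - 1))) :
    ∃ W : Submodule F (Fin n → F), finrank F W = e + ∑ j, a j ∧
      (∀ u ∈ W, (∀ v ∈ W, U.herm q u v = 0) → u = 0) ∧ (∀ v ∈ W, glEnd x v ∈ W) ∧
      (∀ j : S.s, finrank F ↥(W ⊓ glKer x j) = a j) ∧ finrank F ↥(W ⊓ glKer x (X - 1)) = e := by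
  classical
  set m := e + ∑ j, a j with hm
  have hdims := S.dims hxr
  have hsum : ∑ j : S.s, a j ≤ ∑ j : S.s, finrank F (glKer x j) := Finset.sum_le_sum fun j _ => hle j
  obtain ⟨l, rfl⟩ : ∃ l, n = m + l := ⟨n - m, by omega⟩
  obtain ⟨g, hgU, hgr, hga⟩ := S.exists_unitary (n := m) hr a hb (by omega) hτ
  obtain ⟨h, hhU, hhr, hha⟩ := S.exists_unitary (n := l) hr (fun j => finrank F (glKer x j) - a j)
    (fun j => Nat.dvd_sub (S.dvd_glKer x j) (hb j))
    (by rw [Finset.sum_tsub_distrib _ fun j _ => hle j]; show _ - ∑ j, a j ≤ l; omega) (fun j => by rw [S.glKer_symm hxr hx, hτ])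
  obtain ⟨y, hy, hyr, hyk⟩ := exists_blockSum (appendLin F m l) g h
  have hyU : y ∈ Cfsg.GU (m + l) F q := by
    rw [mem_GU_iff]
    intro u v
    obtain ⟨p, rfl⟩ := (appendLin F m l).surjective u
    obtain ⟨p', rfl⟩ := (appendLin F m l).surjective v
    rw [hy, hy, herm_appendLin, herm_appendLin, (mem_GU_iff g).1 hgU, (mem_GU_iff h).1 hhU]
  obtain ⟨C, hC, hCx⟩ := S.exists_transport hx hyU (S.isConj_of_dims (hyr r hgr hhr) hxr fun j => by
    rw [hyk, hga, hha, Nat.add_sub_cancel' (hle j)])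
  let Φ : (Fin m → F) →ₗ[F] (Fin (m + l) → F) := C.toLinearMap.comp ((appendLin F m l).toLinearMap.comp (LinearMap.inl F _ _))
  have hΦ : Function.Injective Φ :=
    C.injective.comp ((appendLin F m l).injective.comp LinearMap.inl_injective)
  have hΦx : ∀ v, Φ (glEnd g v) = glEnd x (Φ v) := fun v => by
    show C (appendLin F m l (glEnd g v, 0)) = glEnd x (C (appendLin F m l (v, 0)))
    rw [← hCx, hy, map_zero]
  have hΦh : ∀ u v, U.herm q (Φ u) (Φ v) = U.herm q u v := fun u v => by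
    show U.herm q (C (appendLin F m l (u, 0))) (C (appendLin F m l (v, 0))) = _
    rw [hC, herm_appendLin, U.herm_zero_left, add_zero]
  refine ⟨LinearMap.range Φ, by rw [LinearMap.finrank_range_of_inj hΦ, finrank_fin_fun], ?_, ?_,
    fun j => by rw [finrank_range_inf_glKer g x Φ hΦ hΦx, hga], ?_⟩
  · rintro _ ⟨u, rfl⟩ hu
    rw [hF.eq_zero_of_herm u fun v => (hΦh u v).symm.trans (hu _ ⟨v, rfl⟩), map_zero]
  · rintro _ ⟨u, rfl⟩
    exact ⟨_, hΦx u⟩
  · rw [finrank_range_inf_glKer g x Φ hΦ hΦx]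
    have := S.dims hgr
    rw [Finset.sum_congr rfl fun j _ => hga j] at this
    linarith

/-- A totally isotropic invariant subspace with prescribed kernel dimensions. -/
theorem exists_ti (hr : 0 < r) {x : GL (Fin n) F} (hx : x ∈ Cfsg.GU n F q) (hxr : x ^ r = 1)
    (u : S.s → ℕ) (hb : ∀ j, b ∣ u j) (hle : ∀ j : S.s, u j + u (S.τ j) ≤ finrank F (glKer x j))
    {e : ℕ} (he : 2 * e ≤ finrank F (glKer x (X - 1))) :
    ∃ W : Submodule F (Fin n → F), finrank F W = e + ∑ j, u j ∧
      (∀ v ∈ W, ∀ w ∈ W, U.herm q v w = 0) ∧ (∀ v ∈ W, glEnd x v ∈ W) := by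
  classical
  set m := e + ∑ j, u j with hm
  have hdims := S.dims hxr
  have hperm : ∑ j : S.s, u (S.τ j) = ∑ j : S.s, u j :=
    Equiv.sum_comp (Function.Involutive.toPerm S.τ S.tau_tau) u
  have hsum : ∑ j : S.s, (u j + u (S.τ j)) ≤ ∑ j : S.s, finrank F (glKer x j) := Finset.sum_le_sum fun j _ => hle j
  rw [Finset.sum_add_distrib, hperm] at hsum
  obtain ⟨l, rfl⟩ : ∃ l, n = m + (m + l) := ⟨n - (m + m), by omega⟩
  obtain ⟨g, hgr, hga⟩ := S.exists_model (n := m) hr u hb (by omega)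
  obtain ⟨h, hhU, hhr, hha⟩ := S.exists_unitary (n := l) hr (fun j => finrank F (glKer x j) - (u j + u (S.τ j)))
    (fun j => Nat.dvd_sub (S.dvd_glKer x j) (dvd_add (hb j) (hb _)))
    (by rw [Finset.sum_tsub_distrib _ fun j _ => hle j, Finset.sum_add_distrib, hperm]; omega)
    (fun j => by rw [S.glKer_symm hxr hx, S.tau_tau]; omega)
  obtain ⟨Φ, hΦ⟩ := exists_hyp_equiv hF m l
  set g' := UClass.dualGL hF g
  obtain ⟨z, hz, hzr, hzk⟩ := exists_blockSum (appendLin F m l) g' h
  obtain ⟨y, hy, hyr, hyk⟩ := exists_blockSum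
    (((LinearEquiv.refl F (Fin m → F)).prodCongr (appendLin F m l).symm).trans Φ) g z
  have hy' : ∀ a c, glEnd y (Φ (a, c)) = Φ (glEnd g a, (glEnd g' c.1, glEnd h c.2)) := fun a c => by
    have := hy (a, appendLin F m l c)
    simpa [hz] using this
  have hyU : y ∈ Cfsg.GU (m + (m + l)) F q := by
    rw [mem_GU_iff]
    intro v w
    obtain ⟨⟨a, c⟩, rfl⟩ := Φ.surjective v
    obtain ⟨⟨a', c'⟩, rfl⟩ := Φ.surjective w
    rw [hy', hy', hΦ, hΦ, herm_dualGL hF, (mem_GU_iff h).1 hhU]
    congr 2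
    rw [← hF.herm_symm, herm_dualGL hF, hF.herm_symm]
  have hg'r : g' ^ r = 1 := by rw [← map_pow, hgr, map_one]
  obtain ⟨C, hC, hCx⟩ := S.exists_transport hx hyU (S.isConj_of_dims (hyr r hgr (hzr r hg'r hhr)) hxr fun j => by
    rw [hyk, hzk, hga, S.glKer_dual hgr, hga, hha]
    have := hle j
    omega)
  let Ψ : (Fin m → F) →ₗ[F] (Fin (m + (m + l)) → F) := C.toLinearMap.comp (Φ.toLinearMap.comp (LinearMap.inl F _ _))
  have hΨ : Function.Injective Ψ := C.injective.comp (Φ.injective.comp LinearMap.inl_injective)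
  refine ⟨LinearMap.range Ψ, by rw [LinearMap.finrank_range_of_inj hΨ, finrank_fin_fun], ?_, ?_⟩
  · rintro _ ⟨a, rfl⟩ _ ⟨a', rfl⟩
    show U.herm q (C (Φ (a, 0))) (C (Φ (a', 0))) = 0
    rw [hC, hΦ]
    simp [U.herm_def, zero_pow hF.q_ne_zero]
  · rintro _ ⟨a, rfl⟩
    refine ⟨glEnd g a, ?_⟩
    show C (Φ (glEnd g a, 0)) = glEnd x (C (Φ (a, 0)))
    rw [← hCx, hy']
    simp
    rfl

/-- The kernel dimensions on an invariant subspace. -/
theorem finrank_invariant {x : GL (Fin n) F} (hxr : x ^ r = 1) {W : Submodule F (Fin n → F)}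
    (hW : ∀ v ∈ W, glEnd x v ∈ W) :
    finrank F W = finrank F ↥(W ⊓ glKer x (X - 1)) + ∑ j : S.s, finrank F ↥(W ⊓ glKer x j) ∧
      ∀ j : S.s, b ∣ finrank F ↥(W ⊓ glKer x j) := by
  obtain ⟨E⟩ : Nonempty ((Fin (finrank F W) → F) ≃ₗ[F] W) := ⟨(Module.finBasis F W).equivFun.symm⟩
  have hinj : Function.Injective ((glEnd x).restrict hW) := fun a c h => Subtype.ext
    ((U.glEquiv n F x).injective (by
      have := congrArg Subtype.val h
      exact this))
  let g0 : (Fin (finrank F W) → F) ≃ₗ[F] (Fin (finrank F W) → F) :=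
    (E.trans (LinearEquiv.ofInjectiveEndo _ hinj)).trans E.symm
  let Φ : (Fin (finrank F W) → F) →ₗ[F] (Fin n → F) := W.subtype.comp E.toLinearMap
  have hΦ : Function.Injective Φ := W.injective_subtype.comp E.injective
  have hΦx : ∀ v, Φ (glEnd (glOfLin g0) v) = glEnd x (Φ v) := fun v => by
    rw [glEnd_glOfLin]
    show ((E (E.symm _)) : Fin n → F) = _
    rw [E.apply_symm_apply]
    rfl
  have hg : glOfLin g0 ^ r = 1 := by
    refine Units.ext (Matrix.toLinAlgEquiv'.injective (LinearMap.ext fun v => hΦ ?_))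
    rw [Units.val_pow_eq_pow_val, map_pow, Units.val_one, map_one]
    have hp : ∀ j, Φ ((glEnd (glOfLin g0) ^ j) v) = (glEnd x ^ j) (Φ v) := by
      intro j
      induction j with
      | zero => simp
      | succ j ih => rw [pow_succ', pow_succ', Module.End.mul_apply, Module.End.mul_apply, hΦx, ih]
    show Φ ((glEnd (glOfLin g0) ^ r) v) = _
    rw [hp, glEnd_pow hxr]
    rfl
  have hR : LinearMap.range Φ = W := by
    rw [LinearMap.range_comp, LinearEquiv.range, Submodule.map_top, Submodule.range_subtype]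
  have key : ∀ f, finrank F ↥(W ⊓ glKer x f) = finrank F (glKer (glOfLin g0) f) := fun f => by
    rw [← finrank_range_inf_glKer _ x Φ hΦ hΦx f, hR]
  refine ⟨?_, fun j => key j ▸ S.dvd_glKer _ j⟩
  simp only [key]
  exact (S.dims hg).symm

/-- The fixed space and the kernels of the self-dual factors are nondegenerate. -/
theorem nondeg_kernels (hr : 0 < r) {x : GL (Fin n) F} (hx : x ∈ Cfsg.GU n F q) (hxr : x ^ r = 1) :
    (∀ u ∈ glKer x (X - 1), (∀ v ∈ glKer x (X - 1), U.herm q u v = 0) → u = 0) ∧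
      ∀ j : S.s, S.τ j = j → ∀ u ∈ glKer x j, (∀ v ∈ glKer x j, U.herm q u v = 0) → u = 0 := by
  classical
  constructor
  · obtain ⟨W, hWd, hWN, -, -, hW1⟩ := S.exists_nd hr hx hxr 0 (fun _ => dvd_zero b) (fun _ => rfl)
      (fun _ => Nat.zero_le _) le_rfl
    simp only [Pi.zero_apply, Finset.sum_const_zero, add_zero] at hWd
    have h1 : W ⊓ glKer x (X - 1) = glKer x (X - 1) := Submodule.eq_of_le_of_finrank_eq inf_le_right hW1
    have h2 : glKer x (X - 1) = W := Submodule.eq_of_le_of_finrank_eq (h1 ▸ inf_le_left) hWd.symm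
    rwa [h2]
  · intro j hj
    obtain ⟨W, hWd, hWN, -, hWj, -⟩ := S.exists_nd hr hx hxr (Pi.single j (finrank F (glKer x j)))
      (fun i => by rcases eq_or_ne i j with rfl | h <;> simp [*, S.dvd_glKer])
      (fun i => by
        rcases eq_or_ne i j with rfl | h
        · rw [hj]
        · rw [Pi.single_eq_of_ne h, Pi.single_eq_of_ne fun h' => h (by rw [← S.tau_tau i, h', hj])])
      (fun i => by rcases eq_or_ne i j with rfl | h <;> simp [*]) (Nat.zero_le _)
    rw [Fintype.sum_pi_single', zero_add] at hWd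
    have h1 : W ⊓ glKer x j = glKer x j := Submodule.eq_of_le_of_finrank_eq inf_le_right (by
      rw [hWj, Pi.single_eq_same])
    have h2 : glKer x j = W := Submodule.eq_of_le_of_finrank_eq (h1 ▸ inf_le_left) hWd.symm
    rwa [h2]

/-- The kernel dimensions on a nondegenerate invariant subspace are self-dual. -/
theorem nd_invariant_symm {x : GL (Fin n) F} (hx : x ∈ Cfsg.GU n F q) (hxr : x ^ r = 1)
    {W : Submodule F (Fin n → F)} (hN : ∀ u ∈ W, (∀ v ∈ W, U.herm q u v = 0) → u = 0)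
    (hW : ∀ v ∈ W, glEnd x v ∈ W) (j : S.s) :
    finrank F ↥(W ⊓ glKer x (S.τ j)) = finrank F ↥(W ⊓ glKer x j) := by
  haveI := hF.1
  obtain ⟨E, hE⟩ := Forms.exists_model hF W hN (m := finrank F W) rfl
  have hinj : Function.Injective ((glEnd x).restrict hW) := fun a c h => Subtype.ext
    ((U.glEquiv n F x).injective (by
      have := congrArg Subtype.val h
      exact this))
  let g0 : (Fin (finrank F W) → F) ≃ₗ[F] (Fin (finrank F W) → F) :=
    (E.trans (LinearEquiv.ofInjectiveEndo _ hinj)).trans E.symm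
  let Φ : (Fin (finrank F W) → F) →ₗ[F] (Fin n → F) := W.subtype.comp E.toLinearMap
  have hΦ : Function.Injective Φ := W.injective_subtype.comp E.injective
  have hΦx : ∀ v, Φ (glEnd (glOfLin g0) v) = glEnd x (Φ v) := fun v => by
    rw [glEnd_glOfLin]
    show ((E (E.symm _)) : Fin n → F) = _
    rw [E.apply_symm_apply]
    rfl
  have hgU : glOfLin g0 ∈ Cfsg.GU (finrank F W) F q := by
    rw [mem_GU_iff]
    intro u v
    rw [← hE, ← hE]
    show U.herm q (Φ (glEnd (glOfLin g0) u)) (Φ (glEnd (glOfLin g0) v)) = U.herm q (Φ u) (Φ v)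
    rw [hΦx, hΦx]
    exact (mem_GU_iff x).1 hx _ _
  have hg : glOfLin g0 ^ r = 1 := by
    refine Units.ext (Matrix.toLinAlgEquiv'.injective (LinearMap.ext fun v => hΦ ?_))
    rw [Units.val_pow_eq_pow_val, map_pow, Units.val_one, map_one]
    have hp : ∀ j, Φ ((glEnd (glOfLin g0) ^ j) v) = (glEnd x ^ j) (Φ v) := by
      intro j
      induction j with
      | zero => simp
      | succ j ih => rw [pow_succ', pow_succ', Module.End.mul_apply, Module.End.mul_apply, hΦx, ih]
    show Φ ((glEnd (glOfLin g0) ^ r) v) = _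
    rw [hp, glEnd_pow hxr]
    rfl
  have hR : LinearMap.range Φ = W := by
    rw [LinearMap.range_comp, LinearEquiv.range, Submodule.map_top, Submodule.range_subtype]
  have key : ∀ f, finrank F ↥(W ⊓ glKer x f) = finrank F (glKer (glOfLin g0) f) := fun f => by
    rw [← finrank_range_inf_glKer _ x Φ hΦ hΦx f, hR]
  rw [key, key, S.glKer_symm hg hgU]

open scoped _root_.Classical in
/-- Selecting a self-dual part of given size, when every orbit has the same size. -/
theorem exists_select (hfix : (∀ j, S.τ j = j) ∨ ∀ j, S.τ j ≠ j) :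
    ∀ (T : ℕ) (a : S.s → ℕ), (∀ j, b ∣ a j) → (∀ j, a (S.τ j) = a j) →
      (if ∀ j, S.τ j = j then b else 2 * b) ∣ T → T ≤ ∑ j, a j →
      ∃ a' : S.s → ℕ, (∀ j, b ∣ a' j) ∧ (∀ j, a' (S.τ j) = a' j) ∧ (∀ j, a' j ≤ a j) ∧ ∑ j, a' j = T := by
  classical
  intro T
  induction T using Nat.strong_induction_on with
  | _ T ih =>
    intro a hb hτ hd hle
    rcases Nat.eq_zero_or_pos T with rfl | hT
    · exact ⟨0, fun _ => dvd_zero b, fun _ => rfl, fun j => Nat.zero_le _, by simp⟩
    obtain ⟨j, -, hj⟩ := Finset.exists_ne_zero_of_sum_ne_zero (show ∑ j, a j ≠ 0 by omega)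
    have hbj : b ≤ a j := Nat.le_of_dvd (Nat.pos_of_ne_zero hj) (hb j)
    have hb0 : 0 < b := Nat.pos_of_ne_zero fun h => by
      have := hb j; rw [h, zero_dvd_iff] at this; exact hj this
    set c := if ∀ j, S.τ j = j then b else 2 * b with hc
    obtain ⟨d, hd0, hdb, hdle, hdτ, hdsum⟩ : ∃ d : S.s → ℕ, (∀ i, d i ≤ a i) ∧ (∀ i, b ∣ d i) ∧ True ∧
        (∀ i, d (S.τ i) = d i) ∧ ∑ i, d i = c := by
      rcases hfix with h | h
      · refine ⟨Pi.single j b, fun i => ?_, fun i => ?_, trivial, fun i => by rw [h i], by rw [hc, if_pos h, Fintype.sum_pi_single']⟩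
        · rcases eq_or_ne i j with rfl | h' <;> simp [*]
        · rcases eq_or_ne i j with rfl | h' <;> simp [*]
      · refine ⟨fun i => if i = j ∨ i = S.τ j then b else 0, fun i => ?_, fun i => ?_, trivial, fun i => ?_, ?_⟩
        · dsimp only; split_ifs with h'
          · rcases h' with rfl | rfl
            exacts [hbj, (hτ j).symm ▸ hbj]
          · exact Nat.zero_le _
        · dsimp only; split_ifs <;> simp
        · refine if_congr ⟨fun h' => ?_, fun h' => ?_⟩ rfl rfl
          · rcases h' with h' | h'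
            · exact Or.inr (by rw [← h', S.tau_tau])
            · exact Or.inl (by rw [← S.tau_tau i, h', S.tau_tau])
          · rcases h' with rfl | rfl
            exacts [Or.inr rfl, Or.inl (S.tau_tau j)]
        · rw [hc, if_neg fun h' => h j (h' j), ← Finset.sum_filter,
            show Finset.univ.filter (fun i => i = j ∨ i = S.τ j) = {j, S.τ j} by ext; simp,
            Finset.sum_pair (h j).symm, two_mul]
    have hcT : c ≤ T := Nat.le_of_dvd hT hd
    have hc0 : 0 < c := by rw [hc]; split_ifs <;> omega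
    obtain ⟨a', h1, h2, h3, h4⟩ := ih (T - c) (by omega) (fun i => a i - d i) (fun i => Nat.dvd_sub (hb i) (hdb i))
      (fun i => by rw [hτ, hdτ]) (Nat.dvd_sub hd dvd_rfl)
      (by rw [Finset.sum_tsub_distrib _ fun i _ => hd0 i, hdsum]; omega)
    refine ⟨fun i => a' i + d i, fun i => dvd_add (h1 i) (hdb i), fun i => by simp only [h2, hdτ], fun i => ?_,
      by rw [Finset.sum_add_distrib, h4, hdsum]; omega⟩
    have := h3 i
    have := hd0 i
    show a' i + d i ≤ a i
    omega

end DualFactors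

end Cfsg.Agent.Elusive
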