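import Cfsg.Agent.Forms.UnitaryStab
import Cfsg.Agent.Forms.UnitaryProd

/-!
Prime divisors of the numbers of totally isotropic and of nondegenerate subspaces of a unitary space, as prime
divisors of `q ^ j - (-1) ^ j`.
-/

set_option autoImplicit false

namespace Cfsg.Agent.Elusive.UnitarySub

open Module Cfsg.Agent.Classical

universe u

variable {F : Type u} [Field F] {n q : ℕ}

/-- `q ^ j - (-1) ^ j`. -/
def fac (q j : ℕ) : ℕ := if Odd j then q ^ j + 1 else q ^ j - 1

theorem card_UG_fac (hF : U.SqField F q) (n : ℕ) :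
    Nat.card (U.UG n F q) = q ^ (n * (n - 1) / 2) * ∏ j ∈ Finset.Ioc 0 n, fac q j := by
  rw [U.card_UG hF]
  congr 1
  induction n with
  | zero => simp
  | succ n ih =>
    rw [Finset.prod_range_succ, ih, Finset.prod_Ioc_succ_top (Nat.zero_le n)]
    congr 1
    simp [fac, Nat.odd_add_one, Nat.not_odd_iff_even]

theorem not_dvd_fac {p q : ℕ} (hp : p.Prime) (hpq : p ∣ q) (hq : 1 < q) {j : ℕ} (hj : 0 < j) : ¬ p ∣ fac q j := by
  intro h
  have hd : p ∣ q ^ j := dvd_pow hpq hj.ne'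
  unfold fac at h
  split_ifs at h
  · exact hp.not_dvd_one ((Nat.dvd_add_right hd).1 h)
  · have h1 := Nat.dvd_sub hd h
    rw [Nat.sub_sub_self (Nat.one_le_pow _ _ (by omega))] at h1
    exact hp.not_dvd_one h1

theorem prod_fac_split {l n : ℕ} (h : l ≤ n) :
    ∏ j ∈ Finset.Ioc 0 n, fac q j = (∏ j ∈ Finset.Ioc 0 l, fac q j) * ∏ j ∈ Finset.Ioc l n, fac q j := by
  rw [← Finset.prod_union (Finset.disjoint_left.2 fun a ha hb => by simp at ha hb; omega),
    Finset.Ioc_union_Ioc_eq_Ioc (Nat.zero_le _) h]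

theorem prod_fac_pos (hq : 1 < q) (l : ℕ) : 0 < ∏ j ∈ Finset.Ioc 0 l, fac q j :=
  Finset.prod_pos fun j hj => by
    have hj0 : 0 < j := (Finset.mem_Ioc.1 hj).1
    unfold fac
    split_ifs
    · positivity
    · exact Nat.sub_pos_of_lt (Nat.one_lt_pow hj0.ne' hq)

theorem triangle_add (l k : ℕ) :
    (l + 2 * k) * (l + 2 * k - 1) / 2 = l * (l - 1) / 2 + k * (2 * (l + 2 * k) - 2 * k - 1) := by
  induction k with
  | zero => simp
  | succ k ih =>
    have step : ∀ m, (m + 2) * (m + 2 - 1) / 2 = m * (m - 1) / 2 + (2 * m + 1) := by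
      intro m
      cases m with
      | zero => rfl
      | succ j =>
        rw [show (j + 1 + 2) * (j + 1 + 2 - 1) = (j + 1) * (j + 1 - 1) + (2 * (j + 1) + 1) * 2 by
          simp only [Nat.add_sub_cancel, show j + 1 + 2 - 1 = j + 2 from rfl]; ring,
          Nat.add_mul_div_right _ _ two_pos]
    rw [show l + 2 * (k + 1) = l + 2 * k + 2 by ring, step, ih,
      show 2 * (l + 2 * k + 2) - 2 * (k + 1) - 1 = 2 * l + 2 * k + 1 by omega,
      show 2 * (l + 2 * k) - 2 * k - 1 = 2 * l + 2 * k - 1 by omega]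
    rcases Nat.eq_zero_or_pos k with rfl | hk
    · simp
    · obtain ⟨k, rfl⟩ : ∃ j, k = j + 1 := ⟨k - 1, by omega⟩
      rw [show 2 * l + 2 * (k + 1) - 1 = 2 * l + 2 * k + 1 by omega]
      ring

theorem prod_sq_sub (q k : ℕ) :
    ∏ i : Fin k, ((q ^ 2) ^ k - (q ^ 2) ^ (i : ℕ)) =
      q ^ (k * (k - 1)) * ∏ i : Fin k, (q ^ (2 * (k - (i : ℕ))) - 1) := by
  rw [show k * (k - 1) = ∑ i : Fin k, 2 * (i : ℕ) by
    rw [← Finset.mul_sum, Fin.sum_univ_eq_sum_range (fun i => i) k, mul_comm 2, Finset.sum_range_id_mul_two],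
    ← Finset.prod_pow_eq_pow_sum, ← Finset.prod_mul_distrib]
  refine Finset.prod_congr rfl fun i _ => ?_
  rw [Nat.mul_sub, mul_one, ← pow_add, ← pow_mul, ← pow_mul]
  congr 2
  have := i.2
  omega

theorem card_TI_mul (hF : U.SqField F q) {k : ℕ} (hk : 2 * k ≤ n) :
    Nat.card (Forms.TISub n k F q) * ∏ i : Fin k, (q ^ (2 * (k - (i : ℕ))) - 1) =
      ∏ j ∈ Finset.Ioc (n - 2 * k) n, fac q j := by
  obtain ⟨l, rfl⟩ : ∃ l, n = l + 2 * k := ⟨n - 2 * k, by omega⟩
  have h := Forms.card_frame_mul hF (l + 2 * k) k hk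
  rw [← Forms.card_TISub_mul hF k, card_UG_fac hF, card_UG_fac hF, prod_sq_sub, Nat.add_sub_cancel,
    prod_fac_split (Nat.le_add_right l (2 * k)), triangle_add] at h
  have hq : 1 < q := hF.one_lt
  have he : k * (k - 1) + k * (2 * (l + 2 * k) - 3 * k) = k * (2 * (l + 2 * k) - 2 * k - 1) := by
    rcases Nat.eq_zero_or_pos k with rfl | hk0
    · simp
    · rw [← Nat.mul_add]; congr 1; omega
  rw [Nat.add_sub_cancel]
  refine Nat.eq_of_mul_eq_mul_left
    (show 0 < q ^ (l * (l - 1) / 2) * q ^ (k * (2 * (l + 2 * k) - 2 * k - 1)) * ∏ j ∈ Finset.Ioc 0 l, fac q j from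
      Nat.mul_pos (by positivity) (prod_fac_pos hq l)) ?_
  rw [pow_add] at h
  conv_lhs => rw [← he, pow_add]
  linear_combination h

/-- The primes dividing the number of totally isotropic subspaces. -/
theorem dvd_card_TI (hF : U.SqField F q) {k r : ℕ} (hr : r.Prime) (hk : 2 * k ≤ n)
    (h : r ∣ Nat.card (Forms.TISub n k F q)) : ¬ r ∣ q ∧ ∃ j, n - 2 * k < j ∧ j ≤ n ∧ r ∣ fac q j := by
  have h1 : r ∣ ∏ j ∈ Finset.Ioc (n - 2 * k) n, fac q j := card_TI_mul hF hk ▸ dvd_mul_of_dvd_left h _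
  obtain ⟨j, hj, hjd⟩ := (Prime.dvd_finsetProd_iff hr.prime _).1 h1
  obtain ⟨hj1, hj2⟩ := Finset.mem_Ioc.1 hj
  exact ⟨fun hrq => not_dvd_fac hr hrq hF.one_lt (by omega) hjd, j, hj1, hj2, hjd⟩

/-- Nondegenerate subspaces. -/
abbrev NDSub (n k : ℕ) (F : Type u) [Field F] (q : ℕ) : Type u :=
  {W : Submodule F (Fin n → F) // finrank F W = k ∧ ∀ u ∈ W, u ≠ 0 → ∃ v ∈ W, Cfsg.hermForm n F q u v ≠ 0}

theorem nd_iff {W : Submodule F (Fin n → F)} :
    (∀ u ∈ W, u ≠ 0 → ∃ v ∈ W, Cfsg.hermForm n F q u v ≠ 0) ↔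
      ∀ u ∈ W, (∀ v ∈ W, U.herm q u v = 0) → u = 0 := by
  constructor
  · intro h u hu h0
    by_contra hne
    obtain ⟨v, hv, hv0⟩ := h u hu hne
    exact hv0 (h0 v hv)
  · intro h u hu hne
    by_contra hc
    push Not at hc
    exact hne (h u hu hc)

theorem UG_transitive_NDSub (hF : U.SqField F q) {k : ℕ} (W W' : NDSub n k F q) :
    ∃ g : U.UG n F q, W.1.map g.1.toLinearMap = W'.1 := by
  obtain ⟨a, ha⟩ := Forms.exists_model hF W.1 (nd_iff.1 W.2.2) W.2.1
  obtain ⟨a', ha'⟩ := Forms.exists_model hF W'.1 (nd_iff.1 W'.2.2) W'.2.1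
  obtain ⟨g, hg⟩ := Forms.UG_witt hF (W'.1.subtype.comp (a.symm.trans a').toLinearMap)
    (Subtype.val_injective.comp (LinearEquiv.injective _))
    (fun x y => by
      obtain ⟨u, rfl⟩ := a.surjective x
      obtain ⟨v, rfl⟩ := a.surjective y
      simp [ha', ha])
  refine ⟨g, Submodule.eq_of_le_of_finrank_eq ?_
    (by rw [LinearEquiv.finrank_map_eq g.1 W.1, W.2.1, W'.2.1])⟩
  rintro _ ⟨w, hw, rfl⟩
  rw [LinearEquiv.coe_coe, hg ⟨w, hw⟩]
  exact Subtype.prop _

theorem card_ustab_mul_ND (hF : U.SqField F q) {k : ℕ} (W : NDSub n k F q) :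
    Nat.card (Forms.ustab q W.1) * Nat.card (NDSub n k F q) = Nat.card (U.UG n F q) := by
  let f : U.UG n F q → NDSub n k F q := fun g => ⟨W.1.map g.1.toLinearMap,
    by rw [LinearEquiv.finrank_map_eq g.1 W.1, W.2.1], by
      rintro _ ⟨u, hu, rfl⟩ hne
      obtain ⟨v, hv, h⟩ := W.2.2 u hu (fun h => hne (by rw [h, map_zero]))
      exact ⟨g.1 v, ⟨v, hv, rfl⟩, fun e => h ((U.UG_app g u v).symm.trans e)⟩⟩
  have hcomp : ∀ g h : U.UG n F q, W.1.map (g * h).1.toLinearMap
      = (W.1.map h.1.toLinearMap).map g.1.toLinearMap := fun g h => by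
    rw [Subgroup.coe_mul, LinearEquiv.coe_toLinearMap_mul, Module.End.mul_eq_comp, Submodule.map_comp]
  have hkey : ∀ g h, f g = f h ↔ g⁻¹ * h ∈ Forms.ustab q W.1 := fun g h => by
    rw [Forms.mem_ustab_iff, hcomp, Subtype.ext_iff]
    constructor
    · intro e
      rw [← show W.1.map g.1.toLinearMap = W.1.map h.1.toLinearMap from e, ← hcomp, inv_mul_cancel]
      exact Submodule.map_id W.1
    · intro e
      show W.1.map g.1.toLinearMap = W.1.map h.1.toLinearMap
      conv_lhs => rw [← e, ← hcomp, ← hcomp, mul_inv_cancel_left]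
  let F' : U.UG n F q ⧸ Forms.ustab q W.1 → NDSub n k F q := fun x => Quotient.liftOn' x f fun g h e =>
    (hkey g h).2 (QuotientGroup.leftRel_apply.1 e)
  have hbij : Function.Bijective F' := by
    constructor
    · intro x y
      induction x using QuotientGroup.induction_on with | H g =>
      induction y using QuotientGroup.induction_on with | H h =>
      intro e
      exact QuotientGroup.eq.2 ((hkey g h).1 e)
    · intro W'
      obtain ⟨g, hg⟩ := UG_transitive_NDSub hF W W'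
      exact ⟨QuotientGroup.mk g, Subtype.ext hg⟩
  rw [← Nat.card_congr (Equiv.ofBijective F' hbij), mul_comm,
    ← Subgroup.card_eq_card_quotient_mul_card_subgroup]

/-- The primes dividing the number of nondegenerate subspaces, away from `q`. -/
theorem dvd_card_ND (hF : U.SqField F q) {k r : ℕ} (hr : r.Prime) (hk : k ≤ n) (hrq : ¬ r ∣ q)
    (h : r ∣ Nat.card (NDSub n k F q)) : ∃ j, n - k < j ∧ j ≤ n ∧ r ∣ fac q j := by
  haveI : Finite F := hF.1
  rcases isEmpty_or_nonempty (NDSub n k F q) with he | ⟨⟨W⟩⟩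
  · exfalso
    have hne : Nonempty (NDSub n k F q) := by
      refine ⟨⟨LinearMap.range (Function.ExtendByZero.linearMap F (Fin.castLE hk)), ?_, nd_iff.2 ?_⟩⟩
      · rw [LinearMap.finrank_range_of_inj (Function.extend_injective (Fin.castLE_injective hk) 0), finrank_fin_fun]
      · rintro _ ⟨u, rfl⟩ h0
        have h00 : Function.extend (Fin.castLE hk) u 0 = 0 := by
          refine hF.eq_zero_of_herm _ fun v => ?_
          have := h0 _ ⟨fun i => v (Fin.castLE hk i), rfl⟩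
          rw [← this, U.herm_def, U.herm_def]
          refine Finset.sum_congr rfl fun x _ => ?_
          by_cases hx : ∃ i, Fin.castLE hk i = x
          · obtain ⟨i, rfl⟩ := hx
            simp [Function.ExtendByZero.linearMap_apply, (Fin.castLE_injective hk).extend_apply]
          · simp [Function.ExtendByZero.linearMap_apply, Function.extend_apply' _ _ _ hx]
        exact h00
    exact he.elim hne.some
  · obtain ⟨e⟩ := Forms.exists_equiv_ustab hF hk W.1 W.2.1 (nd_iff.1 W.2.2)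
    have h1 := card_ustab_mul_ND hF W
    rw [Nat.card_congr e.toEquiv, Nat.card_prod] at h1
    have h2 : r ∣ Nat.card (U.UG k F q) * Nat.card (U.UG (n - k) F q) * Nat.card (NDSub n k F q) :=
      dvd_mul_of_dvd_right h _
    obtain ⟨t, ht⟩ := h
    rw [ht, card_UG_fac hF (n - k), card_UG_fac hF n, prod_fac_split (Nat.sub_le n k)] at h1
    have h3 : r ∣ q ^ (n * (n - 1) / 2) * ∏ j ∈ Finset.Ioc (n - k) n, fac q j := by
      refine ⟨Nat.card (U.UG k F q) * q ^ ((n - k) * (n - k - 1) / 2) * t,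
        Nat.eq_of_mul_eq_mul_left (prod_fac_pos (q := q) hF.one_lt (n - k)) ?_⟩
      linear_combination -h1
    rcases hr.dvd_mul.1 h3 with h4 | h4
    · exact absurd (hr.dvd_of_dvd_pow h4) hrq
    · obtain ⟨j, hj, hjd⟩ := (Prime.dvd_finsetProd_iff hr.prime _).1 h4
      obtain ⟨hj1, hj2⟩ := Finset.mem_Ioc.1 hj
      exact ⟨j, hj1, hj2, hjd⟩

/-- The order of `-q` modulo an odd prime divides the exponent. -/
theorem order_dvd {r i c j : ℕ} (hr : r.Prime) (hr2 : r ≠ 2) (hq : 1 < q) (hi : i = orderOf (q : ZMod r))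
    (hc : c = if i % 4 = 0 then i else if i % 4 = 2 then i / 2 else 2 * i) (h : r ∣ fac q j) : c ∣ j := by
  haveI : Fact r.Prime := ⟨hr⟩
  have hz : (q : ZMod r) ^ j = (-1) ^ j := by
    rcases Nat.even_or_odd j with hj | hj
    · rw [fac, if_neg (Nat.not_odd_iff_even.2 hj), ← CharP.cast_eq_zero_iff (ZMod r) r,
        Nat.cast_sub (Nat.one_le_pow _ _ (by omega)), Nat.cast_pow, Nat.cast_one, sub_eq_zero] at h
      rw [h, hj.neg_one_pow]
    · rw [fac, if_pos hj, ← CharP.cast_eq_zero_iff (ZMod r) r, Nat.cast_add, Nat.cast_pow, Nat.cast_one,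
        add_eq_zero_iff_eq_neg] at h
      rw [h, hj.neg_one_pow]
  have h2 : i ∣ 2 * j := by
    rw [hi, orderOf_dvd_iff_pow_eq_one, mul_comm, pow_mul, hz, ← pow_mul, mul_comm, pow_mul, neg_one_sq, one_pow]
  have hev : i ∣ j → Even j := fun hij => by
    by_contra hodd
    rw [Nat.not_even_iff_odd] at hodd
    have h1 : (q : ZMod r) ^ j = 1 := orderOf_dvd_iff_pow_eq_one.1 (hi ▸ hij)
    rw [hz, hodd.neg_one_pow] at h1
    haveI : Fact (2 < r) := ⟨by have := hr.two_le; omega⟩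
    exact ZMod.neg_one_ne_one h1
  rw [hc]
  split_ifs with h4 h42
  · obtain ⟨t, ht⟩ : 4 ∣ i := Nat.dvd_of_mod_eq_zero h4
    have h2t : 2 * t ∣ j := by
      have := h2
      rw [ht, show 4 * t = 2 * (2 * t) by ring] at this
      exact Nat.dvd_of_mul_dvd_mul_left two_pos this
    have hj : Even j := even_iff_two_dvd.2 ((dvd_mul_right 2 t).trans h2t)
    rw [hi, orderOf_dvd_iff_pow_eq_one, hz, hj.neg_one_pow]
  · obtain ⟨t, ht⟩ : 2 ∣ i := Nat.dvd_of_mod_eq_zero (by omega)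
    rw [ht] at h2 ⊢
    rw [Nat.mul_div_cancel_left _ two_pos]
    exact Nat.dvd_of_mul_dvd_mul_left two_pos h2
  · have hodd : Odd i := Nat.odd_iff.2 (by omega)
    have hco : Nat.Coprime i 2 := Nat.coprime_two_right.2 hodd
    have hij : i ∣ j := hco.dvd_of_dvd_mul_left h2
    exact Nat.Coprime.mul_dvd_of_dvd_of_dvd hco.symm (even_iff_two_dvd.1 (hev hij)) hij

theorem mod_lt_of_dvd {c j n a : ℕ} (hc : c ∣ j) (h1 : n - a < j) (h2 : j ≤ n) : n % c < a ∧ 0 < c ∧ c ≤ n := by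
  obtain ⟨t, rfl⟩ := hc
  have hc0 : 0 < c := Nat.pos_of_ne_zero fun h => by rw [h, zero_mul] at h1; omega
  have ht : 0 < t := Nat.pos_of_ne_zero fun h => by rw [h, mul_zero] at h1; omega
  have h3 : n % c ≤ n - c * t := by
    obtain ⟨d, hd⟩ := Nat.exists_eq_add_of_le h2
    subst hd
    rw [Nat.mul_add_mod, Nat.add_sub_cancel_left]
    exact Nat.mod_le _ _
  exact ⟨by omega, hc0, (Nat.le_mul_of_pos_right c ht).trans h2⟩

end Cfsg.Agent.Elusive.UnitarySub
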