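import Cfsg.Agent.Elusive.UnitaryTwo

/-!
When every unitary element of prime order fixes a nondegenerate subspace of given dimension: the arithmetic of the
kernel dimensions.
-/

set_option autoImplicit false

namespace Cfsg.Agent.Elusive.UnitarySub

open Polynomial Module Cfsg.Agent.Classical
open scoped Matrix

variable {F : Type*} [Field F] {n m q r b c : ℕ}

/-- An element fixes a nondegenerate `m`-space. -/
def FixND (n m : ℕ) (q : ℕ) (g : Module.End F (Fin n → F)) : Prop :=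
  ∃ W : Submodule F (Fin n → F), finrank F W = m ∧ (∀ u ∈ W, u ≠ 0 → ∃ v ∈ W, Cfsg.hermForm n F q u v ≠ 0) ∧ W.map g ≤ W

theorem fixND_mk {g : Module.End F (Fin n → F)} {W : Submodule F (Fin n → F)} (hWd : finrank F W = m)
    (hN : ∀ u ∈ W, (∀ v ∈ W, U.herm q u v = 0) → u = 0) (hW : ∀ v ∈ W, g v ∈ W) : FixND n m q g :=
  ⟨W, hWd, nd_iff.2 hN, by rintro _ ⟨v, hv, rfl⟩; exact hW v hv⟩

theorem fixND_dest {g : Module.End F (Fin n → F)} (h : FixND n m q g) :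
    ∃ W : Submodule F (Fin n → F), finrank F W = m ∧ (∀ u ∈ W, (∀ v ∈ W, U.herm q u v = 0) → u = 0) ∧
      ∀ v ∈ W, g v ∈ W := by
  obtain ⟨W, h1, h2, h3⟩ := h
  exact ⟨W, h1, nd_iff.1 h2, fun v hv => h3 ⟨v, hv, rfl⟩⟩

theorem fixND_smul {g : Module.End F (Fin n → F)} (w : F) (h : FixND n m q g) : FixND n m q (w • g) := by
  obtain ⟨W, h1, h2, h3⟩ := fixND_dest h
  exact fixND_mk h1 h2 fun v hv => W.smul_mem w (h3 v hv)

variable {hF : U.SqField F q}

/-- A sum that is invariant under a fixed-point-free involution, in multiples of `b`. -/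
theorem two_mul_dvd_sum {ι : Type*} [Fintype ι] (τ : ι → ι) (hτ : ∀ j, τ (τ j) = j) (hfree : ∀ j, τ j ≠ j)
    (w : ι → ℕ) (hw : ∀ j, w (τ j) = w j) (hb : ∀ j, b ∣ w j) : 2 * b ∣ ∑ j, w j := by
  classical
  choose k hk using hb
  rcases Nat.eq_zero_or_pos b with rfl | hb0
  · simp [hk]
  have hk' : ∀ j, k (τ j) = k j := fun j => Nat.eq_of_mul_eq_mul_left hb0 (by rw [← hk, ← hk, hw])
  have h2 : (∑ j, (k j : ZMod 2)) = 0 := Finset.sum_involution (fun j _ => τ j)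
    (fun j _ => by
      show ((k j : ZMod 2)) + (k (τ j) : ZMod 2) = 0
      rw [hk']
      exact CharTwo.add_self_eq_zero _)
    (fun j _ _ => hfree j) (fun j _ => Finset.mem_univ _) (fun j _ => hτ j)
  rw [← Nat.cast_sum, ZMod.natCast_eq_zero_iff] at h2
  obtain ⟨t, ht⟩ := h2
  exact ⟨t, by rw [Finset.sum_congr rfl fun j _ => hk j, ← Finset.mul_sum, ht]; ring⟩

/-- The step between the sizes of self-dual parts. -/
theorem orbit_size (S : DualFactors hF r b) (hr : 1 < r)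
    (hS : ((∀ j, S.τ j = j) ∧ c = b) ∨ ((∀ j, S.τ j ≠ j) ∧ c = 2 * b)) [Decidable (∀ j, S.τ j = j)] :
    (if ∀ j, S.τ j = j then b else 2 * b) = c := by
  rcases hS with ⟨h, rfl⟩ | ⟨h, rfl⟩
  · rw [if_pos h]
  · rw [if_neg]
    intro h'
    obtain ⟨j, hj⟩ : S.s.Nonempty := Finset.card_pos.1 (Nat.pos_of_ne_zero fun h0 => by
      have := S.card_mul; rw [h0, zero_mul] at this; omega)
    exact h ⟨j, hj⟩ (h' ⟨j, hj⟩)

theorem dvd_sum_of_symm (S : DualFactors hF r b) (hS : ((∀ j, S.τ j = j) ∧ c = b) ∨ ((∀ j, S.τ j ≠ j) ∧ c = 2 * b))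
    (w : S.s → ℕ) (hw : ∀ j, w (S.τ j) = w j) (hb : ∀ j, b ∣ w j) : c ∣ ∑ j, w j := by
  rcases hS with ⟨-, rfl⟩ | ⟨h, rfl⟩
  · exact Finset.dvd_sum fun j _ => hb j
  · exact two_mul_dvd_sum S.τ S.tau_tau h w hw hb

/-- Sufficiency. -/
theorem fixND_of_conditions (S : DualFactors hF r b) (hr : 1 < r)
    (hS : ((∀ j, S.τ j = j) ∧ c = b) ∨ ((∀ j, S.τ j ≠ j) ∧ c = 2 * b))
    (hmn : m ≤ n) (hmod : m % c ≤ n % c) {g : GL (Fin n) F} (hg : g ∈ Cfsg.GU n F q) (hgr : g ^ r = 1) :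
    FixND n m q (glEnd g) := by
  classical
  set a : S.s → ℕ := fun j => finrank F (glKer g j) with ha
  set e0 := finrank F (glKer g (X - 1))
  have hdims : e0 + ∑ j, a j = n := S.dims hgr
  have hca : c ∣ ∑ j, a j := dvd_sum_of_symm S hS a (S.glKer_symm hgr hg) (S.dvd_glKer g)
  have hfix : (∀ j, S.τ j = j) ∨ ∀ j, S.τ j ≠ j := hS.imp And.left And.left
  obtain ⟨a', h1, h2, h3, h4⟩ := S.exists_select hfix (min (∑ j, a j) (c * (m / c))) a (S.dvd_glKer g)
    (S.glKer_symm hgr hg) (by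
      rw [orbit_size S hr hS]
      rcases min_choice (∑ j, a j) (c * (m / c)) with h | h <;> rw [h]
      exacts [hca, dvd_mul_right _ _]) (min_le_left _ _)
  have hmm := Nat.mod_add_div m c
  have he0 : n % c ≤ e0 := by
    obtain ⟨t, ht⟩ := hca
    have h : n % c = e0 % c := by rw [← hdims, ht, Nat.add_mul_mod_self_left]
    exact h ▸ Nat.mod_le _ _
  obtain ⟨W, hWd, hWN, hWi, -, -⟩ := S.exists_nd (by omega) hg hgr a' h1 h2 h3 (e := m - ∑ j, a' j) (by
    rw [h4]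
    show _ ≤ e0
    omega)
  exact fixND_mk (by rw [hWd, h4]; omega) hWN hWi

/-- The kernel dimensions on a fixed nondegenerate subspace. -/
theorem nd_data (S : DualFactors hF r b) (hS : ((∀ j, S.τ j = j) ∧ c = b) ∨ ((∀ j, S.τ j ≠ j) ∧ c = 2 * b))
    {g : GL (Fin n) F} (hg : g ∈ Cfsg.GU n F q) (hgr : g ^ r = 1) (h : FixND n m q (glEnd g)) :
    ∃ e k : ℕ, e ≤ finrank F (glKer g (X - 1)) ∧ e + c * k = m := by
  obtain ⟨W, rfl, hN, hW⟩ := fixND_dest h
  obtain ⟨hsum, hb⟩ := S.finrank_invariant hgr hW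
  obtain ⟨k, hk⟩ := dvd_sum_of_symm S hS _ (S.nd_invariant_symm hg hgr hN hW) hb
  exact ⟨_, k, Submodule.finrank_mono inf_le_right, by rw [← hk]; exact hsum.symm⟩

end Cfsg.Agent.Elusive.UnitarySub
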