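import Cfsg.Agent.Elusive.UnitaryClasses
import Cfsg.Agent.Elusive.SLCriterion
import Cfsg.Agent.Elusive.UnitaryCount

/-!
Elements of prime order of `PSU_n` as scalar multiples of unitary elements of prime order, and models of the unitary
maps whose `r`-th power is a scalar.
-/

set_option autoImplicit false

namespace Cfsg.Agent.Elusive.UnitarySub

open Polynomial Module Cfsg.Agent.Classical
open scoped Matrix

variable {F : Type*} [Field F] {n q r : ℕ}

theorem glEnd_injective {g g' : GL (Fin n) F} (h : glEnd g = glEnd g') : g = g' :=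
  Units.ext (Matrix.toLinAlgEquiv'.injective h)

theorem glEnd_one : glEnd (1 : GL (Fin n) F) = 1 := by
  rw [glEnd, Units.val_one, map_one]

theorem glEnd_eq_toLin' (g : GL (Fin n) F) : glEnd g = Matrix.toLin' (g : Matrix (Fin n) (Fin n) F) := rfl

theorem det_eq_of_isConj {g g' : GL (Fin n) F} (h : IsConj g g') :
    (g : Matrix (Fin n) (Fin n) F).det = (g' : Matrix (Fin n) (Fin n) F).det := by
  obtain ⟨c, hc⟩ := isConj_iff.1 h
  rw [← hc, Units.val_mul, Units.val_mul, Matrix.det_mul, Matrix.det_mul, mul_right_comm, ← Matrix.det_mul,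
    Units.mul_inv, Matrix.det_one, one_mul]

theorem ne_scalar_of_det {g : GL (Fin n) F} (h : ∀ c : F, (g : Matrix (Fin n) (Fin n) F) ≠ c • 1) :
    ∀ c : F, glEnd g ≠ c • (1 : Module.End F (Fin n → F)) := fun c e => h c (Matrix.toLinAlgEquiv'.injective (by
  rw [map_smul, map_one]
  exact e))

/-- Prime order elements of `SU` in terms of unitary matrices of determinant one. -/
theorem forall_su_iff (P : Module.End F (Fin n → F) → Prop) :
    (∀ x : Matrix.SpecialLinearGroup (Fin n) F, x ∈ Cfsg.SU n F q →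
      (∃ z : F, ((x ^ r : Matrix.SpecialLinearGroup (Fin n) F) : Matrix (Fin n) (Fin n) F) = z • (1 : Matrix (Fin n) (Fin n) F)) →
      (∀ z : F, (x : Matrix (Fin n) (Fin n) F) ≠ z • (1 : Matrix (Fin n) (Fin n) F)) →
      P (Matrix.toLin' (x : Matrix (Fin n) (Fin n) F))) ↔
    ∀ g : GL (Fin n) F, g ∈ Cfsg.GU n F q → (g : Matrix (Fin n) (Fin n) F).det = 1 →
      ∀ z : F, glEnd g ^ r = z • 1 → (∀ c : F, glEnd g ≠ c • (1 : Module.End F (Fin n → F))) → P (glEnd g) := by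
  constructor
  · intro h g hg hdet z hz hns
    refine h ⟨(g : Matrix (Fin n) (Fin n) F), hdet⟩ hg ⟨z, toLin'_pow_eq_smul_one.2 hz⟩ fun c e => hns c ?_
    exact (toLin'_eq_smul_one (x := ⟨(g : Matrix (Fin n) (Fin n) F), hdet⟩)).1 e
  · rintro h x hx ⟨z, hz⟩ hns
    refine h (Matrix.SpecialLinearGroup.toGL x) hx x.det_coe z (toLin'_pow_eq_smul_one.1 hz) fun c e => hns c ?_
    exact toLin'_eq_smul_one.2 e

theorem norm_one_of_smul (hF : U.SqField F q) (hn : 0 < n) {g : GL (Fin n) F} (hg : g ∈ Cfsg.GU n F q) {z : F}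
    {k : ℕ} (hz : glEnd g ^ k = z • 1) : z ^ (q + 1) = 1 := by
  have hk : g ^ k ∈ Cfsg.GU n F q := pow_mem hg k
  have hzk : glEnd (g ^ k) = z • 1 := by rw [glEnd, Units.val_pow_eq_pow_val, map_pow, ← hz]; rfl
  have h := (mem_GU_iff _).1 hk (Pi.single ⟨0, hn⟩ 1) (Pi.single ⟨0, hn⟩ 1)
  rw [hzk, LinearMap.smul_apply, Module.End.one_apply, U.herm_smul_left, U.herm_smul_right] at h
  simpa [U.herm_def, Pi.single_apply, zero_pow hF.q_ne_zero, ← pow_succ'] using h

/-- Scaling by a norm one scalar. -/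
theorem exists_scale (hF : U.SqField F q) {g : GL (Fin n) F} (hg : g ∈ Cfsg.GU n F q) {w : F} (hw : w ^ (q + 1) = 1) :
    ∃ g' : GL (Fin n) F, g' ∈ Cfsg.GU n F q ∧ glEnd g' = w • glEnd g ∧
      (g' : Matrix (Fin n) (Fin n) F).det = w ^ n * (g : Matrix (Fin n) (Fin n) F).det := by
  have hw0 : w ≠ 0 := fun h => by rw [h, zero_pow (Nat.succ_ne_zero q)] at hw; exact zero_ne_one hw
  have hdet : (w • (g : Matrix (Fin n) (Fin n) F)).det ≠ 0 := by
    rw [Matrix.det_smul]
    exact mul_ne_zero (pow_ne_zero _ hw0) (Matrix.GeneralLinearGroup.det g).ne_zero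
  refine ⟨Matrix.GeneralLinearGroup.mkOfDetNeZero _ hdet, ?_, ?_, ?_⟩
  · rw [mem_GU_iff]
    intro u v
    have he : ∀ u, glEnd (Matrix.GeneralLinearGroup.mkOfDetNeZero _ hdet) u = w • glEnd g u := fun u => by
      show (w • (g : Matrix (Fin n) (Fin n) F)) *ᵥ u = w • ((g : Matrix (Fin n) (Fin n) F) *ᵥ u)
      exact Matrix.smul_mulVec _ _ _
    rw [he, he, U.herm_smul_left, U.herm_smul_right, (mem_GU_iff g).1 hg, ← mul_assoc, ← pow_succ', hw, one_mul]
  · refine LinearMap.ext fun u => ?_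
    show (w • (g : Matrix (Fin n) (Fin n) F)) *ᵥ u = w • ((g : Matrix (Fin n) (Fin n) F) *ᵥ u)
    exact Matrix.smul_mulVec _ _ _
  · show (w • (g : Matrix (Fin n) (Fin n) F)).det = _
    rw [Matrix.det_smul, Fintype.card_fin]

/-- Dividing by a root of the scalar. -/
theorem reduce_order (hF : U.SqField F q) {g : GL (Fin n) F} (hg : g ∈ Cfsg.GU n F q) {w : F} (hw : w ^ (q + 1) = 1)
    (h : glEnd g ^ r = w ^ r • 1) (hns : ∀ c : F, glEnd g ≠ c • (1 : Module.End F (Fin n → F))) :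
    ∃ g' : GL (Fin n) F, g' ∈ Cfsg.GU n F q ∧ g' ^ r = 1 ∧ g' ≠ 1 ∧ glEnd g = w • glEnd g' := by
  have hw0 : w ≠ 0 := fun h => by rw [h, zero_pow (Nat.succ_ne_zero q)] at hw; exact zero_ne_one hw
  obtain ⟨g', hg', he, -⟩ := exists_scale hF hg (w := w⁻¹) (by rw [inv_pow, hw, inv_one])
  have he' : glEnd g = w • glEnd g' := by rw [he, smul_smul, mul_inv_cancel₀ hw0, one_smul]
  refine ⟨g', hg', glEnd_injective ?_, fun h1 => hns w (by rw [he', h1, glEnd_one]), he'⟩
  have hp : glEnd (g' ^ r) = glEnd g' ^ r := by rw [glEnd, Units.val_pow_eq_pow_val, map_pow]; rfl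
  rw [hp, he, _root_.smul_pow, h, smul_smul, ← mul_pow, inv_mul_cancel₀ hw0, one_pow, one_smul, glEnd_one]

theorem exists_norm_one_root (hF : U.SqField F q) {z : F} (hz : z ^ (q + 1) = 1) (hr : r.Prime) (h : ¬ r ∣ q + 1) :
    ∃ w : F, w ^ (q + 1) = 1 ∧ w ^ r = z := by
  have hq : 1 < q + 1 := by have := hF.one_lt; omega
  obtain ⟨a, -, ha⟩ := Nat.exists_mul_mod_eq_one_of_coprime ((hr.coprime_iff_not_dvd).2 h) hq
  refine ⟨z ^ a, by rw [← pow_mul, mul_comm, pow_mul, hz, one_pow], ?_⟩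
  rw [← pow_mul, mul_comm, ← pow_mod_orderOf]
  have ho : orderOf z ∣ q + 1 := orderOf_dvd_of_pow_eq_one hz
  rw [← Nat.mod_mod_of_dvd (r * a) ho, ha]
  rcases eq_or_ne (orderOf z) 1 with h1 | h1
  · rw [h1, Nat.mod_one, pow_zero, orderOf_eq_one_iff.1 h1]
  · rw [Nat.one_mod_eq_one.2 h1, pow_one]

theorem det_norm_one (hF : U.SqField F q) {g : GL (Fin n) F} (hg : g ∈ Cfsg.GU n F q) :
    (g : Matrix (Fin n) (Fin n) F).det ^ (q + 1) = 1 := by
  have h := U.det_norm_one hF (⟨U.glEquiv n F g, fun u v => hg u v⟩ : U.UG n F q)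
  rwa [U.det_glEquiv, Matrix.GeneralLinearGroup.val_det_apply] at h

/-- Unitary elements of order `r` prime to `q + 1` have determinant one and are not scalar. -/
theorem order_props (hF : U.SqField F q) (hn : 0 < n) (hr : r.Prime) (h : ¬ r ∣ q + 1) {g : GL (Fin n) F}
    (hg : g ∈ Cfsg.GU n F q) (hgr : g ^ r = 1) (hg1 : g ≠ 1) :
    (g : Matrix (Fin n) (Fin n) F).det = 1 ∧ ∀ c : F, glEnd g ≠ c • (1 : Module.End F (Fin n → F)) := by
  have key : ∀ d : F, d ^ (q + 1) = 1 → d ^ r = 1 → d = 1 := fun d h1 h2 => by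
    have h3 := pow_gcd_eq_one.2 ⟨h1, h2⟩
    rwa [Nat.Coprime.gcd_eq_one ((hr.coprime_iff_not_dvd).2 h).symm, pow_one] at h3
  refine ⟨key _ (det_norm_one hF hg) (by
    rw [← Matrix.det_pow, ← Units.val_pow_eq_pow_val, hgr, Units.val_one, Matrix.det_one]), fun c hc => hg1 ?_⟩
  have hc1 : c ^ r = 1 := by
    have h2 := glEnd_pow hgr
    rw [hc, _root_.smul_pow, one_pow] at h2
    have h3 := congrFun (LinearMap.congr_fun h2 (Pi.single ⟨0, hn⟩ 1)) ⟨0, hn⟩
    simpa using h3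
  have hc2 : c ^ (q + 1) = 1 := norm_one_of_smul hF hn hg (k := 1) (by rw [pow_one, hc])
  exact glEnd_injective (by rw [hc, key c hc2 hc1, one_smul, glEnd_one])

/-- Moving along conjugacy of unitary elements. -/
theorem exists_move (hF : U.SqField F q) {x y : GL (Fin n) F} (hx : x ∈ Cfsg.GU n F q) (hy : y ∈ Cfsg.GU n F q)
    (h : IsConj y x) :
    ∃ C : (Fin n → F) ≃ₗ[F] (Fin n → F), (∀ u v, U.herm q (C u) (C v) = U.herm q u v) ∧
      ∀ v, C (glEnd y v) = glEnd x (C v) := by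
  obtain ⟨c, hc⟩ := isConj_iff.1 (ClassConj.GU_isConj_of_isConj hF ⟨y, hy⟩ ⟨x, hx⟩ h)
  refine ⟨U.glEquiv n F c.1, fun u v => c.2 u v, fun v => ?_⟩
  have hc' : c.1 * y = x * c.1 := congrArg Subtype.val (mul_inv_eq_iff_eq_mul.1 hc)
  simp only [U.glEquiv_apply, glEnd_apply, Matrix.mulVec_mulVec]
  rw [← Units.val_mul, ← Units.val_mul, hc']

/-- Invariant nondegenerate and totally isotropic subspaces along conjugacy. -/
theorem exists_sub_of_isConj (hF : U.SqField F q) {x y : GL (Fin n) F} (hx : x ∈ Cfsg.GU n F q)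
    (hy : y ∈ Cfsg.GU n F q) (h : IsConj y x) {W : Submodule F (Fin n → F)} (hW : ∀ v ∈ W, glEnd y v ∈ W) :
    ∃ W' : Submodule F (Fin n → F), finrank F W' = finrank F W ∧ (∀ v ∈ W', glEnd x v ∈ W') ∧
      ((∀ u ∈ W, ∀ v ∈ W, U.herm q u v = 0) → ∀ u ∈ W', ∀ v ∈ W', U.herm q u v = 0) ∧
      ((∀ u ∈ W, (∀ v ∈ W, U.herm q u v = 0) → u = 0) → ∀ u ∈ W', (∀ v ∈ W', U.herm q u v = 0) → u = 0) := by
  obtain ⟨C, hC, hCy⟩ := exists_move hF hx hy h
  refine ⟨W.map C.toLinearMap, LinearEquiv.finrank_map_eq C W, ?_, ?_, ?_⟩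
  · rintro _ ⟨v, hv, rfl⟩
    exact ⟨glEnd y v, hW v hv, hCy v⟩
  · rintro hT _ ⟨u, hu, rfl⟩ _ ⟨v, hv, rfl⟩
    exact (hC u v).trans (hT u hu v hv)
  · rintro hN _ ⟨u, hu, rfl⟩ h0
    rw [hN u hu fun v hv => (hC u v).symm.trans (h0 _ ⟨v, hv, rfl⟩), map_zero]

open Fin.NatCast in
/-- The monomial model: cyclic blocks of length `r`, indexed by `κ`. -/
theorem exists_block_model (hF : U.SqField F q) (hr : 0 < r) {κ : Type*} [Fintype κ] [DecidableEq κ]
    (e : κ × Fin r ≃ Fin n) {z : F} (hz : z ^ (q + 1) = 1) :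
    ∃ g : GL (Fin n) F, g ∈ Cfsg.GU n F q ∧ glEnd g ^ r = z • 1 ∧
      (g : Matrix (Fin n) (Fin n) F).det = ((-1) ^ (r - 1) * z) ^ Fintype.card κ ∧
      (2 ≤ r → Nonempty κ → ∀ c : F, glEnd g ≠ c • (1 : Module.End F (Fin n → F))) ∧
      ∃ σ : Fin r → Fin r, ∃ wt : Fin r → F, ∀ v k t,
        glEnd g v (e (k, t)) = wt t * v (e (k, σ t)) := by
  classical
  haveI : NeZero r := ⟨hr.ne'⟩
  have hz0 : z ≠ 0 := fun h => by rw [h, zero_pow (Nat.succ_ne_zero q)] at hz; exact zero_ne_one hz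
  let wt : Fin r → F := fun t => if t = 0 then z else 1
  let π : Equiv.Perm (κ × Fin r) := Equiv.prodCongrRight fun _ => (finRotate r).symm
  let σ : Equiv.Perm (Fin n) := e.permCongr π
  let d : Fin n → F := fun i => wt (e.symm i).2
  let M : Matrix (Fin n) (Fin n) F := Matrix.diagonal d * σ.permMatrix F
  have hsym : ∀ t : Fin r, (finRotate r).symm t = t - 1 := fun t => (Equiv.symm_apply_eq _).2 (by simp)
  have hM : ∀ v k t, (M *ᵥ v) (e (k, t)) = wt t * v (e (k, t - 1)) := fun v k t => by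
    rw [← Matrix.mulVec_mulVec, Matrix.mulVec_diagonal, Matrix.permMatrix_mulVec]
    simp [d, σ, π, Equiv.permCongr_apply, hsym]
  have hd : ∀ t, wt t ^ (q + 1) = 1 := fun t => by simp only [wt]; split_ifs <;> simp [hz]
  have hwt : ∏ t, wt t = z := by simp [wt]
  have hdet : M.det = ((-1) ^ (r - 1) * z) ^ Fintype.card κ := by
    rw [Matrix.det_mul, Matrix.det_diagonal, Matrix.det_permutation]
    have h1 : ∏ i, d i = z ^ Fintype.card κ := by
      rw [← Equiv.prod_comp e d, Fintype.prod_prod_type]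
      simp [d, hwt, Finset.prod_const]
    have h2 : Equiv.Perm.sign σ = ((-1 : ℤˣ) ^ (r - 1)) ^ Fintype.card κ := by
      simp only [σ, π, Equiv.Perm.sign_permCongr, Equiv.Perm.sign_prodCongrRight, Equiv.Perm.sign_symm,
        sign_finRotate, Finset.prod_const, Finset.card_univ]
    rw [h1, h2, mul_pow, mul_comm]
    push_cast
    ring
  have hdet0 : M.det ≠ 0 := by
    rw [hdet]; exact pow_ne_zero _ (mul_ne_zero (pow_ne_zero _ (neg_ne_zero.2 one_ne_zero)) hz0)
  refine ⟨Matrix.GeneralLinearGroup.mkOfDetNeZero M hdet0, ?_, ?_, hdet, fun hr2 ⟨k⟩ c hc => ?_,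
    fun t => t - 1, wt, hM⟩
  · rw [mem_GU_iff]
    intro u v
    show U.herm q (M *ᵥ u) (M *ᵥ v) = _
    rw [U.herm_def, U.herm_def, ← e.sum_comp, ← e.sum_comp, Fintype.sum_prod_type, Fintype.sum_prod_type]
    refine Finset.sum_congr rfl fun k _ => ?_
    refine Fintype.sum_equiv (Equiv.subRight 1) _ _ fun t => ?_
    rw [hM, hM, mul_pow, show ∀ a b c d : F, a * b * (c * d) = a * c * (b * d) from fun a b c d => by ring,
      ← pow_succ', hd, one_mul, Equiv.subRight_apply]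
  · refine LinearMap.ext fun v => funext fun i => ?_
    obtain ⟨⟨k, t⟩, rfl⟩ := e.surjective i
    have key : ∀ j t, ((glEnd (Matrix.GeneralLinearGroup.mkOfDetNeZero M hdet0)) ^ j) v (e (k, t)) =
        (∏ i ∈ Finset.range j, wt (t - (i : Fin r))) * v (e (k, t - (j : Fin r))) := by
      intro j
      induction j with
      | zero => intro t; simp
      | succ j ih =>
        intro t
        rw [pow_succ', Module.End.mul_apply]
        show (M *ᵥ _) (e (k, t)) = _
        rw [hM, ih, Finset.prod_range_succ', Nat.cast_zero, sub_zero, mul_comm _ (wt t), mul_assoc]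
        simp [sub_sub, add_comm (1 : Fin r)]
    rw [key, Fin.natCast_self, sub_zero, LinearMap.smul_apply, Module.End.one_apply, Pi.smul_apply, smul_eq_mul]
    congr 1
    rw [← Fin.prod_univ_eq_prod_range (fun i => wt (t - (i : Fin r))) r]
    simp only [Fin.cast_val_eq_self]
    exact (Fintype.prod_equiv (Equiv.subLeft t) _ _ fun i => rfl).trans hwt
  · haveI : Fact (1 < r) := ⟨hr2⟩
    have h1 := congrFun (LinearMap.congr_fun hc (Pi.single (e (k, 0)) 1)) (e (k, 1))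
    change (M *ᵥ _) (e (k, 1)) = _ at h1
    rw [hM, sub_self, Pi.single_eq_same, mul_one] at h1
    have h01 : (1 : Fin r) ≠ 0 := by
      intro h
      have := congrArg Fin.val h
      rw [Fin.val_one', Fin.val_zero, Nat.mod_eq_of_lt (show 1 < r by omega)] at this
      omega
    simp [wt, h01, Pi.single_apply, e.injective.eq_iff] at h1

end Cfsg.Agent.Elusive.UnitarySub
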