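import Cfsg.Agent.Elusive.UnitaryReduce

/-!
Diagonal unitary elements, and unitary maps whose `r`-th power is a scalar without `r`-th root.
-/

set_option autoImplicit false

namespace Cfsg.Agent.Elusive.UnitarySub

open Polynomial Module Cfsg.Agent.Classical
open scoped Matrix

variable {F : Type*} [Field F] {n q r : ℕ}

theorem exists_diag_element (hF : U.SqField F q) (d : Fin n → F) (hd : ∀ k, d k ^ (q + 1) = 1) :
    ∃ g : GL (Fin n) F, g ∈ Cfsg.GU n F q ∧ (g : Matrix (Fin n) (Fin n) F).det = ∏ k, d k ∧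
      ∀ v k, glEnd g v k = d k * v k := by
  classical
  have h0 : (Matrix.diagonal d).det ≠ 0 := by
    rw [Matrix.det_diagonal]
    exact Finset.prod_ne_zero_iff.2 fun k _ h => by
      have := hd k; rw [h, zero_pow (Nat.succ_ne_zero q)] at this; exact zero_ne_one this
  have hv : ∀ v k, (Matrix.diagonal d *ᵥ v) k = d k * v k := fun v k => Matrix.mulVec_diagonal d v k
  refine ⟨Matrix.GeneralLinearGroup.mkOfDetNeZero _ h0, ?_, Matrix.det_diagonal, hv⟩
  rw [mem_GU_iff]
  intro u v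
  show U.herm q (Matrix.diagonal d *ᵥ u) (Matrix.diagonal d *ᵥ v) = _
  rw [U.herm_def, U.herm_def]
  refine Finset.sum_congr rfl fun k _ => ?_
  rw [hv, hv, mul_pow]
  linear_combination (u k * v k ^ q) * ((pow_succ' (d k) q).symm.trans (hd k))

theorem diag_pow {g : GL (Fin n) F} {d : Fin n → F} (hg : ∀ v k, glEnd g v k = d k * v k) {a : F}
    (h : ∀ k, d k ^ r = a) : glEnd g ^ r = a • (1 : Module.End F (Fin n → F)) := by
  have key : ∀ j v k, (glEnd g ^ j) v k = d k ^ j * v k := by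
    intro j
    induction j with
    | zero => intro v k; simp
    | succ j ih => intro v k; rw [pow_succ', Module.End.mul_apply, hg, ih, pow_succ', mul_assoc]
  refine LinearMap.ext fun v => funext fun k => ?_
  rw [key, h]
  rfl

/-- An invariant subspace has no component along an eigenline unless it contains it. -/
theorem single_mem_of_invariant {g : GL (Fin n) F} {d : Fin n → F} (hg : ∀ v k, glEnd g v k = d k * v k)
    {W : Submodule F (Fin n → F)} (hW : ∀ v ∈ W, glEnd g v ∈ W) {k : Fin n} (hk : ∀ j, j ≠ k → d j ≠ d k)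
    {w : Fin n → F} (hw : w ∈ W) (hwk : w k ≠ 0) : Pi.single k 1 ∈ W := by
  classical
  obtain ⟨w', hw', h1, h2⟩ : ∃ w' ∈ W, w' k ≠ 0 ∧ ∀ j ∈ Finset.univ.erase k, w' j = 0 := by
    refine Finset.induction_on' (Finset.univ.erase k) ⟨w, hw, hwk, by simp⟩ fun a s ha hs has ih => ?_
    obtain ⟨w', hw', h1, h2⟩ := ih
    have hak : a ≠ k := (Finset.mem_erase.1 ha).1
    refine ⟨glEnd g w' - d a • w', W.sub_mem (hW w' hw') (W.smul_mem _ hw'), ?_, fun j hj => ?_⟩
    · rw [Pi.sub_apply, hg, Pi.smul_apply, smul_eq_mul, ← sub_mul]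
      exact mul_ne_zero (sub_ne_zero.2 (hk a hak).symm) h1
    · rw [Pi.sub_apply, hg, Pi.smul_apply, smul_eq_mul]
      rcases Finset.mem_insert.1 hj with rfl | hj
      · exact sub_self _
      · rw [h2 j hj, mul_zero, mul_zero, sub_zero]
  have h3 : Pi.single k 1 = (w' k)⁻¹ • w' := by
    funext j
    rcases eq_or_ne j k with rfl | hj
    · simp [h1]
    · simp [hj, h2 j (Finset.mem_erase.2 ⟨hj, Finset.mem_univ _⟩)]
  exact h3 ▸ W.smul_mem _ hw'

/-- Simple eigenvalues carry no isotropic invariant subspace. -/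
theorem two_mul_le_card_eigen (hF : U.SqField F q) {g : GL (Fin n) F} {d : Fin n → F}
    (hg : ∀ v k, glEnd g v k = d k * v k) {a : F} (hd : ∀ k, d k ≠ a → ∀ j, j ≠ k → d j ≠ d k)
    {W : Submodule F (Fin n → F)} (hW : ∀ v ∈ W, glEnd g v ∈ W) (hT : ∀ u ∈ W, ∀ v ∈ W, U.herm q u v = 0) :
    2 * finrank F W ≤ Nat.card {k // d k = a} := by
  classical
  haveI := hF.1
  let Φ : ({k // d k = a} → F) →ₗ[F] (Fin n → F) := Function.ExtendByZero.linearMap F Subtype.val
  have hΦ : Function.Injective Φ := Function.extend_injective Subtype.val_injective (0 : Fin n → F)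
  have hmem : ∀ v : Fin n → F, v ∈ LinearMap.range Φ ↔ ∀ k, d k ≠ a → v k = 0 := by
    intro v
    constructor
    · rintro ⟨u, rfl⟩ k hk
      exact Function.extend_apply' u (0 : Fin n → F) k (by rintro ⟨⟨j, hj⟩, rfl⟩; exact hk hj)
    · intro h
      refine ⟨fun k => v k, funext fun k => ?_⟩
      by_cases hk : d k = a
      · exact Subtype.val_injective.extend_apply (fun k : {k // d k = a} => v k) 0 ⟨k, hk⟩
      · exact (Function.extend_apply' (fun k : {k // d k = a} => v k) (0 : Fin n → F) k (by rintro ⟨⟨j, hj⟩, rfl⟩; exact hk hj)).trans (h k hk).symm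
  have hle : W ≤ LinearMap.range Φ := fun w hw => (hmem w).2 fun k hk => by
    by_contra h
    have h1 := single_mem_of_invariant hg hW (hd k hk) hw h
    have h2 := hT _ h1 _ h1
    simp [U.herm_def, Pi.single_apply, zero_pow hF.q_ne_zero] at h2
  have h := two_mul_finrank_le_herm hF (K := LinearMap.range Φ) (fun u hu h0 => hF.eq_zero_of_herm u fun v => by
    have h1 := h0 (fun k => if d k = a then v k else 0) ((hmem _).2 fun k hk => by simp [hk])
    rw [← h1, U.herm_def, U.herm_def]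
    refine Finset.sum_congr rfl fun k _ => ?_
    by_cases hk : d k = a
    · simp [hk]
    · simp [hk, (hmem u).1 hu k hk]) hle hT
  rwa [LinearMap.finrank_range_of_inj hΦ, Module.finrank_fintype_fun_eq_card, ← Nat.card_eq_fintype_card] at h

variable [Fintype F]

/-- A primitive root of unity of order `q + 1`. -/
theorem exists_norm_one_generator (hF : U.SqField F q) : ∃ ξ : F, IsPrimitiveRoot ξ (q + 1) := by
  classical
  obtain ⟨γ, hγ⟩ := IsCyclic.exists_generator (α := Fˣ)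
  have ho : orderOf γ = (q - 1) * (q + 1) := by
    rw [orderOf_eq_card_of_forall_mem_zpowers hγ, Nat.card_units, hF.2]
    have := hF.one_lt
    rw [Nat.sub_mul, one_mul, pow_two, Nat.mul_add, mul_one]
    omega
  refine ⟨((γ ^ (q - 1) : Fˣ) : F), IsPrimitiveRoot.coe_units_iff.2 ?_⟩
  have hpr : IsPrimitiveRoot γ ((q - 1) * (q + 1)) := ho ▸ IsPrimitiveRoot.orderOf γ
  exact hpr.pow (ho ▸ orderOf_pos γ) rfl

/-- A root of unity of order `r` of norm one. -/
theorem exists_root_of_unity (hF : U.SqField F q) (hd : r ∣ q + 1) : ∃ ζ : F, IsPrimitiveRoot ζ r ∧ ζ ^ (q + 1) = 1 := by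
  obtain ⟨ξ, hξ⟩ := exists_norm_one_generator hF
  obtain ⟨k, hk⟩ := hd
  refine ⟨ξ ^ k, hξ.pow (Nat.succ_pos q) (hk.trans (mul_comm r k)), ?_⟩
  rw [← pow_mul, mul_comm, pow_mul, hξ.pow_eq_one, one_pow]

theorem root_of_pow (hF : U.SqField F q) (hr : r.Prime) (hd : r ∣ q + 1) {N : ℕ} (hN : 0 < N)
    (hv : padicValNat r (r * N) ≤ padicValNat r (q + 1)) {z : F} (hz : z ^ (q + 1) = 1) (hzN : z ^ N = 1) :
    ∃ w : F, w ^ (q + 1) = 1 ∧ w ^ r = z := by
  haveI : Fact r.Prime := ⟨hr⟩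
  obtain ⟨ξ, hξ⟩ := exists_norm_one_generator hF
  obtain ⟨a, -, rfl⟩ := hξ.eq_pow_of_pow_eq_one hz
  rw [← pow_mul, hξ.pow_eq_one_iff_dvd] at hzN
  suffices r ∣ a by
    obtain ⟨t, rfl⟩ := this
    exact ⟨ξ ^ t, by rw [← pow_mul, mul_comm, pow_mul, hξ.pow_eq_one, one_pow], by rw [← pow_mul, mul_comm]⟩
  by_contra hra
  have hv1 : r ^ padicValNat r (q + 1) ∣ N := by
    have h1 : r ^ padicValNat r (q + 1) ∣ a * N := pow_padicValNat_dvd.trans hzN
    exact (Nat.Coprime.pow_left _ ((hr.coprime_iff_not_dvd).2 hra)).dvd_of_dvd_mul_left h1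
  rw [padicValNat.mul hr.ne_zero hN.ne', padicValNat_self] at hv
  have := (padicValNat_dvd_iff_le hN.ne').1 hv1
  omega

theorem exists_nonroot (hF : U.SqField F q) (hr : r.Prime) (hd : r ∣ q + 1) {N : ℕ} (hN : 0 < N)
    (hv : padicValNat r (q + 1) < padicValNat r (r * N)) :
    ∃ z : F, z ^ (q + 1) = 1 ∧ z ^ N = 1 ∧ ∀ b : F, b ^ (q + 1) = 1 → b ^ r ≠ z := by
  haveI : Fact r.Prime := ⟨hr⟩
  obtain ⟨ξ, hξ⟩ := exists_norm_one_generator hF
  obtain ⟨k, hk⟩ : r ^ padicValNat r (q + 1) ∣ q + 1 := pow_padicValNat_dvd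
  rw [padicValNat.mul hr.ne_zero hN.ne', padicValNat_self] at hv
  obtain ⟨t, ht⟩ : r ^ padicValNat r (q + 1) ∣ N := (padicValNat_dvd_iff_le hN.ne').2 (by omega)
  refine ⟨ξ ^ k, by rw [← pow_mul, mul_comm, pow_mul, hξ.pow_eq_one, one_pow],
    by rw [ht, ← pow_mul, ← mul_assoc, mul_comm k, ← hk, pow_mul, hξ.pow_eq_one, one_pow], fun b hb he => ?_⟩
  obtain ⟨a, -, rfl⟩ := hξ.eq_pow_of_pow_eq_one hb
  rw [← pow_mul] at he
  have hmod : a * r ≡ k [MOD q + 1] := by
    rw [hξ.eq_orderOf]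
    exact ((isOfFinOrder_iff_pow_eq_one.2 ⟨q + 1, Nat.succ_pos q, hξ.pow_eq_one⟩).pow_eq_pow_iff_modEq).1 he
  have hrk : r ∣ k := (Nat.modEq_zero_iff_dvd).1 ((hmod.of_dvd hd).symm.trans (Nat.modEq_zero_iff_dvd.2 (dvd_mul_left r a)))
  obtain ⟨u, rfl⟩ := hrk
  exact pow_succ_padicValNat_not_dvd (p := r) (Nat.succ_ne_zero q) ⟨u, by rw [pow_succ, mul_assoc]; exact hk⟩

/-- No root among norm one scalars means no root at all, for odd `r`. -/
theorem nonroot_field (hF : U.SqField F q) (hr : r.Prime) (hr2 : r ≠ 2) (hd : r ∣ q + 1) {z : F} (hz : z ^ (q + 1) = 1)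
    (h : ∀ b : F, b ^ (q + 1) = 1 → b ^ r ≠ z) : ∀ b : F, b ^ r ≠ z := by
  intro b hb
  have hb0 : b ≠ 0 := fun e => by
    rw [e, zero_pow hr.ne_zero] at hb
    rw [← hb, zero_pow (Nat.succ_ne_zero q)] at hz
    exact zero_ne_one hz
  have h1 : b ^ ((q - 1) * (q + 1)) = 1 := by
    have hq := hF.one_lt
    rw [show (q - 1) * (q + 1) = Fintype.card F - 1 by
      rw [← Nat.card_eq_fintype_card, hF.2, Nat.sub_mul, one_mul, pow_two, Nat.mul_add, mul_one]; omega]
    exact FiniteField.pow_card_sub_one_eq_one b hb0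
  have h2 : b ^ (r * (q + 1)) = 1 := by rw [pow_mul, hb, hz]
  have hco : Nat.Coprime (q - 1) r := ((hr.coprime_iff_not_dvd).2 fun hq1 => hr2 (by
    have := hF.one_lt
    have h3 : r ∣ 2 := by
      have h4 := Nat.dvd_sub hd hq1
      rwa [show q + 1 - (q - 1) = 2 by omega] at h4
    exact (Nat.prime_dvd_prime_iff_eq hr Nat.prime_two).1 h3)).symm
  have h3 := pow_gcd_eq_one.2 ⟨h1, h2⟩
  rw [Nat.gcd_mul_right, hco.gcd_eq_one, one_mul] at h3
  exact h b h3 hb

/-- Unitary maps with the same `r`-th power scalar without root are conjugate. -/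
theorem isConj_of_irreducible [Fact r.Prime] {g g' : GL (Fin n) F} {z : F} (hz : ∀ b : F, b ^ r ≠ z)
    (hg : glEnd g ^ r = z • 1) (hg' : glEnd g' ^ r = z • 1) : IsConj g g' := by
  obtain ⟨e, he⟩ := ClassConj.exists_intertwiner_irreducible (X_pow_sub_C_irreducible_of_prime Fact.out hz)
    (y := glEnd g) (y' := glEnd g') (by simp [hg, Algebra.algebraMap_eq_smul_one])
    (by simp [hg', Algebra.algebraMap_eq_smul_one]) rfl
  exact ClassConj.isConj_GL_of_intertwiner g g' e he

/-- The subspaces of the irreducible case. -/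
theorem irreducible_case [Fact r.Prime] (hF : U.SqField F q) (hrq : ¬ r ∣ Fintype.card F) (hn : 0 < n)
    {x : GL (Fin n) F} (hx : x ∈ Cfsg.GU n F q) {z : F} (hz : ∀ b : F, b ^ r ≠ z) (hxz : glEnd x ^ r = z • 1) :
    r ∣ n ∧ ((r ≠ 2) → (x : Matrix (Fin n) (Fin n) F).det = z ^ (n / r)) ∧
      (∀ W : Submodule F (Fin n → F), (∀ v ∈ W, glEnd x v ∈ W) → r ∣ finrank F W) ∧
      (∀ m, m ≤ n → r ∣ m → ∃ W : Submodule F (Fin n → F), finrank F W = m ∧
        (∀ u ∈ W, (∀ v ∈ W, U.herm q u v = 0) → u = 0) ∧ ∀ v ∈ W, glEnd x v ∈ W) ∧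
      (∀ m, 2 * m ≤ n → r ∣ m → ∃ W : Submodule F (Fin n → F), finrank F W = m ∧
        (∀ u ∈ W, ∀ v ∈ W, U.herm q u v = 0) ∧ ∀ v ∈ W, glEnd x v ∈ W) := by
  have hr : r.Prime := Fact.out
  have hdvd : ∀ W : Submodule F (Fin n → F), (∀ v ∈ W, glEnd x v ∈ W) → r ∣ finrank F W := fun W hW =>
    (exists_invariant_bad_iff hrq hz hxz (by simpa using W.finrank_le)).1 ⟨W, rfl, map_le_of_invariant hW⟩
  have hrn : r ∣ n := by simpa using hdvd ⊤ fun v _ => trivial
  obtain ⟨N, rfl⟩ := hrn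
  have hz1 : z ^ (q + 1) = 1 := norm_one_of_smul hF hn hx hxz
  refine ⟨dvd_mul_right r N, fun hr2 => ?_, hdvd, ?_, ?_⟩
  · obtain ⟨g, hg, hgz, hdet, -, -⟩ := exists_block_model hF hr.pos (finProdFinEquiv.trans (finCongr (mul_comm N r))) hz1
    rw [det_eq_of_isConj (isConj_of_irreducible hz hxz hgz), hdet, Fintype.card_fin, Nat.mul_div_cancel_left _ hr.pos,
      (Nat.Prime.even_sub_one hr hr2).neg_one_pow, one_mul]
  · rintro m hm ⟨M, rfl⟩
    obtain ⟨R, rfl⟩ := Nat.exists_eq_add_of_le (Nat.le_of_mul_le_mul_left hm hr.pos)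
    obtain ⟨e⟩ : Nonempty ((Fin M ⊕ Fin R) × Fin r ≃ Fin (r * (M + R))) :=
      ⟨Fintype.equivFinOfCardEq (by simp [mul_comm])⟩
    obtain ⟨g, hg, hgz, -, -, σ, wt, hgv⟩ := exists_block_model hF hr.pos e hz1
    let Φ : (Fin M × Fin r → F) →ₗ[F] (Fin (r * (M + R)) → F) :=
      { toFun := fun u i => Sum.elim (fun k => u (k, (e.symm i).2)) (fun _ => 0) (e.symm i).1
        map_add' := fun u v => funext fun i => by rcases h : (e.symm i).1 <;> simp [h]
        map_smul' := fun c v => funext fun i => by rcases h : (e.symm i).1 <;> simp [h] }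
    have hΦ : ∀ u k t, Φ u (e (k, t)) = Sum.elim (fun k => u (k, t)) (fun _ => 0) k := fun u k t => by simp [Φ]
    have hinj : Function.Injective Φ := fun u v h => funext fun x => by
      simpa [hΦ] using congrFun h (e (Sum.inl x.1, x.2))
    obtain ⟨W, hWd, hWi, -, hWN⟩ := exists_sub_of_isConj hF hx hg (isConj_of_irreducible hz hgz hxz)
      (W := LinearMap.range Φ) (by
        rintro _ ⟨u, rfl⟩
        refine ⟨fun x => wt x.2 * u (x.1, σ x.2), funext fun i => ?_⟩
        obtain ⟨⟨k, t⟩, rfl⟩ := e.surjective i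
        rw [hgv, hΦ, hΦ]
        rcases k with k | k <;> simp)
    refine ⟨W, ?_, hWN ?_, hWi⟩
    · rw [hWd, LinearMap.finrank_range_of_inj hinj, Module.finrank_fintype_fun_eq_card, Fintype.card_prod,
        Fintype.card_fin, Fintype.card_fin, mul_comm]
    · rintro _ ⟨u, rfl⟩ h0
      refine hF.eq_zero_of_herm _ fun v => ?_
      rw [← h0 _ ⟨fun x => v (e (Sum.inl x.1, x.2)), rfl⟩, U.herm_def, U.herm_def, ← e.sum_comp, ← e.sum_comp,
        Fintype.sum_prod_type, Fintype.sum_prod_type, Fintype.sum_sum_type, Fintype.sum_sum_type]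
      simp [hΦ]
  · rintro m hm ⟨M, rfl⟩
    obtain ⟨R, rfl⟩ : ∃ R, N = M + (M + R) := ⟨N - (M + M), by
      have : r * (2 * M) ≤ r * N := by rw [mul_left_comm]; exact hm
      have := Nat.le_of_mul_le_mul_left this hr.pos
      omega⟩
    obtain ⟨lam, hlam⟩ := hF.exists_norm (c := (-1 : F)) (by rw [hF.neg_pow, one_pow])
    obtain ⟨e⟩ : Nonempty ((Fin M ⊕ (Fin M ⊕ Fin R)) × Fin r ≃ Fin (r * (M + (M + R)))) :=
      ⟨Fintype.equivFinOfCardEq (by simp [mul_comm])⟩
    obtain ⟨g, hg, hgz, -, -, σ, wt, hgv⟩ := exists_block_model hF hr.pos e hz1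
    let Φ : (Fin M × Fin r → F) →ₗ[F] (Fin (r * (M + (M + R))) → F) :=
      { toFun := fun u i => Sum.elim (fun k => u (k, (e.symm i).2))
          (Sum.elim (fun k => lam * u (k, (e.symm i).2)) fun _ => 0) (e.symm i).1
        map_add' := fun u v => funext fun i => by
          rcases h : (e.symm i).1 with k | k | k <;> simp [h, mul_add]
        map_smul' := fun c v => funext fun i => by
          rcases h : (e.symm i).1 with k | k | k <;> simp [h, mul_left_comm] }
    have hΦ : ∀ u k t, Φ u (e (k, t)) = Sum.elim (fun k => u (k, t))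
        (Sum.elim (fun k => lam * u (k, t)) fun _ => 0) k := fun u k t => by simp [Φ]
    have hinj : Function.Injective Φ := fun u v h => funext fun x => by
      simpa [hΦ] using congrFun h (e (Sum.inl x.1, x.2))
    obtain ⟨W, hWd, hWi, hWT, -⟩ := exists_sub_of_isConj hF hx hg (isConj_of_irreducible hz hgz hxz)
      (W := LinearMap.range Φ) (by
        rintro _ ⟨u, rfl⟩
        refine ⟨fun x => wt x.2 * u (x.1, σ x.2), funext fun i => ?_⟩
        obtain ⟨⟨k, t⟩, rfl⟩ := e.surjective i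
        rw [hgv, hΦ, hΦ]
        rcases k with k | k | k <;> simp [mul_left_comm])
    refine ⟨W, ?_, hWT ?_, hWi⟩
    · rw [hWd, LinearMap.finrank_range_of_inj hinj, Module.finrank_fintype_fun_eq_card, Fintype.card_prod,
        Fintype.card_fin, Fintype.card_fin, mul_comm]
    · rintro _ ⟨u, rfl⟩ _ ⟨v, rfl⟩
      rw [U.herm_def, ← e.sum_comp, Fintype.sum_prod_type, Fintype.sum_sum_type, Fintype.sum_sum_type]
      simp only [hΦ, Sum.elim_inl, Sum.elim_inr, mul_pow, zero_mul, Finset.sum_const_zero, add_zero,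
        ← Finset.sum_add_distrib]
      refine Finset.sum_eq_zero fun k _ => Finset.sum_eq_zero fun t _ => ?_
      linear_combination (u (k, t) * v (k, t) ^ q) * ((pow_succ' lam q).symm.trans hlam)

/-- The bad elements of `SU` exist when the `r`-part of `n` is large. -/
theorem exists_bad_unitary [Fact r.Prime] (hF : U.SqField F q) (hd : r ∣ q + 1) (hn : 0 < n) (hr2 : r ≠ 2)
    (hv : padicValNat r (q + 1) < padicValNat r n) :
    ∃ (g : GL (Fin n) F) (z : F), g ∈ Cfsg.GU n F q ∧ (g : Matrix (Fin n) (Fin n) F).det = 1 ∧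
      glEnd g ^ r = z • 1 ∧ (∀ c : F, glEnd g ≠ c • (1 : Module.End F (Fin n → F))) ∧ ∀ b : F, b ^ r ≠ z := by
  have hr : r.Prime := Fact.out
  obtain ⟨N, rfl⟩ : r ∣ n := dvd_of_one_le_padicValNat (by omega)
  have hN : 0 < N := Nat.pos_of_mul_pos_left hn
  obtain ⟨z, hz, hzN, hzb⟩ := exists_nonroot hF hr hd hN hv
  obtain ⟨g, hg, hgz, hdet, hns, -⟩ := exists_block_model hF hr.pos (finProdFinEquiv.trans (finCongr (mul_comm N r))) hz
  haveI : Nonempty (Fin N) := ⟨⟨0, hN⟩⟩
  refine ⟨g, z, hg, ?_, hgz, hns hr.two_le inferInstance, nonroot_field hF hr hr2 hd hz hzb⟩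
  rw [hdet, Fintype.card_fin, (Nat.Prime.even_sub_one hr hr2).neg_one_pow, one_mul, hzN]

/-- No bad elements of `SU` when the `r`-part of `n` is small. -/
theorem exists_root_of_det [Fact r.Prime] (hF : U.SqField F q) (hrq : ¬ r ∣ Fintype.card F) (hr2 : r ≠ 2)
    (hd : r ∣ q + 1) (hn : 0 < n) (hv : padicValNat r n ≤ padicValNat r (q + 1)) {g : GL (Fin n) F}
    (hg : g ∈ Cfsg.GU n F q) (hdet : (g : Matrix (Fin n) (Fin n) F).det = 1) {z : F} (hgz : glEnd g ^ r = z • 1) :
    ∃ w : F, w ^ (q + 1) = 1 ∧ w ^ r = z := by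
  by_contra hc
  push Not at hc
  have hz := norm_one_of_smul hF hn hg hgz
  obtain ⟨⟨N, rfl⟩, hd', -⟩ := irreducible_case hF hrq hn hg (nonroot_field hF Fact.out hr2 hd hz hc) hgz
  have hd2 := hd' hr2
  rw [hdet, Nat.mul_div_cancel_left _ (Fact.out : r.Prime).pos] at hd2
  obtain ⟨w, hw, hwz⟩ := root_of_pow hF Fact.out hd (Nat.pos_of_mul_pos_left hn) hv hz hd2.symm
  exact hc w hw hwz

/-- Elements of order `r` dividing `q + 1` with simple nontrivial eigenvalues and few fixed vectors. -/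
theorem exists_simple_eigen [Fact r.Prime] (hF : U.SqField F q) (hr2 : r ≠ 2) (hd : r ∣ q + 1) (hn : 3 ≤ n) :
    ∃ g : GL (Fin n) F, g ∈ Cfsg.GU n F q ∧ (g : Matrix (Fin n) (Fin n) F).det = 1 ∧ glEnd g ^ r = (1 : F) • 1 ∧
      (∀ c : F, glEnd g ≠ c • (1 : Module.End F (Fin n → F))) ∧
      ∀ W : Submodule F (Fin n → F), (∀ v ∈ W, glEnd g v ∈ W) → (∀ u ∈ W, ∀ v ∈ W, U.herm q u v = 0) →
        2 * finrank F W ≤ max (n + 1 - r) 1 := by
  classical
  have hr : r.Prime := Fact.out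
  obtain ⟨ζ, hζ, hζq⟩ := exists_root_of_unity hF hd
  obtain ⟨e, hsum, hinj, hcount⟩ : ∃ e : Fin n → ZMod r, ∑ k, e k = 0 ∧ (∀ k, e k ≠ 0 → ∀ j, j ≠ k → e j ≠ e k) ∧
      Nat.card {k // e k = 0} ≤ max (n + 1 - r) 1 := by
    rcases Nat.lt_or_ge n r with hlt | hge
    · have hi : Function.Injective fun k : Fin n => ((k : ℕ) : ZMod r) := fun a b h => Fin.ext (by
        have h1 := congrArg ZMod.val h
        simp only [ZMod.val_natCast] at h1
        rwa [Nat.mod_eq_of_lt (a.2.trans hlt), Nat.mod_eq_of_lt (b.2.trans hlt)] at h1)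
      have h2 : (2 : ZMod r) ≠ 0 := by
        have : ((2 : ℕ) : ZMod r) ≠ 0 := by
          rw [Ne, ZMod.natCast_eq_zero_iff]
          exact fun h => hr2 ((Nat.prime_dvd_prime_iff_eq hr Nat.prime_two).1 h)
        simpa using this
      refine ⟨fun k => ((k : ℕ) : ZMod r) - ((n - 1 : ℕ) : ZMod r) / 2, ?_,
        fun k _ j hj h => hj (hi (sub_left_injective h)), ?_⟩
      · rw [Finset.sum_sub_distrib, Finset.sum_const, Finset.card_univ, Fintype.card_fin, nsmul_eq_mul, ← Nat.cast_sum,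
          Fin.sum_univ_eq_sum_range (fun k => k) n, sub_eq_zero, mul_div_assoc', eq_div_iff h2]
        exact_mod_cast congrArg (Nat.cast (R := ZMod r)) (Finset.sum_range_id_mul_two n)
      · haveI : Subsingleton {k : Fin n // ((k : ℕ) : ZMod r) - ((n - 1 : ℕ) : ZMod r) / 2 = 0} :=
          ⟨fun a b => Subtype.ext (hi (sub_left_injective (a.2.trans b.2.symm)))⟩
        exact (Finite.card_le_one_iff_subsingleton.2 this).trans (le_max_right _ _)
    · refine ⟨fun k => if (k : ℕ) < r then ((k : ℕ) : ZMod r) else 0, ?_, fun k hk j hj h => ?_, ?_⟩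
      · obtain ⟨l, rfl⟩ := Nat.exists_eq_add_of_le hge
        rw [Fin.sum_univ_add]
        simp only [Fin.val_castAdd, Fin.is_lt, if_true, Fin.val_natAdd, Nat.not_lt.2 (Nat.le_add_right r _), if_false,
          Finset.sum_const_zero, add_zero]
        rw [← Nat.cast_sum, ZMod.natCast_eq_zero_iff, Fin.sum_univ_eq_sum_range (fun k => k) r]
        have h2 := Finset.sum_range_id_mul_two r
        exact ((hr.coprime_iff_not_dvd).2 fun h => hr2 ((Nat.prime_dvd_prime_iff_eq hr Nat.prime_two).1 h)).dvd_of_dvd_mul_right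
          (h2 ▸ dvd_mul_right r (r - 1))
      · simp only at hk h
        split_ifs at hk h with h1 h2
        · have h3 := congrArg ZMod.val h
          simp only [ZMod.val_natCast] at h3
          exact hj (Fin.ext (by rwa [Nat.mod_eq_of_lt h2, Nat.mod_eq_of_lt h1] at h3))
        · exact hk h.symm
        all_goals exact hk rfl
      · refine le_trans ?_ (le_max_left _ _)
        have hsub : ∀ k : {k : Fin n // (if (k : ℕ) < r then ((k : ℕ) : ZMod r) else 0) = 0}, (k.1 : ℕ) = 0 ∨ r ≤ (k.1 : ℕ) := by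
          rintro ⟨k, hk⟩
          rcases Nat.lt_or_ge (k : ℕ) r with h | h
          · rw [if_pos h, ZMod.natCast_eq_zero_iff] at hk
            exact Or.inl (Nat.eq_zero_of_dvd_of_lt hk h)
          · exact Or.inr h
        have := Nat.card_le_card_of_injective
          (fun k : {k : Fin n // (if (k : ℕ) < r then ((k : ℕ) : ZMod r) else 0) = 0} =>
            (⟨if (k.1 : ℕ) = 0 then 0 else (k.1 : ℕ) + 1 - r, by
              have := hsub k; have := k.1.2; split_ifs <;> omega⟩ : Fin (n + 1 - r)))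
          (fun a b h => by
            have h1 := congrArg Fin.val h
            have ha := hsub a
            have hb := hsub b
            refine Subtype.ext (Fin.ext ?_)
            simp only at h1
            split_ifs at h1 <;> omega)
        simpa using this
  have hζ1 : ∀ a b : ZMod r, ζ ^ a.val = ζ ^ b.val → a = b := fun a b h =>
    ZMod.val_injective r (hζ.pow_inj a.val_lt b.val_lt h)
  obtain ⟨g, hg, hdet, hgv⟩ := exists_diag_element hF (fun k => ζ ^ (e k).val) fun k => by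
    rw [← pow_mul, mul_comm, pow_mul, hζq, one_pow]
  have hpow : glEnd g ^ r = (1 : F) • 1 := diag_pow hgv fun k => by
    rw [← pow_mul, mul_comm, pow_mul, hζ.pow_eq_one, one_pow]
  refine ⟨g, hg, ?_, hpow, fun c hc => ?_, fun W hW hT => le_trans ?_ hcount⟩
  · rw [hdet, Finset.prod_pow_eq_pow_sum, hζ.pow_eq_one_iff_dvd, ← ZMod.natCast_eq_zero_iff, Nat.cast_sum]
    simpa using hsum
  · have key : ∀ k, e k = e ⟨0, by omega⟩ := fun k => hζ1 _ _ (by
      have e1 : ∀ k, ζ ^ (e k).val = c := fun k => by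
        have h1 := congrFun (LinearMap.congr_fun hc (Pi.single k 1)) k
        rw [hgv] at h1
        simpa using h1
      rw [e1, e1])
    by_cases h0 : e ⟨0, by omega⟩ = 0
    · have hall : Nat.card {k // e k = 0} = n := by
        rw [Nat.card_congr (Equiv.subtypeUnivEquiv fun k => (key k).trans h0), Nat.card_fin]
      have := hr.two_le
      omega
    · exact hinj _ h0 ⟨1, by omega⟩ (by simp [Fin.ext_iff]) (key _)
  · refine (two_mul_le_card_eigen hF hgv (a := 1) (fun k hk j hj h => hinj k (fun h0 => hk ?_) j hj (hζ1 _ _ h)) hW hT).trans ?_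
    · show ζ ^ (e k).val = 1
      rw [h0, ZMod.val_zero, pow_zero]
    · exact le_of_eq (Nat.card_congr (Equiv.subtypeEquivRight fun k => ⟨fun h => hζ1 _ _ (by simpa using h),
        fun h => by show ζ ^ (e k).val = 1; rw [h, ZMod.val_zero, pow_zero]⟩))

end Cfsg.Agent.Elusive.UnitarySub
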