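import Cfsg.Agent.Elusive.UnitaryTwo

/-!
When every unitary element of prime order fixes a totally isotropic subspace of given dimension: the arithmetic of
the kernel dimensions.
-/

set_option autoImplicit false

namespace Cfsg.Agent.Elusive.UnitarySub

open Polynomial Module Cfsg.Agent.Classical
open scoped Matrix

variable {F : Type*} [Field F] {n m q r b c : ℕ}

theorem map_le_self {V : Type*} [AddCommGroup V] [Module F V] {f : Module.End F V} {W : Submodule F V}
    (h : ∀ v ∈ W, f v ∈ W) : W.map f ≤ W := by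
  rintro _ ⟨v, hv, rfl⟩; exact h v hv

/-- An element fixes a totally isotropic `m`-space. -/
def FixTI (n m : ℕ) (q : ℕ) (g : Module.End F (Fin n → F)) : Prop :=
  ∃ W : Submodule F (Fin n → F), finrank F W = m ∧ (∀ u ∈ W, ∀ v ∈ W, Cfsg.hermForm n F q u v = 0) ∧ W.map g ≤ W

theorem fixTI_smul {g : Module.End F (Fin n → F)} (w : F) (h : FixTI n m q g) : FixTI n m q (w • g) := by
  obtain ⟨W, h1, h2, h3⟩ := h
  exact ⟨W, h1, h2, map_le_self fun v hv => W.smul_mem w (h3 ⟨v, hv, rfl⟩)⟩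

/-- Choosing below a bound in multiples of `b`. -/
theorem exists_below {ι : Type*} (s : Finset ι) (u₀ : ι → ℕ) (hb : ∀ j, b ∣ u₀ j) :
    ∀ T, b ∣ T → T ≤ ∑ j ∈ s, u₀ j → ∃ u : ι → ℕ, (∀ j, b ∣ u j) ∧ (∀ j, u j ≤ u₀ j) ∧ ∑ j ∈ s, u j = T := by
  classical
  induction s using Finset.induction with
  | empty =>
    intro T _ hT
    exact ⟨0, fun _ => dvd_zero b, fun _ => Nat.zero_le _, by simp at hT ⊢; omega⟩
  | insert a s ha ih =>
    intro T hT hle
    rw [Finset.sum_insert ha] at hle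
    have hd : b ∣ min T (u₀ a) := by rcases min_choice T (u₀ a) with h | h <;> rw [h] <;> [exact hT; exact hb a]
    obtain ⟨u, h1, h2, h3⟩ := ih (T - min T (u₀ a)) (Nat.dvd_sub hT hd) (by omega)
    refine ⟨Function.update u a (min T (u₀ a)), fun j => ?_, fun j => ?_, ?_⟩
    · rcases eq_or_ne j a with rfl | h <;> simp [*]
    · rcases eq_or_ne j a with rfl | h <;> simp [*]
    · rw [Finset.sum_insert ha, Function.update_self, Finset.sum_congr rfl fun j hj =>
        Function.update_of_ne (fun h : j = a => ha (h ▸ hj)) _ u, h3]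
      omega

variable {hF : U.SqField F q}

/-- Sufficiency. -/
theorem fixTI_of_conditions (S : DualFactors hF r b) (hr : 0 < r) (hb0 : 0 < b)
    (hS : ((∀ j, S.τ j = j) ∧ c = b ∧ r - 1 + 2 * b * (m / b) ≤ b * (n / b)) ∨
      ((∀ j, S.τ j ≠ j) ∧ c = 2 * b))
    (hmn : 2 * m ≤ n) (hmod : 2 * (m % b) ≤ n % c) {g : GL (Fin n) F} (hg : g ∈ Cfsg.GU n F q) (hgr : g ^ r = 1) :
    FixTI n m q (glEnd g) := by
  classical
  set a : S.s → ℕ := fun j => finrank F (glKer g j) with ha
  have hab : ∀ j, b ∣ a j := S.dvd_glKer g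
  have haτ : ∀ j, a (S.τ j) = a j := S.glKer_symm hgr hg
  have hdims : finrank F (glKer g (X - 1)) + ∑ j, a j = n := S.dims hgr
  obtain ⟨u₀, hu₀b, hu₀, hc1, hc2⟩ : ∃ u₀ : S.s → ℕ, (∀ j, b ∣ u₀ j) ∧ (∀ j, u₀ j + u₀ (S.τ j) ≤ a j) ∧
      c ∣ ∑ j, a j ∧ (b * (m / b) ≤ ∑ j, u₀ j ∨ 2 * (m - ∑ j, u₀ j) + ∑ j, a j ≤ n) := by
    rcases hS with ⟨hfix, rfl, hs⟩ | ⟨hfix, rfl⟩
    · refine ⟨fun j => c * (a j / c / 2), fun j => dvd_mul_right _ _, fun j => ?_, Finset.dvd_sum fun j _ => hab j,
        (Nat.le_or_le _ _).imp_right fun hle => ?_⟩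
      · rw [hfix j]
        have h1 := Nat.mul_div_cancel' (hab j)
        have h2 : c * (2 * (a j / c / 2)) ≤ c * (a j / c) := Nat.mul_le_mul_left c (Nat.mul_div_le _ 2)
        rw [h1] at h2
        linarith
      · have h1 : ∑ j : S.s, a j ≤ ∑ j : S.s, (2 * (c * (a j / c / 2)) + c) := Finset.sum_le_sum fun j _ => by
          have e1 := Nat.mul_div_cancel' (hab j)
          have e2 : a j / c ≤ 2 * (a j / c / 2) + 1 := by omega
          have e3 := Nat.mul_le_mul_left c e2
          rw [e1, Nat.mul_add, mul_one, mul_left_comm] at e3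
          exact e3
        rw [Finset.sum_add_distrib, Finset.sum_const, Finset.card_univ, Fintype.card_coe, smul_eq_mul, S.card_mul,
          ← Finset.mul_sum] at h1
        have e4 := Nat.mod_add_div n c
        have e5 := Nat.mod_add_div m c
        have e6 : (2 : ℕ) * c * (m / c) = 2 * (c * (m / c)) := by ring
        beta_reduce at hle ⊢
        omega
    · have hinj := (Fintype.equivFin S.s).injective
      let ord : S.s → ℕ := fun j => (Fintype.equivFin S.s j : ℕ)
      have hord : ∀ j, ord j < ord (S.τ j) ∨ ord (S.τ j) < ord j := fun j => by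
        rcases lt_trichotomy (ord j) (ord (S.τ j)) with h | h | h
        · exact Or.inl h
        · exact absurd (hinj (Fin.ext h)).symm (hfix j)
        · exact Or.inr h
      let u₀ : S.s → ℕ := fun j => if ord j < ord (S.τ j) then a j else 0
      have hpair : ∀ j, u₀ j + u₀ (S.τ j) = a j := fun j => by
        simp only [u₀, S.tau_tau, haτ]
        rcases hord j with h | h
        · rw [if_pos h, if_neg (by omega), add_zero]
        · rw [if_neg (by omega), if_pos h, zero_add]
      have hub : ∀ j, b ∣ u₀ j := fun j => by simp only [u₀]; split_ifs <;> simp [hab]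
      have hsum : 2 * ∑ j, u₀ j = ∑ j, a j := by
        rw [← Finset.sum_congr rfl fun j _ => hpair j, Finset.sum_add_distrib, two_mul]
        exact congrArg _ (Equiv.sum_comp (Function.Involutive.toPerm S.τ S.tau_tau) u₀).symm
      refine ⟨u₀, hub, fun j => (hpair j).le, hsum ▸ mul_dvd_mul_left 2 (Finset.dvd_sum fun j _ => hub j),
        (Nat.le_or_le _ _).imp_right fun hle => ?_⟩
      have := Nat.mod_add_div m b
      omega
  set e0 := finrank F (glKer g (X - 1))
  have hmm := Nat.mod_add_div m b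
  have he0 : n % c ≤ e0 := by
    obtain ⟨t, ht⟩ := hc1
    have h1 : n % c = e0 % c := by
      rw [show n = e0 + ∑ j, a j from hdims.symm, ht, Nat.add_mul_mod_self_left]
    exact h1 ▸ Nat.mod_le _ _
  obtain ⟨u, hub, huu, husum⟩ := exists_below (b := b) Finset.univ u₀ hu₀b (min (∑ j, u₀ j) (b * (m / b)))
    (by rcases min_choice (∑ j, u₀ j) (b * (m / b)) with h | h <;> rw [h]
        exacts [Finset.dvd_sum fun j _ => hu₀b j, dvd_mul_right _ _])
    (min_le_left _ _)
  obtain ⟨W, hWd, hWT, hWi⟩ := S.exists_ti hr hg hgr u hub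
    (fun j => le_trans (Nat.add_le_add (huu j) (huu _)) (hu₀ j)) (e := m - ∑ j, u j) (by
      have hd : e0 + ∑ j, a j = n := hdims
      rw [husum]
      show 2 * _ ≤ e0
      rcases hc2 with h | h <;> omega)
  exact ⟨W, by rw [hWd, husum]; omega, hWT, map_le_self hWi⟩

/-- The kernel dimensions on a fixed totally isotropic subspace. -/
theorem ti_data (S : DualFactors hF r b) (hr : 0 < r) {g : GL (Fin n) F} (hg : g ∈ Cfsg.GU n F q) (hgr : g ^ r = 1)
    (h : FixTI n m q (glEnd g)) :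
    ∃ (e : ℕ) (w : S.s → ℕ), 2 * e ≤ finrank F (glKer g (X - 1)) ∧ e + ∑ j, w j = m ∧ (∀ j, b ∣ w j) ∧
      ∀ j, w j ≤ finrank F (glKer g j) ∧ (S.τ j = j → 2 * w j ≤ finrank F (glKer g j)) := by
  obtain ⟨W, rfl, hT, hW⟩ := h
  obtain ⟨hsum, hb⟩ := S.finrank_invariant hgr (fun v hv => hW ⟨v, hv, rfl⟩)
  obtain ⟨hN1, hNj⟩ := S.nondeg_kernels hr hg hgr
  refine ⟨_, _, ?_, hsum.symm, hb, fun j => ⟨Submodule.finrank_mono inf_le_right, fun hj => ?_⟩⟩
  · exact two_mul_finrank_le_herm hF hN1 inf_le_right fun u hu v hv => hT u hu.1 v hv.1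
  · exact two_mul_finrank_le_herm hF (hNj j hj) inf_le_right fun u hu v hv => hT u hu.1 v hv.1

end Cfsg.Agent.Elusive.UnitarySub
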