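import Cfsg.Agent.Elusive.UnitarySpecial

/-!
Unitary elements whose square is a scalar, in odd characteristic.
-/

set_option autoImplicit false

namespace Cfsg.Agent.Elusive.UnitarySub

open Polynomial Module Cfsg.Agent.Classical
open scoped Matrix

variable {F : Type*} [Field F] {n q : ℕ}

/-- The factor `X + 1` of `X ^ 2 - 1`. -/
theorem exists_dualFactors_two (hF : U.SqField F q) (h2 : (2 : F) ≠ 0) :
    ∃ S : DualFactors hF 2 1, (∀ j, S.τ j = j) ∧ ∀ j : S.s, (j : F[X]) = X + 1 := by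
  letI := Classical.decEq F[X]
  have hmem : ∀ f ∈ (insert (X - 1 : F[X]) ({X + 1} : Finset F[X])), f = X - 1 ∨ f = X + 1 :=
    fun f hf => (Finset.mem_insert.1 hf).imp_right Finset.mem_singleton.1
  have hne : (X - 1 : F[X]) ≠ X + 1 := fun h => h2 (by
    have := congrArg (eval 0) h
    simp at this
    linear_combination -this)
  have hcop : IsCoprime (X - 1 : F[X]) (X + 1) := by
    refine ⟨-C ((2 : F)⁻¹), C ((2 : F)⁻¹), ?_⟩
    have : C ((2 : F)⁻¹) * C 2 = 1 := by rw [← map_mul, inv_mul_cancel₀ h2, map_one]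
    rw [map_ofNat] at this
    linear_combination this
  refine ⟨{ s := {X + 1}
            τ := id
            notMem := by simpa using hne
            irr := fun f hf => by
              rw [Finset.mem_singleton.1 hf, show (X + 1 : F[X]) = X - C (-1) by simp]
              exact irreducible_X_sub_C _
            deg := fun f hf => by
              rw [Finset.mem_singleton.1 hf, show (X + 1 : F[X]) = X - C (-1) by simp, natDegree_X_sub_C]
            card_mul := by simp
            cop := fun f hf g hg hfg => by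
              rcases hmem f hf with rfl | rfl <;> rcases hmem g hg with rfl | rfl
              exacts [absurd rfl hfg, hcop, hcop.symm, absurd rfl hfg]
            prod := by
              rw [Finset.prod_insert (by simpa using hne), Finset.prod_singleton]
              ring
            tau_tau := fun _ => rfl
            dual := fun n g hg f => ?_ }, fun _ => rfl, fun j => Finset.mem_singleton.1 j.2⟩
  have hd : ((UClass.dualGL hF g : GL (Fin n) F) : Matrix (Fin n) (Fin n) F) = ClassConj.cstar hF (g : Matrix (Fin n) (Fin n) F) := by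
    have h1 : g⁻¹ = g := inv_eq_of_mul_eq_one_right (by rw [← pow_two, hg])
    have h3 := congrArg (fun x : GL (Fin n) F => ((UClass.cstarU hF x : GL (Fin n) F) : Matrix (Fin n) (Fin n) F)) h1
    exact h3
  rw [hd, UClass.aeval_cstar, UClass.nullity_cstar, show (f : F[X]) = X + 1 from Finset.mem_singleton.1 f.2]
  simp [Finset.mem_singleton.1 f.2]

/-- Eigenspaces of diagonal elements. -/
theorem finrank_eigen_diag [Finite F] {g : GL (Fin n) F} {d : Fin n → F} (hg : ∀ v k, glEnd g v k = d k * v k) (a : F) :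
    finrank F (glKer g (X - C a)) = Nat.card {k // d k = a} := by
  classical
  let Φ : ({k // d k = a} → F) →ₗ[F] (Fin n → F) := Function.ExtendByZero.linearMap F Subtype.val
  have hΦ : Function.Injective Φ := Function.extend_injective Subtype.val_injective (0 : Fin n → F)
  have h : glKer g (X - C a) = LinearMap.range Φ := by
    ext v
    have he : aeval (glEnd g) (X - C a) v = fun k => (d k - a) * v k := funext fun k => by
      simp [hg, sub_mul]
    rw [glKer, LinearMap.mem_ker, he]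
    constructor
    · intro h
      refine ⟨fun k => v k, funext fun k => ?_⟩
      by_cases hk : d k = a
      · exact Subtype.val_injective.extend_apply (fun k : {k // d k = a} => v k) 0 ⟨k, hk⟩
      · refine (Function.extend_apply' (fun k : {k // d k = a} => v k) (0 : Fin n → F) k
          (by rintro ⟨⟨j, hj⟩, rfl⟩; exact hk hj)).trans ?_
        exact ((mul_eq_zero.1 (congrFun h k)).resolve_left (sub_ne_zero.2 hk)).symm
    · rintro ⟨u, rfl⟩
      funext k
      by_cases hk : d k = a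
      · simp [hk]
      · show (d k - a) * Function.extend _ u (0 : Fin n → F) k = 0
        rw [Function.extend_apply' u (0 : Fin n → F) k (by rintro ⟨⟨j, hj⟩, rfl⟩; exact hk hj), Pi.zero_apply, mul_zero]
  rw [h, LinearMap.finrank_range_of_inj hΦ, Module.finrank_fintype_fun_eq_card, Nat.card_eq_fintype_card]

/-- Determinants of unitary involutions. -/
theorem det_involution [Finite F] (hF : U.SqField F q) (h2 : (2 : F) ≠ 0) (S : DualFactors hF 2 1)
    (hS : ∀ j : S.s, (j : F[X]) = X + 1) {g : GL (Fin n) F} (hg : g ^ 2 = 1) :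
    (g : Matrix (Fin n) (Fin n) F).det = (-1) ^ finrank F (glKer g (X + 1)) := by
  classical
  set a := finrank F (glKer g (X + 1))
  have ha : a ≤ n := (Submodule.finrank_le _).trans (by simp)
  obtain ⟨g', -, hdet, hgv⟩ := exists_diag_element hF (fun k : Fin n => if (k : ℕ) < a then -1 else 1) fun k => by
    have : ((-1 : F) ^ (q + 1)) = 1 := by rw [pow_succ, hF.neg_pow, one_pow]; ring
    split_ifs <;> simp [this]
  have hg' : g' ^ 2 = 1 := glEnd_injective (by
    rw [glEnd, Units.val_pow_eq_pow_val, map_pow, ← glEnd, diag_pow hgv (a := (1 : F)) fun k => by split_ifs <;> simp,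
      one_smul, glEnd_one])
  rw [det_eq_of_isConj (S.isConj_of_dims hg hg' fun j => ?_), hdet, Finset.prod_ite, Finset.prod_const,
    Finset.prod_const_one, mul_one]
  · congr 1
    rw [← Fintype.card_subtype, Fintype.card_fin_lt_of_le ha]
  · rw [hS, show (X + 1 : F[X]) = X - C (-1) by simp, finrank_eigen_diag hgv, Nat.card_eq_fintype_card]
    have hne : (1 : F) ≠ -1 := fun h => h2 (by linear_combination h)
    rw [Fintype.card_congr (Equiv.subtypeEquivRight fun k : Fin n =>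
      show ((if (k : ℕ) < a then (-1 : F) else 1) = -1) ↔ (k : ℕ) < a by split_ifs <;> simp [*]),
      Fintype.card_fin_lt_of_le ha]
    rw [map_neg, map_one, sub_neg_eq_add]

/-- The case of a scalar without square root of norm one. -/
theorem nonsquare_case [Fintype F] (hF : U.SqField F q) (hq : Odd q) (h2 : (2 : F) ≠ 0) (hn : 0 < n) {x : GL (Fin n) F}
    (hx : x ∈ Cfsg.GU n F q) {z : F} (hz : ∀ b : F, b ^ (q + 1) = 1 → b ^ 2 ≠ z) (hxz : glEnd x ^ 2 = z • 1) :
    Even n ∧ (x : Matrix (Fin n) (Fin n) F).det = (-z) ^ (n / 2) ∧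
      (∀ m, 2 * m ≤ n → ∃ W : Submodule F (Fin n → F), finrank F W = m ∧ (∀ u ∈ W, ∀ v ∈ W, U.herm q u v = 0) ∧
        ∀ v ∈ W, glEnd x v ∈ W) ∧
      (∀ m, m ≤ n → Even m → ∃ W : Submodule F (Fin n → F), finrank F W = m ∧
        (∀ u ∈ W, (∀ v ∈ W, U.herm q u v = 0) → u = 0) ∧ ∀ v ∈ W, glEnd x v ∈ W) ∧
      ∀ W : Submodule F (Fin n → F), (∀ u ∈ W, (∀ v ∈ W, U.herm q u v = 0) → u = 0) → (∀ v ∈ W, glEnd x v ∈ W) →
        Even (finrank F W) := by
  classical
  have hz1 : z ^ (q + 1) = 1 := norm_one_of_smul hF hn hx hxz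
  have hz0 : z ≠ 0 := fun h => by rw [h, zero_pow (Nat.succ_ne_zero q)] at hz1; exact zero_ne_one hz1
  have hchar : ringChar F ≠ 2 := fun h => h2 (by
    haveI : CharP F 2 := ringChar.of_eq h
    exact CharTwo.two_eq_zero)
  obtain ⟨lam, hlam⟩ : IsSquare z := by
    rw [FiniteField.isSquare_iff hchar hz0, ← Nat.card_eq_fintype_card, hF.2]
    obtain ⟨t, rfl⟩ := hq
    rw [show (2 * t + 1) ^ 2 / 2 = (2 * t + 1 + 1) * t by
      rw [show (2 * t + 1) ^ 2 = 1 + 2 * ((2 * t + 1 + 1) * t) by ring, Nat.add_mul_div_left _ _ two_pos]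
      simp, pow_mul, hz1, one_pow]
  have hlam0 : lam ≠ 0 := fun h => hz0 (by rw [hlam, h, mul_zero])
  have hlq : lam ^ (q + 1) = -1 := by
    have h1 : lam ^ (q + 1) * lam ^ (q + 1) = 1 := by rw [← mul_pow, ← hlam, hz1]
    exact (mul_self_eq_one_iff.1 h1).resolve_left fun h => hz lam h (by rw [pow_two, hlam])
  -- eigenspaces
  have hsq : ∀ v, glEnd x (glEnd x v) = z • v := fun v => by
    rw [← Module.End.mul_apply, ← pow_two, hxz]; rfl
  have hTI : ∀ μ : F, μ ^ (q + 1) = -1 → ∀ u v, glEnd x u = μ • u → glEnd x v = μ • v → U.herm q u v = 0 := by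
    intro μ hμ u v hu hv
    have h := (mem_GU_iff x).1 hx u v
    rw [hu, hv, U.herm_smul_left, U.herm_smul_right, ← mul_assoc, ← pow_succ', hμ] at h
    exact (mul_eq_zero.1 (by linear_combination -h : (2 : F) * U.herm q u v = 0)).resolve_left h2
  have hnlq : (-lam) ^ (q + 1) = -1 := by rw [Even.neg_pow (hq.add_one), hlq]
  let E₁ := LinearMap.ker (glEnd x - lam • 1)
  let E₂ := LinearMap.ker (glEnd x + lam • 1)
  have hE₁ : ∀ v, v ∈ E₁ ↔ glEnd x v = lam • v := fun v => by
    simp [E₁, sub_eq_zero]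
  have hE₂ : ∀ v, v ∈ E₂ ↔ glEnd x v = (-lam) • v := fun v => by
    simp [E₂, add_eq_zero_iff_eq_neg]
  have hT₁ : ∀ u ∈ E₁, ∀ v ∈ E₁, U.herm q u v = 0 := fun u hu v hv => hTI lam hlq u v ((hE₁ u).1 hu) ((hE₁ v).1 hv)
  have hT₂ : ∀ u ∈ E₂, ∀ v ∈ E₂, U.herm q u v = 0 := fun u hu v hv => hTI _ hnlq u v ((hE₂ u).1 hu) ((hE₂ v).1 hv)
  have hsplit : ∀ v, ∃ a ∈ E₁, ∃ b ∈ E₂, a + b = v ∧ ∀ W : Submodule F (Fin n → F), (∀ w ∈ W, glEnd x w ∈ W) →
      v ∈ W → a ∈ W ∧ b ∈ W := by
    intro v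
    refine ⟨(2 * lam)⁻¹ • (glEnd x v + lam • v), (hE₁ _).2 ?_, (-(2 * lam)⁻¹) • (glEnd x v - lam • v), (hE₂ _).2 ?_, ?_,
      fun W hW hv => ⟨W.smul_mem _ (W.add_mem (hW v hv) (W.smul_mem _ hv)), W.smul_mem _ (W.sub_mem (hW v hv) (W.smul_mem _ hv))⟩⟩
    · rw [map_smul, map_add, map_smul, hsq, hlam]
      module
    · rw [map_smul, map_sub, map_smul, hsq, hlam]
      module
    · rw [← sub_eq_zero]
      funext i
      simp only [Pi.add_apply, Pi.sub_apply, Pi.smul_apply, smul_eq_mul, Pi.zero_apply]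
      field_simp
      ring
  have hc : IsCompl E₁ E₂ := by
    refine ⟨Submodule.disjoint_def.2 fun v h1 h2' => ?_, codisjoint_iff.2 (top_unique fun v _ => ?_)⟩
    · have h := ((hE₁ v).1 h1).symm.trans ((hE₂ v).1 h2')
      rw [neg_smul, ← add_eq_zero_iff_eq_neg, ← two_smul F, smul_smul] at h
      exact (smul_eq_zero.1 h).resolve_left (mul_ne_zero h2 hlam0)
    · obtain ⟨a, ha, b, hb, he, -⟩ := hsplit v
      exact he ▸ Submodule.add_mem_sup ha hb
  have hdim : finrank F E₁ + finrank F E₂ = n := by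
    rw [Submodule.finrank_add_eq_of_isCompl hc, finrank_fin_fun]
  have hhalf : ∀ X : Submodule F (Fin n → F), (∀ u ∈ X, ∀ v ∈ X, U.herm q u v = 0) → 2 * finrank F X ≤ n := fun X hX => by
    have := two_mul_finrank_le_herm hF (K := ⊤) (fun u _ h => hF.eq_zero_of_herm u fun v => h v trivial) le_top hX
    simpa using this
  have h1 := hhalf E₁ hT₁
  have h2' := hhalf E₂ hT₂
  have hneven : Even n := ⟨finrank F E₁, by omega⟩
  have hi₁ : ∀ v ∈ E₁, glEnd x v ∈ E₁ := fun v hv => by rw [(hE₁ v).1 hv]; exact E₁.smul_mem _ hv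
  have hsub : ∀ (X : Submodule F (Fin n → F)) k, k ≤ finrank F X → ∃ Y ≤ X, finrank F Y = k := by
    intro X k hk
    obtain ⟨f, hf⟩ := exists_linearIndependent_of_le_finrank hk
    refine ⟨(Submodule.span F (Set.range f)).map X.subtype, Submodule.map_subtype_le _ _, ?_⟩
    rw [Submodule.finrank_map_subtype_eq, finrank_span_eq_card hf, Fintype.card_fin]
  refine ⟨hneven, ?_, fun m hm => ?_, fun m hm hme => ?_, fun W hN hW => ?_⟩
  · -- the determinant
    have hval : ∀ (a : E₁) (b : E₂), glEnd x ((a : Fin n → F) + b) = lam • (a : Fin n → F) + (-lam) • b := fun a b => by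
      rw [map_add, (hE₁ _).1 a.2, (hE₂ _).1 b.2]
    have he : (glEnd x : Module.End F (Fin n → F)) =
        (Submodule.prodEquivOfIsCompl E₁ E₂ hc).toLinearMap ∘ₗ
          ((lam • LinearMap.id).prodMap ((-lam) • LinearMap.id)) ∘ₗ (Submodule.prodEquivOfIsCompl E₁ E₂ hc).symm.toLinearMap := by
      refine LinearMap.ext fun v => ?_
      obtain ⟨p, rfl⟩ := (Submodule.prodEquivOfIsCompl E₁ E₂ hc).surjective v
      simp [hval]
    have hd : (x : Matrix (Fin n) (Fin n) F).det = LinearMap.det (glEnd x) := (LinearMap.det_toLin' _).symm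
    rw [hd, he]
    have hconj := LinearMap.det_conj ((lam • LinearMap.id : E₁ →ₗ[F] E₁).prodMap ((-lam) • LinearMap.id : E₂ →ₗ[F] E₂))
      (Submodule.prodEquivOfIsCompl E₁ E₂ hc)
    rw [hconj, LinearMap.det_prodMap, LinearMap.det_smul, LinearMap.det_smul, LinearMap.det_id, LinearMap.det_id,
      mul_one, mul_one, show finrank F E₂ = finrank F E₁ by omega, ← mul_pow, show n / 2 = finrank F E₁ by omega, hlam]
    ring
  · obtain ⟨Y, hY, hYd⟩ := hsub E₁ m (by omega)
    exact ⟨Y, hYd, fun u hu v hv => hT₁ u (hY hu) v (hY hv), fun v hv => by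
      rw [(hE₁ v).1 (hY hv)]; exact Y.smul_mem _ hv⟩
  · obtain ⟨k, rfl⟩ := hme
    obtain ⟨A, hA, hAd⟩ := hsub E₁ k (by omega)
    set K := E₂ ⊓ Forms.hperp q A
    have hK : finrank F K + k = finrank F E₂ := by
      have hle : E₁ ≤ Forms.hperp q A := fun v hv w hw => hT₁ v hv w (hA hw)
      have hs : E₂ ⊔ Forms.hperp q A = ⊤ := top_unique (hc.sup_eq_top ▸ sup_le (hle.trans le_sup_right) le_sup_left)
      have := Submodule.finrank_sup_add_finrank_inf_eq E₂ (Forms.hperp q A)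
      rw [hs, finrank_top, finrank_fin_fun, Forms.finrank_hperp hF, hAd] at this
      simp only [K]
      omega
    obtain ⟨B, hB⟩ := Submodule.exists_isCompl (K.comap E₂.subtype)
    set B' := B.map E₂.subtype
    have hB'le : B' ≤ E₂ := Submodule.map_subtype_le _ _
    have hB'd : finrank F B' = k := by
      have := Submodule.finrank_add_eq_of_isCompl hB
      rw [(Submodule.comapSubtypeEquivOfLe (show K ≤ E₂ from inf_le_left)).finrank_eq] at this
      rw [Submodule.finrank_map_subtype_eq]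
      omega
    have hd : Disjoint A B' := hc.disjoint.mono hA hB'le
    refine ⟨A ⊔ B', ?_, fun u hu h0 => ?_, fun v hv => ?_⟩
    · have := Submodule.finrank_sup_add_finrank_inf_eq A B'
      rw [hd.eq_bot, finrank_bot, hAd, hB'd] at this
      omega
    · obtain ⟨a, ha, b, hb, rfl⟩ := Submodule.mem_sup.1 hu
      have hbK : b ∈ K := ⟨hB'le hb, fun w hw => by
        have := h0 w (Submodule.mem_sup_left hw)
        rwa [U.herm_add_left, hT₁ a (hA ha) w (hA hw), zero_add] at this⟩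
      have hb0 : b = 0 := by
        obtain ⟨b', hb', rfl⟩ := hb
        have : b' ∈ K.comap E₂.subtype ⊓ B := ⟨hbK, hb'⟩
        rw [hB.inf_eq_bot, Submodule.mem_bot] at this
        simp [this]
      subst hb0
      rw [add_zero]
      refine hF.eq_zero_of_herm a fun v => ?_
      obtain ⟨v₁, hv₁, v₂, hv₂, rfl, -⟩ := hsplit v
      rw [hF.herm_add_right, hT₁ a (hA ha) v₁ hv₁, zero_add]
      have hsupE : v₂ ∈ (K.comap E₂.subtype ⊔ B).map E₂.subtype := by
        rw [hB.sup_eq_top, Submodule.map_top, Submodule.range_subtype]; exact hv₂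
      rw [Submodule.map_sup] at hsupE
      obtain ⟨c, hc', d, hd', rfl⟩ := Submodule.mem_sup.1 hsupE
      obtain ⟨c', hc'', rfl⟩ := hc'
      rw [hF.herm_add_right, Forms.herm_comm_zero hF (hc''.2 a ha), zero_add]
      have := h0 d (Submodule.mem_sup_right hd')
      rwa [add_zero] at this
    · obtain ⟨a, ha, b, hb, rfl⟩ := Submodule.mem_sup.1 hv
      rw [map_add, (hE₁ a).1 (hA ha), (hE₂ b).1 (hB'le hb)]
      exact Submodule.add_mem_sup (A.smul_mem _ ha) (B'.smul_mem _ hb)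
  · have hs : W = (W ⊓ E₁) ⊔ (W ⊓ E₂) := le_antisymm (fun v hv => by
      obtain ⟨a, ha, b, hb, rfl, hab⟩ := hsplit v
      exact Submodule.add_mem_sup ⟨(hab W hW hv).1, ha⟩ ⟨(hab W hW hv).2, hb⟩) (sup_le inf_le_left inf_le_left)
    have h3 := two_mul_finrank_le_herm hF hN (inf_le_left : W ⊓ E₁ ≤ W) fun u hu v hv => hT₁ u hu.2 v hv.2
    have h4 := two_mul_finrank_le_herm hF hN (inf_le_left : W ⊓ E₂ ≤ W) fun u hu v hv => hT₂ u hu.2 v hv.2
    have h5 := Submodule.finrank_sup_add_finrank_inf_eq (W ⊓ E₁) (W ⊓ E₂)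
    rw [(hc.disjoint.mono inf_le_right inf_le_right).eq_bot, finrank_bot, ← hs] at h5
    exact ⟨finrank F ↥(W ⊓ E₁), by omega⟩

/-- Bad elements of `SU` for `r = 2`. -/
theorem exists_nonsquare_unitary [Fintype F] (hF : U.SqField F q) (hq : Odd q) (hn : 0 < n) (hev : Even n)
    (hv : ¬ (padicValNat 2 n ≤ padicValNat 2 (q + 1) ∧ q % 4 = 3)) :
    ∃ (g : GL (Fin n) F) (z : F), g ∈ Cfsg.GU n F q ∧ (g : Matrix (Fin n) (Fin n) F).det = 1 ∧
      glEnd g ^ 2 = z • 1 ∧ (∀ c : F, glEnd g ≠ c • (1 : Module.End F (Fin n → F))) ∧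
      ∀ b : F, b ^ (q + 1) = 1 → b ^ 2 ≠ z := by
  classical
  obtain ⟨N, rfl⟩ := even_iff_two_dvd.1 hev
  have hN : 0 < N := Nat.pos_of_mul_pos_left hn
  have hqo := Nat.odd_iff.1 hq
  obtain ⟨z, hz, hzN, hzb⟩ : ∃ z : F, z ^ (q + 1) = 1 ∧ (-z) ^ N = 1 ∧ ∀ b : F, b ^ (q + 1) = 1 → b ^ 2 ≠ z := by
    have hd : (2 : ℕ) ∣ q + 1 := by omega
    have hev1 : Even (q + 1) := even_iff_two_dvd.2 hd
    by_cases h4 : q % 4 = 1
    · refine ⟨-1, by rw [hev1.neg_one_pow], by rw [neg_neg, one_pow], fun b hb h => ?_⟩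
      rw [show q + 1 = 2 * ((q + 1) / 2) by omega, pow_mul, h,
        (Nat.odd_iff.2 (by omega : (q + 1) / 2 % 2 = 1)).neg_one_pow] at hb
      exact two_ne_zero' hF hq (by linear_combination -hb)
    · have h3 : q % 4 = 3 := by omega
      obtain ⟨z, hz, hzN, hzb⟩ := exists_nonroot hF Nat.prime_two hd hN
        (Nat.lt_of_not_le fun h => hv ⟨h, h3⟩)
      obtain ⟨ξ, hξ⟩ := exists_norm_one_generator hF
      refine ⟨-z, by rw [hev1.neg_pow, hz], by rw [neg_neg, hzN], fun b hb h => ?_⟩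
      have hs : (ξ ^ ((q + 1) / 4)) ^ 2 = -1 := by
        have h1 : ((ξ ^ ((q + 1) / 4)) ^ 2) * ((ξ ^ ((q + 1) / 4)) ^ 2) = 1 := by
          rw [← pow_mul, ← pow_add, show (q + 1) / 4 * 2 + (q + 1) / 4 * 2 = q + 1 by omega, hξ.pow_eq_one]
        refine (mul_self_eq_one_iff.1 h1).resolve_left fun h => ?_
        rw [← pow_mul] at h
        have := Nat.le_of_dvd (by omega) ((hξ.pow_eq_one_iff_dvd _).1 h)
        omega
      refine hzb (b * ξ ^ ((q + 1) / 4)) ?_ ?_
      · rw [mul_pow, hb, one_mul, ← pow_mul, mul_comm, pow_mul, hξ.pow_eq_one, one_pow]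
      · rw [mul_pow, h, hs]; ring
  obtain ⟨g, hg, hgz, hdet, hns, -⟩ := exists_block_model hF (r := 2) two_pos (finProdFinEquiv.trans (finCongr (mul_comm N 2))) hz
  refine ⟨g, z, hg, ?_, hgz, hns le_rfl ⟨⟨0, hN⟩⟩, hzb⟩
  rw [hdet, Fintype.card_fin, show (2 - 1 : ℕ) = 1 from rfl, pow_one, neg_one_mul, hzN]
where
  two_ne_zero' (hF : U.SqField F q) (hq : Odd q) : (2 : F) ≠ 0 := by
    intro h
    have : CharP F 2 := CharTwo.of_one_ne_zero_of_two_eq_zero one_ne_zero h
    haveI := hF.1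
    letI := Fintype.ofFinite F
    have hev : Even (Fintype.card F) := FiniteField.even_card_iff_char_two.1 (ringChar.eq F 2) |> Nat.even_iff.2
    rw [← Nat.card_eq_fintype_card, hF.2, Nat.even_pow] at hev
    exact Nat.not_even_iff_odd.2 hq hev.1

/-- No bad elements of `SU` for `r = 2`. -/
theorem exists_sqrt_of_det [Fintype F] (hF : U.SqField F q) (hq : Odd q) (h2 : (2 : F) ≠ 0) (hn : 0 < n)
    (h : Odd n ∨ (padicValNat 2 n ≤ padicValNat 2 (q + 1) ∧ q % 4 = 3)) {g : GL (Fin n) F}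
    (hg : g ∈ Cfsg.GU n F q) (hdet : (g : Matrix (Fin n) (Fin n) F).det = 1) {z : F} (hgz : glEnd g ^ 2 = z • 1) :
    ∃ w : F, w ^ (q + 1) = 1 ∧ w ^ 2 = z := by
  by_contra hc
  push Not at hc
  obtain ⟨hev, hd, -⟩ := nonsquare_case hF hq h2 hn hg hc hgz
  rcases h with h | ⟨hv, h4⟩
  · exact Nat.not_even_iff_odd.2 h hev
  obtain ⟨N, rfl⟩ := even_iff_two_dvd.1 hev
  rw [hdet, Nat.mul_div_cancel_left _ two_pos] at hd
  have hz := norm_one_of_smul hF hn hg hgz
  have hev1 : Even (q + 1) := hq.add_one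
  obtain ⟨w, hw, hwz⟩ := root_of_pow hF Nat.prime_two (even_iff_two_dvd.1 hev1) (Nat.pos_of_mul_pos_left hn) hv
    (z := -z) (by rw [hev1.neg_pow, hz]) hd.symm
  obtain ⟨s, hs, hs2⟩ : ∃ s : F, s ^ (q + 1) = 1 ∧ s ^ 2 = -1 := by
    obtain ⟨ξ, hξ⟩ := exists_norm_one_generator hF
    refine ⟨ξ ^ ((q + 1) / 4), by rw [← pow_mul, mul_comm, pow_mul, hξ.pow_eq_one, one_pow], ?_⟩
    have h1 : ((ξ ^ ((q + 1) / 4)) ^ 2) * ((ξ ^ ((q + 1) / 4)) ^ 2) = 1 := by
      rw [← pow_mul, ← pow_add, show (q + 1) / 4 * 2 + (q + 1) / 4 * 2 = q + 1 by omega, hξ.pow_eq_one]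
    refine (mul_self_eq_one_iff.1 h1).resolve_left fun h => ?_
    rw [← pow_mul] at h
    have := Nat.le_of_dvd (by omega) ((hξ.pow_eq_one_iff_dvd _).1 h)
    omega
  exact hc (s * w) (by rw [mul_pow, hs, hw, one_mul]) (by rw [mul_pow, hs2, hwz]; ring)

end Cfsg.Agent.Elusive.UnitarySub
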