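import Cfsg.Agent.Elusive.UnitaryReduce
import Cfsg.Agent.Elusive.UnipSymp

/-!
Unipotent unitary maps: orthogonal decomposition into cyclic pieces, and the block sizes on nondegenerate invariant
subspaces.
-/

set_option autoImplicit false

namespace Cfsg.Agent.Elusive.UnitarySub

open Polynomial Module Cfsg.Agent.Classical Submodule
open scoped Matrix

variable {F : Type*} [Field F] {n q : ℕ} {f : Module.End F (Fin n → F)}

theorem unip_step (hF : U.SqField F q) (hB : ∀ u v, U.herm q (f u) (f v) = U.herm q u v) (x y : Fin n → F) :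
    U.herm q ((f - 1) x) y = -U.herm q x ((f - 1) y) - U.herm q ((f - 1) x) ((f - 1) y) := by
  simp only [LinearMap.sub_apply, Module.End.one_apply, U.herm_sub_left, hF.herm_sub_right, hB]
  ring

theorem unip_pair_zero (hF : U.SqField F q) (hB : ∀ u v, U.herm q (f u) (f v) = U.herm q u v)
    {W : Submodule F (Fin n → F)} {k : ℕ} (hk : ∀ v ∈ W, ((f - 1) ^ k) v = 0) :
    ∀ (a b : ℕ), k ≤ a + b → ∀ u ∈ W, ∀ v ∈ W, U.herm q (((f - 1) ^ a) u) (((f - 1) ^ b) v) = 0 := by
  have hvan : ∀ b, k ≤ b → ∀ v ∈ W, ((f - 1) ^ b) v = 0 := fun b hb v hv => by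
    rw [show b = (b - k) + k by omega, pow_add, Module.End.mul_apply, hk v hv, map_zero]
  intro a
  induction a with
  | zero => intro b hb u _ v hv; rw [hvan b (by omega) v hv, hF.herm_zero_right]
  | succ a ih =>
    suffices ∀ n' b, k ≤ a + 1 + b → k ≤ b + n' → ∀ u ∈ W, ∀ v ∈ W,
        U.herm q (((f - 1) ^ (a + 1)) u) (((f - 1) ^ b) v) = 0 from fun b hb => this k b hb (Nat.le_add_left _ _)
    intro n'
    induction n' with
    | zero => intro b _ hb u _ v hv; rw [hvan b hb v hv, hF.herm_zero_right]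
    | succ n' ihn =>
      intro b hb hbn u hu v hv
      rw [pow_succ', Module.End.mul_apply, unip_step hF hB, ← Module.End.mul_apply (f - 1) ((f - 1) ^ b), ← pow_succ',
        ← Module.End.mul_apply (f - 1) ((f - 1) ^ a), ← pow_succ', ih (b + 1) (by omega) u hu v hv,
        ihn (b + 1) (by omega) (by omega) u hu v hv]
      simp

theorem unip_pair_top (hF : U.SqField F q) (hB : ∀ u v, U.herm q (f u) (f v) = U.herm q u v)
    {W : Submodule F (Fin n → F)} {l : ℕ} (hk : ∀ v ∈ W, ((f - 1) ^ (l + 1)) v = 0) :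
    ∀ (a b : ℕ), a + b = l → ∀ u ∈ W, ∀ v ∈ W,
      U.herm q (((f - 1) ^ a) u) (((f - 1) ^ b) v) = (-1) ^ a * U.herm q u (((f - 1) ^ l) v) := by
  intro a
  induction a with
  | zero =>
    intro b hb u _ v _
    rw [Nat.zero_add] at hb
    rw [hb, pow_zero, pow_zero, one_mul, Module.End.one_apply]
  | succ a ih =>
    intro b hb u hu v hv
    rw [pow_succ', Module.End.mul_apply, unip_step hF hB, ← Module.End.mul_apply (f - 1) ((f - 1) ^ b), ← pow_succ',
      ← Module.End.mul_apply (f - 1) ((f - 1) ^ a), ← pow_succ', ih (b + 1) (by omega) u hu v hv,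
      unip_pair_zero hF hB hk (a + 1) (b + 1) (by omega) u hu v hv, pow_succ']
    ring

/-- A vector with nonzero top pairing generates a nondegenerate invariant subspace. -/
theorem exists_cyclic_piece (hF : U.SqField F q) (hB : ∀ u v, U.herm q (f u) (f v) = U.herm q u v)
    {W : Submodule F (Fin n → F)} (hW : ∀ v ∈ W, f v ∈ W) {l : ℕ} (hk : ∀ v ∈ W, ((f - 1) ^ (l + 1)) v = 0)
    {v : Fin n → F} (hv : v ∈ W) (hv0 : U.herm q v (((f - 1) ^ l) v) ≠ 0) :
    ∃ U' ≤ W, (∀ x ∈ U', f x ∈ U') ∧ (∀ x ∈ U', (∀ y ∈ U', U.herm q x y = 0) → x = 0) ∧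
      finrank F U' = l + 1 := by
  classical
  let g : Fin (l + 1) → (Fin n → F) := fun t => ((f - 1) ^ (t : ℕ)) v
  have hgW : ∀ t, g t ∈ W := fun t => pow_mem_of_invariant (sub_one_mem hW) _ _ hv
  have key : ∀ c : Fin (l + 1) → F, (∀ y, U.herm q (∑ t, c t • g t) (g y) = 0) → c = 0 := by
    intro c hc
    suffices ∀ t, ∀ x : Fin (l + 1), (x : ℕ) = t → c x = 0 from funext fun x => this _ x rfl
    intro t
    induction t using Nat.strong_induction_on with
    | _ t ih =>
      intro b₀ hb₀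
      subst hb₀
      have h := hc ⟨l - (b₀ : ℕ), by omega⟩
      rw [← Forms.hermB_apply hF, map_sum, Finset.sum_eq_single b₀ (fun t' _ ht' => ?_)
        (fun h => absurd (Finset.mem_univ _) h)] at h
      · rw [map_smul, Forms.hermB_apply hF, smul_eq_mul] at h
        refine (mul_eq_zero.1 h).resolve_right ?_
        simp only [g]
        rw [unip_pair_top hF hB hk (b₀ : ℕ) (l - (b₀ : ℕ)) (by omega) _ hv _ hv]
        exact mul_ne_zero (pow_ne_zero _ (neg_ne_zero.2 one_ne_zero)) hv0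
      · rw [map_smul, Forms.hermB_apply hF, smul_eq_mul]
        rcases lt_or_gt_of_ne (Fin.val_ne_of_ne ht') with h1 | h1
        · rw [ih _ h1 t' rfl, zero_mul]
        · simp only [g]
          rw [unip_pair_zero hF hB hk _ _ (by omega) _ hv _ hv, mul_zero]
  have hli : LinearIndependent F g := Fintype.linearIndependent_iff.2 fun c hc x =>
    congrFun (key c fun y => by rw [hc, U.herm_zero_left]) x
  refine ⟨span F (Set.range g), span_le.2 (by rintro _ ⟨x, rfl⟩; exact hgW x), fun x hx => ?_, fun x hx h => ?_, ?_⟩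
  · induction hx using span_induction with
    | mem y hy =>
      obtain ⟨t, rfl⟩ := hy
      have : f (g t) = g t + (f - 1) (g t) := by simp
      rw [this]
      refine add_mem (subset_span ⟨_, rfl⟩) ?_
      simp only [g]
      rw [← Module.End.mul_apply, ← pow_succ']
      rcases Nat.lt_or_ge ((t : ℕ) + 1) (l + 1) with h | h
      · exact subset_span ⟨⟨_, h⟩, rfl⟩
      · rw [show (t : ℕ) + 1 = l + 1 by omega, hk _ hv]
        exact zero_mem _
    | zero => simp
    | add y z _ _ hy hz => rw [map_add]; exact add_mem hy hz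
    | smul c y _ hy => rw [map_smul]; exact Submodule.smul_mem _ _ hy
  · obtain ⟨c, rfl⟩ := mem_span_range_iff_exists_fun F |>.1 hx
    rw [key c fun y => h _ (subset_span ⟨y, rfl⟩)]
    simp
  · rw [finrank_span_eq_card hli, Fintype.card_fin]

/-- An orthogonally indecomposable piece. -/
theorem exists_unitary_piece (hF : U.SqField F q) (hB : ∀ u v, U.herm q (f u) (f v) = U.herm q u v) {p : ℕ}
    (hp : (f - 1) ^ p = 0) {W : Submodule F (Fin n → F)} (hW : ∀ v ∈ W, f v ∈ W)
    (hN : ∀ u ∈ W, (∀ v ∈ W, U.herm q u v = 0) → u = 0) (hne : W ≠ ⊥) :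
    ∃ U' ≤ W, (∀ x ∈ U', f x ∈ U') ∧ (∀ x ∈ U', (∀ y ∈ U', U.herm q x y = 0) → x = 0) ∧
      0 < finrank F U' ∧ finrank F U' ≤ p := by
  classical
  have hex : ∃ k, ∀ v ∈ W, (((f - 1) ^ k : Module.End F (Fin n → F))) v = 0 := ⟨p, fun v _ => by rw [hp]; rfl⟩
  set k := Nat.find hex
  have hkW : ∀ v ∈ W, ((f - 1) ^ k) v = 0 := Nat.find_spec hex
  have hkp : k ≤ p := Nat.find_le fun v _ => by rw [hp]; rfl
  obtain ⟨l, hl⟩ : ∃ l, k = l + 1 := ⟨k - 1, by
    rcases Nat.eq_zero_or_pos k with h | h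
    · exfalso
      refine hne ((Submodule.eq_bot_iff _).2 fun v hv => ?_)
      have := hkW v hv
      rwa [h, pow_zero] at this
    · omega⟩
  rw [hl] at hkW
  obtain ⟨v, hv, hv0⟩ : ∃ v ∈ W, U.herm q v (((f - 1) ^ l) v) ≠ 0 := by
    by_contra h
    push Not at h
    have hskew : ∀ u ∈ W, ∀ w ∈ W, U.herm q u (((f - 1) ^ l) w) + U.herm q w (((f - 1) ^ l) u) = 0 := by
      intro u hu w hw
      have h3 := h (u + w) (W.add_mem hu hw)
      rwa [map_add, U.herm_add_left, hF.herm_add_right, hF.herm_add_right, h u hu, h w hw, zero_add, add_zero] at h3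
    obtain ⟨c, hc⟩ : ∃ c : F, c ^ q ≠ c := by
      by_contra hall
      push Not at hall
      exact Forms.sqConj_ne_id hF (RingHom.ext fun x => hall x)
    have hzero : ∀ u ∈ W, ∀ w ∈ W, U.herm q u (((f - 1) ^ l) w) = 0 := by
      intro u hu w hw
      have h1 := hskew u hu w hw
      have h2 := hskew (c • u) (W.smul_mem c hu) w hw
      rw [map_smul, U.herm_smul_left, U.herm_smul_right] at h2
      have h3 : (c ^ q - c) * U.herm q u (((f - 1) ^ l) w) = 0 := by linear_combination c ^ q * h1 - h2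
      exact (mul_eq_zero.1 h3).resolve_left (sub_ne_zero.2 hc)
    have : k ≤ l := Nat.find_le fun v hv => hN _ (pow_mem_of_invariant (sub_one_mem hW) _ _ hv) fun u hu =>
      Forms.herm_comm_zero hF (hzero u hu v hv)
    omega
  obtain ⟨U', h1, h2, h3, h4⟩ := exists_cyclic_piece hF hB hW hkW hv hv0
  exact ⟨U', h1, h2, h3, by omega, by omega⟩

/-- The orthogonal complement inside an invariant nondegenerate subspace. -/
theorem split_unitary (hF : U.SqField F q) (hB : ∀ u v, U.herm q (f u) (f v) = U.herm q u v)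
    {W U' : Submodule F (Fin n → F)} (hW : ∀ v ∈ W, f v ∈ W)
    (hN : ∀ u ∈ W, (∀ v ∈ W, U.herm q u v = 0) → u = 0) (hUW : U' ≤ W) (hU : ∀ v ∈ U', f v ∈ U')
    (hUN : ∀ u ∈ U', (∀ v ∈ U', U.herm q u v = 0) → u = 0) :
    (∀ v ∈ W ⊓ Forms.hperp q U', f v ∈ W ⊓ Forms.hperp q U') ∧
      (∀ u ∈ W ⊓ Forms.hperp q U', (∀ v ∈ W ⊓ Forms.hperp q U', U.herm q u v = 0) → u = 0) ∧
      U' ⊓ Forms.hperp q U' = ⊥ ∧ U' ⊔ (W ⊓ Forms.hperp q U') = W ∧
      finrank F W = finrank F U' + finrank F ↥(W ⊓ Forms.hperp q U') := by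
  haveI := hF.1
  have hinj : Function.Injective f := fun x y hxy => sub_eq_zero.1 (hF.eq_zero_of_herm _ fun z => by
    rw [← hB, map_sub, hxy, sub_self, U.herm_zero_left])
  have hd : U' ⊓ Forms.hperp q U' = ⊥ := eq_bot_iff.2 fun v hv => hUN v hv.1 hv.2
  have htop : U' ⊔ Forms.hperp q U' = ⊤ := by
    refine Submodule.eq_top_of_finrank_eq ?_
    have := Submodule.finrank_sup_add_finrank_inf_eq U' (Forms.hperp q U')
    have hle := U'.finrank_le
    rw [finrank_fin_fun] at hle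
    rw [hd, finrank_bot, Forms.finrank_hperp hF] at this
    rw [finrank_fin_fun]
    omega
  have hsup : U' ⊔ (W ⊓ Forms.hperp q U') = W := by
    rw [inf_comm, ← sup_inf_assoc_of_le _ hUW, htop, top_inf_eq]
  refine ⟨fun v hv => ⟨hW v hv.1, fun w hw => ?_⟩, fun u hu h0 => hN u hu.1 fun v hv => ?_, hd, hsup, ?_⟩
  · obtain ⟨w', hw', rfl⟩ : ∃ w' ∈ U', f w' = w := by
      obtain ⟨⟨w', hw'⟩, he⟩ := (LinearMap.injective_iff_surjective (f := f.restrict hU)).1
        (fun a b h => Subtype.ext (hinj (congrArg Subtype.val h))) ⟨w, hw⟩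
      exact ⟨w', hw', congrArg Subtype.val he⟩
    rw [hB]
    exact hv.2 w' hw'
  · rw [← hsup] at hv
    obtain ⟨a, ha, b, hb, rfl⟩ := Submodule.mem_sup.1 hv
    rw [hF.herm_add_right, hu.2 a ha, h0 b hb, add_zero]
  · have := Submodule.finrank_sup_add_finrank_inf_eq U' (W ⊓ Forms.hperp q U')
    rw [hsup, show U' ⊓ (W ⊓ Forms.hperp q U') = ⊥ by
      rw [← inf_assoc, inf_eq_left.2 hUW, hd], finrank_bot, add_zero] at this
    exact this

/-- Nondegenerate invariant subspaces of every partial sum of an orthogonal decomposition. -/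
theorem exists_unitary_partition (hF : U.SqField F q) (hB : ∀ u v, U.herm q (f u) (f v) = U.herm q u v) {p : ℕ}
    (hp : (f - 1) ^ p = 0) (W : Submodule F (Fin n → F)) (hW : ∀ v ∈ W, f v ∈ W)
    (hN : ∀ u ∈ W, (∀ v ∈ W, U.herm q u v = 0) → u = 0) :
    ∃ μ : Multiset ℕ, (∀ a ∈ μ, 0 < a ∧ a ≤ p) ∧ μ.sum = finrank F W ∧
      ∀ ν ≤ μ, ∃ A ≤ W, (∀ v ∈ A, f v ∈ A) ∧ (∀ u ∈ A, (∀ v ∈ A, U.herm q u v = 0) → u = 0) ∧
        finrank F A = ν.sum := by
  classical
  induction h : finrank F W using Nat.strong_induction_on generalizing W with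
  | _ w ih =>
    subst h
    rcases eq_or_ne W ⊥ with rfl | hne
    · refine ⟨0, by simp, by simp, fun ν hν => ⟨⊥, le_rfl, by simp, fun u hu _ => (Submodule.mem_bot F).1 hu, ?_⟩⟩
      rw [nonpos_iff_eq_zero.1 hν]; simp
    obtain ⟨U', hUW, hU, hUN, hU0, hUp⟩ := exists_unitary_piece hF hB hp hW hN hne
    obtain ⟨hR, hRN, hd, -, hdim⟩ := split_unitary hF hB hW hN hUW hU hUN
    obtain ⟨μ, hμ, hμs, hμA⟩ := ih _ (by omega) _ hR hRN rfl
    refine ⟨finrank F U' ::ₘ μ, ?_, by rw [Multiset.sum_cons, hμs, hdim], fun ν hν => ?_⟩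
    · intro a ha
      rcases Multiset.mem_cons.1 ha with rfl | ha
      exacts [⟨hU0, hUp⟩, hμ a ha]
    by_cases hmem : finrank F U' ∈ ν
    · obtain ⟨ν', rfl⟩ := Multiset.exists_cons_of_mem hmem
      obtain ⟨A, hAR, hA, hAN, hAd⟩ := hμA ν' ((Multiset.cons_le_cons_iff _).1 hν)
      refine ⟨U' ⊔ A, sup_le hUW (hAR.trans inf_le_left), fun v hv => ?_, fun u hu h0 => ?_, ?_⟩
      · obtain ⟨a, ha, b, hb, rfl⟩ := Submodule.mem_sup.1 hv
        rw [map_add]
        exact Submodule.add_mem_sup (hU a ha) (hA b hb)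
      · obtain ⟨a, ha, b, hb, rfl⟩ := Submodule.mem_sup.1 hu
        have ha0 : a = 0 := hUN a ha fun w hw => by
          have := h0 w (Submodule.mem_sup_left hw)
          rwa [U.herm_add_left, (hAR hb).2 w hw, add_zero] at this
        have hb0 : b = 0 := hAN b hb fun w hw => by
          have := h0 w (Submodule.mem_sup_right hw)
          rwa [ha0, zero_add] at this
        rw [ha0, hb0, add_zero]
      · have := Submodule.finrank_sup_add_finrank_inf_eq U' A
        rw [show U' ⊓ A = ⊥ from le_bot_iff.1 (hd ▸ inf_le_inf_left U' (hAR.trans inf_le_right)), finrank_bot, add_zero,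
          hAd] at this
        rw [Multiset.sum_cons, this]
    · obtain ⟨A, hAR, hA, hAN, hAd⟩ := hμA ν ((Multiset.le_cons_of_notMem hmem).1 hν)
      exact ⟨A, hAR.trans inf_le_left, hA, hAN, hAd⟩

/-- The block sizes on an invariant nondegenerate subspace form a subpartition. -/
theorem exists_unitary_subpartition (hF : U.SqField F q) (hB : ∀ u v, U.herm q (f u) (f v) = U.herm q u v) {p : ℕ}
    (hp : (f - 1) ^ p = 0) {μ : Multiset ℕ} (hμ : ∀ k, layerDim (f - 1) ⊤ k = μ.countP fun e => k < e)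
    {W : Submodule F (Fin n → F)} (hW : ∀ v ∈ W, f v ∈ W)
    (hN : ∀ u ∈ W, (∀ v ∈ W, U.herm q u v = 0) → u = 0) :
    ∃ ν : Multiset ℕ, ν ≤ μ ∧ ν.sum = finrank F W := by
  obtain ⟨hR, -, hd, hsup, -⟩ := split_unitary hF hB (W := ⊤) (U' := W) (fun _ _ => trivial)
    (fun u _ h => hF.eq_zero_of_herm u fun v => h v trivial) le_top hW hN
  rw [top_inf_eq] at hR hsup
  exact exists_subpartition hμ hp ⟨disjoint_iff.2 hd, codisjoint_iff.2 hsup⟩ (sub_one_mem hW) (sub_one_mem hR)

/-- Unitary unipotent elements with every admissible multiset of block sizes. -/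
theorem exists_unitary_unipotent [Fintype F] (hF : U.SqField F q) {p : ℕ} [Fact p.Prime] [CharP F p]
    (μ : Multiset ℕ) (hμ : ∀ a ∈ μ, a ≤ p) (hn : μ.sum = n) :
    ∃ g : GL (Fin n) F, g ∈ Cfsg.GU n F q ∧ g ^ p = 1 ∧ ∀ k, layerDim (glEnd g - 1) ⊤ k = μ.countP fun e => k < e := by
  classical
  subst hn
  obtain ⟨N, hN, hNp⟩ := exists_nilpotent_model F μ
  have hNp' := hNp p hμ
  rcases Nat.eq_zero_or_pos μ.sum with h0 | hpos
  · haveI : IsEmpty (Fin μ.sum) := by rw [h0]; infer_instance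
    haveI : Subsingleton (Module.End F (Fin μ.sum → F)) := ⟨fun a b => LinearMap.ext fun v => Subsingleton.elim _ _⟩
    exact ⟨1, one_mem _, one_pow _, fun k => by rw [Subsingleton.elim (glEnd (1 : GL (Fin μ.sum) F) - 1) N, hN]⟩
  haveI : Nonempty (Fin μ.sum) := ⟨⟨0, hpos⟩⟩
  haveI : CharP (Module.End F (Fin μ.sum → F)) p :=
    charP_of_injective_algebraMap (RingHom.injective (algebraMap F (Module.End F (Fin μ.sum → F)))) p
  set M := Matrix.toLinAlgEquiv'.symm (1 + N) with hM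
  have hMp : M ^ p = 1 := by
    rw [hM, ← map_pow, add_pow_char_of_commute p (Commute.one_left N), one_pow, hNp', add_zero, map_one]
  obtain ⟨g, hg⟩ : IsUnit M := (isUnit_pow_iff (Fact.out : p.Prime).pos.ne').1 (by rw [hMp]; exact isUnit_one)
  have hgN : glEnd g - 1 = N := by rw [glEnd, hg, hM, AlgEquiv.apply_symm_apply, add_sub_cancel_left]
  have hgp : g ^ p = 1 := Units.ext (by rw [Units.val_pow_eq_pow_val, hg, hMp, Units.val_one])
  -- the dual has the same layers
  have hnull : ∀ j, finrank F (LinearMap.ker ((glEnd (UClass.dualGL hF g) - 1) ^ j)) =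
      finrank F (LinearMap.ker ((glEnd g - 1) ^ j)) := by
    intro j
    have hG : ∀ h : GL (Fin μ.sum) F, finrank F (LinearMap.ker ((glEnd h - 1) ^ j)) =
        UClass.nullity (aeval (h : Matrix (Fin μ.sum) (Fin μ.sum) F) ((X - 1 : F[X]) ^ j)) := fun h => by
      rw [← finrank_glKer, glKer, map_pow, map_sub, aeval_X, map_one]
    rw [hG, hG]
    set D := UClass.dualGL hF g
    have hCD : (UClass.cstarU hF g : GL (Fin μ.sum) F) * D = 1 := mul_inv_cancel _
    have hDC : D * (UClass.cstarU hF g : GL (Fin μ.sum) F) = 1 := inv_mul_cancel _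
    set C := ((UClass.cstarU hF g : GL (Fin μ.sum) F) : Matrix (Fin μ.sum) (Fin μ.sum) F) with hC
    have hDC' : (D : Matrix (Fin μ.sum) (Fin μ.sum) F) * C = 1 := by rw [hC, ← Units.val_mul, hDC, Units.val_one]
    have hCD' : C * (D : Matrix (Fin μ.sum) (Fin μ.sum) F) = 1 := by rw [hC, ← Units.val_mul, hCD, Units.val_one]
    have e1 : (D : Matrix (Fin μ.sum) (Fin μ.sum) F) - 1 =
        (D : Matrix (Fin μ.sum) (Fin μ.sum) F) * ((-1 : F) • (C - 1)) := by
      rw [neg_one_smul, neg_sub, mul_sub, mul_one, hDC']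
    have hcomm : Commute (D : Matrix (Fin μ.sum) (Fin μ.sum) F) ((-1 : F) • (C - 1)) := by
      refine Commute.smul_right ?_ _
      exact Commute.sub_right (hDC'.trans hCD'.symm) (Commute.one_right _)
    rw [map_pow, map_sub, aeval_X, map_one, e1, hcomm.mul_pow, UClass.nullity_unit_mul (D.isUnit.pow j),
      _root_.smul_pow, UClass.nullity_smul (pow_ne_zero _ (neg_ne_zero.2 one_ne_zero))]
    have e2 : (C - 1) ^ j = aeval C ((X - 1 : F[X]) ^ j) := by rw [map_pow, map_sub, aeval_X, map_one]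
    rw [e2]
    show UClass.nullity (aeval (ClassConj.cstar hF (g : Matrix (Fin μ.sum) (Fin μ.sum) F)) ((X - 1 : F[X]) ^ j)) = _
    rw [UClass.aeval_cstar, UClass.nullity_cstar, Polynomial.map_pow, Polynomial.map_sub, Polynomial.map_X,
      Polynomial.map_one]
  have hlayer : ∀ k, layerDim (glEnd (UClass.dualGL hF g) - 1) ⊤ k = μ.countP fun e => k < e := fun k => by
    have h1 := sum_layerDim (glEnd (UClass.dualGL hF g) - 1) ⊤ (k + 1)
    have h2 := sum_layerDim (glEnd (UClass.dualGL hF g) - 1) ⊤ k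
    have h3 := sum_layerDim (glEnd g - 1) ⊤ (k + 1)
    have h4 := sum_layerDim (glEnd g - 1) ⊤ k
    rw [top_inf_eq, hnull, Finset.sum_range_succ] at h1
    rw [top_inf_eq, hnull] at h2
    rw [top_inf_eq, Finset.sum_range_succ] at h3
    rw [top_inf_eq] at h4
    rw [← hN, ← hgN]
    omega
  have hnil : IsNilpotent (glEnd g - 1) := ⟨p, by rw [hgN]; exact hNp'⟩
  have hDp : UClass.dualGL hF g ^ p = 1 := by rw [← map_pow, hgp, map_one]
  have hnil' : IsNilpotent (glEnd (UClass.dualGL hF g) - 1) := ⟨p, by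
    rw [sub_pow_char_of_commute p (Commute.one_right _), glEnd_pow hDp, one_pow, sub_self]⟩
  obtain ⟨c, hc⟩ := ClassConj.FormTypes.isConj_of_hasType
    (M := (g : Matrix (Fin μ.sum) (Fin μ.sum) F)) (M' := ((UClass.dualGL hF g : GL (Fin μ.sum) F) : Matrix (Fin μ.sum) (Fin μ.sum) F))
    (μ := μ) ⟨hnil, fun k => by show layerDim (glEnd g - 1) ⊤ k = _; rw [hgN, hN]⟩ ⟨hnil', hlayer⟩
  obtain ⟨B, hB⟩ := UClass.exists_unitary_conj_of_dual hF g ⟨toUnits c, Units.ext hc.eq⟩
  refine ⟨B, B.2, ?_, fun k => ?_⟩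
  · obtain ⟨d, hd⟩ := isConj_iff.1 hB
    rw [← hd, conj_pow, hgp, mul_one, mul_inv_cancel]
  · refine (ClassConj.FormTypes.hasType_of_isConj ?_ (M := (g : Matrix (Fin μ.sum) (Fin μ.sum) F))
      ⟨hnil, fun k => by show layerDim (glEnd g - 1) ⊤ k = _; rw [hgN, hN]⟩).2 k
    obtain ⟨d, hd⟩ := hB
    exact ⟨d, congrArg Units.val hd.eq⟩

end Cfsg.Agent.Elusive.UnitarySub
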